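import Cfsg.Agent.H12.OF10

/-!
# The frame of an elementary abelian group of isometries
-/

set_option autoImplicit false
set_option maxHeartbeats 400000

namespace H12

open Module H11 QuadraticMap

variable {F : Type*} [Field F] {V : Type*} [AddCommGroup V] [Module F V] [FiniteDimensional F V]
  {Q : QuadraticForm F V} {A : Subgroup (V ≃ₗ[F] V)}

local notation "𝓒" => CForm.ofQuad Q

section

variable (h2 : (2 : F) ≠ 0) (hA : A ≤ orth Q) (sq : ∀ a ∈ A, a * a = 1)
include h2 hA sq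

theorem exists_eigen_ns (n : ℕ) {S : Submodule F V} (hn : finrank F S ≤ n) (hS : (𝓒).NondegOn S)
    (h0 : S ≠ ⊥) (hi : ∀ a ∈ A, ∀ x ∈ S, a x ∈ S) :
    ∃ v ∈ S, Q v ≠ 0 ∧ ∀ a ∈ A, a v = v ∨ a v = -v := by
  induction n generalizing S with
  | zero => exact absurd (Submodule.finrank_eq_zero.1 (by omega)) h0
  | succ n ih =>
  by_cases H : ∀ a ∈ A, (∀ x ∈ S, a x = x) ∨ ∀ x ∈ S, a x = -x
  · obtain ⟨v, hv, hv0⟩ := exists_nonsingular hS h0
    exact ⟨v, hv, hv0, fun a ha => (H a ha).imp (· v hv) (· v hv)⟩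
  push Not at H
  obtain ⟨a, ha, ⟨x, hx, hx'⟩, y, hy, hy'⟩ := H
  have aa : ∀ w, a (a w) = w := fun w => LinearEquiv.congr_fun (sq a ha) w
  have m : ∀ w ∈ S, w + a w ∈ S ⊓ LinearMap.eqLocus (a : V →ₗ[F] V) LinearMap.id := fun w hw =>
    ⟨add_mem hw (hi a ha w hw), by simp [aa, add_comm]⟩
  have := Submodule.finrank_lt_finrank_of_lt (s := S ⊓ LinearMap.eqLocus (a : V →ₗ[F] V) LinearMap.id)
    (inf_le_left.lt_of_ne fun e => hx' (e.ge hx).2)
  obtain ⟨v, hv, H⟩ := ih (S := S ⊓ LinearMap.eqLocus (a : V →ₗ[F] V) LinearMap.id) (by omega)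
    (fun z hz e => hS z hz.1 fun w hw => mul_left_cancel₀ h2 (by
      have e1 : polar Q z (w + a w) = 0 := e _ (m w hw)
      have e2 : polar Q (a z) (a w) = polar Q z w := orth_polar ⟨a, hA ha⟩ z w
      rw [show a z = z from hz.2] at e2
      rw [polar_add_right, e2] at e1
      change 2 * polar Q z w = _
      linear_combination e1))
    (fun e => hy' (eq_neg_of_add_eq_zero_right ((Submodule.eq_bot_iff _).1 e _ (m y hy))))
    fun b hb z hz => ⟨hi b hb z hz.1, by
      have e1 : a * b = b * a := by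
        rw [← inv_eq_of_mul_eq_one_left (sq _ (mul_mem ha hb)), mul_inv_rev,
          inv_eq_of_mul_eq_one_left (sq a ha), inv_eq_of_mul_eq_one_left (sq b hb)]
      exact (LinearEquiv.congr_fun e1 z).trans (congrArg b hz.2)⟩
  exact ⟨v, hv.1, H⟩

theorem exists_eigen_fam (hQ : QNondeg Q) (n : ℕ) (hn : n ≤ finrank F V) :
    ∃ b : Fin n → V, (∀ i, Q (b i) ≠ 0 ∧ ∀ a ∈ A, a (b i) = b i ∨ a (b i) = -b i) ∧
      (∀ i j, i ≠ j → polar Q (b i) (b j) = 0) ∧
      (𝓒).NondegOn ((𝓒).perp (Submodule.span F (Set.range b))) := by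
  induction n with
  | zero => exact ⟨Fin.elim0, (·.elim0), (·.elim0), by
      simpa [CForm.perp_bot, CForm.nondegOn_top] using hQ⟩
  | succ n ih =>
  obtain ⟨b, h1, h3, h4⟩ := ih (by omega)
  have d1 := CForm.Nondeg.finrank_add_finrank_perp hQ (Submodule.span F (Set.range b))
  have d2 := finrank_range_le_card (R := F) b
  rw [Fintype.card_fin, Set.finrank] at d2
  obtain ⟨v, hv, v1, v2⟩ := exists_eigen_ns h2 hA sq _ le_rfl h4 (fun e => by
      rw [e, finrank_bot] at d1; omega) fun a ha x hx => (𝓒).mem_perp_span.2 (by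
    rintro _ ⟨i, rfl⟩
    have e1 : polar Q (b i) x = 0 := (𝓒).mem_perp_span.1 hx _ ⟨i, rfl⟩
    have e2 : polar Q (a (b i)) (a x) = _ := orth_polar ⟨a, hA ha⟩ (b i) x
    change polar Q (b i) (a x) = 0
    rcases (h1 i).2 a ha with e | e <;> simpa [e, e1] using e2)
  have v3 : ∀ i, polar Q (b i) v = 0 := fun i => (𝓒).mem_perp_span.1 hv _ ⟨i, rfl⟩
  refine ⟨Fin.cons v b, Fin.cases ⟨v1, v2⟩ h1, Fin.cases (Fin.cases (by simp) fun j _ =>
    (polar_comm _ _ _).trans (v3 j)) fun i => Fin.cases (fun _ => v3 i) fun j e =>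
      h3 i j (by simpa using e), ?_⟩
  rw [Fin.range_cons, Submodule.span_insert, CForm.perp_sup, inf_comm]
  exact nondegOn_inf_perp_singleton h4 hv (show polar Q v v ≠ 0 by simp [polar_self', h2, v1])

end

theorem OFrame.dec_iff [Fintype F] {κ : Type*} [Fintype κ] {e : κ → V} {δ : F} (h : OFrame Q e δ)
    (h3 : 3 ≤ Fintype.card κ)
    (mA : ∀ a, a ∈ A ↔ a ∈ OmegaV Q ∧ ∀ i, a (e i) = e i ∨ a (e i) = -e i) {k : V ≃ₗ[F] V}
    (hk : k ∈ OmegaV Q) : k ∈ decStab (frD F e) ↔ ∀ a ∈ A, k * a * k⁻¹ ∈ A := by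
  classical
  refine ⟨fun H a ha => (mA _).2 ⟨mul_mem (mul_mem hk ((mA a).1 ha).1) (inv_mem hk), fun i => ?_⟩,
    fun H => inv_mem_iff.1 (h.mem_dec fun i => ?_)⟩
  · obtain ⟨j, d, -, e1⟩ := of_mem_frD h.e_ne (inv_mem H) i
    have e2 : d • k (e j) = e i := by rw [← map_smul, ← e1, apply_inv_apply]
    rcases ((mA a).1 ha).2 j with e3 | e3 <;> simp [e1, e2, e3]
  have e0 : e i = k (k⁻¹ (e i)) := (apply_inv_apply _ _).symm
  have H' : ∀ a ∈ A, a (k⁻¹ (e i)) = k⁻¹ (e i) ∨ a (k⁻¹ (e i)) = -k⁻¹ (e i) := fun a ha =>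
    (((mA _).1 (H a ha)).2 i).imp (fun e1 => k.injective (e1.trans e0))
      fun e1 => k.injective (e1.trans (by rw [map_neg, ← e0]))
  generalize k⁻¹ (e i) = x at *
  obtain ⟨s, hs⟩ : ∃ s, co Q e δ x s ≠ 0 := by
    by_contra! H
    exact h.e_ne i (by rw [e0, h.co_inj (x := x) (y := 0) (by ext; simp [H]), map_zero])
  refine ⟨s, _, h.eq_smul fun t ht => by_contra fun h0 => ?_⟩
  obtain ⟨u, hu⟩ := exists_not_mem_list [s, t] (by simp; omega)
  simp only [List.mem_cons, List.not_mem_nil, or_false, not_or] at hu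
  have d := h.dg_zz (Ne.symm hu.1)
  have a1 := d x s
  have a2 := d x t
  rcases H' (zz Q e s u) ((mA _).2 ⟨(rr_of_isSquare h.nd (h.ne0 s) (h.ne0 u)
    ⟨_, by rw [h.norm, h.norm]⟩).2.2, fun j => if e1 : j ∈ ({s, u} : Finset κ) then
      .inr (h.co_inj (funext fun p => (d _ _).trans (by
        rw [map_neg, Pi.neg_apply, h.co_e, sE_apply]; grind))) else
      .inl (h.co_inj (funext fun p => (d _ _).trans (by rw [h.co_e, sE_apply]; grind)))⟩) with e1 | e1
  · simp [e1] at a1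
    exact hs (mul_left_cancel₀ h.two (by linear_combination a1))
  · simp [e1, ht, Ne.symm hu.2] at a2
    exact h0 (mul_left_cancel₀ h.two (by linear_combination -a2))

theorem exists_frame6 [Fintype F] (hQ : QNondeg Q) (h2 : (2 : F) ≠ 0) (hd : finrank F V = 6)
    (hA : A ≤ OmegaV Q) (sq : ∀ a ∈ A, a * a = 1) (h32 : 32 ≤ Nat.card A) :
    ∃ (e : Fin 6 → V) (δ : F), OFrame Q e δ ∧ ∀ k ∈ OmegaV Q,
      k ∈ decStab (frD F e) ↔ ∀ a ∈ A, k * a * k⁻¹ ∈ A := by
  classical
  obtain ⟨b, h1, h3, -⟩ := exists_eigen_fam h2 (hA.trans OmegaV_le) sq hQ 6 hd.ge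
  have n0 : ∀ i, polar Q (b i) (b i) ≠ 0 := fun i => by simp [polar_self', h2, h1 i]
  let B := basisOfLinearIndependentOfCardEqFinrank
    (LinearMap.linearIndependent_of_isOrthoᵢ (B := polarBilin Q) h3 n0) (by simp [hd])
  have hB : ∀ i, B i = b i := by simp [B]
  have ext : ∀ a a' : V ≃ₗ[F] V, (∀ i, a (b i) = a' (b i)) → a = a' := fun a a' H =>
    B.ext' fun i => by simp [hB, H]
  have nn : ∀ i, b i ≠ -b i := fun i e => n0 i (mul_left_cancel₀ h2 (by
    have := congrArg (polar Q (b i)) e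
    rw [polar_neg_right] at this
    linear_combination this))
  let J : (V ≃ₗ[F] V) → Finset (Fin 6) := fun a => Finset.univ.filter fun i => a (b i) = -b i
  have hJ : ∀ a : V ≃ₗ[F] V, (∀ i, a (b i) = b i ∨ a (b i) = -b i) →
      ∀ i, a (b i) = (if i ∈ J a then -1 else 1 : F) • b i := fun a H i => by
    rcases H i with e | e <;> simp [J, e, nn]
  have ev : ∀ a ∈ OmegaV Q, (∀ i, a (b i) = b i ∨ a (b i) = -b i) → Even (J a).card := fun a ha H => by
    have := mem_SLV.1 (OmegaV_le_SLV ha)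
    rw [← LinearMap.det_toMatrix B, show LinearMap.toMatrix B B a = Matrix.diagonal fun i =>
      if i ∈ J a then -1 else 1 from Matrix.ext fun i j => by
        rw [LinearMap.toMatrix_apply, LinearEquiv.coe_coe, hB, hJ a H, ← hB, map_smul, B.repr_self]
        by_cases e : i = j <;> simp [-ite_smul, e], Matrix.det_diagonal, Finset.prod_ite_mem, Finset.univ_inter,
      Finset.prod_const] at this
    exact (neg_one_pow_eq_one_iff_even fun e => h2 (by linear_combination -e)).1 this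
  have sj : ∀ T : Finset (Fin 6), Even T.card → ∃ a ∈ A, ∀ i,
      a (b i) = (if i ∈ T then -1 else 1 : F) • b i := fun T hT => by
    have h4 := fun (a : A) i => (h1 i).2 a a.2
    let f : A → {T : Finset (Fin 6) // Even T.card} := fun a => ⟨J a, ev a (hA a.2) (h4 a)⟩
    have f1 : Function.Injective f := fun a a' e => Subtype.ext (ext _ _ fun i => by
      rw [hJ a (h4 a), hJ a' (h4 a'), show J a = J a' from congrArg Subtype.val e])
    obtain ⟨a, e⟩ := (f1.bijective_of_nat_card_le (by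
      rw [Nat.card_eq_fintype_card]; exact le_trans (by decide) h32)).2 ⟨T, hT⟩
    exact ⟨a, a.2, fun i => by rw [hJ a (h4 a), show J a = T from congrArg Subtype.val e]⟩
  have rf : ∀ i j, (refl Q (b i)).1 (b j) = (if j = i then -1 else 1 : F) • b j := fun i j => by
    rw [refl_apply]
    split_ifs with e
    · rw [e, polar_self', mul_comm 2, inv_mul_cancel_left₀ (h1 i).1]; module
    · simp [h3 i j (Ne.symm e)]
  have : ∀ i, ∃ c : F, c ≠ 0 ∧ Q (c • b i) = Q (b 0) := fun i => by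
    by_cases e : i = 0
    · exact ⟨1, one_ne_zero, by rw [e, one_smul]⟩
    obtain ⟨a, ha, e1⟩ := sj {i, 0} (by simp [Finset.card_pair e])
    have e2 : a = (refl Q (b i) * refl Q (b 0)).1 := ext _ _ fun j => by
      simp only [e1, orth_mul_apply, rf, map_smul, smul_smul, Finset.mem_insert, Finset.mem_singleton]
      congr 1; clear * - e; grind
    obtain ⟨r, hr⟩ := RR.isSquare hQ (notExc_of_two_ne_zero h2) hA ⟨(h1 i).1, (h1 0).1, e2 ▸ ha⟩
    have := (h1 i).1
    exact ⟨r / Q (b i), div_ne_zero (by rintro rfl; simp [h1] at hr) this, by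
      rw [Q_smul]; field_simp; linear_combination -hr⟩
  choose c c0 hc using this
  have hF : OFrame Q (fun i => c i • b i) (Q (b 0)) := ⟨h2, hQ, (h1 0).1, hc, fun i j e => by
    simp [h3 i j e], fun x e => hQ x fun y => LinearMap.congr_fun
      (B.ext (f₁ := polarBilin Q x) (f₂ := 0) fun j => by simpa [hB, c0, polar_comm Q x] using e j) y⟩
  have dg : ∀ a : V ≃ₗ[F] V, (∀ i, a (b i) = b i ∨ a (b i) = -b i) ↔
      ∀ i, a (c i • b i) = c i • b i ∨ a (c i • b i) = -(c i • b i) := fun a =>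
    forall_congr' fun i => by simp only [map_smul, ← smul_neg, smul_right_inj (c0 i)]
  have mA : ∀ a, a ∈ A ↔ a ∈ OmegaV Q ∧
      ∀ i, a (c i • b i) = c i • b i ∨ a (c i • b i) = -(c i • b i) := fun a =>
    ⟨fun ha => ⟨hA ha, (dg a).1 fun i => (h1 i).2 a ha⟩, fun ⟨ha, H⟩ => by
      obtain ⟨a', ha', e⟩ := sj _ (ev a ha ((dg a).2 H))
      exact ext a' a (fun i => by rw [e, hJ a ((dg a).2 H)]) ▸ ha'⟩
  exact ⟨_, _, hF, fun k => hF.dec_iff (by simp) mA⟩

end H12
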