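import Cfsg.Agent.H12.Dec

/-!
# Products of two reflections and Eichler transformations in subgroups of orthogonal groups
-/

set_option autoImplicit false
set_option maxHeartbeats 400000

namespace H12

open Module H11 QuadraticMap

section General

variable {F : Type*} [Field F] {T : FormType F} {V : Type*} [AddCommGroup V] [Module F V]
  {C : CForm T V} [FiniteDimensional F V]

theorem CForm.Nondeg.nondegOn_inf (hC : C.Nondeg) {S U : Submodule F V} (hS : C.NondegOn S)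
    (hU : C.NondegOn U) (h : U ≤ S) : C.NondegOn (S ⊓ C.perp U) := by
  intro x hx h0
  refine hS x hx.1 fun z hz => ?_
  obtain ⟨s, hs, r, hr, rfl⟩ := hC.exists_add hU z
  rw [map_add, C.mem_perp'.1 hx.2 s hs, h0 r ⟨by simpa using S.sub_mem hz (h hs), hr⟩, add_zero]

/-- Vectors of a given norm span an irreducible subspace. -/
theorem Irr.le_of_norm (hC : C.Nondeg) {S Z : Submodule F V} (h : Irr C S) (hS : C.NondegOn S)
    {a : V} (ha : a ∈ S) (ha0 : a ≠ 0) (hZ : ∀ b ∈ S, C.N b = C.N a → b ∈ Z) : S ≤ Z := by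
  have := h (Submodule.span F {b | b ∈ S ∧ C.N b = C.N a}) (Submodule.span_le.2 fun b hb => hb.1)
    (fun e => ha0 ((Submodule.eq_bot_iff _).1 e a (Submodule.subset_span ⟨ha, rfl⟩)))
    fun y hy hy0 v hv hv0 e => by
      obtain ⟨g, hg, -, rfl⟩ := hC.witt_sub hS bot_le (Submodule.span_le.2 (fun b hb => hb.1) hy)
        hv (by simpa) (by simpa) (by simp) e
      have h1 : g ∈ glStab S := subG_le_glStab hC (Or.inr le_rfl) hg
      have : (Submodule.span F {b | b ∈ S ∧ C.N b = C.N a}).map (g : V →ₗ[F] V) ≤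
          Submodule.span F {b | b ∈ S ∧ C.N b = C.N a} := by
        rw [Submodule.map_span]
        refine Submodule.span_mono ?_
        rintro _ ⟨b, hb, rfl⟩
        exact ⟨(mem_glStab_iff_map.1 h1).le ⟨b, hb.1, rfl⟩, (CForm.isom_N hg.1 b).trans hb.2⟩
      exact this ⟨y, hy, rfl⟩
  rw [← this]
  exact Submodule.span_le.2 fun b hb => hZ b hb.1 hb.2

end General

variable {F : Type*} [Field F] {V : Type*} [AddCommGroup V] [Module F V]
  {Q : QuadraticForm F V} {X : Subgroup (V ≃ₗ[F] V)}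

local notation "𝓒" => CForm.ofQuad Q

variable (Q X) in
/-- `X` contains the product of the reflections in `x` and `y`. -/
def RR (x y : V) : Prop := Q x ≠ 0 ∧ Q y ≠ 0 ∧ (refl Q x * refl Q y).1 ∈ X

theorem RR.symm {x y : V} (h : RR Q X x y) : RR Q X y x := by
  refine ⟨h.2.1, h.1, ?_⟩
  have := inv_mem h.2.2
  rwa [← Subgroup.coe_inv, mul_inv_rev, refl_inv, refl_inv] at this

theorem RR.trans {x y z : V} (h : RR Q X x y) (h' : RR Q X y z) : RR Q X x z := by
  refine ⟨h.1, h'.2.1, ?_⟩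
  have := mul_mem h.2.2 h'.2.2
  rwa [← Subgroup.coe_mul, mul_assoc, ← mul_assoc (refl Q y), refl_mul_self, one_mul] at this

theorem rr_self {x : V} (h : Q x ≠ 0) : RR Q X x x :=
  ⟨h, h, by rw [refl_mul_self]; exact one_mem _⟩

theorem RR.mono {Y : Subgroup (V ≃ₗ[F] V)} {x y : V} (h : RR Q X x y) (hXY : X ≤ Y) :
    RR Q Y x y := ⟨h.1, h.2.1, hXY h.2.2⟩

theorem RR.conj {x y : V} (h : RR Q X x y) {k : V ≃ₗ[F] V} (hk : k ∈ X) (hk' : k ∈ orth Q) :
    RR Q X (k x) (k y) := by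
  refine ⟨(orth_Q ⟨k, hk'⟩ x).trans_ne h.1, (orth_Q ⟨k, hk'⟩ y).trans_ne h.2.1, ?_⟩
  have h1 := refl_conj ⟨k, hk'⟩ x
  have h2 := refl_conj ⟨k, hk'⟩ y
  rw [← h1, ← h2]
  convert mul_mem (mul_mem hk h.2.2) (inv_mem hk) using 1
  simp [mul_assoc]

theorem RR.smul {x y : V} (h : RR Q X x y) {c : F} (hc : c ≠ 0) : RR Q X (c • x) y :=
  ⟨by rw [Q_smul]; exact mul_ne_zero (mul_ne_zero hc hc) h.1, h.2.1, by
    rw [refl_smul hc]; exact h.2.2⟩

/-- The class of `a` is closed under its own reflections. -/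
theorem RR.refl_apply {x y a : V} (hx : RR Q X x a) (hy : RR Q X y a) :
    RR Q X ((refl Q y).1 x) a := by
  refine ⟨(orth_Q _ x).trans_ne hx.1, hx.2.1, ?_⟩
  rw [← refl_conj, refl_inv]
  convert mul_mem (mul_mem hy.2.2 hx.symm.2.2) hy.2.2 using 1
  simp only [← Subgroup.coe_mul]
  congr 1
  rw [mul_assoc (refl Q y) (refl Q a), ← mul_assoc (refl Q a), refl_mul_self, one_mul, mul_assoc]

theorem RR.map {x a : V} (h : RR Q X x a) {k : V ≃ₗ[F] V} (hk : k ∈ X) (hk' : k ∈ orth Q)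
    (ha : RR Q X (k a) a) : RR Q X (k x) a := (h.conj hk hk').trans ha

/-- A tangent pair of reflections gives an Eichler transformation. -/
theorem RR.ei {u w : V} (h : RR Q X (w + u) w) (hu : Q u = 0) (hw : polar Q u w = 0) :
    Ei Q X ((Q w)⁻¹ • u) w := by
  have h1 : Q ((Q w)⁻¹ • u) = 0 := by rw [Q_smul, hu, mul_zero]
  have h2 : polar Q ((Q w)⁻¹ • u) w = 0 := by rw [polar_smul_left, hw, smul_zero]
  refine ⟨h1, h2, ?_⟩
  rw [eich_eq_refl_mul h1 h2 h.2.1, smul_smul, mul_inv_cancel₀ h.2.1, one_smul]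
  exact h.2.2

variable (Q X) in
/-- The vectors `w` such that `X` contains all `E(u, c w)`. -/
def RS (u : V) : Submodule F V where
  carrier := {w | Q u = 0 → ∀ c : F, Ei Q X u (c • w)}
  add_mem' ha hb h c := by rw [smul_add]; exact (ha h c).add (hb h c)
  zero_mem' h c := by rw [smul_zero]; exact ei_zero_right h
  smul_mem' c w hw h d := by rw [smul_smul]; exact hw h _

theorem mem_RS {u w : V} (hu : Q u = 0) : w ∈ RS Q X u ↔ ∀ c : F, Ei Q X u (c • w) :=
  ⟨fun h => h hu, fun h _ => h⟩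

theorem RS.ei {u w : V} (h : w ∈ RS Q X u) (hu : Q u = 0) : Ei Q X u w := by
  simpa using h hu 1

theorem RS.conj {u w : V} (h : w ∈ RS Q X u) {k : V ≃ₗ[F] V} (hk : k ∈ X) (hk' : k ∈ orth Q) :
    k w ∈ RS Q X (k u) := fun h0 c => by
  rw [← map_smul]
  exact (h ((orth_Q ⟨k, hk'⟩ u).symm.trans h0) c).conj hk hk'

variable (Q X) in
/-- `X` contains all `E(u, w)` with `w ∈ S`. -/
def Fu (S : Submodule F V) (u : V) : Prop := ∀ w ∈ S, polar Q u w = 0 → Ei Q X u w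

theorem Fu.smul {S : Submodule F V} {u : V} (h : Fu Q X S u) (c : F) : Fu Q X S (c • u) := by
  intro w hw h0
  by_cases hc : c = 0
  · rw [hc, zero_smul]; exact ei_zero_left w
  rw [polar_smul_left, smul_eq_mul, mul_eq_zero, or_iff_right hc] at h0
  exact (h _ (S.smul_mem c hw) (by rw [polar_smul_right, h0, smul_zero])).smul_left h0

theorem Fu.conj {S : Submodule F V} {u : V} (h : Fu Q X S u) {k : V ≃ₗ[F] V} (hk : k ∈ X)
    (hk' : k ∈ orth Q) (hS : ∀ x ∈ S, k⁻¹ x ∈ S) : Fu Q X S (k u) := by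
  intro w hw h0
  have := (h _ (hS w hw) (by
    rw [← orth_polar ⟨k, hk'⟩]; exact (congrArg _ (apply_inv_apply k w)).trans h0)).conj hk hk'
  rwa [apply_inv_apply] at this

theorem Fu.conj_ei {S : Submodule F V} {p u w : V} (h : Fu Q X S p) (h' : Ei Q X u w)
    (hu : u ∈ S) (hw : w ∈ S) : Fu Q X S ((eich Q u w).1 p) :=
  h.conj h'.2.2 (eich Q u w).2 fun x hx => by
    rw [← Subgroup.coe_inv, ← eich_neg h'.1 h'.2.1]
    exact h'.neg.mem_of_conj hu (neg_mem hw) hx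

theorem Fu.move {S : Submodule F V} {u p y : V} (h1 : Fu Q X S u) (h2 : Fu Q X S p) (hu : u ∈ S)
    (hp : p ∈ S) (hy : y ∈ S) (hu0 : Q u = 0) (hp0 : Q p = 0) (hy0 : Q y = 0)
    (hup : polar Q u p ≠ 0) (huy : polar Q u y ≠ 0) : Fu Q X S y := by
  obtain ⟨p', hp', e1, e2, h3⟩ : ∃ p' ∈ S, Q p' = 0 ∧ polar Q u p' = 1 ∧ Fu Q X S p' :=
    ⟨(polar Q u p)⁻¹ • p, S.smul_mem _ hp, by rw [Q_smul, hp0, mul_zero],
      by rw [polar_smul_right, smul_eq_mul, inv_mul_cancel₀ hup], h2.smul _⟩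
  obtain ⟨y', hy', e3, e4, e5⟩ : ∃ y' ∈ S, Q y' = 0 ∧ polar Q u y' = 1 ∧ y = polar Q u y • y' :=
    ⟨(polar Q u y)⁻¹ • y, S.smul_mem _ hy, by rw [Q_smul, hy0, mul_zero],
      by rw [polar_smul_right, smul_eq_mul, inv_mul_cancel₀ huy],
      by rw [smul_smul, mul_inv_cancel₀ huy, one_smul]⟩
  have h4 : polar Q u (p' - y') = 0 := by rw [polar_sub_right, e2, e4, sub_self]
  have h5 := h3.conj_ei (h1 _ (sub_mem hp' hy') h4) hu (sub_mem hp' hy')
  have e : (eich Q u (p' - y')).1 p' = y' := by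
    rw [eich_apply hu0 h4, e2, Q_sub, polar_sub_left, polar_self', e1, e3, polar_comm Q y']
    module
  rw [e] at h5
  rw [e5]
  exact h5.smul _

variable [FiniteDimensional F V]

/-- Two opposite full root systems generate `Ω(S)`. -/
theorem Fu.subG_le [Finite F] (hQ : QNondeg Q) (hne : NotExc F V) {S : Submodule F V}
    (hS : (𝓒).NondegOn S) (hne' : NotExc F S) (h3 : 3 ≤ finrank F S) {u p : V} (h1 : Fu Q X S u)
    (h2 : Fu Q X S p) (hu : u ∈ S) (hp : p ∈ S) (hu0 : Q u = 0) (hp0 : Q p = 0)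
    (hup : polar Q u p ≠ 0) : subG 𝓒 (OmegaV Q) S ≤ X := by
  refine subG_le_quad hQ hne hS hne' h3 fun y hy w hw hy0 hw0 => (?_ : Fu Q X S y) w hw hw0 |>.2.2
  have hpu : polar Q p u ≠ 0 := by rwa [polar_comm]
  by_cases h4 : polar Q u y = 0
  swap
  · exact h1.move h2 hu hp hy hu0 hp0 hy0 hup h4
  by_cases h5 : polar Q p y = 0
  swap
  · exact h2.move h1 hp hu hy hp0 hu0 hy0 hpu h5
  by_cases h6 : y = 0
  · rw [h6]; exact fun w _ _ => ei_zero_left w
  obtain ⟨v, hv, h7, h8⟩ := hQ.sub_exists_perp_eq hS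
    ((Submodule.span_singleton_le_iff_mem _ _).2 hu) hy (fun h => by
      obtain ⟨c, rfl⟩ := Submodule.mem_span_singleton.1 h
      rw [polar_smul_right, smul_eq_mul, mul_eq_zero, or_iff_left hpu] at h5
      exact h6 (by rw [h5, zero_smul])) 1
  rw [CForm.mem_perp_singleton] at h7
  have h9 := h1 v hv h7
  refine (h2.conj_ei h9 hu hv).move h1 (h9.mem_of_conj hu hv hp) hu hy ((orth_Q _ _).trans hp0)
    hu0 hy0 ?_ ?_
  · rw [eich_apply hu0 h7]
    simp only [polar_add_left, polar_sub_left, polar_smul_left, polar_self', hu0,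
      polar_comm Q v u, show polar Q u v = 0 from h7]
    simpa using hpu
  · rw [eich_apply hu0 h7]
    simp only [polar_add_left, polar_sub_left, polar_smul_left, h4, h5, polar_comm Q v y,
      show polar Q y v = 1 from h8]
    simpa using hup

theorem Fu.omega_le [Finite F] (hQ : QNondeg Q) (hne : NotExc F V) (h3 : 3 ≤ finrank F V) {u : V}
    (h1 : Fu Q X ⊤ u) (hu0 : Q u = 0) {k : V ≃ₗ[F] V} (hk : k ∈ X) (hk' : k ∈ orth Q)
    (h : polar Q u (k u) ≠ 0) : OmegaV Q ≤ X := by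
  rw [← hQ.subG_top OmegaV_le]
  exact h1.subG_le hQ hne ((𝓒).nondegOn_top.2 hQ) (hne.imp id fun e => by rwa [finrank_top])
    (by rwa [finrank_top]) (h1.conj hk hk' fun _ _ => trivial) trivial trivial hu0
    ((orth_Q ⟨k, hk'⟩ u).trans hu0) h

theorem exists_ns_perp_hyp (hQ : QNondeg Q) {S : Submodule F V} (hS : (𝓒).NondegOn S)
    (h3 : 3 ≤ finrank F S) {u f : V} (hu : u ∈ S) (hf : f ∈ S) (h : IsHypPair 𝓒 u f) :
    ∃ b ∈ S, Q b ≠ 0 ∧ polar Q u b = 0 ∧ polar Q f b = 0 ∧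
      ∃ b' ∈ S, polar Q u b' = 0 ∧ polar Q b b' ≠ 0 := by
  have hP := hQ.nondegOn_inf hS h.nondegOn
    (Submodule.span_le.2 (by rintro _ (rfl | rfl); exacts [hu, hf]))
  have h1 := hQ.finrank_inf_perp S (Submodule.span F {u, f})
  have h2 := finrank_span_pair_le (F := F) u f
  obtain ⟨b, hb, hb0⟩ := exists_nonsingular hP (by
    intro e; rw [e, finrank_bot] at h1; omega)
  obtain ⟨b', hb', e⟩ := hP.exists_eq hb (by rintro rfl; exact hb0 (map_zero Q)) 1
  have h4 := (𝓒).mem_perp_pair.1 hb.2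
  exact ⟨b, hb.1, hb0, h4.1, h4.2, b', hb'.1, ((𝓒).mem_perp_pair.1 hb'.2).1,
    (show polar Q b b' = 1 from e).trans_ne one_ne_zero⟩

/-- The Eichler transformations of `S` act irreducibly. -/
theorem le_of_eich_inv [Finite F] (hQ : QNondeg Q) {S W : Submodule F V} (hS : (𝓒).NondegOn S)
    (h3 : 3 ≤ finrank F S) (hW : ∀ u ∈ S, ∀ b ∈ S, Q u = 0 → polar Q u b = 0 → ∀ r ∈ W,
      (eich Q u b).1 r ∈ W) {r : V} (hr : r ∈ W) (hr' : r ∉ (𝓒).perp S) : S ≤ W := by
  have key : ∀ u ∈ S, Q u = 0 → ∀ r ∈ W, polar Q u r ≠ 0 → ∀ b ∈ S, polar Q u b = 0 → b ∈ W := by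
    intro u hu hu0 r hr h1
    have k : ∀ b ∈ S, polar Q u b = 0 →
        b + (Q b - (polar Q u r)⁻¹ * polar Q b r) • u ∈ W := fun b hb h2 => by
      have := W.smul_mem (polar Q u r)⁻¹ (sub_mem hr (hW u hu b hb hu0 h2 r hr))
      rw [eich_apply hu0 h2] at this
      convert this using 1
      match_scalars <;> field_simp <;> ring
    obtain ⟨f, hf, h2⟩ := exists_hypPair_sub hQ hS hu (by rintro rfl; simp at h1) hu0
    obtain ⟨b, hb, -, h4, -, b', hb', h5, h6⟩ := exists_ns_perp_hyp hQ hS h3 hu hf h2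
    have h7 := sub_mem (sub_mem (k (b + b') (add_mem hb hb') (by rw [polar_add_right, h4, h5, add_zero]))
      (k b hb h4)) (k b' hb' h5)
    rw [Q_add, polar_add_left] at h7
    have h8 : u ∈ W := (W.smul_mem_iff h6).1 (by convert h7 using 1; module)
    exact fun b hb h => (W.add_mem_iff_left (W.smul_mem _ h8)).1 (k b hb h)
  obtain ⟨e, he, he0, he1⟩ := iso3_quad Q S h3
  obtain ⟨u, hu, hu0, h1⟩ := exists_singular_not_mem hS ⟨e, he, he0, he1⟩
    (S := (𝓒).perp (Submodule.span F {r})) fun h => hr' ((𝓒).mem_perp.2 fun x hx =>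
      (𝓒).B_swap_zero ((𝓒).mem_perp_singleton.1 (h hx)))
  rw [CForm.mem_perp_singleton] at h1
  have h1' : polar Q u r ≠ 0 := by rw [polar_comm]; exact h1
  have h2 := key u hu hu0 r hr h1'
  obtain ⟨f, hf, h4⟩ := exists_hypPair_sub hQ hS hu (by rintro rfl; simp at h1') hu0
  have h5 : polar Q u f = 1 := h4.pair
  have h6 : polar Q u u = 0 := by rw [polar_self', show Q u = 0 from hu0, mul_zero]
  have h7 := key f hf h4.right u (h2 u hu h6) (by rw [polar_comm, h5]; exact one_ne_zero) f hf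
    (by rw [polar_self', show Q f = 0 from h4.right, mul_zero])
  intro x hx
  have := add_mem (h2 (x - polar Q u x • f) (sub_mem hx (S.smul_mem _ hf)) (by
    rw [polar_sub_right, polar_smul_right, h5]; simp)) (W.smul_mem (polar Q u x) h7)
  simpa using this

theorem rr_of_isSquare (hQ : QNondeg Q) {x y : V} (hx : Q x ≠ 0) (hy : Q y ≠ 0)
    (h : IsSquare (Q x * Q y)) : RR Q (OmegaV Q) x y :=
  ⟨hx, hy, mem_OmegaV.2 (refl_mul_refl_mem_commutator hQ hx hy h)⟩

theorem rr_subG (hQ : QNondeg Q) {S : Submodule F V} {x y : V} (hxS : x ∈ S) (hyS : y ∈ S)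
    (hx : Q x ≠ 0) (hy : Q y ≠ 0) (h : IsSquare (Q x * Q y)) :
    RR Q (subG 𝓒 (OmegaV Q) S) x y := by
  refine ⟨hx, hy, (mem_subG OmegaV_le).2 ⟨(rr_of_isSquare hQ hx hy h).2.2, fun z hz => ?_⟩⟩
  rw [orth_mul_apply, refl_apply_of_orth ((𝓒).mem_perp.1 hz y hyS),
    refl_apply_of_orth ((𝓒).mem_perp.1 hz x hxS)]

/-- The class of a vector in `S` or `S^⊥` is invariant under `Ω(S)`. -/
theorem RR.map_subG (hQ : QNondeg Q) {S : Submodule F V} (hSX : subG 𝓒 (OmegaV Q) S ≤ X)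
    {x a : V} (h : RR Q X x a) (ha : a ∈ S ∨ a ∈ (𝓒).perp S) {k : V ≃ₗ[F] V}
    (hk : k ∈ subG 𝓒 (OmegaV Q) S) : RR Q X (k x) a := by
  refine h.map (hSX hk) hk.2.1 ?_
  rcases ha with ha | ha
  · have e : Q (k a) = Q a := orth_Q ⟨k, hk.2.1⟩ a
    exact (rr_subG hQ ((mem_glStab_iff_map.1 (subG_le_glStab hQ (Or.inr le_rfl) hk)).le
      ⟨a, ha, rfl⟩) ha (e.trans_ne h.2.1) h.2.1 ⟨Q a, congrArg (· * Q a) e⟩).mono hSX
  · rw [hk.2.2 a ha]; exact rr_self h.2.1

end H12
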