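import Cfsg.Agent.H12.Lin

/-!
# Pauli data: projective representations of a symplectic space over the field with two elements
-/

set_option autoImplicit false
set_option maxHeartbeats 400000

namespace H12.C6

open Module

theorem z01 (b : ZMod 2) : b = 0 ∨ b = 1 := by revert b; decide

theorem z11 : (1 + 1 : ZMod 2) = 0 := by decide

theorem zbb (b : ZMod 2) : b + b = 0 := by revert b; decide

theorem zne {b : ZMod 2} : b ≠ 0 ↔ b = 1 := by revert b; decide

theorem zne' {b : ZMod 2} : b ≠ 1 ↔ b = 0 := by revert b; decide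

variable {F A E : Type*} [Field F] [Ring A] [Algebra F A] [AddCommGroup E] [Module (ZMod 2) E]

theorem xx (x : E) : x + x = 0 := by
  rw [← two_smul (ZMod 2), show (2 : ZMod 2) = 0 from rfl, zero_smul]

theorem xxy (x y : E) : x + (x + y) = y := by rw [← add_assoc, xx, zero_add]

theorem yxx (x y : E) : y + x + x = y := by rw [add_assoc, xx, add_zero]

theorem xy0 {x y : E} : x + y = 0 ↔ x = y :=
  ⟨fun h => by rw [← yxx y x, h, zero_add], fun h => h ▸ xx x⟩

/-- A symplectic space over the field with two elements. -/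
structure SS (E : Type*) [AddCommGroup E] [Module (ZMod 2) E] where
  B : E →ₗ[ZMod 2] E →ₗ[ZMod 2] ZMod 2
  alt : ∀ x, B x x = 0
  nd : ∀ x, (∀ y, B x y = 0) → x = 0

theorem mem_span1 {a x : E} : x ∈ Submodule.span (ZMod 2) {a} ↔ x = 0 ∨ x = a := by
  rw [Submodule.mem_span_singleton]
  refine ⟨fun ⟨c, e⟩ => ?_, fun h => h.elim (fun e => ⟨0, by simp [e]⟩) fun e => ⟨1, by simp [e]⟩⟩
  rcases z01 c with rfl | rfl <;> simp [← e]

theorem mem_span2 {a b x : E} :
    x ∈ Submodule.span (ZMod 2) {a, b} ↔ x = 0 ∨ x = a ∨ x = b ∨ x = a + b := by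
  rw [Submodule.mem_span_pair]
  refine ⟨fun ⟨c, d, e⟩ => ?_, ?_⟩
  · rcases z01 c with rfl | rfl <;> rcases z01 d with rfl | rfl <;> simp [← e]
  · rintro (e | e | e | e)
    exacts [⟨0, 0, by simp [e]⟩, ⟨1, 0, by simp [e]⟩, ⟨0, 1, by simp [e]⟩, ⟨1, 1, by simp [e]⟩]

theorem rk1 (x : E) : finrank (ZMod 2) (Submodule.span (ZMod 2) {x}) ≤ 1 := by
  simpa using finrank_span_le_card (R := ZMod 2) ({x} : Set E)

theorem rk_ins [Finite E] (x : E) (S : Set E) : finrank (ZMod 2) (Submodule.span (ZMod 2)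
    (insert x S)) ≤ finrank (ZMod 2) (Submodule.span (ZMod 2) S) + 1 := by
  have := Submodule.finrank_add_le_finrank_add_finrank (Submodule.span (ZMod 2) {x})
    (Submodule.span (ZMod 2) S)
  have := rk1 x
  rw [Submodule.span_insert]
  omega

theorem rk2 [Finite E] (x y : E) : finrank (ZMod 2) (Submodule.span (ZMod 2) {x, y}) ≤ 2 :=
  (rk_ins _ _).trans (Nat.succ_le_succ (rk1 y))

theorem rk3 [Finite E] (x y z : E) : finrank (ZMod 2) (Submodule.span (ZMod 2) {x, y, z}) ≤ 3 :=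
  (rk_ins _ _).trans (Nat.succ_le_succ (rk2 y z))

theorem rk4 [Finite E] (x y z w : E) :
    finrank (ZMod 2) (Submodule.span (ZMod 2) {x, y, z, w}) ≤ 4 :=
  (rk_ins _ _).trans (Nat.succ_le_succ (rk3 y z w))

namespace SS

variable (D : SS E)

theorem symm (x y : E) : D.B x y = D.B y x := by
  have := D.alt (x + y)
  simp only [map_add, LinearMap.add_apply, D.alt, zero_add, add_zero] at this
  exact (xy0.1 this).symm

variable [Finite E]

theorem exists_dual (φ : Dual (ZMod 2) E) : ∃ w, D.B w = φ :=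
  (LinearMap.injective_iff_surjective_of_finrank_eq_finrank Subspace.dual_finrank_eq.symm).1
    ((injective_iff_map_eq_zero _).2 fun x h => D.nd x fun y => by simp [h]) φ

theorem sep {S : Submodule (ZMod 2) E} {x : E} (h : x ∉ S) :
    ∃ w, (∀ s ∈ S, D.B w s = 0) ∧ D.B w x = 1 := by
  obtain ⟨φ, h1, h2⟩ := exists_dual_eq_one h
  obtain ⟨w, rfl⟩ := D.exists_dual φ
  exact ⟨w, h1, h2⟩

theorem sep_both {S : Submodule (ZMod 2) E} {x y : E} (h : x ∉ S) (h' : y ∉ S) :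
    ∃ w, (∀ s ∈ S, D.B w s = 0) ∧ D.B w x = 1 ∧ D.B w y = 1 := by
  obtain ⟨w, a1, a2⟩ := D.sep h
  obtain ⟨w', b1, b2⟩ := D.sep h'
  rcases z01 (D.B w y) with a3 | a3
  · rcases z01 (D.B w' x) with b3 | b3
    · exact ⟨w + w', fun s hs => by simp [a1 s hs, b1 s hs], by simp [*], by simp [*]⟩
    · exact ⟨w', b1, b3, b2⟩
  · exact ⟨w, a1, a2, a3⟩

theorem sep0 {x : E} (h : x ≠ 0) : ∃ w, D.B w x = 1 :=
  let ⟨w, _, e⟩ := D.sep (S := ⊥) h; ⟨w, e⟩

theorem sep1 {a x : E} (h0 : x ≠ 0) (h : x ≠ a) : ∃ w, D.B w a = 0 ∧ D.B w x = 1 :=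
  let ⟨w, e', e⟩ := D.sep (mt mem_span1.1 (not_or.2 ⟨h0, h⟩))
  ⟨w, e' _ (mem_span1.2 (.inr rfl)), e⟩

theorem sep2 {a b x : E} (h : x ∉ Submodule.span (ZMod 2) {a, b}) :
    ∃ w, D.B w a = 0 ∧ D.B w b = 0 ∧ D.B w x = 1 :=
  let ⟨w, e', e⟩ := D.sep h
  ⟨w, e' _ (mem_span2.2 (by simp)), e' _ (mem_span2.2 (by simp)), e⟩

theorem both1 {a x y : E} (h0 : x ≠ 0) (h : x ≠ a) (h0' : y ≠ 0) (h' : y ≠ a) :
    ∃ w, D.B w a = 0 ∧ D.B w x = 1 ∧ D.B w y = 1 :=
  let ⟨w, e', e⟩ := D.sep_both (mt mem_span1.1 (not_or.2 ⟨h0, h⟩))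
    (mt mem_span1.1 (not_or.2 ⟨h0', h'⟩))
  ⟨w, e' _ (mem_span1.2 (.inr rfl)), e⟩

/-- The orthogonal complement. -/
def perp (S : Submodule (ZMod 2) E) : Submodule (ZMod 2) E := LinearMap.BilinForm.orthogonal D.B S

omit [Finite E] in
theorem mem_perp {S : Submodule (ZMod 2) E} {x : E} : x ∈ D.perp S ↔ ∀ s ∈ S, D.B s x = 0 :=
  Iff.rfl

theorem finrank_perp (S : Submodule (ZMod 2) E) :
    finrank (ZMod 2) (D.perp S) + finrank (ZMod 2) S = finrank (ZMod 2) E := by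
  have := LinearMap.BilinForm.finrank_orthogonal (B := D.B)
    ⟨D.nd, fun x h => D.nd x fun y => by rw [D.symm, h]⟩ S
  have := S.finrank_le
  unfold perp
  omega

theorem exists_perp (S T : Submodule (ZMod 2) E)
    (h : finrank (ZMod 2) S + finrank (ZMod 2) T < finrank (ZMod 2) E) :
    ∃ w, (∀ s ∈ S, D.B s w = 0) ∧ w ∉ T := by
  by_contra! hc
  have := Submodule.finrank_mono (show D.perp S ≤ T from hc)
  have := D.finrank_perp S
  omega

end SS

variable (F A E) in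
/-- Pauli data. -/
structure PD extends SS E where
  ρ : E → Aˣ
  mul : ∀ x y, ∃ c : F, (ρ x * ρ y : A) = c • ρ (x + y)
  cm : ∀ x y, B x y = 0 → (ρ x * ρ y : A) = ρ y * ρ x
  an : ∀ x y, B x y = 1 → (ρ x * ρ y : A) = -(ρ y * ρ x)
  span : Submodule.span F (Set.range fun x => (ρ x : A)) = ⊤
  two : (2 : F) ≠ 0
  nt : Nontrivial A

theorem indep_of_eigen {ι κ M : Type*} [AddCommGroup M] [Module F M] {v : ι → M}
    {f : κ → M →ₗ[F] M} {χ : ι → κ → F} (h0 : ∀ i, v i ≠ 0) (h1 : ∀ i k, f k (v i) = χ i k • v i)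
    (h2 : ∀ i j, i ≠ j → ∃ k, χ i k ≠ χ j k) : LinearIndependent F v := by
  classical
  refine linearIndependent_iff'.2 fun s => ?_
  induction s using Finset.induction_on with
  | empty => simp
  | insert i s hi ih =>
    intro g hg
    rw [Finset.sum_insert hi] at hg
    have key : ∀ j ∈ s, g j = 0 := fun j hj => by
      obtain ⟨k, hk⟩ := h2 j i (by rintro rfl; exact hi hj)
      have e := congrArg (fun x => f k x - χ i k • x) hg
      simp only [map_add, map_smul, map_sum, h1, map_zero, smul_zero, sub_zero, smul_add,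
        Finset.smul_sum, smul_comm (χ i k), add_sub_add_left_eq_sub, ← Finset.sum_sub_distrib,
        ← smul_sub, ← sub_smul, smul_smul] at e
      exact (mul_eq_zero.1 ((mul_sub _ _ _).trans (ih _ e j hj))).resolve_right (sub_ne_zero.2 hk)
    rw [Finset.sum_eq_zero fun j hj => by rw [key j hj, zero_smul], add_zero] at hg
    simpa [(smul_eq_zero.1 hg).resolve_right (h0 i)] using key

namespace PD

variable (D : PD F A E) {x y z : E} {a b : A} {c : F} {g h : Aˣ}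

/-- `a` represents the class `x`. -/
def L (x : E) (a : A) : Prop := ∃ c : F, c ≠ 0 ∧ a = c • (D.ρ x : A)

theorem L_ρ (x : E) : D.L x (D.ρ x) := ⟨1, one_ne_zero, (one_smul _ _).symm⟩

theorem ρ_ne (x : E) : (D.ρ x : A) ≠ 0 := have := D.nt; Units.ne_zero _

include D in
theorem two_smul_eq (h : a = -a) : a = 0 :=
  (smul_eq_zero.1 (show (2 : F) • a = 0 by rw [two_smul]; exact add_eq_zero_iff_eq_neg.2 h)).resolve_left
    D.two

variable {D}

theorem L.smul (h : D.L x a) (hc : c ≠ 0) : D.L x (c • a) := by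
  obtain ⟨d, hd, rfl⟩ := h
  exact ⟨c * d, mul_ne_zero hc hd, smul_smul _ _ _⟩

theorem L.neg (h : D.L x a) : D.L x (-a) := neg_one_smul F a ▸ h.smul (by simp)

theorem L.ne (h : D.L x a) : a ≠ 0 := by
  obtain ⟨d, hd, rfl⟩ := h
  exact smul_ne_zero hd (D.ρ_ne x)

theorem L.isUnit (h : D.L x a) : IsUnit a := by
  obtain ⟨d, hd, rfl⟩ := h
  rw [Algebra.smul_def]
  exact (hd.isUnit.map _).mul (Units.isUnit _)

theorem L.mul (h : D.L x a) (h' : D.L y b) : D.L (x + y) (a * b) := by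
  have := (h.isUnit.mul h'.isUnit)
  obtain ⟨d, hd, rfl⟩ := h
  obtain ⟨d', hd', rfl⟩ := h'
  obtain ⟨c, e⟩ := D.mul x y
  refine ⟨d * d' * c, fun h0 => ?_, by rw [smul_mul_smul_comm, e, smul_smul]⟩
  rw [smul_mul_smul_comm, e, smul_smul, h0, zero_smul] at this
  have := D.nt
  exact not_isUnit_zero ‹_›

theorem L.rel (h : D.L x a) (h' : D.L x b) : ∃ c : F, c ≠ 0 ∧ a = c • b := by
  obtain ⟨d, hd, rfl⟩ := h
  obtain ⟨d', hd', rfl⟩ := h'
  exact ⟨d / d', div_ne_zero hd hd', by rw [smul_smul, div_mul_cancel₀ _ hd']⟩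

theorem L_one : D.L 0 1 := by
  obtain ⟨c, hc, e⟩ := (D.L_ρ 0).mul (D.L_ρ 0)
  rw [add_zero] at e
  exact ⟨c⁻¹, inv_ne_zero hc, by
    rw [eq_inv_smul_iff₀ hc, ← (D.ρ 0).mul_left_inj, smul_mul_assoc, one_mul, e]⟩

theorem L.zero (h : D.L 0 a) : ∃ c : F, c ≠ 0 ∧ a = c • 1 := h.rel L_one

theorem L.sq (h : D.L x a) : ∃ c : F, c ≠ 0 ∧ a * a = c • 1 := (xx x ▸ h.mul h).zero

theorem L.cm (h : D.L x a) (h' : D.L y b) (e : D.B x y = 0) : a * b = b * a := by
  obtain ⟨d, -, rfl⟩ := h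
  obtain ⟨d', -, rfl⟩ := h'
  rw [smul_mul_smul_comm, smul_mul_smul_comm, D.cm x y e, mul_comm]

theorem L.an (h : D.L x a) (h' : D.L y b) (e : D.B x y = 1) : a * b = -(b * a) := by
  obtain ⟨d, -, rfl⟩ := h
  obtain ⟨d', -, rfl⟩ := h'
  rw [smul_mul_smul_comm, smul_mul_smul_comm, D.an x y e, mul_comm, smul_neg]

theorem L.of_cm (h : D.L x a) (h' : D.L y b) (e : a * b = b * a) : D.B x y = 0 :=
  zne'.1 fun e' => (h'.mul h).ne (D.two_smul_eq (e.symm.trans (h.an h' e')))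

theorem L.of_an (h : D.L x a) (h' : D.L y b) (e : a * b = -(b * a)) : D.B x y = 1 :=
  zne.1 fun e' => (h'.mul h).ne (D.two_smul_eq ((h.cm h' e').symm.trans e))

theorem L.inj (h : D.L x a) (h' : D.L y a) : x = y := xy0.1 <| D.nd _ fun z => by
  rcases z01 (D.B x z) with e | e
  · simp [e, h'.of_cm (D.L_ρ z) (h.cm (D.L_ρ z) e)]
  · simp [e, h'.of_an (D.L_ρ z) (h.an (D.L_ρ z) e), z11]

theorem L.inv (h : D.L x g) : D.L x (g⁻¹ : Aˣ) := by
  obtain ⟨c, hc, e⟩ := h.sq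
  convert h.smul (inv_ne_zero hc) using 1
  rw [eq_inv_smul_iff₀ hc, ← g.mul_left_inj, e, smul_mul_assoc, Units.inv_mul]

theorem L.conj_B {x' y' : E} (h : D.L x a) (h' : D.L y b)
    (k : D.L x' (g * a * (g⁻¹ : Aˣ))) (k' : D.L y' (g * b * (g⁻¹ : Aˣ))) : D.B x' y' = D.B x y := by
  have e : ∀ a b : A, g * a * (g⁻¹ : Aˣ) * (g * b * (g⁻¹ : Aˣ)) = g * (a * b) * (g⁻¹ : Aˣ) :=
    fun a b => by simp [mul_assoc]
  rcases z01 (D.B x y) with e' | e' <;> rw [e']
  · exact k.of_cm k' (by rw [e, e, h.cm h' e'])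
  · exact k.of_an k' (by rw [e, e, h.an h' e', mul_neg, neg_mul])

/-- The sign of a class modulo two. -/
def sg (_D : PD F A E) (b : ZMod 2) : F := if b = 0 then 1 else -1

theorem sg_inj {b b' : ZMod 2} (h : D.sg b = D.sg b') : b = b' := by
  have := D.two
  rcases z01 b with rfl | rfl <;> rcases z01 b' with rfl | rfl <;> simp [sg] at h ⊢
  · exact this (by linear_combination h)
  · exact this (by linear_combination -h)

theorem L.sg (h : D.L x a) (h' : D.L y b) : a * b = D.sg (D.B x y) • (b * a) := by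
  rcases z01 (D.B x y) with e | e <;> simp [PD.sg, e, h.cm h', h.an h']

/-- Conjugation. -/
def ad (_D : PD F A E) (g : Aˣ) : A →ₗ[F] A := LinearMap.mulRight F (g⁻¹ : Aˣ) ∘ₗ LinearMap.mulLeft F g

theorem ad_apply (g : Aˣ) (a : A) : D.ad g a = g * a * (g⁻¹ : Aˣ) := rfl

theorem ad_ρ (x y : E) : D.ad (D.ρ y) (D.ρ x) = D.sg (D.B y x) • (D.ρ x : A) := by
  rw [ad_apply, (D.L_ρ y).sg (D.L_ρ x), smul_mul_assoc, Units.mul_inv_cancel_right]

variable (D) in
theorem indep : LinearIndependent F fun x => (D.ρ x : A) :=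
  indep_of_eigen D.ρ_ne ad_ρ fun i j h => by
    by_contra! hc
    exact h (xy0.1 (D.nd _ fun z => by simp [D.symm _ z, sg_inj (hc z), zbb]))

variable (D) in
/-- The basis of representatives. -/
noncomputable def bas : Basis E F A := Basis.mk D.indep D.span.ge

theorem bas_apply (x : E) : D.bas x = D.ρ x := Basis.mk_apply _ _ _

theorem repr_ad (y : E) (a : A) (x : E) :
    D.bas.repr (D.ad (D.ρ y) a) x = D.sg (D.B y x) * D.bas.repr a x := by
  classical
  have : D.bas.coord x ∘ₗ D.ad (D.ρ y) = D.sg (D.B y x) • D.bas.coord x := D.bas.ext fun z => by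
    rw [LinearMap.comp_apply, bas_apply, ad_ρ, ← bas_apply]
    by_cases h : z = x <;> simp [h, Finsupp.single_apply]
  exact LinearMap.congr_fun this a

theorem sg_eq (h : D.L y b) (e : b * a = c • (a * b)) (hx : D.bas.repr a x ≠ 0) :
    D.sg (D.B y x) = c := by
  obtain ⟨d, hd, rfl⟩ := h
  rw [smul_mul_assoc, mul_smul_comm, smul_comm, smul_right_inj hd] at e
  have := D.repr_ad y a x
  rw [ad_apply, e, smul_mul_assoc, Units.mul_inv_cancel_right, map_smul] at this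
  exact (mul_right_cancel₀ hx this).symm

theorem exists_repr (h : a ≠ 0) : ∃ x, D.bas.repr a x ≠ 0 := by
  by_contra! hc
  exact h (D.bas.repr.injective (by ext x; simp [hc]))

theorem mem_span_of_repr {S : Set E} (h : ∀ x, D.bas.repr a x ≠ 0 → x ∈ S) :
    a ∈ Submodule.span F ((fun x => (D.ρ x : A)) '' S) := by
  rw [← funext bas_apply]
  exact D.bas.mem_span_image.2 fun x hx => h x (by simpa using hx)

theorem L_of_eigen (h0 : a ≠ 0) (h : ∀ y, ∃ c : F, D.ρ y * a = c • (a * D.ρ y)) : ∃ x, D.L x a := by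
  obtain ⟨x, hx⟩ := D.exists_repr h0
  have := D.mem_span_of_repr (a := a) (S := {x}) fun z hz => xy0.1 (D.nd _ fun y => by
    obtain ⟨c, e⟩ := h y
    simp [D.symm _ y, sg_inj ((sg_eq (D.L_ρ y) e hz).trans (sg_eq (D.L_ρ y) e hx).symm), zbb])
  rw [Set.image_singleton, Submodule.mem_span_singleton] at this
  obtain ⟨c, rfl⟩ := this
  exact ⟨x, c, by rintro rfl; simp at h0, rfl⟩

theorem scalar_of_comm (h : ∀ y, D.ρ y * a = a * D.ρ y) : ∃ c : F, a = c • 1 := by
  by_cases h0 : a = 0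
  · exact ⟨0, by simp [h0]⟩
  obtain ⟨x, hx⟩ := D.L_of_eigen h0 fun y => ⟨1, by simp [h]⟩
  obtain rfl := D.nd x fun y => hx.of_cm (D.L_ρ y) (h y).symm
  exact hx.zero.imp fun _ => And.right

/-- An eigenvector for the hyperplane orthogonal to `x`. -/
theorem eigen_perp [Finite E] {r : A} (hr : D.L x r) (h0 : a ≠ 0)
    (h : ∀ y, D.B y x = 0 → ∃ c : F, D.ρ y * a = c • (a * D.ρ y)) :
    ∃ z, ∃ c d : F, a = D.ρ z * (c • 1 + d • r) := by
  obtain ⟨z, hz⟩ := D.exists_repr h0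
  have := D.mem_span_of_repr (a := a) (S := {z, z + x}) fun w hw => by
    by_contra! hc
    simp only [Set.mem_insert_iff, Set.mem_singleton_iff, not_or] at hc
    obtain ⟨y, a1, a2⟩ := D.sep1 (x := z + w) (a := x) (mt xy0.1 (Ne.symm hc.1))
      (fun e => hc.2 (by rw [← e, xxy]))
    obtain ⟨c, e⟩ := h y a1
    simp [sg_inj ((sg_eq (D.L_ρ y) e hz).trans (sg_eq (D.L_ρ y) e hw).symm), zbb] at a2
  rw [Set.image_pair, Submodule.mem_span_pair] at this
  obtain ⟨c, d, rfl⟩ := this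
  obtain ⟨e, -, he⟩ := (D.L_ρ _).rel ((D.L_ρ z).mul hr)
  exact ⟨z, c, d * e, by rw [he]; simp [mul_add, smul_smul]⟩

include D in
theorem card_eq [Finite E] : Nat.card E = finrank F A := by
  have := Fintype.ofFinite E
  rw [finrank_eq_card_basis D.bas, Nat.card_eq_fintype_card]

end PD

end H12.C6
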