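import Cfsg.Agent.H12.C6a
import Cfsg.Agent.H12.GT1
import Cfsg.Agent.H7.ZStar
import Cfsg.Agent.H1.Core

/-!
# Elementary abelian subgroups with trivial intersections carrying a symplectic form
-/

set_option autoImplicit false
set_option maxHeartbeats 400000

namespace H12.C6

open Module

variable {E Γ : Type*} [AddCommGroup E] [Module (ZMod 2) E] [Group Γ] {D : SS E} {H : Subgroup Γ}
  {ε ε' : E → Γ} {g h : Γ} {x y z : E}

theorem card_two (E : Type*) [AddCommGroup E] [Module (ZMod 2) E] [Finite E] :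
    Nat.card E = 2 ^ finrank (ZMod 2) E := by
  rw [Module.natCard_eq_pow_finrank (K := ZMod 2), Nat.card_zmod]

/-- The normaliser of the image. -/
def NN (ε : E → Γ) : Subgroup Γ := Subgroup.normalizer (Set.range ε)

theorem NN.ex (h : g ∈ NN ε) (x : E) : ∃ y, g * ε x * g⁻¹ = ε y :=
  let ⟨y, e⟩ := (h (ε x)).1 ⟨x, rfl⟩; ⟨y, e.symm⟩

theorem mem_NN [Finite E] (h : ∀ x, ∃ y, g * ε x * g⁻¹ = ε y) : g ∈ NN ε :=
  Subgroup.mem_normalizer_fintype (by
    rintro _ ⟨x, rfl⟩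
    exact let ⟨y, e⟩ := h x; ⟨y, e.symm⟩)

variable (D H ε) in
/-- A trivial intersection subgroup. -/
structure TID : Prop where
  add : ∀ x y, ε (x + y) = ε x * ε y
  inj : ∀ x, ε x = 1 → x = 0
  mem : ∀ x, ε x ∈ H
  cent : ∀ g ∈ H, (∀ x, g * ε x = ε x * g) → ∃ x, g = ε x
  isom : ∀ g ∈ H, ∀ x y x' y', g * ε x * g⁻¹ = ε x' → g * ε y * g⁻¹ = ε y' → D.B x' y' = D.B x y
  ti : ∀ g ∈ H, ∀ x, x ≠ 0 → ∀ y, g * ε x * g⁻¹ = ε y → g ∈ NN ε

variable (ε ε') in
/-- The classes which normalise the other subgroup. -/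
def AA (T : TID D H ε) : Submodule (ZMod 2) E where
  carrier := {a | ε a ∈ NN ε'}
  add_mem' h h' := by simpa [T.add] using mul_mem h h'
  zero_mem' := by
    have := T.add 0 0
    rw [add_zero, left_eq_mul] at this
    simpa [this] using one_mem _
  smul_mem' c a h := by
    have := T.add 0 0
    rw [add_zero, left_eq_mul] at this
    rcases z01 c with rfl | rfl
    · simpa [this] using one_mem _
    · simpa using h

theorem mem_NN_conj [Finite E] : g ∈ NN (fun x => h * ε x * h⁻¹) ↔ h⁻¹ * g * h ∈ NN ε :=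
  ⟨fun H => mem_NN fun x => (NN.ex H x).imp fun y e => by
      rw [← mul_left_inj h⁻¹, ← mul_right_inj h, ← mul_assoc h (ε y), ← e]; group,
    fun H => mem_NN fun x => (NN.ex H x).imp fun y e => by rw [← e]; group⟩

namespace TID

variable (T : TID D H ε)
include T

theorem zero : ε 0 = 1 := by simpa using T.add 0 0

theorem sq (x : E) : ε x * ε x = 1 := by rw [← T.add, xx, T.zero]

theorem inv (x : E) : (ε x)⁻¹ = ε x := inv_eq_of_mul_eq_one_left (T.sq x)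

theorem inj' (h : ε x = ε y) : x = y := xy0.1 (T.inj _ (by rw [T.add, h, T.sq]))

theorem comm (x y : E) : ε x * ε y = ε y * ε x := by rw [← T.add, ← T.add, add_comm]

theorem loc (hg : g ∈ H) (hx : x ≠ 0) (e : g * ε x = ε x * g) : g ∈ NN ε :=
  T.ti g hg x hx x (by rw [e, mul_inv_cancel_right])

theorem exists_act (hg : g ∈ NN ε) : ∃ φ : E →ₗ[ZMod 2] E, ∀ x, g * ε x * g⁻¹ = ε (φ x) := by
  choose f hf using NN.ex hg
  exact ⟨AddMonoidHom.toZModLinearMap 2 (AddMonoidHom.mk' f fun x y => T.inj' (by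
    rw [← hf, T.add, T.add, ← hf, ← hf]; group)), hf⟩

variable [Finite E]

theorem mem_self (x : E) : ε x ∈ NN ε := mem_NN fun y => ⟨y, by rw [T.comm, mul_inv_cancel_right]⟩

theorem conj (hh : h ∈ H) : TID D H fun x => h * ε x * h⁻¹ where
  add x y := by rw [T.add]; group
  inj x e := T.inj x (by simpa using e)
  mem x := mul_mem (mul_mem hh (T.mem x)) (inv_mem hh)
  cent g hg e := (T.cent (h⁻¹ * g * h) (mul_mem (mul_mem (inv_mem hh) hg) hh) fun x => by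
    rw [← mul_left_inj h⁻¹, ← mul_right_inj h]; simpa [mul_assoc] using e x).imp fun x e => by
      rw [← e]; group
  isom g hg x y x' y' e e' := T.isom (h⁻¹ * g * h) (mul_mem (mul_mem (inv_mem hh) hg) hh) _ _ _ _
    (by rw [← mul_left_inj h⁻¹, ← mul_right_inj h, ← mul_assoc h (ε _), ← e]; group)
    (by rw [← mul_left_inj h⁻¹, ← mul_right_inj h, ← mul_assoc h (ε _), ← e']; group)
  ti g hg x hx y e := mem_NN_conj.2 (T.ti _ (mul_mem (mul_mem (inv_mem hh) hg) hh) x hx y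
    (by rw [← mul_left_inj h⁻¹, ← mul_right_inj h, ← mul_assoc h (ε _), ← e]; group))

theorem disj (hh : h ∈ H) (hn : h ∉ NN ε) (e : ε x = h * ε y * h⁻¹) : x = 0 ∧ y = 0 := by
  have : y = 0 := by_contra fun hy => hn (T.ti h hh y hy x e.symm)
  exact ⟨T.inj x (by simp [e, this, T.zero]), this⟩

section II

variable (T' : TID D H ε') (hd : ∀ x y, ε x = ε' y → x = 0 ∧ y = 0)
include T' hd

omit [Finite E] in
theorem AA_comm {a : E} (ha : a ∈ AA ε ε' T) (hz : z ∈ AA ε' ε T') : ε' z * ε a = ε a * ε' z := by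
  obtain ⟨y, e⟩ := NN.ex hz a
  obtain ⟨w, e'⟩ := NN.ex ha z
  have := (hd (y + a) (z + w) (by
    rw [T.add, T'.add, ← e, ← e', T.inv, T'.inv]; simp [mul_assoc])).1
  rw [xy0.1 this] at e
  exact mul_inv_eq_iff_eq_mul.1 e

omit [Finite E] in
theorem ker_eq (hz : z ∈ AA ε' ε T') (h0 : z ≠ 0) {φ : E →ₗ[ZMod 2] E}
    (e : ∀ x, ε' z * ε x * (ε' z)⁻¹ = ε (φ x)) : LinearMap.ker (φ + 1) = AA ε ε' T := by
  ext a
  rw [LinearMap.mem_ker, LinearMap.add_apply, Module.End.one_apply, xy0]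
  refine ⟨fun h => T'.loc (T.mem a) h0 ?_, fun h => T.inj' ?_⟩
  · exact (mul_inv_eq_iff_eq_mul.1 ((e a).trans (congrArg ε h))).symm
  · rw [← e, T.AA_comm T' hd h hz, mul_inv_cancel_right]

theorem range_eq (hz : z ∈ AA ε' ε T') (h0 : z ≠ 0) {φ : E →ₗ[ZMod 2] E}
    (e : ∀ x, ε' z * ε x * (ε' z)⁻¹ = ε (φ x)) :
    LinearMap.range (φ + 1) = D.perp (AA ε ε' T) ∧ D.perp (AA ε ε' T) ≤ AA ε ε' T := by
  have h1 := T.ker_eq T' hd hz h0 e
  have h2 : LinearMap.range (φ + 1) = D.perp (AA ε ε' T) := by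
    refine Submodule.eq_of_le_of_finrank_eq ?_ ?_
    · rintro _ ⟨y, rfl⟩ s hs
      have := T.isom _ (T'.mem z) _ _ _ _ (e s) (e y)
      rw [← h1, LinearMap.mem_ker, LinearMap.add_apply, Module.End.one_apply, xy0] at hs
      rw [hs] at this
      change D.B s _ = 0
      simp [this, zbb]
    · have := (φ + 1).finrank_range_add_finrank_ker
      have := D.finrank_perp (AA ε ε' T)
      rw [h1] at *
      omega
  refine ⟨h2, ?_⟩
  rw [← h2, ← h1]
  rintro _ ⟨y, rfl⟩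
  have : φ (φ y) = y := T.inj' (by
    rw [← e, ← e, T'.inv, mul_assoc, mul_assoc, mul_assoc, T'.sq, mul_one, ← mul_assoc, T'.sq,
      one_mul])
  simp [this, add_comm y, xx]

theorem big (hz : z ∈ AA ε' ε T') (h0 : z ≠ 0) :
    finrank (ZMod 2) E ≤ 2 * finrank (ZMod 2) (AA ε ε' T) := by
  obtain ⟨φ, e⟩ := T.exists_act hz
  have := Submodule.finrank_mono (T.range_eq T' hd hz h0 e).2
  have := D.finrank_perp (AA ε ε' T)
  omega

theorem caseII (hz : z ∈ AA ε' ε T') (h0 : z ≠ 0)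
    (key : finrank (ZMod 2) E ≤ 2 * finrank (ZMod 2) (AA ε' ε T') → ∀ z ∈ AA ε' ε T', z ≠ 0 →
      ∀ y a, ε' z * ε y * (ε' z)⁻¹ = ε (y + a) → a ∈ AA ε ε' T →
      (∀ z' ∈ AA ε' ε T', z' ≠ 0 → ∃ w, ε' z' * ε w * (ε' z')⁻¹ = ε (w + a)) → D.B y a = 0) :
    False := by
  have b1 := T.big T' hd hz h0
  have : Nontrivial E := ⟨z, 0, h0⟩
  have b0 := finrank_pos (R := ZMod 2) (M := E)
  obtain ⟨a, ha, ha0⟩ := Submodule.exists_mem_ne_zero_of_ne_bot (p := AA ε ε' T) (by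
    intro e; rw [e, finrank_bot] at b1; omega)
  have b2 := T'.big T (fun x y e => (hd y x e.symm).symm) ha ha0
  obtain ⟨y, hy⟩ : ∃ y, y ∉ AA ε ε' T := by
    by_contra! hc
    obtain ⟨x, e⟩ := T.cent _ (T'.mem z) fun x => T.AA_comm T' hd (hc x) hz
    exact h0 (hd _ _ e.symm).2
  have k : ∀ z : AA ε' ε T', ∃ a : ↥(D.perp (AA ε ε' T) ⊓ LinearMap.ker (D.B y)),
      ε' z * ε y * (ε' z)⁻¹ = ε (y + a) := fun ⟨z, hz⟩ => by
    by_cases h0 : z = 0
    · exact ⟨0, by simp [h0, T'.zero]⟩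
    obtain ⟨φ, e⟩ := T.exists_act hz
    obtain ⟨c1, c2⟩ := T.range_eq T' hd hz h0 e
    have c3 : φ y + y ∈ D.perp (AA ε ε' T) := c1 ▸ ⟨y, rfl⟩
    have c4 : ε' z * ε y * (ε' z)⁻¹ = ε (y + (φ y + y)) := by rw [e, add_comm (φ y), xxy]
    refine ⟨⟨_, c3, key b2 z hz h0 y _ c4 (c2 c3) fun z' hz' h0' => ?_⟩, c4⟩
    obtain ⟨φ', e'⟩ := T.exists_act hz'
    obtain ⟨w, hw⟩ := (T.range_eq T' hd hz' h0' e').1.ge c3
    exact ⟨w, by rw [e', ← hw, LinearMap.add_apply, Module.End.one_apply, add_comm (φ' w), xxy]⟩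
  choose θ hθ using k
  have c1 := Nat.card_le_card_of_injective θ fun z z' e => by
    by_contra hn
    refine hy (T'.loc (T.mem y) (x := z + z') (mt xy0.1 (mt Subtype.ext hn)) ?_)
    have := (hθ z).trans (e ▸ hθ z').symm
    rw [T'.inv, T'.inv] at this
    rw [T'.add, ← mul_right_inj (ε' z), ← mul_assoc, ← mul_assoc, this, mul_assoc, T'.sq,
      ← mul_assoc, ← mul_assoc, T'.sq, one_mul, mul_one]
  obtain ⟨w, w1, w2⟩ := D.sep hy
  have c2 := Submodule.finrank_lt_finrank_of_lt (show D.perp (AA ε ε' T) ⊓ LinearMap.ker (D.B y) <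
    D.perp (AA ε ε' T) from SetLike.lt_iff_le_and_exists.2 ⟨inf_le_left, w,
      fun s hs => (D.symm _ _).trans (w1 s hs), fun e => by
        have : D.B y w = 0 := e.2
        rw [D.symm, w2] at this
        exact one_ne_zero this⟩)
  have c3 := D.finrank_perp (AA ε ε' T)
  rw [card_two, card_two, Nat.pow_le_pow_iff_right (by omega)] at c1
  omega

end II

section I

variable [Finite Γ] (hI : ∀ h ∈ H, ∀ x, x ≠ 0 → h * ε x * h⁻¹ ∈ NN ε → h ∈ NN ε)
include hI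

theorem odd (hh : h ∈ H) (hn : h ∉ NN ε) (hx : x ≠ 0) (hy : y ≠ 0) :
    Odd (orderOf (ε x * (h * ε y * h⁻¹))) := by
  refine (Nat.even_or_odd _).resolve_left fun e => ?_
  obtain ⟨c, a1, a2, -, a3, a4, u, a5, a6⟩ := exists_dihedral' (T.mem x) ((T.conj hh).mem y)
    (T.sq x) ((T.conj hh).sq y) e
  have a7 : c * ε x ∈ NN ε := T.loc (mul_mem a1 (T.mem x)) hx (by rw [← mul_assoc, ← a3])
  obtain ⟨w, hw⟩ : ∃ w, c * ε x = ε w := by
    rcases a6 with a6 | a6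
    · exact a6 ▸ NN.ex (hI u a5 x hx (a6 ▸ a7)) x
    · replace a6 : c * ε x = u * h * ε y * (u * h)⁻¹ := by rw [a6]; group
      exact a6 ▸ NN.ex (hI _ (mul_mem a5 hh) y hy (a6 ▸ a7)) y
  obtain rfl : c = ε (w + x) := by rw [T.add, ← hw, mul_assoc, T.sq, mul_one]
  exact hn (hI h hh y hy (T.loc ((T.conj hh).mem y) (fun e => a2 (by rw [e, T.zero])) a4.symm))

theorem caseI (hh : h ∈ H) (hn : h ∉ NN ε) (h3 : 3 ≤ finrank (ZMod 2) E) : False := by
  classical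
  set p : Γ ⧸ NN ε := ((1 : Γ) : Γ ⧸ NN ε) with hp
  set q : Γ ⧸ NN ε := (h : Γ ⧸ NN ε) with hq
  have f1 : ∀ {g}, g • p = p ↔ g ∈ NN ε := fun {g} => by
    rw [hp, MulAction.Quotient.smul_coe, QuotientGroup.eq]; simp
  have f2 : ∀ {g}, g • p = q ↔ h⁻¹ * g ∈ NN ε := fun {g} => by
    rw [hp, hq, MulAction.Quotient.smul_coe, eq_comm, QuotientGroup.eq]; simp
  have pq : p ≠ q := fun e => hn (by simpa using f2.1 ((one_smul Γ p).trans e))
  let K : Subgroup Γ :=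
    { carrier := {g | g ∈ H ∧ (g • p = p ∧ g • q = q ∨ g • p = q ∧ g • q = p)}
      mul_mem' := by
        rintro a b ⟨a1, a2⟩ ⟨b1, b2⟩
        exact ⟨mul_mem a1 b1, by rcases a2 with a2 | a2 <;> rcases b2 with b2 | b2 <;>
          simp [mul_smul, a2, b2]⟩
      one_mem' := ⟨one_mem _, by simp⟩
      inv_mem' := by
        rintro a ⟨a1, a2⟩
        exact ⟨inv_mem a1, by simp only [inv_smul_eq_iff]; tauto⟩ }
  let J : Γ → Prop := fun j => (∃ g ∈ H, ∃ x, x ≠ 0 ∧ j = g * ε x * g⁻¹) ∧ j • p = q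
  have j1 : ∀ {j}, J j → j * j = 1 := by
    rintro _ ⟨⟨g, hg, x, -, rfl⟩, -⟩
    exact (T.conj hg).sq x
  have j2 : ∀ {j}, J j → j ∈ K := fun {j} hj => by
    obtain ⟨⟨g, hg, x, -, e⟩, e'⟩ := id hj
    exact ⟨e ▸ (T.conj hg).mem x, .inr ⟨e', by rw [← e', ← mul_smul, j1 hj, one_smul]⟩⟩
  have j3 : ∀ x y, x ≠ 0 → y ≠ 0 → ∃ j, J j ∧ j * ε x * j⁻¹ = h * ε y * h⁻¹ := fun x y hx hy => by
    have ho := T.odd hI hh hn hx hy
    have hi := H10.inverts_left (T.sq x) ((T.conj hh).sq y)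
    obtain ⟨k, hk⟩ := H10.exists_zpow_conj_of_odd (T.sq x) ((T.conj hh).sq y) ho
    have hu := mul_mem (T.mem x) ((T.conj hh).mem y)
    generalize ε x * (h * ε y * h⁻¹) = u at *
    have b1 : ε x * (u ^ k * ε x) = u ^ (-k) := by
      rw [← H10.conj_zpow_of_inverts hi, T.inv, mul_assoc]
    have b2 : u ^ k * ε x * (u ^ k * ε x) = 1 := by rw [mul_assoc, b1, ← zpow_add]; simp
    obtain ⟨m, hm⟩ := H10.exists_zpow_conj_of_odd (T.sq x) b2
      (b1 ▸ ho.of_dvd_nat (orderOf_dvd_of_mem_zpowers ⟨_, rfl⟩))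
    have b3 : u ^ k * ε x * ε x * (u ^ k * ε x)⁻¹ = h * ε y * h⁻¹ := by rw [← hk]; group
    refine ⟨_, ⟨⟨_, b1 ▸ zpow_mem (zpow_mem hu _) m, x, hx, hm.symm⟩, f2.2 (T.ti _
      (mul_mem (inv_mem hh) (mul_mem (zpow_mem hu _) (T.mem x))) x hx y ?_)⟩, b3⟩
    rw [← mul_left_inj h⁻¹, ← mul_right_inj h, ← mul_assoc h (ε y), ← b3]; group
  have j4 : ∀ {j j'}, J j → J j' → ∃ k : ℤ, (j * j') ^ k * j * ((j * j') ^ k)⁻¹ = j' := by
    intro j j' hj hj'
    obtain ⟨⟨g, hg, x, hx, rfl⟩, e⟩ := id hj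
    obtain ⟨⟨g', hg', x', hx', rfl⟩, e'⟩ := id hj'
    by_cases c : g⁻¹ * g' ∈ NN ε
    · obtain ⟨w, hw⟩ := NN.ex c x'
      have c1 : g' * ε x' * g'⁻¹ = g * ε w * g⁻¹ := by rw [← hw]; group
      refine ⟨0, ?_⟩
      rw [c1] at e' ⊢
      by_contra c2
      have c3 : g ∈ NN ε := hI g hg (x + w) (fun e => c2 (by simp [xy0.1 e])) (f1.1 (by
        rw [(T.conj hg).add, mul_smul, e', ← e, ← mul_smul, j1 hj, one_smul]))
      exact pq ((f1.2 (mul_mem (mul_mem c3 (T.mem_self x)) (inv_mem c3))).symm.trans e)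
    · refine H10.exists_zpow_conj_of_odd (j1 hj) (j1 hj') ?_
      convert T.odd hI (mul_mem (inv_mem hg) hg') c hx hx' using 1
      rw [← H10.orderOf_conj' g]; congr 1; group
  have : Nontrivial E := finrank_pos_iff.1 (by omega : 0 < finrank (ZMod 2) E)
  obtain ⟨y, hy⟩ := exists_ne (0 : E)
  obtain ⟨j, hj, -⟩ := j3 y y hy hy
  have iso : Cfsg.IsIsolatedInvolution (⟨j, j2 hj⟩ : K) := by
    refine ⟨H10.orderOf_two_of (Subtype.ext (j1 hj)) fun e => pq ?_, fun ⟨g, hg⟩ e => ?_⟩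
    · rw [← hj.2, show j = 1 from congrArg Subtype.val e, one_smul]
    have c1 : J (g * j * g⁻¹) := by
      obtain ⟨⟨g', hg', x, hx, rfl⟩, -⟩ := id hj
      refine ⟨⟨g * g', mul_mem hg.1 hg', x, hx, by group⟩, ?_⟩
      have c2 := ((j2 hj).2.resolve_left fun e => pq (e.1.symm.trans hj.2)).2
      rcases hg.2 with c | c
      · rw [mul_smul, mul_smul, inv_smul_eq_iff.2 c.1.symm, hj.2, c.2]
      · rw [mul_smul, mul_smul, inv_smul_eq_iff.2 c.2.symm, c2, c.1]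
    obtain ⟨k, hk⟩ := j4 hj c1
    have c2 : Commute j (g * j * g⁻¹) := congrArg Subtype.val e.eq
    rw [← (((Commute.refl j).mul_right c2).zpow_right k).eq, mul_inv_cancel_right] at hk
    exact Subtype.ext hk.symm
  let O := Cfsg.pPrimeCore 2 K ⊓ (NN ε).subgroupOf K
  have o1 : ∀ j' (hj' : J j'), (⟨j * j', mul_mem (j2 hj) (j2 hj')⟩ : K) ∈ O := fun j' hj' => by
    obtain ⟨k, hk⟩ := j4 hj hj'
    refine ⟨?_, f1.1 ?_⟩
    · change _ ∈ Cfsg.pPrimeCore 2 K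
      convert H7.zstar iso ⟨_, zpow_mem (mul_mem (j2 hj) (j2 hj')) k⟩ using 1
      ext
      simp only [Subgroup.coe_mul, Subgroup.coe_inv, inv_eq_of_mul_eq_one_left (j1 hj), mul_assoc]
      rw [← mul_assoc _ j, hk]
    · change (j * j') • p = p
      rw [mul_smul, hj'.2, ← hj.2, ← mul_smul, j1 hj, one_smul]
  have o2 : Odd (Nat.card O) := Nat.coprime_two_right.1
    (H1.pPrimeCore_coprime.of_dvd_left (Subgroup.card_dvd_of_le inf_le_left))
  choose φ hφ using fun d : O => T.exists_act (g := d.1.1) d.2.2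
  have o3 : ∀ x x', x ≠ 0 → x' ≠ 0 → ∃ d, φ d x = x' := fun x x' hx hx' => by
    obtain ⟨a, a1, a2⟩ := j3 x y hx hy
    obtain ⟨b, b1, b2⟩ := j3 x' y hx' hy
    refine ⟨⟨_, mul_mem (inv_mem (o1 b b1)) (o1 a a1)⟩, T.inj' ?_⟩
    rw [← hφ, ← mul_left_inj b⁻¹, ← mul_right_inj b, ← mul_assoc b (ε x'), b2, ← a2]
    simp only [Subgroup.coe_mul, Subgroup.coe_inv]; group
  let bm := finBasis (ZMod 2) E
  let C : E →ₗ[ZMod 2] E →ₗ[ZMod 2] ZMod 2 := bm.constr (ZMod 2) fun i => bm.constr (ZMod 2)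
    fun j => if i < j then D.B (bm i) (bm j) else 0
  have c1 : C + C.flip = D.B := bm.ext fun i => bm.ext fun l => by
    simp only [C, LinearMap.add_apply, LinearMap.flip_apply, Basis.constr_basis]
    rcases lt_trichotomy i l with c | c | c
    · simp [c, c.le]
    · simp [c, D.alt]
    · simp [c, c.le, D.symm (bm l)]
  have := Fintype.ofFinite O
  let f : E → ZMod 2 := fun x => ∑ d, C (φ d x) (φ d x)
  have c2 : ∀ x x', x ≠ 0 → x' ≠ 0 → f x' = f x := fun x x' hx hx' => by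
    obtain ⟨d, rfl⟩ := o3 x x' hx hx'
    refine Fintype.sum_equiv (Equiv.mulRight d) _ _ fun e => ?_
    rw [show φ e (φ d x) = φ (e * d) x from T.inj' (by
      rw [← hφ, ← hφ, ← hφ]; simp only [Subgroup.coe_mul]; group)]
    rfl
  have c3 : ∀ x x', f (x + x') = f x + f x' + D.B x x' := fun x x' => by
    have : ∀ d, C (φ d (x + x')) (φ d (x + x')) =
        C (φ d x) (φ d x) + C (φ d x') (φ d x') + D.B x x' := fun d => by
      rw [← T.isom _ d.1.2.1 _ _ _ _ (hφ d x) (hφ d x'), ← c1]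
      simp; ring
    obtain ⟨m, hm⟩ := o2
    simp only [f, this, Finset.sum_add_distrib, Finset.sum_const, Finset.card_univ,
      ← Nat.card_eq_fintype_card, hm, add_smul, two_mul, zbb, zero_add, one_smul]
  obtain ⟨w, hw⟩ := D.sep0 hy
  obtain ⟨v, v1, v2⟩ := D.exists_perp (.span _ {y}) (.span _ {y}) (by
    have := finrank_span_le_card (R := ZMod 2) ({y} : Set E)
    simp at this; omega)
  replace v1 := v1 y (mem_span1.2 (.inr rfl))
  rw [mem_span1, not_or] at v2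
  have w0 : w ≠ 0 := by rintro rfl; simp at hw
  have c4 := c3 w y
  have c5 := c3 y v
  rw [c2 y _ hy (mt xy0.1 (by rintro rfl; simp [D.alt] at hw)), c2 y w hy w0, hw] at c4
  rw [c2 y _ hy (mt xy0.1 (Ne.symm v2.2)), c2 y v hy v2.1, v1] at c5
  simp [zbb] at c4 c5
  exact zero_ne_one (c5.symm.trans c4)

end I

end TID

end H12.C6
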