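import Cfsg.Agent.H12.C6b

/-!
# Normalisers of Pauli groups: the global argument when all transvections are present
-/

set_option autoImplicit false
set_option maxHeartbeats 400000

namespace H12.C6

open Module

variable {F A E : Type*} [Field F] [Ring A] [Algebra F A] [AddCommGroup E] [Module (ZMod 2) E]

variable (F A) in
/-- The scalars. -/
def sc : Subgroup Aˣ := (Units.map (algebraMap F A).toMonoidHom).range

theorem mem_sc {g : Aˣ} : g ∈ sc F A ↔ ∃ c : F, c ≠ 0 ∧ (g : A) = c • 1 :=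
  ⟨fun ⟨c, e⟩ => ⟨c, c.ne_zero, by rw [← e, ← Algebra.algebraMap_eq_smul_one]; rfl⟩,
    fun ⟨c, hc, e⟩ => ⟨Units.mk0 c hc, Units.ext (by rw [e, ← Algebra.algebraMap_eq_smul_one]; rfl)⟩⟩

instance sc_normal : (sc F A).Normal := ⟨fun n hn g => by
  obtain ⟨c, hc, e⟩ := mem_sc.1 hn
  exact mem_sc.2 ⟨c, hc, by simp [e]⟩⟩

variable (F) in
/-- The projection modulo scalars. -/
def pr : Aˣ →* Aˣ ⧸ sc F A := QuotientGroup.mk' _

theorem pr_eq {g h : Aˣ} : pr F g = pr F h ↔ ∃ c : F, c ≠ 0 ∧ (g : A) = c • h := by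
  rw [eq_comm, pr, QuotientGroup.mk'_apply, QuotientGroup.mk'_apply, QuotientGroup.eq, mem_sc]
  refine exists_congr fun c => and_congr_right fun _ => ?_
  rw [Units.val_mul, Units.inv_mul_eq_iff_eq_mul, mul_smul_comm, mul_one]

theorem conj_smul {g k : Aˣ} {c : F} (e : (g : A) = c • k) (a : A) :
    g * a * (g⁻¹ : Aˣ) = k * a * (k⁻¹ : Aˣ) := by
  rw [Units.mul_inv_eq_iff_eq_mul, e]; simp

theorem conj_mul (g : Aˣ) (a b : A) :
    g * a * (g⁻¹ : Aˣ) * (g * b * (g⁻¹ : Aˣ)) = g * (a * b) * (g⁻¹ : Aˣ) := by simp [mul_assoc]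

theorem conj_conj (g k : Aˣ) (a : A) : ((g * k : Aˣ) : A) * a * ((g * k)⁻¹ : Aˣ) =
    g * (k * a * (k⁻¹ : Aˣ)) * (g⁻¹ : Aˣ) := by simp [mul_assoc]

theorem conj_of_comm {g : Aˣ} {a : A} (h : g * a = a * g) : g * a * (g⁻¹ : Aˣ) = a := by
  rw [h, Units.mul_inv_cancel_right]

namespace PD

variable (D : PD F A E) {x y z : E} {a b α β : A} {c : F} {g h : Aˣ} {X : Subgroup Aˣ}

/-- The image of a class modulo scalars. -/
def ε (x : E) : Aˣ ⧸ sc F A := pr F (D.ρ x)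

/-- The normaliser of the Pauli group. -/
def Nm : Subgroup Aˣ := (NN D.ε).comap (pr F)

/-- The unit `1 + α`. -/
def tu (α : A) (h : α * α = -1) : Aˣ where
  val := 1 + α
  inv := (2 : F)⁻¹ • (1 - α)
  val_inv := by
    rw [mul_smul_comm, inv_smul_eq_iff₀ D.two, two_smul]; simp [mul_sub, add_mul, h]; abel
  inv_val := by
    rw [smul_mul_assoc, inv_smul_eq_iff₀ D.two, two_smul]; simp [sub_mul, mul_add, h]; abel

variable {D}

theorem pr_iff : pr F g = D.ε x ↔ D.L x g := pr_eq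

theorem conj_iff : pr F g * D.ε x * (pr F g)⁻¹ = D.ε y ↔ D.L y (g * D.ρ x * (g⁻¹ : Aˣ)) := by
  rw [ε, ← map_inv, ← map_mul, ← map_mul, pr_iff]; rfl

theorem L.conj (hb : D.L x b) (h : D.L y (g * D.ρ x * (g⁻¹ : Aˣ))) :
    D.L y (g * b * (g⁻¹ : Aˣ)) := by
  obtain ⟨c, hc, rfl⟩ := hb
  simpa using h.smul hc

theorem L.conj' (hb : D.L x b) (h : D.L y (g * b * (g⁻¹ : Aˣ))) (ha : D.L x a) :
    D.L y (g * a * (g⁻¹ : Aˣ)) := by
  obtain ⟨c, hc, rfl⟩ := ha.rel hb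
  simpa using h.smul hc

theorem Nm.ex (hg : g ∈ D.Nm) (hb : D.L x b) : ∃ y, D.L y (g * b * (g⁻¹ : Aˣ)) :=
  (NN.ex hg x).imp fun _ e => hb.conj (conj_iff.1 e)

theorem L.ne_conj (hb : D.L x b) (h : D.L y (g * b * (g⁻¹ : Aˣ))) (hx : x ≠ 0) : y ≠ 0 := by
  rintro rfl
  obtain ⟨c, hc, e⟩ := h.zero
  rw [Units.mul_inv_eq_iff_eq_mul, smul_mul_assoc, one_mul, ← mul_one (g : A), ← mul_smul_comm,
    mul_one, Units.mul_right_inj] at e
  exact hx (hb.inj (e ▸ L_one.smul hc))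

theorem tu_val (h : α * α = -1) : (D.tu α h : A) = 1 + α := rfl

theorem tu_inv (h : α * α = -1) : ((D.tu α h)⁻¹ : Aˣ) = (2 : F)⁻¹ • (1 - α) := rfl

theorem tu_cm (h : α * α = -1) (e : α * b = b * α) : D.tu α h * b = b * D.tu α h := by
  simp [tu_val, add_mul, mul_add, e]

theorem tu_an (h : α * α = -1) (e : α * b = -(b * α)) :
    D.tu α h * b * ((D.tu α h)⁻¹ : Aˣ) = α * b := by
  rw [Units.mul_inv_eq_iff_eq_mul, tu_val]
  simp [add_mul, mul_add, e, mul_assoc, h, add_comm]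

theorem L.tu (h : α * α = -1) (ha : D.L x α) (hb : D.L y b) :
    D.L (y + D.B x y • x) (D.tu α h * b * ((D.tu α h)⁻¹ : Aˣ)) := by
  rcases z01 (D.B x y) with e | e
  · simpa [e, conj_of_comm (tu_cm h (ha.cm hb e))] using hb
  · simpa [e, tu_an h (ha.an hb e), add_comm y] using ha.mul hb

theorem L.pm (h : D.L x a) (h' : D.L x b) (e : a * a = b * b) : a = b ∨ a = -b := by
  obtain ⟨c, -, rfl⟩ := h.rel h'
  rw [smul_mul_smul_comm, ← sub_eq_zero, ← one_smul F (b * b), smul_smul, mul_one, ← sub_smul,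
    smul_eq_zero, sub_eq_zero, mul_self_eq_one_iff] at e
  rcases e.resolve_right (h'.mul h').ne with rfl | rfl <;> simp

theorem sg_conj {w : A} {ζ : Aˣ} (hζ : (ζ * ζ : A) = c • 1) (hb : D.L y b)
    (h : D.L (y + x) (ζ * b * (ζ⁻¹ : Aˣ))) (hw : D.L x w) : ζ * w = D.sg (D.B y x) • (w * ζ) := by
  obtain ⟨d, -, rfl⟩ := hw.rel (xxy y x ▸ hb.mul h)
  have h1 := h.sg hb
  rw [D.symm, map_add, D.alt, zero_add] at h1
  have h2 : ζ * (ζ * b * (ζ⁻¹ : Aˣ)) = b * ζ := by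
    rw [← mul_assoc, ← mul_assoc, Units.mul_inv_eq_iff_eq_mul, mul_assoc b, hζ]; simp
  have h3 : ζ * b = ζ * b * (ζ⁻¹ : Aˣ) * ζ := by simp
  generalize ζ * b * (ζ⁻¹ : Aˣ) = u at *
  rw [mul_smul_comm, smul_mul_assoc, smul_comm, ← mul_assoc, h3, mul_assoc, h2, ← mul_assoc, h1,
    smul_mul_assoc]

variable [Finite E]

theorem mem_Nm (h : ∀ x, ∃ y, D.L y (g * D.ρ x * (g⁻¹ : Aˣ))) : g ∈ D.Nm :=
  mem_NN fun x => (h x).imp fun _ => conj_iff.2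

theorem L.mem_Nm (h : D.L x g) : g ∈ D.Nm :=
  PD.mem_Nm fun y => ⟨_, (h.mul (D.L_ρ y)).mul h.inv⟩

theorem tu_mem (h : α * α = -1) (ha : D.L x α) : D.tu α h ∈ D.Nm :=
  mem_Nm fun y => ⟨_, ha.tu h (D.L_ρ y)⟩

theorem mem_Nm_of_smul {k : Aˣ} (e : (g : A) = c • k) (hk : k ∈ D.Nm) : g ∈ D.Nm :=
  mem_Nm fun y => conj_smul e _ ▸ Nm.ex hk (D.L_ρ y)

omit [Finite E] in
theorem tid (hX : ∀ x, D.ρ x ∈ X)
    (ti : ∀ g ∈ X, ∀ x, x ≠ 0 → ∀ y, D.L y (g * D.ρ x * (g⁻¹ : Aˣ)) → g ∈ D.Nm) :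
    TID D.toSS (X.map (pr F)) D.ε where
  add x y := by rw [ε, ε, ε, ← map_mul]; exact (pr_iff.2 ((D.L_ρ x).mul (D.L_ρ y))).symm
  inj x e := (pr_iff.1 ((map_one (pr F)).trans e.symm)).inj L_one
  mem x := ⟨_, hX x, rfl⟩
  cent := by
    rintro _ ⟨g, -, rfl⟩ e
    refine (D.L_of_eigen (a := g) (have := D.nt; g.ne_zero) fun y => ?_).imp fun _ => pr_iff.2
    have := (e y).symm
    rw [ε, ← map_mul, ← map_mul, pr_eq] at this
    exact this.imp fun _ => And.right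
  isom := by
    rintro _ ⟨g, -, rfl⟩ x y x' y' e e'
    exact (D.L_ρ x).conj_B (D.L_ρ y) (conj_iff.1 e) (conj_iff.1 e')
  ti := by
    rintro _ ⟨g, hg, rfl⟩ x hx y e
    exact ti g hg x hx y (conj_iff.1 e)

end PD

theorem exists_two {S : Submodule (ZMod 2) E} (h : 2 ≤ finrank (ZMod 2) S) :
    ∃ x ∈ S, ∃ y ∈ S, x ≠ 0 ∧ y ≠ 0 ∧ x + y ≠ 0 := by
  obtain ⟨x, hx, h0⟩ := Submodule.exists_mem_ne_zero_of_ne_bot (p := S) (by
    rintro rfl; simp at h)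
  by_contra! hc
  have := Submodule.finrank_mono (show S ≤ Submodule.span _ {x} from fun y hy =>
    mem_span1.2 (or_iff_not_imp_left.2 fun e => (xy0.1 (hc x hx y hy h0 e)).symm))
  rw [finrank_span_singleton h0] at this
  omega

/-- The group contains the Pauli group and all transvections. -/
structure AB (D : PD F A E) (X : Subgroup Aˣ) (I : F) : Prop where
  II : I * I = -1
  sq : ∀ x, (D.ρ x * D.ρ x : A) = 1
  mem : ∀ (g : Aˣ) x, D.L x g → g ∈ X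
  T : ∀ x α (h : α * α = -1), D.L x α → D.tu α h ∈ X

namespace AB

open PD

variable {D : PD F A E} {X : Subgroup Aˣ} {I : F} (h : AB D X I) {x y z : E} {g : Aˣ} {r : A}
include h

theorem I_ne : I ≠ 0 := by rintro rfl; simpa using h.II

theorem Isq (e : r * r = 1) : I • r * I • r = -1 := by
  rw [smul_mul_smul_comm, h.II, e, neg_one_smul]

theorem LI (x : E) : D.L x (I • (D.ρ x : A)) := (D.L_ρ x).smul h.I_ne

variable [Finite E]

theorem move {S : Submodule (ZMod 2) E} (hx : x ∉ S) (hy : y ∉ S) (hx' : ∀ s ∈ S, D.B x s = 0)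
    (hy' : ∀ s ∈ S, D.B y s = 0) : ∃ n ∈ X, n ∈ D.Nm ∧ (∀ s ∈ S, ∀ r, D.L s r → n * r = r * n) ∧
      ∀ b, D.L x b → D.L y (n * b * (n⁻¹ : Aˣ)) := by
  have k : ∀ x y, D.B x y = 1 → (∀ s ∈ S, D.B x s = 0) → (∀ s ∈ S, D.B y s = 0) →
      ∃ n ∈ X, n ∈ D.Nm ∧ (∀ s ∈ S, ∀ r, D.L s r → n * r = r * n) ∧
      ∀ b, D.L x b → D.L y (n * b * (n⁻¹ : Aˣ)) := fun x y e hx hy =>
    ⟨_, h.T _ _ (h.Isq (h.sq _)) (h.LI (x + y)), tu_mem _ (h.LI _), fun s hs r hr =>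
      tu_cm _ ((h.LI _).cm hr (by simp [hx s hs, hy s hs])), fun b hb => by
        simpa [D.alt, D.symm y x, e, xxy] using (h.LI (x + y)).tu (h.Isq (h.sq _)) hb⟩
  obtain ⟨w, w1, w2, w3⟩ := D.sep_both hx hy
  obtain ⟨n, a1, a2, a3, a4⟩ := k x w ((D.symm _ _).trans w2) hx' w1
  obtain ⟨m, b1, b2, b3, b4⟩ := k w y w3 w1 hy'
  exact ⟨m * n, mul_mem b1 a1, mul_mem b2 a2, fun s hs r hr => by
    rw [Units.val_mul, mul_assoc, a3 s hs r hr, ← mul_assoc, b3 s hs r hr, mul_assoc],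
    fun b hb => conj_conj m n b ▸ b4 _ (a4 b hb)⟩

theorem final [Finite A] (h3 : 3 ≤ finrank (ZMod 2) E)
    (loc : ∀ x, x ≠ 0 → ∀ g ∈ X, g * D.ρ x = D.ρ x * g → g ∈ D.Nm) : X ≤ D.Nm := by
  have T := D.tid (X := X) (fun x => h.mem _ x (D.L_ρ x)) fun g hg x hx y e => by
    obtain ⟨n, a1, a2, -, a3⟩ := h.move (S := ⊥) ((D.L_ρ x).ne_conj e hx) hx (by simp) (by simp)
    have a4 := a3 _ e
    rw [← conj_conj] at a4
    refine (mul_mem_cancel_left a2).1 ?_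
    rcases a4.pm (D.L_ρ x) (by rw [conj_mul, h.sq, mul_one, Units.mul_inv]) with a5 | a5
    · exact loc x hx _ (mul_mem a1 hg) (Units.ext ((Units.mul_inv_eq_iff_eq_mul _).1 a5))
    · obtain ⟨s, hs⟩ := D.sep0 hx
      refine (mul_mem_cancel_left (D.L_ρ s).mem_Nm).1 (loc x hx _
        (mul_mem (h.mem _ s (D.L_ρ s)) (mul_mem a1 hg)) (Units.ext ?_))
      rw [Units.mul_inv_eq_iff_eq_mul] at a5
      simp only [Units.val_mul, mul_assoc] at a5 ⊢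
      rw [a5, ← mul_assoc (D.ρ x : A), D.an x s ((D.symm _ _).trans hs)]
      simp [mul_assoc]
  intro g hg
  by_contra hn
  by_cases hI : ∀ k ∈ X.map (pr F), ∀ x, x ≠ 0 → k * D.ε x * k⁻¹ ∈ NN D.ε → k ∈ NN D.ε
  · exact T.caseI hI ⟨g, hg, rfl⟩ hn h3
  push Not at hI
  obtain ⟨_, ⟨k, hk, rfl⟩, z, hz, a1, a2⟩ := hI
  have hk' : pr F k ∈ X.map (pr F) := ⟨k, hk, rfl⟩
  have T' := T.conj hk'
  have hd := fun x y => T.disj (x := x) (y := y) hk' a2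
  refine T.caseII T' hd a1 hz fun b1 z b2 b3 y a b4 b5 _ => ?_
  by_cases a0 : a = 0
  · simp [a0]
  have c0 : ∀ z, pr F k * D.ε z * (pr F k)⁻¹ = pr F (k * D.ρ z * k⁻¹) := fun z => by simp [ε]
  have c1 : ∀ z ∈ AA _ D.ε T', ((k * D.ρ z * k⁻¹ : Aˣ) * D.ρ a : A) = D.ρ a * (k * D.ρ z * k⁻¹ : Aˣ) ∨
      ((k * D.ρ z * k⁻¹ : Aˣ) * D.ρ a : A) = -(D.ρ a * (k * D.ρ z * k⁻¹ : Aˣ)) := fun z hz => by
    have := mul_inv_eq_iff_eq_mul.2 (T.AA_comm T' hd b5 hz)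
    simp only [c0, conj_iff] at this
    simpa only [Units.mul_inv_eq_iff_eq_mul, neg_mul] using
      this.pm (D.L_ρ a) (by rw [conj_mul, h.sq, mul_one, Units.mul_inv])
  obtain ⟨w, w1, w2, w3⟩ : ∃ w ∈ AA _ D.ε T', w ≠ 0 ∧
      ((k * D.ρ w * k⁻¹ : Aˣ) * D.ρ a : A) = D.ρ a * (k * D.ρ w * k⁻¹ : Aˣ) := by
    obtain ⟨u, u1, v, v1, u2, v2, u3⟩ := exists_two (S := AA _ D.ε T') (by omega)
    rcases c1 u u1 with e | e
    · exact ⟨u, u1, u2, e⟩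
    rcases c1 v v1 with e' | e'
    · exact ⟨v, v1, v2, e'⟩
    refine ⟨u + v, add_mem u1 v1, u3, ?_⟩
    obtain ⟨c, -, e''⟩ := (D.L_ρ _).rel ((D.L_ρ u).mul (D.L_ρ v))
    simp only [Units.val_mul] at e e' ⊢
    rw [e'', mul_smul_comm, smul_mul_assoc, ← conj_mul, smul_mul_assoc, mul_smul_comm, mul_assoc _ _
      (D.ρ a : A), e', mul_neg, ← mul_assoc, e, neg_mul, neg_neg, mul_assoc]
  have t2 := h.Isq (h.sq a)
  have c2 : pr F (D.tu _ t2) ∈ NN _ := T'.loc ⟨_, h.T _ _ t2 (h.LI a), rfl⟩ w2 (by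
    simp only [c0, ← map_mul]
    exact congrArg _ (Units.ext (tu_cm _ (by rw [smul_mul_assoc, ← w3, mul_smul_comm]))))
  have c3 := sg_conj (D := D) (c := 1) (ζ := k * D.ρ z * k⁻¹) (by
    simp only [Units.val_mul]; rw [conj_mul, h.sq]; simp) (D.L_ρ y) (conj_iff.1 (c0 z ▸ b4)) (D.L_ρ a)
  by_contra c4
  rw [zne.1 c4, sg, if_neg one_ne_zero, neg_one_smul] at c3
  obtain ⟨v, hv⟩ := NN.ex (inv_mem c2) z
  refine a0 (hd a (v + z) ?_).1
  simp only [T'.add, ← hv]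
  rw [c0, inv_inv, ← map_inv, ← map_mul, ← map_mul, ← map_mul, eq_comm, pr_iff]
  convert (h.LI a).neg using 1
  have c5 : ((k * D.ρ z * k⁻¹ : Aˣ) * (k * D.ρ z * k⁻¹ : Aˣ) : A) = 1 := by
    simp only [Units.val_mul]; rw [conj_mul, h.sq]; simp
  generalize k * D.ρ z * k⁻¹ = ζ at *
  simp only [Units.val_mul, mul_assoc]
  rw [Units.inv_mul_eq_iff_eq_mul, tu_val, ← mul_assoc, mul_add, mul_smul_comm, c3]
  simp [add_mul, mul_assoc, c5, h.sq, smul_smul, h.II]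

end AB

end H12.C6
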