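import Cfsg.Agent.H12.C6c

/-!
# Normalisers of Pauli groups: centralisers of involutions
-/

set_option autoImplicit false
set_option maxHeartbeats 400000

namespace H12.C6

open Module

variable {F A E : Type*} [Field F] [Ring A] [Algebra F A] [AddCommGroup E] [Module (ZMod 2) E]

theorem inv_loc {k m : Aˣ} {e : A} (h : k * e = m * e) (h2 : m * e = e * m) :
    (k⁻¹ : Aˣ) * e = (m⁻¹ : Aˣ) * e := by
  rw [Units.inv_mul_eq_iff_eq_mul, ← (Commute.units_inv_left h2).eq.symm, ← mul_assoc, h, h2,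
    Units.mul_inv_cancel_right]

theorem conj_loc {k m : Aˣ} {e c : A} (h : k * e = m * e) (h2 : m * e = e * m) (h3 : c * e = e * c) :
    k * c * (k⁻¹ : Aˣ) * e = m * c * (m⁻¹ : Aˣ) * e := by
  have h4 := (Commute.units_inv_left h2).eq
  rw [mul_assoc, inv_loc h h2, h4, ← mul_assoc, mul_assoc _ c, h3, ← mul_assoc, h, mul_assoc _ e,
    ← h3, mul_assoc _ _ e, h4]
  simp only [mul_assoc]

theorem comm_sub {a r : A} (h : a * r = r * a) : a * (1 - r) = (1 - r) * a := by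
  simp [mul_sub, sub_mul, h]

theorem conj_comm {g : Aˣ} {a r : A} (h : g * r = r * g) (h' : a * r = r * a) :
    g * a * (g⁻¹ : Aˣ) * r = r * (g * a * (g⁻¹ : Aˣ)) :=
  ((Commute.mul_left h h').mul_left (Commute.units_inv_left h)).eq

namespace PD

variable {D : PD F A E} {x y y' z : E} {a b b' r r' u : A} {c : F} {g : Aˣ} {X : Subgroup Aˣ}

theorem L.sub_ne (hr : D.L x r) (hx : x ≠ 0) : 1 - r ≠ 0 := fun e =>
  hx (hr.inj (sub_eq_zero.1 e ▸ L_one))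

theorem L.comm_of (hr : D.L x r) (hx : x ≠ 0) (r2 : r * r = 1) (hb : D.L y b) (hu : u * r = r * u)
    (e : u * (1 - r) = b * (1 - r)) : b * r = r * b := by
  refine hb.cm hr (zne'.1 fun h => hr.sub_ne hx ((hb.isUnit.mul_right_eq_zero).1 (D.two_smul_eq ?_)))
  have h1 : r * (1 - r) = -(1 - r) := by simp [mul_sub, r2]
  have h2 : r * (b * (1 - r)) = b * (1 - r) := by
    rw [← mul_assoc, hr.an hb ((D.symm _ _).trans h), neg_mul, mul_assoc, h1, mul_neg, neg_neg]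
  nth_rewrite 1 [← h2]
  rw [← e, ← mul_assoc, ← hu, mul_assoc, h1, mul_neg]

theorem L.sq_of (hr : D.L x r) (hx : x ≠ 0) (hb : D.L y b) (hu : u * r = r * u)
    (e : u * (1 - r) = b * (1 - r)) : u * u = c • 1 → b * b = c • 1 := fun h => by
  obtain ⟨d, -, h'⟩ := hb.sq
  have : (d - c) • (1 - r) = 0 := by
    rw [sub_smul, sub_eq_zero, ← one_mul (1 - r), ← smul_mul_assoc, ← smul_mul_assoc, ← h, ← h',
      mul_assoc, ← e, comm_sub hu, ← mul_assoc, ← e, mul_assoc, mul_assoc, comm_sub hu]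
  rw [h', sub_eq_zero.1 ((smul_eq_zero.1 this).resolve_right (hr.sub_ne hx))]

theorem glue (hr : D.L x r) (hx : x ≠ 0) (r2 : r * r = 1) (hu : u * r = r * u) (u2 : u * u = c • 1)
    (hb : D.L y b) (hb' : D.L y' b') (e : u * (1 - r) = b * (1 - r))
    (e' : u * (1 + r) = b' * (1 + r)) (h : y + y' = 0 ∨ y + y' = x) : D.L y u ∨ D.L (y + x) u := by
  obtain ⟨b', hb', e'⟩ : ∃ b', D.L y b' ∧ u * (1 + r) = b' * (1 + r) := by
    rcases h with h | h
    · exact ⟨b', xy0.1 h ▸ hb', e'⟩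
    · exact ⟨b' * r, by convert hb'.mul hr using 1; rw [← h, add_comm y, xxy],
        by rw [e', mul_assoc, mul_add r, r2, mul_one, add_comm]⟩
  have h1 : (2 : F) • u = b * (1 - r) + b' * (1 + r) := by rw [← e, ← e', two_smul]; noncomm_ring
  rw [← sub_neg_eq_add] at e'
  rcases hb'.pm hb ((hr.neg.sq_of hx hb' (by simp [hu]) e' u2).trans
    (hr.sq_of hx hb hu e u2).symm) with rfl | rfl
  · exact .inl (smul_right_injective A D.two (show (2 : F) • b' = (2 : F) • u by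
      rw [h1, two_smul]; noncomm_ring) ▸ hb)
  · exact .inr (smul_right_injective A D.two (show (2 : F) • -(b * r) = (2 : F) • u by
      rw [h1, two_smul]; noncomm_ring) ▸ (hb.mul hr).neg)

variable [Finite E]

theorem eig {S : Submodule (ZMod 2) E} {e : A} (h0 : e ≠ 0)
    (hS : ∀ w, (∀ s ∈ S, D.B w s = 0) → D.ρ w * e = e * D.ρ w) (hb : D.L y b) (hb' : D.L y' b')
    (h : b * e = b' * e) : y + y' ∈ S := by
  by_contra hn
  obtain ⟨w, w1, w2⟩ := D.sep hn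
  have k : ∀ {y b}, D.L y b → D.ρ w * (b * e) = D.sg (D.B w y) • (b * e * D.ρ w) := fun hb => by
    rw [← mul_assoc, (D.L_ρ w).sg hb, smul_mul_assoc, mul_assoc, hS w w1, mul_assoc]
  have := (k hb).symm.trans (h ▸ k hb')
  rw [smul_left_injective F (by
    rwa [ne_eq, Units.mul_left_eq_zero, hb.isUnit.mul_right_eq_zero]) |>.eq_iff] at this
  simp [sg_inj this, zbb] at w2

theorem eig1 (hr : D.L x r) (hx : x ≠ 0) (hb : D.L y b) (hb' : D.L y' b')
    (h : b * (1 - r) = b' * (1 - r)) : y + y' = 0 ∨ y + y' = x :=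
  mem_span1.1 (eig (hr.sub_ne hx) (fun w hw => comm_sub ((D.L_ρ w).cm hr
    (hw x (mem_span1.2 (.inr rfl))))) hb hb' h)

theorem sub_mul_ne (hr : D.L x r) (hr' : D.L z r') (hx : x ≠ 0) (hz : z ≠ 0) (hxz : x ≠ z) :
    (1 - r) * (1 - r') ≠ 0 := fun e => by
  obtain ⟨w, w1, w2⟩ := D.sep1 hx hxz
  have h1 : D.ρ w * ((1 - r) * (1 - r')) = (1 + r) * (1 - r') * D.ρ w := by
    rw [mul_assoc, ← comm_sub ((D.L_ρ w).cm hr' w1), ← mul_assoc, ← mul_assoc]
    simp [mul_sub, add_mul, (D.L_ρ w).an hr w2]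
  rw [e, mul_zero, eq_comm, Units.mul_left_eq_zero] at h1
  refine hr'.sub_ne hz (D.two_smul_eq ?_)
  rw [← add_eq_zero_iff_eq_neg, ← add_zero (0 : A)]
  nth_rewrite 1 [← e]
  rw [← h1]; noncomm_ring

theorem eig2 (hr : D.L x r) (hr' : D.L z r') (hx : x ≠ 0) (hz : z ≠ 0) (hxz : x ≠ z) (hb : D.L y b)
    (hb' : D.L y' b') (h : b * ((1 - r) * (1 - r')) = b' * ((1 - r) * (1 - r'))) :
    y + y' ∈ Submodule.span (ZMod 2) {x, z} :=
  eig (sub_mul_ne hr hr' hx hz hxz) (fun w hw => (Commute.mul_right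
    (comm_sub ((D.L_ρ w).cm hr (hw x (mem_span2.2 (by simp)))))
    (comm_sub ((D.L_ρ w).cm hr' (hw z (mem_span2.2 (by simp)))))).eq) hb hb' h

theorem nm_of_two (hx : x ≠ 0) (hxz : x ≠ z)
    (h : ∀ w, D.B w x = 0 → ∃ y, D.L y (g * D.ρ w * (g⁻¹ : Aˣ)))
    (h' : ∀ w, D.B w z = 0 → ∃ y, D.L y (g * D.ρ w * (g⁻¹ : Aˣ))) : g ∈ D.Nm := by
  obtain ⟨w, w1, w2⟩ := D.sep1 hx hxz
  refine mem_Nm fun v => ?_
  rcases z01 (D.B v x) with e | e
  · exact h v e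
  obtain ⟨a, ha⟩ := h (v + w) (by simp [e, w2, z11])
  obtain ⟨b, hb⟩ := h' w w1
  have := (D.L_ρ (v + w)).mul (D.L_ρ w)
  rw [yxx] at this
  exact ⟨_, this.conj' (conj_mul g _ _ ▸ ha.mul hb) (D.L_ρ v)⟩

/-- Reduction to the centraliser of two elements. -/
theorem nm_of_move (hX : ∀ x, D.ρ x ∈ X) (hr : D.L x r) (hz : z ≠ 0) (hxz : z ≠ x)
    (h : ∀ g ∈ X, g * r = r * g → g * D.ρ z = D.ρ z * g → g ∈ D.Nm) (hg : g ∈ X)
    (e : g * r = r * g) {n : Aˣ} (n1 : n ∈ X) (n2 : n ∈ D.Nm) (n3 : n * r = r * n)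
    (n4 : D.L z (n * (g * D.ρ z * (g⁻¹ : Aˣ)) * (n⁻¹ : Aˣ))) : g ∈ D.Nm := by
  rw [← conj_conj] at n4
  refine (mul_mem_cancel_left n2).1 ?_
  have n5 : ((n * g : Aˣ) * r : A) = r * (n * g : Aˣ) := (Commute.mul_left n3 e).eq
  obtain ⟨c, -, hc⟩ := (D.L_ρ z).sq
  rcases n4.pm (D.L_ρ z) (by rw [conj_mul, hc, mul_smul_comm, smul_mul_assoc, mul_one,
    Units.mul_inv]) with a5 | a5
  · exact h _ (mul_mem n1 hg) n5 (Units.ext ((Units.mul_inv_eq_iff_eq_mul _).1 a5))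
  · obtain ⟨s, s1, s2⟩ := D.sep1 hz hxz
    refine (mul_mem_cancel_left (D.L_ρ s).mem_Nm).1 (h _ (mul_mem (hX s) (mul_mem n1 hg))
      (Commute.mul_left ((D.L_ρ s).cm hr s1) n5).eq (Units.ext ?_))
    rw [Units.mul_inv_eq_iff_eq_mul] at a5
    simp only [Units.val_mul, mul_assoc] at a5 ⊢
    rw [a5, ← mul_assoc (D.ρ z : A), D.an z s ((D.symm _ _).trans s2)]
    simp [mul_assoc]

variable (D) in
/-- `g` normalises the Pauli group on the negative eigenspace of `r`. -/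
def Loc (g : Aˣ) (r : A) : Prop :=
  ∀ x a, D.L x a → a * r = r * a → ∃ y b, D.L y b ∧ g * a * (g⁻¹ : Aˣ) * (1 - r) = b * (1 - r)

variable (D X) in
/-- All centralisers of involutions normalise the Pauli group on the eigenspaces. -/
def HL : Prop := ∀ x, x ≠ 0 → ∀ r, D.L x r → r * r = 1 → ∀ g ∈ X, g * r = r * g → D.Loc g r

variable (D X) in
/-- A controlled element of order three. -/
def Cfg : Prop := ∃ x r a α b β, x ≠ 0 ∧ D.L x r ∧ r * r = 1 ∧ D.L a α ∧ α * α = -1 ∧ D.L b β ∧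
  β * β = -1 ∧ D.B a x = 0 ∧ D.B b x = 0 ∧ D.B a b = 1 ∧ ∃ k ∈ X, (k : A) * (1 + r) = 1 + r ∧
    (k : A) * (1 - r) = (2 : F)⁻¹ • ((1 + β) * (1 - α)) * (1 - r)

theorem two_point {k m : Aˣ} (hr : D.L x r) (hr' : D.L z r') (hx : x ≠ 0) (hz : z ≠ 0)
    (hxz : x ≠ z) (e : D.B x z = 0) (k1 : k * (1 + r) = 1 + r) (k2 : k * (1 - r) = m * (1 - r))
    (m1 : m * r = r * m) (hk : D.Loc k r') (ha : D.L y a) (a1 : D.B y x = 0) (a2 : D.B y z = 0)
    (ha' : D.L y' (m * a * (m⁻¹ : Aˣ))) : y + y' ∈ Submodule.span (ZMod 2) {x, z} := by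
  obtain ⟨w, b, hb, e1⟩ := hk y a ha (ha.cm hr' a2)
  have c1 := ha.cm hr a1
  have c2 := hr.cm hr' e
  have h1 := eig2 hr.neg hr' hx hz hxz ha hb (by
    have := conj_loc (k := k) (m := 1) (e := 1 - -r) (c := a) (by simpa using k1) (by simp)
      (comm_sub (by simp [c1]))
    simp only [Units.val_one, inv_one, one_mul, mul_one] at this
    rw [← mul_assoc, ← this, mul_assoc, ← comm_sub (a := 1 - r')
      (by rw [mul_neg, neg_mul, comm_sub c2]), ← mul_assoc, e1, mul_assoc])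
  have h2 := eig2 hr hr' hx hz hxz ha' hb (by
    rw [← mul_assoc, ← conj_loc k2 (comm_sub m1) (comm_sub c1), mul_assoc,
      ← comm_sub (a := 1 - r') (by simp [sub_mul, mul_sub, c2]), ← mul_assoc, e1, mul_assoc])
  convert add_mem h1 h2 using 1
  rw [add_add_add_comm, xx, add_zero]

omit [Finite E] in
variable (D) in
include D in
theorem comm_of_ctrl {k m : A} (k1 : k * (1 + r) = 1 + r) (k2 : k * (1 - r) = m * (1 - r))
    (h1 : r * a = a * r) (h2 : m * a = a * m) : k * a = a * k := by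
  have : (2 : F) • k = 1 + r + m * (1 - r) := by rw [← k2, ← k1, two_smul]; noncomm_ring
  refine smul_right_injective A D.two ?_
  change (2 : F) • _ = (2 : F) • _
  rw [← smul_mul_assoc, ← mul_smul_comm, this]
  exact (((Commute.one_left a).add_left h1).add_left
    (Commute.mul_left h2 (comm_sub h1.symm).symm)).eq

end PD

namespace AB

open PD

variable {D : PD F A E} {X : Subgroup Aˣ} {I : F} (h : AB D X I) {x y z : E} {g : Aˣ} {r : A}
  [Finite E] (hL : D.HL X) (h4 : 5 ≤ finrank (ZMod 2) E ∨ ¬ D.Cfg X)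
include h hL h4

theorem loc2 (hr : D.L x r) (hx : x ≠ 0) (r2 : r * r = 1) (hg : g ∈ X) (e : g * r = r * g)
    (hy : D.B y x = 0) : ∃ y', D.L y' (g * D.ρ y * (g⁻¹ : Aˣ)) := by
  by_cases h0 : y = 0 ∨ y = x
  · refine ⟨y, ?_⟩
    rcases h0 with rfl | rfl
    · exact L_one.conj' (by simpa using L_one) (D.L_ρ 0)
    · exact hr.conj' (by rwa [conj_of_comm e]) (D.L_ρ y)
  have c0 := (D.L_ρ y).cm hr hy
  have c1 := conj_comm e c0
  have u2 : g * D.ρ y * (g⁻¹ : Aˣ) * (g * D.ρ y * (g⁻¹ : Aˣ)) = (1 : F) • (1 : A) := by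
    rw [conj_mul, h.sq]; simp
  obtain ⟨b, β, b1, b2⟩ := hL x hx r hr r2 g hg e y _ (D.L_ρ y) c0
  obtain ⟨a, α, a1, a2⟩ := hL x hx _ hr.neg (by simpa) g hg (by simp [e]) y _ (D.L_ρ y) (by simp [c0])
  have a3 := h.Isq ((hr.neg.sq_of hx a1 (by simp [c1]) a2 u2).trans (one_smul _ _))
  have b3 := h.Isq ((hr.sq_of hx b1 c1 b2 u2).trans (one_smul _ _))
  have a4 := neg_injective (by simpa using hr.neg.comm_of hx (by simpa) a1 (by simp [c1]) a2 :
    -(α * r) = -(r * α))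
  have b4 := hr.comm_of hx r2 b1 c1 b2
  have n0 : ∀ {r b β}, D.L x r → r * r = 1 → g * r = r * g → D.L b β →
      g * D.ρ y * (g⁻¹ : Aˣ) * (1 - r) = β * (1 - r) → ¬ (b = 0 ∨ b = x) := by
    intro r b β hr r2 e b1 b2 h1
    obtain ⟨c, hc, e1⟩ : ∃ c : F, c ≠ 0 ∧ β * (1 - r) = c • (1 - r) := by
      rcases h1 with rfl | rfl
      · exact b1.zero.imp fun c e => ⟨e.1, by simp [e.2]⟩
      · obtain ⟨c, hc, rfl⟩ := b1.rel hr
        exact ⟨-c, neg_ne_zero.2 hc, by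
          rw [smul_mul_assoc, mul_sub, r2, neg_smul, ← smul_neg, neg_sub, mul_one]⟩
    refine h0 (add_zero y ▸ eig1 hr hx (D.L_ρ y) (L_one.smul hc) ?_)
    rw [← Units.mul_right_inj g, ← Units.mul_left_inj g⁻¹, ← mul_assoc, mul_assoc _ (1 - r),
      ← (comm_sub (Commute.units_inv_left e).eq), ← mul_assoc, b2, e1, smul_mul_assoc, one_mul,
      mul_smul_comm, smul_mul_assoc, conj_of_comm (comm_sub e)]
  have a5 := n0 hr.neg (by simpa) (by simp [e]) a1 a2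
  have b5 := n0 hr r2 e b1 b2
  rw [sub_neg_eq_add] at a2
  suffices b + a = 0 ∨ b + a = x from
    (glue hr hx r2 c1 u2 b1 a1 b2 a2 this).elim (fun e => ⟨_, e⟩) fun e => ⟨_, e⟩
  by_contra hn
  replace a1 := a1.smul h.I_ne
  replace b1 := b1.smul h.I_ne
  replace a4 : I • α * r = r * I • α := by simp [a4]
  replace b4 : I • β * r = r * I • β := by simp [b4]
  have t0 := h.Isq (h.sq y)
  obtain ⟨k, hk, k0⟩ : ∃ k ∈ X, k = g * D.tu _ t0 * g⁻¹ * (D.tu _ a3)⁻¹ := ⟨_, mul_mem (mul_mem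
    (mul_mem hg (h.T _ _ t0 (h.LI y))) (inv_mem hg)) (inv_mem (h.T _ _ a3 a1)), rfl⟩
  have k3 : ∀ {e γ : A}, I • α * e = e * I • α → g * D.ρ y * (g⁻¹ : Aˣ) * e = γ * e →
      k * e = (1 + I • γ) * ((D.tu _ a3)⁻¹ : Aˣ) * e := fun {e γ} e1 e2 => by
    have := (Commute.units_inv_left (tu_cm (D := D) a3 e1)).eq
    simp only [k0, Units.val_mul, tu_val]
    rw [mul_assoc _ _ e, mul_assoc _ _ e, this, ← mul_assoc, ← mul_assoc]
    simp [mul_add, add_mul, e2]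
  have k1 : k * (1 + r) = 1 + r := by
    rw [k3 (by simp only [mul_add, add_mul, a4, mul_one, one_mul]) a2, ← tu_val (D := D) a3, Units.mul_inv,
      one_mul]
  have k2 : k * (1 - r) = (D.tu _ b3 * (D.tu _ a3)⁻¹ : Aˣ) * (1 - r) := k3 (comm_sub a4) b2
  have m0 : ∀ {c}, I • α * c = c * I • α → I • β * c = c * I • β →
      ((D.tu _ b3 * (D.tu _ a3)⁻¹ : Aˣ) : A) * c = c * (D.tu _ b3 * (D.tu _ a3)⁻¹ : Aˣ) :=
    fun e1 e2 => (Commute.mul_left (tu_cm b3 e2) (Commute.units_inv_left (tu_cm a3 e1))).eq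
  have m2 : ∀ w, D.L (w + D.B a w • a + D.B b (w + D.B a w • a) • b)
      ((D.tu _ b3 * (D.tu _ a3)⁻¹ : Aˣ) * D.ρ w * ((D.tu _ b3 * (D.tu _ a3)⁻¹)⁻¹ : Aˣ)) := fun w => by
    have a6 : -(I • α) * -(I • α) = -1 := by rwa [neg_mul_neg]
    rw [conj_conj, conj_smul (g := (D.tu _ a3)⁻¹) (k := D.tu _ a6) (c := (2 : F)⁻¹)
      (by rw [tu_inv, tu_val, sub_eq_add_neg])]
    exact b1.tu b3 (a1.neg.tu a6 (D.L_ρ w))
  have a6 := a1.of_cm hr a4
  have b6 := b1.of_cm hr b4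
  have key : ∀ z, z ≠ 0 → x ≠ z → D.B x z = 0 → D.B a z = 0 → D.B b z = 0 → ∀ w, D.B w x = 0 →
      D.B w z = 0 → D.B a w • a + D.B b (w + D.B a w • a) • b ∈ Submodule.span (ZMod 2) {x, z} :=
    fun z z0 z1 z2 z3 z4 w w1 w2 => by
      have := two_point hr (D.L_ρ z) hx z0 z1 z2 k1 k2 (m0 a4 b4) (hL z z0 _ (D.L_ρ z) (h.sq z) k hk
        (D.comm_of_ctrl k1 k2 (hr.cm (D.L_ρ z) z2)
          (m0 (a1.cm (D.L_ρ z) z3) (b1.cm (D.L_ρ z) z4)))) (D.L_ρ w) w1 w2 (m2 w)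
      rwa [add_assoc w, xxy] at this
  simp only [not_or] at a5 b5 hn
  rcases z01 (D.B a b) with e0 | e0
  · have b7 : b ∉ Submodule.span (ZMod 2) {x, a} := by
      simp only [mem_span2, not_or]
      exact ⟨b5.1, b5.2, mt xy0.2 hn.1, fun e => hn.2 (by rw [e, yxx])⟩
    obtain ⟨w, w1, w2, w3⟩ := D.sep2 b7
    have := key a a5.1 (Ne.symm a5.2) ((D.symm _ _).trans a6) (D.alt a) ((D.symm _ _).trans e0) w w1 w2
    simp only [D.symm _ w, w2, w3, zero_smul, add_zero, zero_add, one_smul] at this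
    exact b7 this
  refine h4.elim (fun h5 => ?_) fun h5 => h5 ⟨x, r, a, _, b, _, hx, hr, r2, a1, a3, b1, b3, a6, b6,
    e0, k, hk, k1, by rw [k2, Units.val_mul, tu_val, tu_inv, mul_smul_comm]⟩
  obtain ⟨z, z1, z2⟩ := D.exists_perp (.span _ {x, a, b}) (.span _ {x}) (by
    have := rk3 x a b
    have := rk1 x
    omega)
  rw [mem_span1, not_or] at z2
  have z3 := z1 x (Submodule.subset_span (by simp))
  have z4 := z1 a (Submodule.subset_span (by simp))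
  have z5 := z1 b (Submodule.subset_span (by simp))
  have k : ∀ v ∈ Submodule.span (ZMod 2) {x, z}, D.B b v = 0 := fun v hv => by
    rcases mem_span2.1 hv with rfl | rfl | rfl | rfl <;> simp [*]
  obtain ⟨w, w1, w2, w3⟩ := D.sep2 (x := a) fun e => by simpa [D.symm b a, e0] using k a e
  simpa [D.symm _ w, w3, D.symm b a, e0, D.alt] using k _ (key z z2.1 (Ne.symm z2.2) z3 z4 z5 w w1 w2)

theorem step [Finite A] (h3 : 3 ≤ finrank (ZMod 2) E) : X ≤ D.Nm := by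
  refine h.final h3 fun x hx g hg e => ?_
  obtain ⟨z, z1, z2⟩ := D.exists_perp (.span _ {x}) (.span _ {x}) (by
    rw [finrank_span_singleton hx]; omega)
  have z3 := z1 x (mem_span1.2 (.inr rfl))
  have z4 := not_or.1 (mt mem_span1.2 z2)
  have e' := congrArg Units.val e
  obtain ⟨y, hy⟩ := h.loc2 hL h4 (D.L_ρ x) hx (h.sq x) hg e' ((D.symm _ _).trans z3)
  have y1 : D.L x (g * D.ρ x * (g⁻¹ : Aˣ)) := by rw [conj_of_comm e']; exact D.L_ρ x
  obtain ⟨n, n1, n2, n3, n4⟩ := h.move (S := .span _ {x}) (x := y) (y := z) (by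
    rw [mem_span1, not_or]
    refine ⟨(D.L_ρ z).ne_conj hy z4.1, ?_⟩
    rintro rfl
    obtain ⟨c, hc, e⟩ := hy.rel y1
    rw [← smul_mul_assoc, ← mul_smul_comm, Units.mul_left_inj, Units.mul_right_inj] at e
    exact z4.2 ((D.L_ρ z).inj ⟨c, hc, e⟩)) z2 (fun s hs => by
      rcases mem_span1.1 hs with rfl | rfl
      · simp
      · rw [(D.L_ρ z).conj_B (D.L_ρ s) hy y1, D.symm, z3]) fun s hs => (D.symm _ _).trans (z1 s hs)
  exact nm_of_move (fun x => h.mem _ x (D.L_ρ x)) (D.L_ρ x) z4.1 z4.2 (fun g hg e e' => nm_of_two hx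
    (Ne.symm z4.2) (fun w => h.loc2 hL h4 (D.L_ρ x) hx (h.sq x) hg e)
    fun w => h.loc2 hL h4 (D.L_ρ z) z4.1 (h.sq z) hg (congrArg Units.val e')) hg e' n1 n2
    (n3 x (mem_span1.2 (.inr rfl)) _ (D.L_ρ x)) (n4 _ hy)

end AB

end H12.C6
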