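import Cfsg.Agent.H12.OF1

/-!
# Three reflections in an orthogonal group
-/

set_option autoImplicit false
set_option maxHeartbeats 400000

namespace H12

open Module H11 QuadraticMap H27

variable {F : Type*} [Field F] {V : Type*} [AddCommGroup V] [Module F V]
  {Q : QuadraticForm F V} {Y : Subgroup (V ≃ₗ[F] V)}

variable (Q) in
/-- A hyperbolic pair and an orthogonal non-singular vector. -/
structure H3 (u f w : V) : Prop where
  two : (2 : F) ≠ 0
  qu : Q u = 0
  qf : Q f = 0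
  uf : polar Q u f = 1
  uw : polar Q u w = 0
  fw : polar Q f w = 0
  qw : Q w ≠ 0

variable (Q) in
/-- The traceless matrix attached to a vector. -/
noncomputable def ph (u f w : V) : V →ₗ[F] Matrix (Fin 2) (Fin 2) F where
  toFun x := !![polar Q w x / 2, polar Q f x; Q w * polar Q u x, -(polar Q w x / 2)]
  map_add' x y := by
    ext i j
    fin_cases i <;> fin_cases j <;> simp [polar_add_right] <;> ring
  map_smul' c x := by
    ext i j
    fin_cases i <;> fin_cases j <;> simp [polar_smul_right] <;> ring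

variable (Q) in
/-- The vector attached to a traceless matrix. -/
noncomputable def th (u f w : V) : Matrix (Fin 2) (Fin 2) F →ₗ[F] V where
  toFun T := T 0 1 • u + (T 1 0 / Q w) • f + (T 0 0 / Q w) • w
  map_add' x y := by simp only [Matrix.add_apply]; module
  map_smul' c x := by simp only [Matrix.smul_apply, RingHom.id_apply, smul_eq_mul]; module

variable {u f w : V}

theorem ph00 (x : V) : ph Q u f w x 0 0 = polar Q w x / 2 := rfl
theorem ph01 (x : V) : ph Q u f w x 0 1 = polar Q f x := rfl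
theorem ph10 (x : V) : ph Q u f w x 1 0 = Q w * polar Q u x := rfl
theorem ph11 (x : V) : ph Q u f w x 1 1 = -(polar Q w x / 2) := rfl
theorem th_apply (T : Matrix (Fin 2) (Fin 2) F) :
    th Q u f w T = T 0 1 • u + (T 1 0 / Q w) • f + (T 0 0 / Q w) • w := rfl

theorem ph_tr (x : V) : ph Q u f w x 1 1 = -ph Q u f w x 0 0 := rfl

variable (Q u f w) in
/-- `y` acts on the three-space by conjugation with `M`, up to sign. -/
def Rel3 (M : GL (Fin 2) F) (y : V ≃ₗ[F] V) (ε : F) : Prop :=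
  ∀ x, y x = x - th Q u f w (ph Q u f w x) +
    ε • th Q u f w ((M : Matrix _ _ F) * ph Q u f w x * ((M⁻¹ : GL (Fin 2) F) : Matrix _ _ F))

namespace H3

variable (h : H3 Q u f w)
include h

theorem polar_th (T : Matrix (Fin 2) (Fin 2) F) (y : V) : Q w * polar Q (th Q u f w T) y =
    2 * T 0 0 * ph Q u f w y 0 0 + T 0 1 * ph Q u f w y 1 0 + T 1 0 * ph Q u f w y 0 1 := by
  have := h.two
  have := h.qw
  simp only [th_apply, ph00, ph01, ph10, polar_add_left, polar_smul_left, smul_eq_mul]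
  field_simp
  ring

theorem ph_th {T : Matrix (Fin 2) (Fin 2) F} (hT : T 1 1 = -T 0 0) :
    ph Q u f w (th Q u f w T) = T := by
  have := h.two
  have := h.qw
  ext i j
  fin_cases i <;> fin_cases j <;>
    simp [th_apply, ph00, ph01, ph10, ph11, polar_add_right, polar_smul_right, polar_self', h.qu,
      h.qf, h.uf, h.uw, h.fw, polar_comm Q w u, polar_comm Q w f, polar_comm Q f u, hT] <;>
    field_simp

theorem Q_th (T : Matrix (Fin 2) (Fin 2) F) :
    Q w * Q (th Q u f w T) = T 0 0 * T 0 0 + T 0 1 * T 1 0 := by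
  have := h.qw
  simp only [th_apply, Q_add, Q_smul, polar_add_left, polar_smul_left, polar_smul_right, h.qu,
    h.qf, h.uf, h.uw, h.fw, smul_eq_mul]
  field_simp
  ring

theorem rel_mul {M M' : GL (Fin 2) F} {y y' : V ≃ₗ[F] V} {ε ε' : F} (h1 : Rel3 Q u f w M y ε)
    (h2 : Rel3 Q u f w M' y' ε') : Rel3 Q u f w (M * M') (y * y') (ε * ε') := by
  intro x
  have e : ph Q u f w (y' x) = ε' • ((M' : Matrix _ _ F) * ph Q u f w x *
      ((M'⁻¹ : GL (Fin 2) F) : Matrix _ _ F)) := by
    have := Matrix.trace_units_conj M' (ph Q u f w x)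
    rw [Matrix.trace_fin_two, Matrix.trace_fin_two, ph_tr, add_neg_cancel] at this
    rw [h2, map_add, map_sub, h.ph_th (ph_tr x), map_smul,
      h.ph_th (eq_neg_of_add_eq_zero_right this), sub_self, zero_add]
  rw [LinearEquiv.mul_apply, h1, e, h2]
  simp only [map_smul, mul_inv_rev, Units.val_mul, Matrix.mul_smul, Matrix.smul_mul, mul_assoc]
  module

theorem rel_refl {x : V} (h1 : th Q u f w (ph Q u f w x) = x) (h2 : Q x ≠ 0) {X : GL (Fin 2) F}
    (hX : (X : Matrix _ _ F) = ph Q u f w x) : Rel3 Q u f w X (refl Q x).1 (-1) := by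
  intro t
  have e1 := h.polar_th (ph Q u f w x) t
  have e2 := h.Q_th (ph Q u f w x)
  rw [h1] at e1 e2
  have e : (X : Matrix _ _ F) * ph Q u f w t * ((X⁻¹ : GL (Fin 2) F) : Matrix _ _ F) =
      ((Q x)⁻¹ * polar Q x t) • ph Q u f w x - ph Q u f w t := by
    rw [Units.mul_inv_eq_iff_eq_mul, hX]
    have e3 : (Q x)⁻¹ * polar Q x t * (Q w * Q x) = Q w * polar Q x t := by field_simp
    rw [e1, e2] at e3
    generalize (Q x)⁻¹ * polar Q x t = c at e3
    ext i j
    fin_cases i <;> fin_cases j <;> simp [Matrix.mul_apply, Fin.sum_univ_two, ph_tr]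
    · linear_combination -e3
    · ring
    · ring
    · linear_combination -e3
  rw [e, map_sub, map_smul, h1, refl_apply]
  module

theorem exists_ei {M : GL (Fin 2) F} {y : V ≃ₗ[F] V} (h1 : Rel3 Q u f w M y 1) (hy : y ∈ Y)
    {s a b c : F} (hs : s ≠ 0) (h2 : a * a + b * c = 0) (h3 : b ≠ 0 ∨ c ≠ 0)
    (e1 : M 0 0 = s * (1 + a)) (e2 : M 0 1 = s * b) (e3 : M 1 0 = s * c)
    (e4 : M 1 1 = s * (1 - a)) : ∃ u₀ w₀, u₀ ≠ 0 ∧ Q w₀ ≠ 0 ∧ Ei Q Y u₀ w₀ := by
  have hw := h.qw
  have h0 := h.two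
  have eM : (M : Matrix _ _ F) = !![s * (1 + a), s * b; s * c, s * (1 - a)] := by
    ext i j
    fin_cases i <;> fin_cases j <;> simp [e1, e2, e3, e4]
  have eI : ((M⁻¹ : GL (Fin 2) F) : Matrix _ _ F) =
      !![(1 - a) / s, -b / s; -c / s, (1 + a) / s] := by
    refine Units.inv_eq_of_mul_eq_one_right ?_
    rw [eM]
    ext i j
    fin_cases i <;> fin_cases j <;> simp [Matrix.mul_apply, Fin.sum_univ_two] <;> field_simp
    · linear_combination -h2
    · ring
    · ring
    · linear_combination -h2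
  obtain ⟨W, W1, W2, W3, W4⟩ : ∃ W : Matrix (Fin 2) (Fin 2) F, W 1 1 = -W 0 0 ∧
      W 0 0 * W 0 0 + W 0 1 * W 1 0 = Q w * Q w ∧ 2 * a * W 0 0 + b * W 1 0 + c * W 0 1 = 0 ∧
      ∀ T : Matrix (Fin 2) (Fin 2) F, T 1 1 = -T 0 0 →
        (M : Matrix _ _ F) * T * ((M⁻¹ : GL (Fin 2) F) : Matrix _ _ F) = T +
          ((2 * W 0 0 * T 0 0 + W 0 1 * T 1 0 + W 1 0 * T 0 1) / Q w) • !![a, b; c, -a] -
          ((2 * a * T 0 0 + b * T 1 0 + c * T 0 1) / Q w) • W -
          (2 * a * T 0 0 + b * T 1 0 + c * T 0 1) • !![a, b; c, -a] := by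
    rw [eM, eI]
    rcases h3 with hb | hc
    · obtain rfl : c = -(a * a) / b := by field_simp; linear_combination h2
      refine ⟨!![-Q w, 0; 2 * a * Q w / b, Q w], by simp, by simp, by simp; field_simp; ring,
        fun T hT => ?_⟩
      ext i j
      fin_cases i <;> fin_cases j <;>
        simp [Matrix.mul_apply, Fin.sum_univ_two, Matrix.vecMul, dotProduct, hT] <;>
        field_simp <;> ring
    · obtain rfl : b = -(a * a) / c := by field_simp; linear_combination h2
      refine ⟨!![Q w, -2 * a * Q w / c; 0, -Q w], by simp, by simp, by simp; field_simp; ring,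
        fun T hT => ?_⟩
      ext i j
      fin_cases i <;> fin_cases j <;>
        simp [Matrix.mul_apply, Fin.sum_univ_two, Matrix.vecMul, dotProduct, hT] <;>
        field_simp <;> ring
  have q1 : Q (th Q u f w !![a, b; c, -a]) = 0 :=
    mul_left_cancel₀ hw ((h.Q_th _).trans (by simpa using h2))
  have q2 : Q (th Q u f w W) = Q w := mul_left_cancel₀ hw ((h.Q_th _).trans W2)
  have q3 : ∀ x, polar Q (th Q u f w !![a, b; c, -a]) x = (2 * a * ph Q u f w x 0 0 +
      b * ph Q u f w x 1 0 + c * ph Q u f w x 0 1) / Q w := fun x => by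
    rw [eq_div_iff hw, mul_comm, h.polar_th]; simp
  have q4 : polar Q (th Q u f w !![a, b; c, -a]) (th Q u f w W) = 0 := by
    rw [q3, h.ph_th W1, W3, zero_div]
  refine ⟨_, _, fun e => ?_, q2.trans_ne hw, q1, q4, ?_⟩
  · have := h.ph_th (T := !![a, b; c, -a]) (by simp)
    rw [e, map_zero] at this
    exact h3.elim (fun hb => hb (congrFun₂ this 0 1).symm) fun hc => hc (congrFun₂ this 1 0).symm
  · convert hy using 1
    ext x
    rw [eich_apply q1 q4, h1, W4 _ (ph_tr x), q2, q3,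
      (eq_div_iff hw).2 ((mul_comm _ _).trans (h.polar_th W x)), mul_div_cancel₀ _ hw]
    simp only [map_add, map_sub, map_smul]
    module

theorem tri [Fintype F] {a b c : V} (ha : th Q u f w (ph Q u f w a) = a)
    (hb : th Q u f w (ph Q u f w b) = b) (hc : th Q u f w (ph Q u f w c) = c) (qa : Q a ≠ 0)
    (qb : Q b ≠ 0) (qc : Q c ≠ 0) (ra : (refl Q a).1 ∈ Y) (rb : (refl Q b).1 ∈ Y)
    (rc : (refl Q c).1 ∈ Y) (hab : polar Q a b = 0) (hac : polar Q a c ≠ 0)
    (hbc : polar Q b c ≠ 0)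
    (hn : 4 * Q a * Q b * Q c - Q a * polar Q b c ^ 2 - Q b * polar Q a c ^ 2 ≠ 0) :
    (∃ u₀ w₀, u₀ ≠ 0 ∧ Q w₀ ≠ 0 ∧ Ei Q Y u₀ w₀) ∨ polar Q a c ^ 2 = Q a * Q c ∨
      polar Q b c ^ 2 = Q b * Q c ∨
      Q a * polar Q b c ^ 2 + Q b * polar Q a c ^ 2 = 3 * Q a * Q b * Q c := by
  have hw := h.qw
  obtain ⟨p, hp⟩ := CharP.exists F
  have hp' : Fact p.Prime := ⟨CharP.char_is_prime F p⟩
  have lift : ∀ x, th Q u f w (ph Q u f w x) = x → Q x ≠ 0 → ∃ X : GL (Fin 2) F,
      (X : Matrix _ _ F) = ph Q u f w x ∧ tc X = 0 ∧ dt X = -(Q w * Q x) ∧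
      ∀ y, ∀ Z : GL (Fin 2) F, (Z : Matrix _ _ F) = ph Q u f w y →
        tc (X * Z) = Q w * polar Q x y := by
    intro x h1 h2
    have e := h.Q_th (ph Q u f w x)
    rw [h1] at e
    obtain ⟨X, hX⟩ : ∃ X : GL (Fin 2) F, (X : Matrix _ _ F) = ph Q u f w x :=
      ⟨Matrix.GeneralLinearGroup.mkOfDetNeZero (ph Q u f w x) (by
        rw [Matrix.det_fin_two, ph_tr]
        exact fun e' => mul_ne_zero hw h2 (by linear_combination e - e')), rfl⟩
    refine ⟨X, hX, by rw [tc, hX, ph_tr, add_neg_cancel], by rw [dt, hX, ph_tr, e]; ring,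
      fun y Z hZ => ?_⟩
    have e' := h.polar_th (ph Q u f w x) y
    rw [h1] at e'
    rw [e', tc, gl_mul_apply, gl_mul_apply, hZ, hX, ph_tr, ph_tr]
    ring
  obtain ⟨A, A1, A2, A3, A4⟩ := lift a ha qa
  obtain ⟨B, B1, B2, B3, B4⟩ := lift b hb qb
  obtain ⟨C, C1, C2, C3, -⟩ := lift c hc qc
  have eab := A4 b B B1
  have eac := A4 c C C1
  have ebc := B4 c C C1
  rw [hab, mul_zero] at eab
  have gram : tc (A * B * C) ^ 2 = -(Q w ^ 3 *
      (4 * Q a * Q b * Q c - Q a * polar Q b c ^ 2 - Q b * polar Q a c ^ 2)) := by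
    have : tc (A * B * C) ^ 2 = 4 * dt A * dt B * dt C - dt A * tc (B * C) ^ 2 -
        dt B * tc (A * C) ^ 2 := by
      simp only [tc, dt, gl_mul_apply] at A2 B2 C2 eab ⊢
      rw [eq_neg_of_add_eq_zero_right A2, eq_neg_of_add_eq_zero_right B2,
        eq_neg_of_add_eq_zero_right C2] at *
      linear_combination ((C 0 0 * C 0 0 + C 0 1 * C 1 0) *
        (2 * A 0 0 * B 0 0 + A 0 1 * B 1 0 + A 1 0 * B 0 1) -
        (2 * A 0 0 * C 0 0 + A 0 1 * C 1 0 + A 1 0 * C 0 1) *
        (2 * B 0 0 * C 0 0 + B 0 1 * C 1 0 + B 1 0 * C 0 1)) * eab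
    rw [this, A3, B3, C3, eac, ebc]; ring
  by_cases hd : p ∣ Nat.card (Subgroup.closure {(pgm A : PG F), pgm B, pgm C})
  · left
    obtain ⟨⟨g, hg⟩, e⟩ := exists_prime_orderOf_dvd_card' p hd
    replace e : orderOf g = p := (Subgroup.orderOf_coe _).trans e
    obtain ⟨M, y, ε, rfl, hy, hε, r⟩ : ∃ M y ε, pgm M = g ∧ y ∈ Y ∧ ε * ε = 1 ∧
        Rel3 Q u f w M y ε := by
      clear e
      have k : ∀ x, ∀ X : GL (Fin 2) F, th Q u f w (ph Q u f w x) = x → Q x ≠ 0 →
          (refl Q x).1 ∈ Y → (X : Matrix _ _ F) = ph Q u f w x → tc X = 0 →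
          (∃ M y ε, pgm M = (pgm X : PG F) ∧ y ∈ Y ∧ ε * ε = 1 ∧ Rel3 Q u f w M y ε) ∧
          (pgm X : PG F)⁻¹ = pgm X := fun x X h1 h2 h3 h4 h5 =>
        ⟨⟨X, _, -1, rfl, h3, by simp, h.rel_refl h1 h2 h4⟩, inv_eq_of_mul_eq_one_left (by
          rw [← map_mul, pg_mk_eq_one_iff]
          simp only [tc, gl_mul_apply] at h5 ⊢
          exact ⟨by linear_combination X 0 1 * h5, by linear_combination X 1 0 * h5,
            by linear_combination (X 0 0 - X 1 1) * h5⟩)⟩
      have kA := k a A ha qa ra A1 A2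
      have kB := k b B hb qb rb B1 B2
      have kC := k c C hc qc rc C1 C2
      induction hg using Subgroup.closure_induction'' with
      | mem x hx => rcases hx with rfl | rfl | rfl; exacts [kA.1, kB.1, kC.1]
      | inv_mem x hx =>
        rcases hx with rfl | rfl | rfl
        exacts [kA.2.symm ▸ kA.1, kB.2.symm ▸ kB.1, kC.2.symm ▸ kC.1]
      | one => exact ⟨1, 1, 1, map_one _, one_mem _, one_mul _, fun x => by simp⟩
      | mul x y _ _ hx hy =>
        obtain ⟨M, y, ε, rfl, h1, h2, h3⟩ := hx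
        obtain ⟨M', y', ε', rfl, h1', h2', h3'⟩ := hy
        exact ⟨M * M', y * y', ε * ε', map_mul _ _ _, mul_mem h1 h1',
          by linear_combination ε' * ε' * h2 + h2', h.rel_mul h3 h3'⟩
    have r2 := h.rel_mul r r
    rw [hε] at r2
    obtain ⟨s, a, b, c, k1, k2, k3, k4, k5, k6, k7⟩ := exists_nilp p (M := M * M) (by
      rw [map_mul, ← pow_two, ← pow_mul, mul_comm, pow_mul, ← e, pow_orderOf_eq_one, one_pow]) (by
      rw [map_mul, ← pow_two, ne_eq, ← orderOf_dvd_iff_pow_eq_one, e,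
        Nat.prime_dvd_prime_iff_eq hp'.out Nat.prime_two]
      rintro rfl
      exact h.two (CharP.cast_eq_zero F 2))
    exact h.exists_ei r2 (mul_mem hy hy) k1 k2 k3 k4 k5 k6 k7
  right
  have := pg_tri h.two p hd A2 B2 C2 (Subgroup.subset_closure (by simp))
    (Subgroup.subset_closure (by simp)) (Subgroup.subset_closure (by simp)) eab
    (eac ▸ mul_ne_zero hw hac) (ebc ▸ mul_ne_zero hw hbc) fun e => by
      rw [e] at gram
      exact mul_ne_zero (pow_ne_zero 3 hw) hn (by linear_combination gram)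
  simp only [dt_mul, A3, B3, C3, eac, ebc, gram] at this
  rcases this with e | e | e
  · exact Or.inl (mul_left_cancel₀ (pow_ne_zero 2 hw) (by linear_combination e))
  · exact Or.inr (Or.inl (mul_left_cancel₀ (pow_ne_zero 2 hw) (by linear_combination e)))
  · exact Or.inr (Or.inr (mul_left_cancel₀ (pow_ne_zero 3 hw) (by linear_combination e)))

end H3

/-- Three reflections generate a group containing an Eichler transformation, or a reflection
group of type `A₃`, `B₃` or `H₃`. -/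
theorem refl_tri [Fintype F] (h2 : (2 : F) ≠ 0) {a b c : V} (qa : Q a ≠ 0)
    (qb : Q b ≠ 0) (qc : Q c ≠ 0) (ra : (refl Q a).1 ∈ Y) (rb : (refl Q b).1 ∈ Y)
    (rc : (refl Q c).1 ∈ Y) (hab : polar Q a b = 0) (hac : polar Q a c ≠ 0)
    (hbc : polar Q b c ≠ 0)
    (hn : 4 * Q a * Q b * Q c - Q a * polar Q b c ^ 2 - Q b * polar Q a c ^ 2 ≠ 0) :
    (∃ u₀ w₀, u₀ ≠ 0 ∧ Q w₀ ≠ 0 ∧ Ei Q Y u₀ w₀) ∨ polar Q a c ^ 2 = Q a * Q c ∨
      polar Q b c ^ 2 = Q b * Q c ∨
      Q a * polar Q b c ^ 2 + Q b * polar Q a c ^ 2 = 3 * Q a * Q b * Q c := by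
  obtain ⟨n, e, n1, n2, n3⟩ : ∃ n, c = (polar Q a c / (2 * Q a)) • a + (polar Q b c / (2 * Q b)) • b
      + n ∧ polar Q a n = 0 ∧ polar Q b n = 0 ∧ Q n ≠ 0 := by
    refine ⟨c - (polar Q a c / (2 * Q a)) • a - (polar Q b c / (2 * Q b)) • b, by abel, ?_, ?_, ?_⟩
    · simp only [polar_sub_right, polar_smul_right, polar_self', hab, smul_eq_mul]
      field_simp; ring
    · simp only [polar_sub_right, polar_smul_right, polar_self', polar_comm Q b a, hab, smul_eq_mul]
      field_simp; ring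
    · simp only [Q_sub, Q_smul, polar_sub_left, polar_smul_left, polar_smul_right, hab,
        polar_comm Q c, smul_eq_mul]
      intro e
      field_simp at e
      exact hn (by linear_combination e)
  obtain ⟨x, y, e'⟩ := exists_sq_add_sq h2 qa qb (-Q n)
  have h4 : (4 : F) ≠ 0 := by rw [show (4 : F) = 2 * 2 by norm_num]; exact mul_ne_zero h2 h2
  have hQ : Q n = -(x * x * Q a + y * y * Q b) := by rw [e', neg_neg]
  have h : H3 Q (x • a + y • b + n) ((-(4 * Q n))⁻¹ • (x • a + y • b - n))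
      ((y * Q b) • a - (x * Q a) • b) := by
    refine ⟨h2, ?_, ?_, ?_, ?_, ?_, ?_⟩ <;>
      simp only [Q_add, Q_sub, Q_smul, polar_add_left, polar_sub_left, polar_smul_left,
        polar_add_right, polar_sub_right, polar_smul_right, polar_self', hab, n1, n2,
        polar_comm Q b a, polar_comm Q n a, polar_comm Q n b, smul_eq_mul]
    · linear_combination e'
    · linear_combination (-(4 * Q n))⁻¹ * (-(4 * Q n))⁻¹ * e'
    · field_simp
      linear_combination (-2) * e'
    · ring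
    · ring
    · exact fun e => mul_ne_zero (mul_ne_zero qa qb) n3 (by linear_combination Q a * Q b * e' - e)
  have hw : Q ((y * Q b) • a - (x * Q a) • b) = -(Q a * Q b * Q n) := by
    simp only [Q_sub, Q_smul, polar_smul_left, polar_smul_right, hab, smul_eq_mul]
    linear_combination Q a * Q b * e'
  have k : ∀ r s t : F, th Q (x • a + y • b + n) ((-(4 * Q n))⁻¹ • (x • a + y • b - n))
      ((y * Q b) • a - (x * Q a) • b) (ph Q (x • a + y • b + n)
      ((-(4 * Q n))⁻¹ • (x • a + y • b - n)) ((y * Q b) • a - (x * Q a) • b)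
      (r • a + s • b + t • n)) = r • a + s • b + t • n := by
    intro r s t
    simp only [th_apply, ph00, ph01, ph10, hw, polar_add_left, polar_sub_left, polar_smul_left,
      polar_add_right, polar_smul_right, polar_self', hab, n1, n2,
      polar_comm Q b a, polar_comm Q n a, polar_comm Q n b, smul_eq_mul]
    match_scalars <;> field_simp
    · linear_combination (-8 * r * Q a) * e'
    · linear_combination (-8 * s * Q b) * e'
    · ring
  refine h.tri ?_ ?_ ?_ qa qb qc ra rb rc hab hac hbc hn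
  · simpa using k 1 0 0
  · simpa using k 0 1 0
  · have := k (polar Q a c / (2 * Q a)) (polar Q b c / (2 * Q b)) 1
    rwa [one_smul, ← e] at this

end H12
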