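import Cfsg.Agent.H12.RQ4
import Cfsg.Agent.H12.OF2
import Cfsg.Agent.H12.ReflClass

/-!
# Groups containing reflections: extension and enlargement
-/

set_option autoImplicit false
set_option maxHeartbeats 400000

namespace H12

open Module H11 QuadraticMap

variable {F : Type*} [Field F] {V : Type*} [AddCommGroup V] [Module F V]
  {Q : QuadraticForm F V} {X Y : Subgroup (V ≃ₗ[F] V)}

local notation "𝓒" => CForm.ofQuad Q

theorem rr_of_mem {x y : V} (hx : Q x ≠ 0) (hy : Q y ≠ 0) (h1 : (refl Q x).1 ∈ Y)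
    (h2 : (refl Q y).1 ∈ Y) : RR Q Y x y := ⟨hx, hy, mul_mem h1 h2⟩

theorem RR.refl_mem {x y : V} (h : RR Q Y x y) (h2 : (refl Q y).1 ∈ Y) : (refl Q x).1 ∈ Y := by
  have := mul_mem h.2.2 h2
  rwa [← Subgroup.coe_mul, mul_assoc, refl_mul_self, mul_one] at this

theorem refl_conj_mem {x : V} (h : (refl Q x).1 ∈ Y) {k : V ≃ₗ[F] V} (hk : k ∈ Y)
    (hk' : k ∈ orth Q) : (refl Q (k x)).1 ∈ Y := by
  rw [← show _ = refl Q (k x) from refl_conj ⟨k, hk'⟩ x]
  exact mul_mem (mul_mem hk h) (inv_mem hk)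

theorem exists_natCast [Fintype F] (hp : (Fintype.card F).Prime) (c : F) : ∃ n : ℕ, c = n := by
  haveI := Fact.mk hp
  obtain ⟨x, rfl⟩ := (ZMod.ringEquivOfPrime F hp rfl).surjective c
  exact ⟨x.val, by rw [← map_natCast (ZMod.ringEquivOfPrime F hp rfl), ZMod.natCast_zmod_val]⟩

theorem Ei.mem_RS [Fintype F] (hp : (Fintype.card F).Prime) {u w : V} (h : Ei Q X u w) :
    w ∈ RS Q X u := fun hu c => by
  obtain ⟨n, rfl⟩ := exists_natCast hp c
  induction n with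
  | zero => simpa using ei_zero_right hu
  | succ n ih => rw [Nat.cast_succ, add_smul, one_smul]; exact ih.add h

theorem RS.of_smul {u w : V} {c : F} (h : w ∈ RS Q X (c • u)) (hc : c ≠ 0) : w ∈ RS Q X u := by
  intro hu d
  have h1 := h (by rw [Q_smul, hu, mul_zero]) (c⁻¹ * d)
  have h2 := h1.2.1
  rw [polar_smul_left, smul_eq_mul, mul_eq_zero, or_iff_right hc] at h2
  have := h1.smul_right hu h2
  rwa [smul_smul, mul_inv_cancel_left₀ hc] at this

variable [FiniteDimensional F V] [Fintype F]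

/-- Adjoining the reflections of one class. -/
theorem exists_ext (hQ : QNondeg Q) (hne : NotExc F V) (hX : X ≤ OmegaV Q) {a : V} (ha : Q a ≠ 0) :
    ∃ Y ≤ orth Q, (∀ x, RR Q X x a → (refl Q x).1 ∈ Y) ∧ (∀ k ∈ X, RR Q X (k a) a → k ∈ Y) ∧
      ∀ y ∈ Y, y ∈ OmegaV Q → y ∈ X := by
  let s : Set (V ≃ₗ[F] V) := {g | (∃ x, RR Q X x a ∧ g = (refl Q x).1) ∨ g ∈ X ∧ RR Q X (g a) a}
  have hs : ∀ g ∈ s, g⁻¹ ∈ s := by
    rintro g (⟨x, h, rfl⟩ | ⟨h1, h2⟩)
    · exact Or.inl ⟨x, h, by rw [← Subgroup.coe_inv, refl_inv]⟩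
    · refine Or.inr ⟨inv_mem h1, ?_⟩
      have := h2.symm.conj (inv_mem h1) (inv_mem (OmegaV_le (hX h1)))
      rwa [inv_apply_apply] at this
  have hr : (refl Q a).1 * (refl Q a).1 = 1 := by rw [← Subgroup.coe_mul, refl_mul_self]; rfl
  have key : ∀ g ∈ s, ∀ y, (y ∈ X ∨ (refl Q a).1 * y ∈ X) →
      g * y ∈ X ∨ (refl Q a).1 * (g * y) ∈ X := by
    rintro g (⟨x, h, rfl⟩ | ⟨h1, h2⟩) y (hy | hy)
    · exact Or.inr (by rw [← mul_assoc]; exact mul_mem h.symm.2.2 hy)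
    · refine Or.inl ?_
      convert mul_mem h.2.2 hy using 1
      rw [Subgroup.coe_mul, mul_assoc, ← mul_assoc (refl Q a).1, hr, one_mul]
    · exact Or.inl (mul_mem h1 hy)
    · refine Or.inr ?_
      have e := congrArg Subtype.val (refl_conj ⟨g, OmegaV_le (hX h1)⟩ a)
      convert mul_mem (mul_mem h2.symm.2.2 h1) hy using 1
      rw [Subgroup.coe_mul, ← e]
      simp only [Subgroup.coe_mul, Subgroup.coe_inv, mul_assoc, inv_mul_cancel_left]
      rw [← mul_assoc (refl Q a).1 (refl Q a).1, hr, one_mul]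
  refine ⟨Subgroup.closure s, (Subgroup.closure_le _).2 ?_,
    fun x h => Subgroup.subset_closure (Or.inl ⟨x, h, rfl⟩),
    fun k h1 h2 => Subgroup.subset_closure (Or.inr ⟨h1, h2⟩), fun y hy hy' => ?_⟩
  · rintro g (⟨x, h, rfl⟩ | ⟨h1, -⟩)
    exacts [(refl Q x).2, OmegaV_le (hX h1)]
  have : y ∈ X ∨ (refl Q a).1 * y ∈ X := by
    clear hy'
    induction hy using Subgroup.closure_induction_left with
    | one => exact Or.inl (one_mem _)
    | mul_left g hg y _ ih => exact key g hg y ih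
    | inv_mul_cancel g hg y _ ih => exact key _ (hs g hg) y ih
  refine this.resolve_right fun h => ?_
  have h1 := mul_mem (hX h) (inv_mem hy')
  rw [mul_inv_cancel_right] at h1
  have := ((mem_commutator_iff hQ hne _).1 (mem_OmegaV.1 h1)).1
  rw [dickson_refl hQ hne ha] at this
  exact absurd this (by decide)

theorem subG_sup_le (hQ : QNondeg Q) (hne : NotExc F V) {S W : Submodule F V}
    (hS : (𝓒).NondegOn S) (h3 : 3 ≤ finrank F S) (hSX : subG 𝓒 (OmegaV Q) S ≤ X)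
    (hW : (𝓒).NondegOn W) (hSW : W ≤ (𝓒).perp S) (hne' : NotExc F ↥(S ⊔ W)) {u : V} (hu : u ∈ S)
    (hu0 : u ≠ 0) (hu1 : Q u = 0) (h : W ≤ RS Q X u) : subG 𝓒 (OmegaV Q) (S ⊔ W) ≤ X := by
  have h4 : Fu Q X (S ⊔ W) u := by
    intro w hw' hw
    obtain ⟨s, hs, r, hr, rfl⟩ := Submodule.mem_sup.1 hw'
    rw [polar_add_right, (RS.ei (h hr) hu1).2.1, add_zero] at hw
    exact (ei_of_subG hQ hne hSX hu hs hu1 hw).add (RS.ei (h hr) hu1)
  obtain ⟨f, hf, h5⟩ := exists_hypPair_sub hQ hS hu hu0 hu1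
  obtain ⟨b, hb, hb0, h6, h7, -⟩ := exists_ns_perp_hyp hQ hS h3 hu hf h5
  have hk := ei_of_subG hQ hne hSX hf hb h5.right h7
  have l := @Submodule.mem_sup_left _ _ _ _ _ S W
  refine h4.subG_le hQ hne (nondegOn_sup hS hW hSW) hne'
    (h3.trans (Submodule.finrank_mono le_sup_left)) (h4.conj_ei hk (l hf) (l hb)) (l hu)
    (hk.mem_of_conj (l hf) (l hb) (l hu)) hu1 ((orth_Q _ _).trans hu1) ?_
  rw [eich_apply h5.right h7]
  simp only [polar_add_right, polar_sub_right, polar_smul_right, polar_self', hu1, h6,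
    polar_comm Q b u, polar_comm Q f u, show polar Q u f = 1 from h5.pair]
  simpa using hb0

/-- The enlargement step over a prime field. -/
theorem RR.enlarge (hQ : QNondeg Q) (h2 : (2 : F) ≠ 0) (hp : (Fintype.card F).Prime)
    {S : Submodule F V} (hS : (𝓒).NondegOn S) (h3 : 3 ≤ finrank F S)
    (h4 : 4 ≤ finrank F S ∨ 4 ≤ Fintype.card F) (hSX : subG 𝓒 (OmegaV Q) S ≤ X) {a s n s' n' : V}
    (ha : a ∈ S) (hs : s ∈ S) (hs' : s' ∈ S) (hn : n ∈ (𝓒).perp S) (hn' : n' ∈ (𝓒).perp S)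
    (hs0 : s ≠ 0) (hs0' : s' ≠ 0) (h : RR Q X (s + n) a) (h' : RR Q X (s' + n') a)
    (e : Q (s + n) = Q a) (e' : Q (s' + n') = Q a) (hb : polar Q n n' ≠ 0) :
    ∃ S', S < S' ∧ (𝓒).NondegOn S' ∧ subG 𝓒 (OmegaV Q) S' ≤ X := by
  have hne : NotExc F V := notExc_of_two_ne_zero h2
  have hq : Fintype.card F ≠ 2 := fun e => by
    have := odd_card_iff.2 h2
    rw [e] at this
    exact absurd this (by decide)
  rcases h4 with h4 | h4
  · exact enlarge_of_eiSub hQ hne hS h4 hSX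
      (h.mem_eiSub hQ hne hS h4 hSX hs hs0 hn (Or.inl ha) (Or.inr (Or.inl hq)))
      (h'.mem_eiSub hQ hne hS h4 hSX hs' hs0' hn' (Or.inl ha) (Or.inr (Or.inl hq))) hb
  have hy : ∀ y ∈ S, Q y = Q a → RR Q X y a := fun y hy e =>
    (rr_subG hQ hy ha (e.trans_ne h.2.1) h.2.1 ⟨Q a, by rw [e]⟩).mono hSX
  have A : ∀ s ∈ S, ∀ n ∈ (𝓒).perp S, s ≠ 0 → RR Q X (s + n) a → Q (s + n) = Q a → Q n ≠ 0 →
      ∃ S', S < S' ∧ (𝓒).NondegOn S' ∧ subG 𝓒 (OmegaV Q) S' ≤ X := by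
    intro s hs n hn hs0 h e h0
    obtain ⟨u, hu, hu0, hu1, h5⟩ := h.mem_RS_of_ne hQ h2 h4 hS h3 hSX hs hs0 hn (Or.inl ha)
      (fun y h1 h2 => hy y h1 (h2.trans e)) h0
    have h6 := (Submodule.span_singleton_le_iff_mem _ _).2 hn
    exact ⟨_, lt_sup_of_not_mem (Submodule.mem_span_singleton_self n) fun h => h0 (by
      rw [hS.eq_zero h hn, map_zero]), nondegOn_sup hS (nondegOn_singleton h2 h0) h6,
      subG_sup_le hQ hne hS h3 hSX (nondegOn_singleton h2 h0) h6 (notExc_of_two_ne_zero h2) hu hu0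
        hu1 ((Submodule.span_singleton_le_iff_mem _ _).2 h5)⟩
  by_cases h0 : Q n = 0
  swap
  · exact A s hs n hn hs0 h e h0
  by_cases h0' : Q n' = 0
  swap
  · exact A s' hs' n' hn' hs0' h' e' h0'
  obtain ⟨u, hu, hu0, hu1⟩ := iso3_quad Q S h3
  have B : ∀ s ∈ S, ∀ n ∈ (𝓒).perp S, s ≠ 0 → RR Q X (s + n) a → Q (s + n) = Q a → Q n = 0 →
      n ∈ RS Q X u := by
    intro s hs n hn hs0 h e h0
    have o : ∀ y ∈ S, polar Q n y = 0 := (𝓒).mem_perp'.1 hn
    rw [Q_add, h0, polar_comm, o s hs, add_zero, add_zero] at e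
    have h5 := (h.trans (hy s hs e).symm).ei h0 (o s hs)
    have h6 : S ≤ RS Q X n := le_of_eich_inv hQ hS h3 (fun v hv b hb e1 e2 w hw => by
      have hk := eich_mem_subG hQ hne hv hb e1 e2
      have := RS.conj hw (hSX hk) hk.2.1
      rwa [hk.2.2 n hn] at this) (RS.of_smul (h5.mem_RS hp) (inv_ne_zero (e.trans_ne h.2.1)))
      fun h => hs0 (hS.eq_zero hs h)
    exact ((RS.ei (h6 hu) h0).swap hu1).mem_RS hp
  have h5 := (nondegOn_pair_of_det (Q := Q) (u := n) (w := n') (by simpa [h0])).1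
  have h6 : Submodule.span F {n, n'} ≤ (𝓒).perp S :=
    Submodule.span_le.2 (by rintro _ (rfl | rfl); exacts [hn, hn'])
  exact ⟨_, lt_sup_of_not_mem (Submodule.subset_span (Or.inl rfl)) fun h => hb (by
    rw [hS.eq_zero h hn, polar_zero_left]), nondegOn_sup hS h5 h6,
    subG_sup_le hQ hne hS h3 hSX h5 h6 (notExc_of_two_ne_zero h2) hu hu0 hu1
      (Submodule.span_le.2 (by
        rintro _ (rfl | rfl); exacts [B s hs _ hn hs0 h e h0, B s' hs' _ hn' hs0' h' e' h0']))⟩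

end H12
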