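import Cfsg.Agent.H12.OF3
import Cfsg.Agent.H12.OF4

/-!
# Orthogonal frames: groups generated by reflections
-/

set_option autoImplicit false
set_option maxHeartbeats 400000

namespace H12

open Module H11 QuadraticMap Equiv

variable {F : Type*} [Field F] {V : Type*} [AddCommGroup V] [Module F V]
  {Q : QuadraticForm F V} {Y : Subgroup (V ≃ₗ[F] V)} {κ : Type*} {e : κ → V} {δ : F}

local notation "𝓒" => CForm.ofQuad Q

variable (Q e δ) in
/-- An orthogonal basis of vectors of the same norm. -/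
structure OFrame : Prop where
  two : (2 : F) ≠ 0
  nd : QNondeg Q
  ne : δ ≠ 0
  norm : ∀ i, Q (e i) = δ
  orth : ∀ i j, i ≠ j → polar Q (e i) (e j) = 0
  eq_zero : ∀ x, (∀ i, polar Q (e i) x = 0) → x = 0

variable (Q e δ) in
/-- The coordinates with respect to a frame. -/
def co : V →ₗ[F] κ → F where
  toFun x i := (2 * δ)⁻¹ * polar Q (e i) x
  map_add' x y := by ext i; simp [mul_add]
  map_smul' c x := by ext i; simp; ring

theorem co_apply (x : V) (i : κ) : co Q e δ x i = (2 * δ)⁻¹ * polar Q (e i) x := rfl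

local notation "𝐜" => co Q e δ

theorem finrank_sup_of_perp [FiniteDimensional F V] {S W : Submodule F V} (hS : (𝓒).NondegOn S)
    (h : W ≤ (𝓒).perp S) : finrank F ↥(S ⊔ W) = finrank F S + finrank F W := by
  rw [← Submodule.finrank_sup_add_finrank_inf_eq,
    (((𝓒).nondegOn_iff.1 hS).mono_right h).eq_bot, finrank_bot, add_zero]

theorem subG_start [FiniteDimensional F V] [Fintype F] (hQ : QNondeg Q) (h2 : (2 : F) ≠ 0)
    {u a : V} {W : Submodule F V} (hu : Q u = 0) (ha : Q a ≠ 0) (hua : polar Q u a ≠ 0)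
    (ra : (refl Q a).1 ∈ Y) (hW : (𝓒).NondegOn W) (h0 : W ≠ ⊥) (h1 : ∀ w ∈ W, polar Q a w = 0)
    (h3 : W ≤ RS Q Y u) : ∃ S, (𝓒).NondegOn S ∧ finrank F S = 2 + finrank F W ∧ a ∈ S ∧
      subG 𝓒 (OmegaV Q) S ≤ Y := by
  obtain ⟨h4, h5⟩ := nondegOn_pair_of_det (Q := Q) (u := u) (w := a) (by simpa [hu])
  have h6 : W ≤ (𝓒).perp (Submodule.span F {u, a}) := fun w hw =>
    (𝓒).mem_perp_pair.2 ⟨(RS.ei (h3 hw) hu).2.1, h1 w hw⟩
  have h7 := finrank_sup_of_perp h4 h6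
  have l : ∀ x ∈ ({u, a} : Set V), x ∈ Submodule.span F {u, a} ⊔ W := fun x hx =>
    Submodule.mem_sup_left (Submodule.subset_span hx)
  have lu := l u (by simp)
  have la := l a (by simp)
  have h8 : Fu Q Y (Submodule.span F {u, a} ⊔ W) u := by
    intro y hy h
    obtain ⟨s, hs, w, hw, rfl⟩ := Submodule.mem_sup.1 hy
    obtain ⟨α, β, rfl⟩ := Submodule.mem_span_pair.1 hs
    have := RS.ei (h3 hw) hu
    simp only [polar_add_right, polar_smul_right, polar_self', hu, this.2.1, smul_eq_mul, mul_zero,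
      add_zero, zero_add, mul_eq_zero, hua, or_false] at h
    rw [h, zero_smul, add_zero]
    exact (ei_smul_self hu α).add this
  have h9 : ∀ x ∈ Submodule.span F {u, a} ⊔ W, (refl Q a).1 x ∈ Submodule.span F {u, a} ⊔ W :=
    fun x hx => by rw [refl_apply]; exact sub_mem hx (Submodule.smul_mem _ _ la)
  have : 0 < finrank F W := Submodule.one_le_finrank_iff.2 h0
  refine ⟨_, nondegOn_sup h4 hW h6, by rw [h7, h5], la, h8.subG_le hQ (notExc_of_two_ne_zero h2)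
    (nondegOn_sup h4 hW h6) (notExc_of_two_ne_zero h2) (by omega)
    (h8.conj ra (refl Q a).2 (by rwa [← Subgroup.coe_inv, refl_inv])) lu (h9 u lu) hu
    ((orth_Q _ _).trans hu) ?_⟩
  rw [refl_apply, polar_sub_right, polar_smul_right, polar_self', hu, polar_comm Q a]
  simpa [ha] using hua

namespace OFrame

variable (h : OFrame Q e δ)
include h

theorem ne2 : 2 * δ ≠ 0 := mul_ne_zero h.two h.ne

theorem ne0 (i : κ) : Q (e i) ≠ 0 := (h.norm i).trans_ne h.ne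

theorem polar_e (x : V) (i : κ) : polar Q (e i) x = 2 * δ * 𝐜 x i := by
  rw [co_apply, mul_inv_cancel_left₀ h.ne2]

theorem co_inj {x y : V} (H : 𝐜 x = 𝐜 y) : x = y :=
  sub_eq_zero.1 (h.eq_zero _ fun i => by rw [h.polar_e, map_sub, H, sub_self]; simp)

theorem refl_e (i : κ) (x : V) : (refl Q (e i)).1 x = x - (2 * 𝐜 x i) • e i := by
  rw [refl_apply, h.polar_e, h.norm]
  have := h.ne
  congr 2; field_simp

variable [DecidableEq κ]

theorem co_e (i : κ) : 𝐜 (e i) = sE i := by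
  ext j
  rw [co_apply, sE_apply]
  split_ifs with e
  · rw [e, polar_self', h.norm, inv_mul_cancel₀ h.ne2]
  · rw [h.orth _ _ e, mul_zero]

theorem co_refl_e (i : κ) (x : V) (l : κ) :
    𝐜 ((refl Q (e i)).1 x) l = if l = i then -𝐜 x l else 𝐜 x l := by
  rw [h.refl_e, map_sub, map_smul, h.co_e]
  split_ifs with e
  · subst e; simp; ring
  · simp [sE_ne e]

theorem Q_sub {a b : κ} (hab : a ≠ b) : Q (e a - e b) = 2 * δ := by
  rw [H12.Q_sub, h.norm, h.norm, h.orth _ _ hab]; ring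

theorem co_swap {a b : κ} (hab : a ≠ b) (x : V) (l : κ) :
    𝐜 ((refl Q (e a - e b)).1 x) l = 𝐜 x (swap a b l) := by
  rw [refl_apply, h.Q_sub hab, polar_sub_left, h.polar_e, h.polar_e, ← mul_sub,
    inv_mul_cancel_left₀ h.ne2, map_sub, map_smul, map_sub, h.co_e, h.co_e, swap_apply_def]
  split_ifs with e e'
  · subst e; simp [sE_ne hab]
  · subst e'; simp [sE_ne hab.symm]
  · simp [sE_ne e, sE_ne e']

variable [Fintype κ]

theorem sum_co (x : V) : ∑ i, 𝐜 x i • e i = x :=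
  h.co_inj (by simp only [map_sum, map_smul, h.co_e, sum_sE])

theorem polar_eq (x y : V) : polar Q x y = 2 * δ * 𝐜 x ⬝ᵥ 𝐜 y := by
  conv_lhs => rw [← h.sum_co x]
  rw [← polarBilin_apply_apply, map_sum, LinearMap.sum_apply, dotProduct, Finset.mul_sum]
  refine Finset.sum_congr rfl fun i _ => ?_
  rw [polarBilin_apply_apply, polar_smul_left, h.polar_e, smul_eq_mul]; ring

theorem Q_eq (x : V) : Q x = δ * 𝐜 x ⬝ᵥ 𝐜 x :=
  mul_left_cancel₀ h.two (by rw [← polar_self', h.polar_eq, mul_assoc])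

theorem dot_self {x : V} (hx : Q x = δ) : 𝐜 x ⬝ᵥ 𝐜 x = 1 :=
  mul_left_cancel₀ h.ne (by rw [← h.Q_eq, hx, mul_one])

theorem co_refl {x : V} (hx : Q x = δ) (y : V) :
    𝐜 ((refl Q x).1 y) = 𝐜 y - (2 * 𝐜 x ⬝ᵥ 𝐜 y) • 𝐜 x := by
  rw [refl_apply, hx, h.polar_eq, map_sub, map_smul]
  have := h.ne
  congr 2; field_simp

end OFrame

variable (Q e δ Y) in
/-- A group containing the reflections of the frame and the even permutations. -/
structure FrY : Prop extends OFrame Q e δ where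
  le : Y ≤ H12.orth Q
  re : ∀ i, (refl Q (e i)).1 ∈ Y
  sw : ∀ a b c d, a ≠ b → c ≠ d → (refl Q (e a - e b) * refl Q (e c - e d)).1 ∈ Y

variable (Q δ Y) in
/-- The vectors of norm `δ` whose reflection lies in `Y`. -/
def RV (x : V) : Prop := Q x = δ ∧ (refl Q x).1 ∈ Y

namespace FrY

variable (h : FrY Q Y e δ)
include h

theorem map {x : V} (hx : RV Q Y δ x) {k : V ≃ₗ[F] V} (hk : k ∈ Y) : RV Q Y δ (k x) :=
  ⟨(orth_Q ⟨k, h.le hk⟩ x).trans hx.1, refl_conj_mem hx.2 hk (h.le hk)⟩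

theorem rr {x y : V} (hx : RV Q Y δ x) (hy : RV Q Y δ y) : RR Q Y x y :=
  rr_of_mem (hx.1.trans_ne h.ne) (hy.1.trans_ne h.ne) hx.2 hy.2

theorem base (i : κ) : RV Q Y δ (e i) := ⟨h.norm i, h.re i⟩

variable [DecidableEq κ]

theorem exists_sw {a b c d : κ} (h1 : a ≠ b) (h2 : c ≠ d) :
    ∃ k ∈ Y, ∀ x l, 𝐜 (k x) l = 𝐜 x (swap a b (swap c d l)) :=
  ⟨_, h.sw c d a b h2 h1, fun x l => by rw [orth_mul_apply, h.co_swap h2, h.co_swap h1]⟩

variable [Fintype κ]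

theorem conn (h4 : 4 ≤ Fintype.card κ) {x : V} (hx : RV Q Y δ x) {a b : κ} (hab : a ≠ b)
    (ha : 𝐜 x a ≠ 0) (hb : 𝐜 x b ≠ 0) {i j : κ} (hij : i ≠ j) :
    ∃ y, RV Q Y δ y ∧ 𝐜 y i ≠ 0 ∧ 𝐜 y j ≠ 0 := by
  have A : ∀ x, RV Q Y δ x → ∀ a b, a ≠ b → 𝐜 x a ≠ 0 → 𝐜 x b ≠ 0 → ∀ j, j ≠ a →
      ∃ y, RV Q Y δ y ∧ 𝐜 y a ≠ 0 ∧ 𝐜 y j ≠ 0 := by
    intro x hx a b hab ha hb j hj
    by_cases e : j = b
    · exact ⟨x, hx, ha, e ▸ hb⟩
    obtain ⟨c, hc⟩ := exists_not_mem_list [a, b, j] (by simp; omega)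
    simp only [List.mem_cons, List.not_mem_nil, or_false, not_or] at hc
    obtain ⟨k, hk, e'⟩ := h.exists_sw (Ne.symm hc.2.1) (Ne.symm hc.2.2)
    refine ⟨_, h.map hx hk, ?_, ?_⟩ <;> rw [e'] <;> simp only [swap_apply_def] <;> grind
  by_cases e : i = b
  · exact A x hx i a (e ▸ hab.symm) (e ▸ hb) ha j hij.symm
  · obtain ⟨y, hy, h1, h2⟩ := A x hx b a hab.symm hb ha i e
    exact A y hy i b e h2 h1 j hij.symm

variable [FiniteDimensional F V] [Fintype F] (hp : (Fintype.card F).Prime)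
include hp

theorem omega_le (h4 : 4 ≤ Fintype.card κ) {x : V} (hx : RV Q Y δ x) {a b : κ} (hab : a ≠ b)
    (ha : 𝐜 x a ≠ 0) (hb : 𝐜 x b ≠ 0) {S₀ : Submodule F V} (h1 : (𝓒).NondegOn S₀)
    (h3 : 3 ≤ finrank F S₀) (h5 : 4 ≤ finrank F S₀ ∨ 4 ≤ Fintype.card F) {i : κ} (hi : e i ∈ S₀)
    (h6 : subG 𝓒 (OmegaV Q) S₀ ≤ Y) : OmegaV Q ≤ Y := by
  have hQ := h.nd
  obtain ⟨S, ⟨k1, hS, k3⟩, hmax⟩ := (wellFounded_gt (α := Submodule F V)).has_min
    {S | S₀ ≤ S ∧ (𝓒).NondegOn S ∧ subG 𝓒 (OmegaV Q) S ≤ Y} ⟨S₀, le_rfl, h1, h6⟩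
  have hd := Submodule.finrank_mono k1
  choose s hs n hn hsn using hQ.exists_add hS
  have A : ∀ x y, RV Q Y δ x → RV Q Y δ y → x ∉ (𝓒).perp S → y ∉ (𝓒).perp S →
      polar Q (n x) y = 0 := by
    intro x y hx hy h7 h8
    rw [hsn y, polar_add_right, show polar Q _ _ = 0 from (𝓒).mem_perp'.1 (hn x) _ (hs y), zero_add]
    by_contra hc
    obtain ⟨S', e1, e2, e3⟩ := RR.enlarge hQ h.two hp hS (by omega) (by omega) k3 (k1 hi) (hs x)
      (hs y) (hn x) (hn y) (fun e => h7 (by rw [hsn x, e, zero_add]; exact hn x))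
      (fun e => h8 (by rw [hsn y, e, zero_add]; exact hn y)) (hsn x ▸ h.rr hx (h.base i))
      (hsn y ▸ h.rr hy (h.base i)) (by rw [← hsn, hx.1, h.norm]) (by rw [← hsn, hy.1, h.norm]) hc
    exact hmax S' ⟨k1.trans e1.le, e2, e3⟩ e1
  have B : ∀ j, e j ∈ S := by
    have C : ∀ j, e j ∉ (𝓒).perp S → e j ∈ S := fun j hj => by
      have : n (e j) = 0 := h.eq_zero _ fun l => by
        rw [polar_comm]
        by_cases hl : e l ∈ (𝓒).perp S
        · have := h.orth j l (by rintro rfl; exact hj hl)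
          rwa [hsn (e j), polar_add_left, show polar Q _ _ = 0 from (𝓒).mem_perp.1 hl _ (hs _),
            zero_add] at this
        · exact A _ _ (h.base j) (h.base l) hj hl
      rw [hsn (e j), this, add_zero]; exact hs _
    intro j
    refine C j fun hj => ?_
    have hij : i ≠ j := by
      rintro rfl
      exact h.ne0 i (by rw [hS.eq_zero (k1 hi) hj, map_zero])
    obtain ⟨y, hy, h7, h8⟩ := h.conn h4 hx hab ha hb hij
    have D : ∀ z, 𝐜 z i ≠ 0 → z ∉ (𝓒).perp S := fun z h0 hz => mul_ne_zero h.ne2 h0 (by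
      rw [← h.polar_e]; exact (𝓒).mem_perp.1 hz _ (k1 hi))
    have h9 := A y _ hy (h.map hy (h.re j)) (D y h7) (D _ (by rwa [h.co_refl_e, if_neg hij]))
    have h10 : polar Q (n y) (e j) = polar Q (e j) y := by
      conv_rhs => rw [hsn y, polar_add_right,
        show polar Q _ _ = 0 from (𝓒).mem_perp'.1 hj _ (hs _), zero_add, polar_comm]
    rw [h.refl_e, polar_sub_right, A y y hy hy (D y h7) (D y h7), polar_smul_right, h10,
      h.polar_e] at h9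
    exact mul_ne_zero (mul_ne_zero h.two h8) (mul_ne_zero h.ne2 h8) (by simpa using h9)
  have : S = ⊤ := eq_top_iff.2 fun x _ => by
    rw [← h.sum_co x]; exact S.sum_mem fun j _ => S.smul_mem _ (B j)
  rwa [this, hQ.subG_top OmegaV_le] at k3

theorem omega_le_three (h3 : (3 : F) = 0) (h7 : 7 ≤ Fintype.card κ) {x : V} (hx : RV Q Y δ x)
    {i j : κ} (hij : i ≠ j) (hi : 𝐜 x i ≠ 0) (hj : 𝐜 x j ≠ 0) : OmegaV Q ≤ Y := by
  have sq : ∀ c : F, c ≠ 0 → c * c = 1 := fun c hc => by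
    obtain ⟨n, rfl⟩ := exists_natCast hp c
    obtain ⟨m, e | e | e⟩ : ∃ m, n = 3 * m ∨ n = 3 * m + 1 ∨ n = 3 * m + 2 := ⟨n / 3, by omega⟩
    · exact absurd (by simp [e, h3]) hc
    · simp [e, h3]
    · simp only [e, Nat.cast_add, Nat.cast_mul, Nat.cast_ofNat, h3]; linear_combination h3
  have e1 := h.dot_self hx.1
  obtain ⟨k, h1, hk⟩ : ∃ k, k ∉ ({i, j} : Finset κ) ∧ 𝐜 x k ≠ 0 := by
    by_contra hc
    push Not at hc
    rw [dot_supp _ hc, Finset.sum_pair hij, sq _ hi, sq _ hj] at e1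
    exact one_ne_zero (α := F) (by linear_combination e1)
  obtain ⟨l, h2, hl⟩ : ∃ l, l ∉ ({k, i, j} : Finset κ) ∧ 𝐜 x l ≠ 0 := by
    by_contra hc
    push Not at hc
    rw [dot_supp _ hc, Finset.sum_insert h1, Finset.sum_pair hij, sq _ hi, sq _ hj, sq _ hk] at e1
    exact one_ne_zero (α := F) (by linear_combination h3 - e1)
  obtain ⟨m, hm⟩ := exists_not_mem_list [l, k, i, j] (by simp; omega)
  obtain ⟨c, hc⟩ := exists_not_mem_list [m, l, k, i, j] (by simp; omega)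
  obtain ⟨d, hd⟩ := exists_not_mem_list [c, m, l, k, i, j] (by simp; omega)
  obtain ⟨u, hu⟩ : ∃ u, ∀ p, 𝐜 u p = if p ∈ ({k, i, j} : Finset κ) then 𝐜 x p else 0 :=
    ⟨𝐜 x k • e k + 𝐜 x i • e i + 𝐜 x j • e j, fun p => by
      simp only [map_add, map_smul, h.co_e, Pi.add_apply, Pi.smul_apply, sE_apply, smul_eq_mul]
      grind⟩
  have u0 : ∀ y, (∀ p ∈ ({k, i, j} : Finset κ), 𝐜 y p = 𝐜 x p) → 𝐜 u ⬝ᵥ 𝐜 y = 0 := fun y hy => by
    rw [dot_supp {k, i, j} (fun p hp => by rw [hu, if_neg hp]),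
      Finset.sum_congr rfl fun p hp => by rw [hu, if_pos hp, hy p hp], Finset.sum_insert h1,
      Finset.sum_pair hij, sq _ hi, sq _ hj, sq _ hk]
    linear_combination h3
  have u1 : Q u = 0 := by rw [h.Q_eq, u0 u fun p hp => by rw [hu, if_pos hp], mul_zero]
  have u2 := h.map (h.map (h.map hx (h.re k)) (h.re i)) (h.re j)
  rw [h.co_inj (x := (refl Q (e j)).1 _) (y := x + u) (by
    ext p
    simp only [h.co_refl_e, map_add, Pi.add_apply, hu]
    grind)] at u2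
  have u3 := RS.of_smul (((h.rr u2 hx).ei u1 (by
    rw [h.polar_eq, u0 x fun _ _ => rfl, mul_zero])).mem_RS hp) (inv_ne_zero (hx.1.trans_ne h.ne))
  simp only [List.mem_cons, List.not_mem_nil, or_false, not_or] at hm hc hd
  have u4 : e l ∈ RS Q Y u := by
    have := RS.conj u3 (h.re l) (refl Q _).2
    rw [h.refl_e l u, hu, if_neg h2, mul_zero, zero_smul, sub_zero] at this
    have := sub_mem u3 this
    rw [h.refl_e, sub_sub_cancel] at this
    exact (Submodule.smul_mem_iff _ (mul_ne_zero h.two hl)).1 this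
  have u5 : e m ∈ RS Q Y u := by
    obtain ⟨g, hg, e'⟩ := h.exists_sw (Ne.symm hm.1) (Ne.symm hd.1)
    have := RS.conj u4 hg (h.le hg)
    rwa [h.co_inj (x := g u) (y := u) (by
        ext p; rw [e', hu, hu]; simp only [swap_apply_def]; grind),
      h.co_inj (x := g (e l)) (y := e m) (by
        ext p; rw [e', h.co_e, h.co_e]; simp only [swap_apply_def, sE_apply]; grind)] at this
  obtain ⟨w1, w2⟩ := nondegOn_pair_of_det (Q := Q) (u := e l) (w := e m) (by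
    rw [h.orth _ _ (Ne.symm hm.1), h.norm, h.norm]
    convert mul_ne_zero h.ne2 h.ne2 using 1; ring)
  obtain ⟨S, k1, k2, k3, k4⟩ := subG_start h.nd h.two u1 (h.ne0 i) (by
    rw [polar_comm, h.polar_e, hu, if_pos (by simp)]; exact mul_ne_zero h.ne2 hi) (h.re i) w1
    (by rintro e; rw [e, finrank_bot] at w2; omega) (fun w hw => (𝓒).mem_perp'.1
      ((𝓒).mem_perp_pair.2 ⟨h.orth _ _ (by grind), h.orth _ _ (by grind)⟩) w hw)
    (Submodule.span_le.2 (by rintro _ (rfl | rfl); exacts [u4, u5]))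
  exact h.omega_le hp (by omega) hx hij hi hj k1 (by omega) (by omega) k3 k4

theorem omega_le_of_ei (h3 : (3 : F) ≠ 0) (h4 : 4 ≤ Fintype.card κ) {x : V} (hx : RV Q Y δ x)
    {a b : κ} (hab : a ≠ b) (ha : 𝐜 x a ≠ 0) (hb : 𝐜 x b ≠ 0) {u w : V} (hu : u ≠ 0)
    (hw : Q w ≠ 0) (h1 : Ei Q Y u w) : OmegaV Q ≤ Y := by
  obtain ⟨i, hi⟩ : ∃ i, polar Q (e i) u ≠ 0 := by
    by_contra hc
    push Not at hc
    exact hu (h.eq_zero u hc)
  have h2 := h1.sub (ei_smul_self h1.1 (polar Q (e i) w / polar Q (e i) u))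
  have h5 : Q (w - (polar Q (e i) w / polar Q (e i) u) • u) ≠ 0 := by
    rwa [H12.Q_sub, Q_smul, h1.1, polar_smul_right, polar_comm Q w, h1.2.1, smul_zero, mul_zero,
      add_zero, sub_zero]
  have h6 := finrank_span_singleton (K := F) (ne_of_apply_ne Q (h5.trans_eq (map_zero Q).symm))
  obtain ⟨S, k1, k2, k3, k4⟩ := subG_start h.nd h.two h1.1 (h.ne0 i) (by rwa [polar_comm]) (h.re i)
    (nondegOn_singleton h.two h5) (by rintro e; rw [e, finrank_bot] at h6; omega)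
    (fun y hy => (𝓒).mem_perp'.1 ((𝓒).mem_perp_singleton.2 (by
      rw [CForm.ofQuad_B, polar_comm, polar_sub_right, polar_smul_right, smul_eq_mul,
        div_mul_cancel₀ _ hi, sub_self])) y hy)
    ((Submodule.span_singleton_le_iff_mem _ _).2 (h2.mem_RS hp))
  refine h.omega_le hp h4 hx hab ha hb k1 (by omega) (Or.inr ?_) k3 k4
  obtain ⟨m, hm⟩ := odd_card_iff.2 h.two
  have := Fintype.one_lt_card (α := F)
  by_contra hc
  have := FiniteField.cast_card_eq_zero F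
  rw [show Fintype.card F = 3 by omega] at this
  exact h3 (by exact_mod_cast this)

theorem small (h7 : 7 ≤ Fintype.card κ) (hn : ¬ OmegaV Q ≤ Y) {x : V} (hx : RV Q Y δ x)
    {i j : κ} (hij : i ≠ j) (hi : 𝐜 x i ≠ 0) (hj : 𝐜 x j ≠ 0) :
    2 * 𝐜 x i ^ 2 = 1 ∧ ∀ k, k ≠ i → k ≠ j → 𝐜 x k = 0 := by
  have h3 : (3 : F) ≠ 0 := fun e => hn (h.omega_le_three hp e h7 hx hij hi hj)
  have hE : ∀ u w, u ≠ 0 → Q w ≠ 0 → ¬ Ei Q Y u w := fun u w h1 h2 h4 =>
    hn (h.omega_le_of_ei hp h3 (by omega) hx hij hi hj h1 h2 h4)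
  have hR : RSys (𝐜 '' {x | RV Q Y δ x}) := by
    refine ⟨h.two, ?_, fun i => ⟨_, h.base i, h.co_e i⟩, ?_, ?_, ?_⟩
    · rintro _ ⟨x, hx, rfl⟩; exact h.dot_self hx.1
    · rintro _ ⟨x, hx, rfl⟩ _ ⟨y, hy, rfl⟩
      exact ⟨_, h.map hy hx.2, h.co_refl hx.1 y⟩
    · rintro _ ⟨x, hx, rfl⟩ a b c d h1 h2
      obtain ⟨k, hk, e'⟩ := h.exists_sw h1 h2
      exact ⟨_, h.map hx hk, funext (e' x)⟩
    · rintro _ ⟨x, hx, rfl⟩ _ ⟨y, hy, rfl⟩ e1
      by_contra hc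
      have e2 : polar Q y x = 2 * δ := by rw [polar_comm, h.polar_eq, e1, mul_one]
      refine hE _ _ (smul_ne_zero (inv_ne_zero (hx.1.trans_ne h.ne)) (sub_ne_zero.2 ?_))
        (hx.1.trans_ne h.ne) (RR.ei (u := y - x) (by rw [add_sub_cancel]; exact h.rr hy hx) ?_ ?_)
      · rintro rfl; exact hc rfl
      · rw [H12.Q_sub, e2, hx.1, hy.1]; ring
      · rw [polar_sub_left, e2, polar_self', hx.1, sub_self]
  have dk : ∀ a ∈ 𝐜 '' {x | RV Q Y δ x}, ∀ b ∈ 𝐜 '' {x | RV Q Y δ x},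
      ∀ c ∈ 𝐜 '' {x | RV Q Y δ x}, a ⬝ᵥ b = 0 → a ⬝ᵥ c ≠ 0 → b ⬝ᵥ c ≠ 0 →
      1 - (a ⬝ᵥ c) ^ 2 - (b ⬝ᵥ c) ^ 2 ≠ 0 → 4 * (a ⬝ᵥ c) ^ 2 = 1 ∨ 4 * (b ⬝ᵥ c) ^ 2 = 1 ∨
      4 * (a ⬝ᵥ c) ^ 2 + 4 * (b ⬝ᵥ c) ^ 2 = 3 := by
    rintro _ ⟨a, ha, rfl⟩ _ ⟨b, hb, rfl⟩ _ ⟨c, hc, rfl⟩ e1 e2 e3 e4
    have hδ := h.ne
    have := refl_tri h.two (ha.1.trans_ne hδ) (hb.1.trans_ne hδ) (hc.1.trans_ne hδ) ha.2 hb.2 hc.2
      (by rw [h.polar_eq, e1, mul_zero])
    rw [h.polar_eq, h.polar_eq, ha.1, hb.1, hc.1] at this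
    rcases this (mul_ne_zero h.ne2 e2) (mul_ne_zero h.ne2 e3) (by
      convert mul_ne_zero (mul_ne_zero (mul_ne_zero h.ne2 h.ne2) hδ) e4 using 1; ring) with
      ⟨u, w, h1, h2, h4⟩ | e5 | e5 | e5
    · exact absurd h4 (hE u w h1 h2)
    · exact Or.inl (mul_left_cancel₀ (mul_ne_zero hδ hδ) (by linear_combination e5))
    · exact Or.inr (Or.inl (mul_left_cancel₀ (mul_ne_zero hδ hδ) (by linear_combination e5)))
    · exact Or.inr (Or.inr (mul_left_cancel₀ (mul_ne_zero hδ (mul_ne_zero hδ hδ))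
        (by linear_combination e5)))
  exact ⟨hR.two_sq dk h3 h7 ⟨x, hx, rfl⟩ hij hi hj, fun k h1 h2 => by
    by_contra hk
    exact hR.not_three dk h3 h7 ⟨x, hx, rfl⟩ hij h1.symm h2.symm hi hj hk⟩

end FrY

end H12
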