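import Cfsg.Agent.H12.C6d
import Cfsg.Agent.H12.OF5

/-!
# Normalisers of Pauli groups: the small cases
-/

set_option autoImplicit false
set_option maxHeartbeats 400000

namespace H12.C6

open Module H11 QuadraticMap H27 Equiv

section Grp

/-- Squares of elements of order four lie in a four-group. -/
def Quad (H : Type*) [Group H] : Prop :=
  ∀ a b c : H, a ^ 4 = 1 → a ^ 2 ≠ 1 → b ^ 4 = 1 → b ^ 2 ≠ 1 → a ^ 2 ≠ b ^ 2 → c ^ 4 = 1 →
    c ^ 2 ≠ 1 → c ^ 2 = a ^ 2 ∨ c ^ 2 = b ^ 2 ∨ c ^ 2 = a ^ 2 * b ^ 2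

theorem Quad.of_hom {H K : Type*} [Group H] [Group K] (h : Quad K) (f : H →* K)
    (hf : Function.Injective f) : Quad H := by
  intro a b c h1 h2 h3 h4 h5 h6 h7
  simp only [← hf.eq_iff, ne_eq, map_mul, map_pow, map_one] at *
  exact h _ _ _ h1 h2 h3 h4 h5 h6 h7

set_option maxRecDepth 100000 in
theorem quad_s4 : Quad (Perm (Fin 4)) := by
  have : ∀ a : Perm (Fin 4), a ^ 4 = 1 → a ^ 2 ≠ 1 → ∀ b : Perm (Fin 4), b ^ 4 = 1 → b ^ 2 ≠ 1 →
    a ^ 2 ≠ b ^ 2 → ∀ c : Perm (Fin 4), c ^ 4 = 1 → c ^ 2 ≠ 1 →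
    c ^ 2 = a ^ 2 ∨ c ^ 2 = b ^ 2 ∨ c ^ 2 = a ^ 2 * b ^ 2 := by decide +kernel
  exact fun a b c h1 h2 h3 h4 h5 => this a h1 h2 b h3 h4 h5 c

set_option maxRecDepth 100000 in
theorem quad_a5 : Quad (alternatingGroup (Fin 5)) := by
  have : ∀ a : Perm (Fin 5), Perm.sign a = 1 → a ^ 4 = 1 → a ^ 2 = 1 := by decide +kernel
  exact fun a _ _ h1 h2 => absurd (Subtype.ext (this a.1 a.2 (congrArg Subtype.val h1))) h2

theorem quad_of_cyclic {H : Type*} [Group H] [Finite H] {z : H}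
    (h : ∀ g, g ∉ Subgroup.zpowers z → g * g = 1) : Quad H := by
  intro a b _ h1 h2 h3 h4 h5
  have k : ∀ g : H, g ^ 4 = 1 → g ^ 2 ≠ 1 → ∃ u : Subgroup.zpowers z, u.1 = g ^ 2 ∧ orderOf u = 2 :=
    fun g e e' => ⟨⟨_, pow_mem (by_contra fun c => e' (by rw [pow_two, h g c])) 2⟩, rfl,
      orderOf_eq_prime (Subtype.ext (by simpa [← pow_mul])) fun c => e' (congrArg Subtype.val c)⟩
  obtain ⟨u, u1, u2⟩ := k a h1 h2
  obtain ⟨v, v1, v2⟩ := k b h3 h4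
  classical
  have := Fintype.ofFinite (Subgroup.zpowers z)
  have := IsCyclic.card_orderOf_eq_totient (α := Subgroup.zpowers z) (u2 ▸ orderOf_dvd_card)
  exact absurd (by rw [← u1, ← v1, Finset.card_le_one.1 this.le u (by simpa) v (by simpa)]) h5

theorem quad_of_not_dvd {F : Type*} [Field F] [Fintype F] (p : ℕ) [hp : Fact p.Prime] [CharP F p]
    (S : Subgroup (PG F)) (h : ¬ p ∣ Nat.card S) : Quad S := by
  rcases dickson_hom p S.subtype S.subtype_injective with ⟨h1, -⟩ | ⟨h1, -⟩ | ⟨c, -, -, h2⟩ |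
    ⟨-, ⟨⟨e⟩⟩ | ⟨⟨e⟩⟩ | ⟨⟨e⟩⟩⟩ | ⟨-, ⟨e⟩⟩ | ⟨c, F₀, h1, h2, -⟩
  · obtain ⟨z, hz⟩ := IsCyclic.exists_generator (α := S)
    exact quad_of_cyclic fun g hg => absurd (hz g) hg
  · exact absurd h1 h
  · exact quad_of_cyclic h2
  · exact quad_s4.of_hom ((alternatingGroup (Fin 4)).subtype.comp e.toMonoidHom)
      (Subtype.val_injective.comp e.injective)
  · exact quad_s4.of_hom e.toMonoidHom e.injective
  · exact quad_a5.of_hom e.toMonoidHom e.injective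
  · exact quad_a5.of_hom e.toMonoidHom e.injective
  · rw [Nat.factorization_eq_zero_of_not_dvd h, pow_zero] at h2
    omega

end Grp

section Five

variable {F : Type*} [Field F] {V : Type*} [AddCommGroup V] [Module F V] {Q : QuadraticForm F V}
  {Y : Subgroup (V ≃ₗ[F] V)} {e : Fin 5 → V} {δ : F}

local notation "𝐜" => co Q e δ

theorem omega_five [FiniteDimensional F V] [Fintype F] (h : FrY Q Y e δ)
    (hp : (Fintype.card F).Prime) (h3 : (3 : F) ≠ 0) {x : V} (hx : RV Q Y δ x)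
    (hc : 𝐜 x = ![0, 2⁻¹, -2⁻¹, 2⁻¹, 2⁻¹]) : OmegaV Q ≤ Y := by
  by_contra hn
  have h2 := h.two
  have hE : ∀ u w, u ≠ 0 → Q w ≠ 0 → ¬ Ei Q Y u w := fun u w h1 h5 h4 =>
    hn (h.omega_le_of_ei hp h3 (by simp) hx (a := 1) (b := 3) (by simp) (by simp [hc, h2])
      (by simp [hc, h2]) h1 h5 h4)
  have hR : RSys (𝐜 '' {x | RV Q Y δ x}) := by
    refine ⟨h.two, ?_, fun i => ⟨_, h.base i, h.co_e i⟩, ?_, ?_, ?_⟩
    · rintro _ ⟨x, hx, rfl⟩; exact h.dot_self hx.1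
    · rintro _ ⟨x, hx, rfl⟩ _ ⟨y, hy, rfl⟩
      exact ⟨_, h.map hy hx.2, h.co_refl hx.1 y⟩
    · rintro _ ⟨x, hx, rfl⟩ a b c d h1 h2
      obtain ⟨k, hk, e'⟩ := h.exists_sw h1 h2
      exact ⟨_, h.map hx hk, funext (e' x)⟩
    · rintro _ ⟨x, hx, rfl⟩ _ ⟨y, hy, rfl⟩ e1
      by_contra hc
      have e2 : polar Q y x = 2 * δ := by rw [polar_comm, h.polar_eq, e1, mul_one]
      refine hE _ _ (smul_ne_zero (inv_ne_zero (hx.1.trans_ne h.ne)) (sub_ne_zero.2 ?_))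
        (hx.1.trans_ne h.ne) (RR.ei (u := y - x) (by rw [add_sub_cancel]; exact h.rr hy hx) ?_ ?_)
      · rintro rfl; exact hc rfl
      · rw [H12.Q_sub, e2, hx.1, hy.1]; ring
      · rw [polar_sub_left, e2, polar_self', hx.1, sub_self]
  have dk : ∀ a ∈ 𝐜 '' {x | RV Q Y δ x}, ∀ b ∈ 𝐜 '' {x | RV Q Y δ x},
      ∀ c ∈ 𝐜 '' {x | RV Q Y δ x}, a ⬝ᵥ b = 0 → a ⬝ᵥ c ≠ 0 → b ⬝ᵥ c ≠ 0 →
      1 - (a ⬝ᵥ c) ^ 2 - (b ⬝ᵥ c) ^ 2 ≠ 0 → 4 * (a ⬝ᵥ c) ^ 2 = 1 ∨ 4 * (b ⬝ᵥ c) ^ 2 = 1 ∨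
      4 * (a ⬝ᵥ c) ^ 2 + 4 * (b ⬝ᵥ c) ^ 2 = 3 := by
    rintro _ ⟨a, ha, rfl⟩ _ ⟨b, hb, rfl⟩ _ ⟨c, hc, rfl⟩ e1 e2 e3 e4
    have hδ := h.ne
    have := refl_tri h.two (ha.1.trans_ne hδ) (hb.1.trans_ne hδ) (hc.1.trans_ne hδ) ha.2 hb.2 hc.2
      (by rw [h.polar_eq, e1, mul_zero])
    rw [h.polar_eq, h.polar_eq, ha.1, hb.1, hc.1] at this
    rcases this (mul_ne_zero h.ne2 e2) (mul_ne_zero h.ne2 e3) (by
      convert mul_ne_zero (mul_ne_zero (mul_ne_zero h.ne2 h.ne2) hδ) e4 using 1; ring) with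
      ⟨u, w, h1, h2, h4⟩ | e5 | e5 | e5
    · exact absurd h4 (hE u w h1 h2)
    · exact Or.inl (mul_left_cancel₀ (mul_ne_zero hδ hδ) (by linear_combination e5))
    · exact Or.inr (Or.inl (mul_left_cancel₀ (mul_ne_zero hδ hδ) (by linear_combination e5)))
    · exact Or.inr (Or.inr (mul_left_cancel₀ (mul_ne_zero hδ (mul_ne_zero hδ hδ))
        (by linear_combination e5)))
  have a1 : 𝐜 x ∈ 𝐜 '' {x | RV Q Y δ x} := ⟨x, hx, rfl⟩
  have a2 := hR.refl _ a1 _ (hR.sw _ a1 0 1 3 4 (by simp) (by simp))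
  have a3 : (fun l => 𝐜 x (swap 0 1 (swap 3 4 l))) = ![2⁻¹, 0, -2⁻¹, 2⁻¹, 2⁻¹] := by
    ext l; rw [hc]; fin_cases l <;> rfl
  rw [a3, hc, show 2 * (![0, 2⁻¹, -2⁻¹, 2⁻¹, 2⁻¹] ⬝ᵥ ![2⁻¹, 0, -2⁻¹, 2⁻¹, 2⁻¹]) = (3 * 2⁻¹ : F) by
    simp [dotProduct, Fin.sum_univ_five]; field_simp; ring] at a2
  have a4 : (2⁻¹ - 3 * 2⁻¹ * 2⁻¹ : F) ≠ 0 := by
    rw [show (2⁻¹ - 3 * 2⁻¹ * 2⁻¹ : F) = -(2⁻¹ * 2⁻¹) by field_simp; ring]; simp [h2]
  refine hR.not_five dk h3 a2 (i := 0) (j := 1) (k := 2) (m := 3) (n := 4) (by simp) ?_ ?_ ?_ ?_ ?_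
  · simp [h2]
  · simp [h2, h3]
  · simpa [← sub_eq_add_neg, sub_eq_zero, neg_add_eq_zero] using a4
  · simpa using a4
  · simpa using a4

end Five

section Cl

variable {F A κ : Type*} [Field F] [Ring A] [Algebra F A] [Fintype κ] [DecidableEq κ] {p : ℕ}
  [Fact p.Prime] [CharP F p] {γ : κ → A} {X : Subgroup Aˣ}

variable (p κ) in
/-- The sum of squares over the prime field. -/
def qs : QuadraticForm (ZMod p) (κ → ZMod p) :=
  LinearMap.BilinMap.toQuadraticMap (dotProductBilin (ZMod p) (ZMod p))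

omit [DecidableEq κ] in
theorem qs_apply (v : κ → ZMod p) : qs κ p v = v ⬝ᵥ v := rfl

omit [DecidableEq κ] in
theorem qs_polar (v w : κ → ZMod p) : polar (qs κ p) v w = 2 * v ⬝ᵥ w := by
  rw [qs, LinearMap.BilinMap.polar_toQuadraticMap, two_mul]
  exact congrArg _ (dotProduct_comm _ _)

variable (F) in
/-- The embedding of the prime field. -/
def fp : ZMod p →+* F := ZMod.castHom dvd_rfl F

variable (F γ) in
/-- The Clifford element attached to a vector. -/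
def cl (v : κ → ZMod p) : A := ∑ i, fp F (v i) • γ i

omit [DecidableEq κ] in
theorem cl_add (v w : κ → ZMod p) : cl F γ (v + w) = cl F γ v + cl F γ w := by
  simp [cl, add_smul, Finset.sum_add_distrib]

omit [DecidableEq κ] in
theorem cl_sub (v w : κ → ZMod p) : cl F γ (v - w) = cl F γ v - cl F γ w := by
  simp [cl, sub_smul, Finset.sum_sub_distrib]

omit [DecidableEq κ] in
theorem cl_smul (c : ZMod p) (v : κ → ZMod p) : cl F γ (c • v) = fp F c • cl F γ v := by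
  simp [cl, Finset.smul_sum, smul_smul]

theorem cl_sE (i : κ) : cl F γ (sE i : κ → ZMod p) = γ i := by
  simp [cl, sE_apply, apply_ite, ite_smul]

variable (F γ X) in
/-- The isometries induced by conjugation. -/
def clY : Subgroup ((κ → ZMod p) ≃ₗ[ZMod p] (κ → ZMod p)) where
  carrier := {y | y ∈ H12.orth (qs κ p) ∧ ∃ x ∈ X, ∃ ε : F, ε * ε = 1 ∧
    ∀ v, x * cl F γ v = ε • (cl F γ (y v) * x)}
  one_mem' := ⟨one_mem _, 1, one_mem _, 1, by simp, by simp⟩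
  mul_mem' := by
    rintro a b ⟨a1, x, a2, ε, a3, a4⟩ ⟨b1, y, b2, η, b3, b4⟩
    exact ⟨mul_mem a1 b1, x * y, mul_mem a2 b2, ε * η, by rw [mul_mul_mul_comm, a3, b3, one_mul],
      fun v => by rw [Units.val_mul, mul_assoc, b4, mul_smul_comm, ← mul_assoc, a4, smul_mul_assoc,
        smul_smul, mul_comm η, mul_assoc]; rfl⟩
  inv_mem' := by
    rintro a ⟨a1, x, a2, ε, a3, a4⟩
    exact ⟨inv_mem a1, x⁻¹, inv_mem a2, ε, a3, fun v => by
      rw [Units.inv_mul_eq_iff_eq_mul, mul_smul_comm, ← mul_assoc, a4, apply_inv_apply,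
        smul_mul_assoc, smul_smul, a3, one_smul, Units.mul_inv_cancel_right]⟩

variable (hγ : ∀ i j, γ i * γ j + γ j * γ i = if i = j then 2 else 0)
include hγ

theorem cl_polar (v w : κ → ZMod p) :
    cl F γ v * cl F γ w = fp F (polar (qs κ p) v w) • 1 - cl F γ w * cl F γ v := by
  rw [eq_sub_iff_add_eq, qs_polar, cl, cl, Finset.sum_mul_sum, Finset.sum_mul_sum,
    Finset.sum_comm (f := fun i j => fp F (w i) • γ i * fp F (v j) • γ j), ← Finset.sum_add_distrib]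
  simp only [← Finset.sum_add_distrib, smul_mul_smul_comm, mul_comm (fp F (w _)), ← smul_add, hγ]
  simp [dotProduct, Finset.sum_smul, two_mul, add_smul, Finset.sum_add_distrib,
    ← one_add_one_eq_two (R := A)]

theorem cl_sq (h2 : (2 : F) ≠ 0) (v : κ → ZMod p) : cl F γ v * cl F γ v = fp F (qs κ p v) • 1 := by
  refine smul_right_injective A h2 ?_
  have := cl_polar (F := F) hγ v v
  rw [eq_sub_iff_add_eq, polar_self', two_mul, map_add, add_smul] at this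
  simpa only [two_smul]

theorem refl_mem_clY (h2 : (2 : F) ≠ 0) {v : κ → ZMod p} (hv : qs κ p v ≠ 0) {x : Aˣ} (hx : x ∈ X)
    (e : (x : A) = cl F γ v) : (refl (qs κ p) v).1 ∈ clY F γ X :=
  ⟨(refl _ v).2, x, hx, -1, by simp, fun w => by
    rw [e, refl_apply, cl_sub, cl_smul, sub_mul, smul_mul_assoc, cl_sq hγ h2, cl_polar hγ v w,
      smul_smul, ← map_mul, mul_right_comm, inv_mul_cancel₀ hv]
    simp⟩

omit hγ in
theorem oframe_qs (h2 : (2 : F) ≠ 0) : OFrame (qs κ p) sE 1 := by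
  have h : (2 : ZMod p) ≠ 0 := fun e => h2 (by simpa [map_ofNat] using congrArg (fp F) e)
  have k : ∀ x : κ → ZMod p, (∀ i, polar (qs κ p) (sE i) x = 0) → x = 0 := fun x hx => by
    ext i; simpa [qs_polar, sE_dot, h] using hx i
  exact ⟨h, fun x hx => k x fun i => (polar_comm _ _ _).trans (hx _), one_ne_zero,
    fun i => by simp [qs_apply, sE_dot], fun i j e => by simp [qs_polar, sE_dot, sE_ne e], k⟩

theorem eich_cl (h2 : (2 : F) ≠ 0) {u w : κ → ZMod p} (hu : qs κ p u = 0) (hw : qs κ p w = 0)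
    (e : polar (qs κ p) u w = 0) (v : κ → ZMod p) : (1 + cl F γ u * cl F γ w) * cl F γ v =
      cl F γ ((eich (qs κ p) u w).1 v) * (1 + cl F γ u * cl F γ w) := by
  have u2 := cl_sq (F := F) hγ h2 u
  have w2 := cl_sq (F := F) hγ h2 w
  have uw := cl_polar (F := F) hγ w u
  rw [hu, map_zero, zero_smul] at u2
  rw [hw, map_zero, zero_smul] at w2
  rw [polar_comm, e, map_zero, zero_smul, zero_sub] at uw
  rw [eich_apply hu e, hw, zero_mul, zero_smul, sub_zero, cl_sub, cl_add, cl_smul, cl_smul, add_mul,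
    mul_assoc, cl_polar hγ w v, mul_sub, ← mul_assoc, cl_polar hγ u v]
  simp [mul_add, add_mul, sub_mul, ← mul_assoc, u2, uw]
  simp [mul_assoc, w2]
  abel

end Cl

end H12.C6
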