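import Cfsg.Agent.H12.C6e

/-!
# Normalisers of Pauli groups: unipotent elements in the small cases
-/

set_option autoImplicit false
set_option maxHeartbeats 400000

namespace H12.C6

open Module H11 QuadraticMap H27

variable {F A E : Type*} [Field F] [Ring A] [Algebra F A] [AddCommGroup E] [Module (ZMod 2) E]

theorem exists_inv_nat (p : ℕ) [hp : Fact p.Prime] [CharP F p] {a : ℕ} (h : (a : F) ≠ 0) :
    ∃ j : ℕ, (j : F) * a = 1 := by
  refine ⟨a ^ (p - 2), mul_right_cancel₀ h ?_⟩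
  have := hp.out.two_le
  rw [Nat.cast_pow, ← pow_succ, ← pow_succ, show p - 2 + 1 + 1 = p by omega, one_mul]
  exact map_natCast (frobenius F p) a

theorem pow_nil {N : A} (h : N * N = 0) (n : ℕ) : (1 + N) ^ n = 1 + (n : F) • N := by
  induction n with
  | zero => simp
  | succ n ih => rw [pow_succ, ih]; simp [add_mul, mul_add, h, add_smul]; abel

theorem cong_mul {x y x' y' e : A} (h : x * e = y * e) (h' : x' * e = y' * e) (c : y' * e = e * y') :
    x * x' * e = y * y' * e := by rw [mul_assoc, h', c, ← mul_assoc, h, mul_assoc, ← c, mul_assoc]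

theorem cong_pow {x y e : A} (h : x * e = y * e) (c : Commute y e) (n : ℕ) :
    x ^ n * e = y ^ n * e := by
  induction n with
  | zero => simp
  | succ n ih => rw [pow_succ, pow_succ, cong_mul ih h c]

namespace PD

variable {D : PD F A E} {X : Subgroup Aˣ}

variable (D X) in
/-- A unipotent element supported on an eigenspace. -/
def Nil : Prop := ∃ x r N, x ≠ 0 ∧ D.L x r ∧ r * r = 1 ∧ N ≠ 0 ∧ N * N = 0 ∧ r * N = -N ∧
  N * r = -N ∧ ∃ t ∈ X, (t : A) = 1 + N

variable (D) in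
/-- The classes commuting with an element. -/
def cen (m : A) : Submodule (ZMod 2) E where
  carrier := {y | ∀ b, D.L y b → m * b = b * m}
  zero_mem' b hb := by obtain ⟨c, -, rfl⟩ := hb.zero; simp
  add_mem' {x y} hx hy b hb := by
    obtain ⟨c, -, rfl⟩ := hb.rel ((D.L_ρ x).mul (D.L_ρ y))
    rw [mul_smul_comm, smul_mul_assoc,
      (Commute.mul_right (hx _ (D.L_ρ x)) (hy _ (D.L_ρ y))).eq]
  smul_mem' c x hx := by
    rcases z01 c with rfl | rfl
    · intro b hb; rw [zero_smul] at hb; obtain ⟨c, -, rfl⟩ := hb.zero; simp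
    · rwa [one_smul]

theorem L.mem_cen {m b : A} {y : E} (hb : D.L y b) (h : m * b = b * m) : y ∈ D.cen m :=
  fun a ha => by obtain ⟨c, -, rfl⟩ := ha.rel hb; rw [mul_smul_comm, smul_mul_assoc, h]

theorem ctrl_eq (D : PD F A E) {k m r : A} (k1 : k * (1 + r) = 1 + r)
    (k2 : k * (1 - r) = m * (1 - r)) : k = (2 : F)⁻¹ • (1 + r + m * (1 - r)) := by
  rw [eq_inv_smul_iff₀ D.two, ← k2, ← k1, two_smul]; noncomm_ring

end PD

namespace AB

open PD

variable {D : PD F A E} {X : Subgroup Aˣ} {I : F} (h : AB D X I)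
include h

theorem smul_mem {g : Aˣ} (hg : g ∈ X) {c : F} (hc : c ≠ 0) : ∃ k ∈ X, (k : A) = c • g :=
  ⟨(L_one.smul hc (D := D)).isUnit.unit * g, mul_mem (h.mem _ 0 (L_one.smul hc)) hg, by simp⟩

theorem ctrl {x y : E} {r c : A} (hr : D.L x r) (r2 : r * r = 1) (hc : D.L y c) (c2 : c * c = 1)
    (cr : c * r = r * c) : ∃ q ∈ X, q * (1 + r) = 1 + r ∧ q * (1 - r) = I • c * (1 - r) ∧
      q * r = r * q := by
  have h2 := D.two
  have rc2 : r * c * (r * c) = 1 := by rw [mul_assoc, ← mul_assoc c, cr, mul_assoc, c2, mul_one, r2]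
  refine ⟨D.tu _ (h.Isq c2) * (D.tu _ (h.Isq rc2))⁻¹, mul_mem (h.T _ _ _ (hc.smul h.I_ne))
    (inv_mem (h.T _ _ _ ((hr.mul hc).smul h.I_ne))), ?_, ?_, (Commute.mul_left
    (tu_cm _ (by simp [cr])) (Commute.units_inv_left (tu_cm _ (by simp [mul_assoc, cr])))).eq⟩ <;>
  rw [Units.val_mul, tu_val, tu_inv, mul_smul_comm, smul_mul_assoc, inv_smul_eq_iff₀ h2, ← cr,
    two_smul] <;>
  simp only [mul_add, add_mul, mul_sub, sub_mul, smul_mul_assoc, mul_smul_comm, mul_assoc, r2,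
    mul_one, one_mul, ← mul_assoc c c, c2, smul_smul, h.II, smul_sub, smul_add, neg_smul,
    one_smul, neg_mul] <;> abel

theorem braid (p : ℕ) [hp : Fact p.Prime] [CharP F p] (h3 : (3 : F) ≠ 0) {x y : E} {r c N : A}
    (hr : D.L x r) (r2 : r * r = 1) (hc : D.L y c) (c2 : c * c = 1) (cr : c * r = r * c)
    (N2 : N * N = 0) (rN : r * N = -N) (Nr : N * r = -N) {l : F} (hl : l ≠ 0) (e : N * c * N = l • N)
    {m : ℕ} (hm : l * l = m) {g : Aˣ} (hg : g ∈ X) (gr : g * r = r * g)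
    (ge : g * (1 - r) = (1 + N) * (1 - r)) : ∃ t ∈ X, (t : A) = 1 + N := by
  have h2 := D.two
  obtain ⟨q, q0, q1, q2, q3⟩ := h.ctrl hr r2 hc c2 cr
  obtain ⟨M, hM⟩ : ∃ M, M = c * N * c := ⟨_, rfl⟩
  have M2 : M * M = 0 := by simp only [hM, mul_assoc, ← mul_assoc c c, c2, one_mul, ← mul_assoc N N,
    N2, zero_mul, mul_zero]
  have NMN : N * M * N = (m : F) • N := by
    rw [hM, ← mul_assoc, ← mul_assoc, e, smul_mul_assoc, smul_mul_assoc, e, smul_smul, hm]
  have MNM : M * N * M = (m : F) • M := by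
    rw [hM, mul_assoc c N, mul_assoc c, e, mul_smul_comm, smul_mul_assoc, ← mul_assoc, ← mul_assoc,
      mul_assoc c N, mul_assoc c, e, ← hm]
    simp [smul_smul, mul_assoc]
  have cm : ∀ {a : A}, a * r = r * a → Commute a (1 - r) ∧ Commute a (1 + r) := fun e =>
    ⟨comm_sub e, (Commute.one_right _).add_right e⟩
  have Nr' : N * r = r * N := Nr.trans rN.symm
  have Mr : M * r = r * M := hM ▸ ((Commute.mul_left cr Nr').mul_left cr).eq
  obtain ⟨k, k0, k1, k2, k3⟩ : ∃ k ∈ X, k * (1 + r) = g * (1 + r) ∧ k * (1 - r) = (1 + M) * (1 - r) ∧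
      k * r = r * k := by
    refine ⟨q * g * q⁻¹, mul_mem (mul_mem q0 hg) (inv_mem q0), ?_, ?_, conj_comm q3 gr⟩
    · simpa using conj_loc (k := q) (m := 1) (c := g) (by simpa using q1) (by simp) (cm gr).2
    · let u : Aˣ := ⟨I • c, -(I • c), by simpa using congrArg Neg.neg (h.Isq c2),
        by simpa using congrArg Neg.neg (h.Isq c2)⟩
      have := conj_loc (k := q) (m := u) (c := g) q2 (cm (by simp [u, cr])).1 (cm gr).1
      rw [Units.val_mul, Units.val_mul, this]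
      change I • c * g * -(I • c) * (1 - r) = _
      rw [mul_assoc, (cm (a := -(I • c)) (by simp [cr])).1.eq, ← mul_assoc, mul_assoc _ (g : A), ge,
        mul_assoc, mul_assoc, ← (cm (a := -(I • c)) (by simp [cr])).1.eq, hM]
      simp [smul_smul, h.II, add_mul, ← mul_assoc, c2, mul_add, add_comm]
  have m0 : (m : F) ≠ 0 := hm ▸ mul_ne_zero hl hl
  obtain ⟨s, t, st, d, d0, rfl⟩ : ∃ s t : ℕ, (s : F) * t * m = -1 ∧ ∃ d : ℕ, (d : F) ≠ 0 ∧
      s = t + d := by
    have kk : ∀ s : ℕ, (s : F) ≠ 0 → (s : F) * s * m ≠ -1 → ∃ s t : ℕ, (s : F) * t * m = -1 ∧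
        ∃ d : ℕ, (d : F) ≠ 0 ∧ s = t + d := fun s s0 s1 => by
      obtain ⟨j, hj⟩ := exists_inv_nat (F := F) p (a := s * m) (by simp [s0, m0])
      have p1 : ((p - 1 : ℕ) : F) = -1 := by simp [Nat.cast_sub hp.out.one_le]
      refine ⟨j * (p - 1) + (s + j * (p - 1) * (p - 1)), j * (p - 1), ?_, _, fun e => s1 ?_, rfl⟩ <;>
        push_cast [p1] at *
      · linear_combination -hj
      · linear_combination -hj + s * m * e
    by_cases e1 : (m : F) = -1
    · exact kk 2 (by simpa) fun e => h3 (by push_cast at e; linear_combination -e + 4 * e1)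
    · exact kk 1 (by simp) (by simpa)
  have pw := fun n => cong_pow ge (cm (a := 1 + N) (by simp [add_mul, mul_add, Nr'])).1 n
  have pw' := fun n => cong_pow k2 (cm (a := 1 + M) (by simp [add_mul, mul_add, Mr])).1 n
  have pw1 := fun n => cong_pow k1 (cm gr).2 n
  simp only [pow_nil (F := F) N2, pow_nil (F := F) M2] at pw pw'
  have cN : ∀ a : F, (1 + a • N) * (1 - r) = (1 - r) * (1 + a • N) := fun a =>
    (cm (by simp [add_mul, mul_add, Nr'])).1
  have cM : ∀ a : F, (1 + a • M) * (1 - r) = (1 - r) * (1 + a • M) := fun a =>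
    (cm (by simp [add_mul, mul_add, Mr])).1
  have cg := fun n => ((cm gr).2.pow_left n).eq
  obtain ⟨w, w0⟩ : ∃ w, w = g ^ (t + d) * k ^ t * g ^ (t + d) := ⟨_, rfl⟩
  have w1 := cm (a := w) (by
    simpa [w0] using (((Commute.pow_left gr _).mul_left (Commute.pow_left k3 _)).mul_left
      (Commute.pow_left gr _)).eq)
  have key : ∀ {v : Aˣ} {a e : A}, Commute (w : A) e → v * e = a * w * e →
      (v * w⁻¹ : Aˣ) * e = a * e := fun {v a e} e1 e2 => by
    rw [Units.val_mul, mul_assoc, (Commute.units_inv_left e1).eq, ← mul_assoc, e2, mul_assoc a,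
      e1.eq, ← mul_assoc, Units.mul_inv_cancel_right]
  have v1 := key (v := g ^ d * (k ^ t * g ^ (t + d) * k ^ t)) (a := 1) w1.2 (by
    simp only [w0, Units.val_mul, Units.val_pow_eq_pow_val, one_mul]
    rw [cong_mul rfl (cong_mul (cong_mul (pw1 t) rfl (cg _)) (pw1 t) (cg _))
      (by simp only [← pow_add]; exact cg _), cong_mul (cong_mul rfl (pw1 t) (cg _)) rfl (cg _)]
    simp only [← pow_add]
    congr 2; ring)
  have v2 := key (v := g ^ d * (k ^ t * g ^ (t + d) * k ^ t)) (a := 1 + (d : F) • N) w1.1 (by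
    simp only [w0, Units.val_mul, Units.val_pow_eq_pow_val]
    have br : (1 + (t : F) • M) * (1 + ((t + d : ℕ) : F) • N) * (1 + (t : F) • M) =
        (1 + ((t + d : ℕ) : F) • N) * (1 + (t : F) • M) * (1 + ((t + d : ℕ) : F) • N) := by
      generalize ((t + d : ℕ) : F) = s at *
      simp only [mul_add, add_mul, mul_one, one_mul, smul_mul_assoc, mul_smul_comm, N2, M2, NMN, MNM,
        smul_smul, smul_zero]
      match_scalars <;> first | ring1 | linear_combination t * st | linear_combination -s * st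
    have c1 := ((Commute.mul_left (cN (t + d : ℕ)) (cM t)).mul_left (cN (t + d : ℕ))).eq
    rw [cong_mul (pw d) ((cong_mul (cong_mul (pw' t) (pw _) (cN _)) (pw' t) (cM _)).trans (by rw [br]))
      c1, cong_mul rfl (cong_mul (cong_mul (pw _) (pw' t) (cM _)) (pw _) (cN _)) c1])
  obtain ⟨j, hj⟩ := exists_inv_nat p d0
  refine ⟨_ ^ j, pow_mem (mul_mem (mul_mem (pow_mem hg d) (mul_mem (mul_mem (pow_mem k0 t)
    (pow_mem hg (t + d))) (pow_mem k0 t))) (inv_mem (show w ∈ X from w0 ▸ mul_mem (mul_mem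
    (pow_mem hg _) (pow_mem k0 _)) (pow_mem hg _)))) j, ?_⟩
  rw [Units.val_pow_eq_pow_val, D.ctrl_eq (v1.trans (one_mul _)) v2,
    show (2 : F)⁻¹ • (1 + r + (1 + (d : F) • N) * (1 - r)) = 1 + (d : F) • N by
      rw [inv_smul_eq_iff₀ h2, two_smul]; simp [add_mul, mul_sub, Nr]; abel,
    pow_nil (F := F) (by simp [N2]), smul_smul, hj, one_smul]

variable [Finite E] [Fintype F] (p : ℕ) [hp : Fact p.Prime] [CharP F p]
include p hp

theorem base1 (e : A ≃ₐ[F] Matrix (Fin 2) (Fin 2) F) (h2 : 2 ≤ finrank (ZMod 2) E) :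
    X ≤ D.Nm ∨ ∃ N : A, N ≠ 0 ∧ N * N = 0 ∧ ∃ t ∈ X, (t : A) = 1 + N := by
  let φ : Aˣ →* PG F := MonoidHom.comp pgm (Units.map e.toRingEquiv.toMonoidHom)
  have k : ∀ g g' : Aˣ, φ g = φ g' ↔ pr F g = pr F g' := fun g g' => by
    rw [pr_eq, eq_comm]
    refine (pg_mk_eq_mk_iff _ _).trans (exists_congr fun c => and_congr_right fun _ => ?_)
    rw [← e.injective.eq_iff, map_smul, ← Matrix.ext_iff]; rfl
  by_cases hd : p ∣ Nat.card (X.map φ)
  · obtain ⟨⟨_, g, hg, rfl⟩, h1⟩ := exists_prime_orderOf_dvd_card' p hd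
    rw [← Subgroup.orderOf_coe] at h1
    obtain ⟨s, a, b, c, s0, s1, s2, s3, s4, s5, s6⟩ := exists_nilp p (h1 ▸ pow_orderOf_eq_one _)
      fun e => hp.out.ne_one (h1.symm.trans (orderOf_eq_one_iff.2 e))
    obtain ⟨t, t0, t1⟩ := h.smul_mem hg (inv_ne_zero s0)
    refine .inr ⟨e.symm !![a, b; c, -a], fun e' => ?_, ?_, t, t0, e.injective ?_⟩
    · rw [EmbeddingLike.map_eq_zero_iff, ← Matrix.ext_iff] at e'
      exact s2.elim (· (e' 0 1)) (· (e' 1 0))
    · rw [← map_mul, EmbeddingLike.map_eq_zero_iff]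
      ext i j; fin_cases i <;> fin_cases j <;> simp <;> first | ring1 | linear_combination s1
    · change e g 0 0 = _ at s3
      change e g 0 1 = _ at s4
      change e g 1 0 = _ at s5
      change e g 1 1 = _ at s6
      ext i j; fin_cases i <;> fin_cases j <;> simp [t1, s0, s3, s4, s5, s6, sub_eq_add_neg]
  refine .inl fun g hg => mem_Nm fun x => ?_
  by_cases x0 : x = 0
  · exact ⟨0, L_one.conj' (by simpa using L_one) (x0 ▸ D.L_ρ x)⟩
  obtain ⟨a, -, b, -, a0, b0, ab⟩ := exists_two (E := E) (S := ⊤) (by rwa [finrank_top])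
  have t1 : ∀ y, pr F (D.tu _ (h.Isq (h.sq y))) ^ 2 = D.ε y := fun y => by
    rw [← map_pow, pr_iff]
    convert (h.LI y).smul D.two using 1
    rw [two_smul]; simp [pow_two, tu_val, mul_add, add_mul, smul_smul, h.II, h.sq]; abel
  have t2 : ∀ y, φ (D.tu _ (h.Isq (h.sq y))) ^ 2 = φ (D.ρ y) := fun y => by
    rw [← map_pow, k, map_pow, t1]; rfl
  have t3 : ∀ y, φ (D.tu _ (h.Isq (h.sq y))) ^ 4 = 1 := fun y => by
    rw [show 4 = 2 * 2 from rfl, pow_mul, t2, ← map_pow, pow_two,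
      show D.ρ y * D.ρ y = 1 from Units.ext (h.sq y), map_one]
  have t4 : ∀ y z, φ (D.ρ y) = φ (D.ρ z) → y = z := fun y z e =>
    (D.L_ρ y).inj (pr_iff.1 ((k _ _).1 e))
  have t5 : ∀ y, y ≠ 0 → φ (D.ρ y) ≠ 1 := fun y h0 e =>
    h0 ((D.L_ρ y).inj (pr_eq.1 ((k _ 1).1 (by simpa using e)) |>.elim fun c e =>
      e.2 ▸ L_one.smul e.1))
  have t6 := fun y => h.T _ _ (h.Isq (h.sq y)) (h.LI y)
  have := quad_of_not_dvd p _ hd ⟨_, _, t6 a, rfl⟩ ⟨_, _, t6 b, rfl⟩
    ⟨_, _, mul_mem (mul_mem hg (t6 x)) (inv_mem hg), rfl⟩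
  simp only [Subtype.ext_iff, ne_eq, Subgroup.coe_pow, Subgroup.coe_one, Subgroup.coe_mul, map_mul,
    map_inv, conj_pow, t2, t3, mul_inv_eq_one, mul_eq_left, mul_one] at this
  simp only [← map_mul, ← map_inv, k] at this
  rcases this trivial (t5 a a0) trivial (t5 b b0) (fun e => ab (xy0.2 (t4 _ _ ((k _ _).2 e)))) trivial
    (t5 x x0) with e | e | e
  exacts [⟨a, pr_eq.1 e⟩, ⟨b, pr_eq.1 e⟩, ⟨_, (pr_eq.1 e).elim fun c e =>
    e.2 ▸ ((D.L_ρ a).mul (D.L_ρ b)).smul e.1⟩]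

theorem nil_of_cfg (h4 : finrank (ZMod 2) E = 4) (hc : D.Cfg X) : D.Nil X := by
  obtain ⟨x, r, a, α, b, β, x0, hr, r2, ha, a2, hb, b2, ax, bx, ab, k, hk, k1, k2⟩ := hc
  have h2 := D.two
  obtain ⟨s, s1, s2, s3⟩ := D.sep2 (a := a) (b := b) (x := x) fun e => by
    rcases mem_span2.1 e with e | e | e | e <;> simp [e, D.symm b a, ab, D.alt] at x0 ax bx
  have hs := D.L_ρ s
  have s4 := h.sq s
  have ar := ha.cm hr ax
  have br := hb.cm hr bx
  have ba := hb.an ha ((D.symm _ _).trans ab)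
  have rs := hr.an hs ((D.symm _ _).trans s3)
  have as := ha.cm hs ((D.symm _ _).trans s1)
  have bs := hb.cm hs ((D.symm _ _).trans s2)
  have hsX := h.mem _ _ hs
  generalize D.ρ s = σ at *
  have aa : ∀ z, α * (α * z) = -z := fun z => by rw [← mul_assoc, a2, neg_one_mul]
  have bb : ∀ z, β * (β * z) = -z := fun z => by rw [← mul_assoc, b2, neg_one_mul]
  have rr : ∀ z, r * (r * z) = z := fun z => by rw [← mul_assoc, r2, one_mul]
  have ss : ∀ z : A, σ * (σ * z) = z := fun z => by rw [← mul_assoc, s4, one_mul]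
  have ba' : ∀ z, β * (α * z) = -(α * (β * z)) := fun z => by rw [← mul_assoc, ba]; simp [mul_assoc]
  have ar' : ∀ z, α * (r * z) = r * (α * z) := fun z => by rw [← mul_assoc, ar, mul_assoc]
  have br' : ∀ z, β * (r * z) = r * (β * z) := fun z => by rw [← mul_assoc, br, mul_assoc]
  have rs' : ∀ z, r * (σ * z) = -(σ * (r * z)) := fun z => by rw [← mul_assoc, rs]; simp [mul_assoc]
  have as' : ∀ z, α * (σ * z) = σ * (α * z) := fun z => by rw [← mul_assoc, as, mul_assoc]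
  have bs' : ∀ z, β * (σ * z) = σ * (β * z) := fun z => by rw [← mul_assoc, bs, mul_assoc]
  have out : ∀ c d e : F, c ≠ 0 → d * d + e * e = -1 → (∃ t ∈ X, (t : A) =
      1 + c • ((α + d • β + e • (α * β)) * (1 - r))) → D.Nil X := fun c d e c0 de ht => by
    refine ⟨x, r, _, x0, hr, r2, smul_ne_zero c0 fun e0 => hr.sub_ne x0 (D.two_smul_eq ?_), ?_, ?_,
      ?_, ht⟩
    · have e1 := congrArg (fun z => α * z + z * α) e0
      simp only [mul_add, add_mul, mul_sub, sub_mul, mul_assoc, smul_mul_assoc, mul_smul_comm, ← ar,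
        mul_one, one_mul, aa, a2, ba, ba', mul_neg, neg_mul, smul_neg, neg_neg, mul_zero, zero_mul] at e1
      linear_combination (norm := module) -e1
    · simp only [mul_add, add_mul, mul_sub, sub_mul, mul_assoc, smul_mul_assoc, mul_smul_comm, ar, br,
        mul_one, one_mul, aa, a2, bb, b2, ba, ba', ar', br', rr, r2, mul_neg, neg_mul, smul_neg, neg_neg]
      match_scalars <;> first | ring1 | linear_combination -2 * c * c * de | linear_combination 2 * c * c * de
    all_goals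
      simp only [mul_add, add_mul, mul_sub, sub_mul, mul_assoc, smul_mul_assoc, mul_smul_comm, ar, br,
        mul_one, one_mul, ar', br', rr, r2]
      module
  have k3 := D.ctrl_eq k1 k2
  by_cases h3 : (3 : F) = 0
  · refine out (-1) (-1) (-1) (by simp) (by linear_combination h3) ⟨k * k, mul_mem hk hk, ?_⟩
    rw [Units.val_mul, k3, show (2 : F)⁻¹ = -1 from inv_eq_of_mul_eq_one_right (by
      linear_combination -h3)]
    simp only [mul_add, add_mul, mul_sub, sub_mul, mul_assoc, smul_mul_assoc, mul_smul_comm, ar, br,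
      mul_one, one_mul, aa, a2, bb, b2, ba, ba', ar', br', rr, r2, mul_neg, neg_mul, smul_neg, neg_neg,
      smul_add, smul_sub]
    match_scalars <;> grind
  let γ : Fin 5 → A := ![r, σ, σ * (r * α), σ * (r * β), σ * (r * (α * β))]
  have hγ : ∀ i j, γ i * γ j + γ j * γ i = if i = j then 2 else 0 := fun i j => by
    fin_cases i <;> fin_cases j <;> simp [γ, mul_assoc, ar, br, aa, a2, bb, b2, ba, ba', ar', br', rr,
      r2, rs, rs', as, as', bs, bs', ss, s4, one_add_one_eq_two]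
  have hL : ∀ i, ∃ y, D.L y (γ i) := fun i => by
    fin_cases i
    exacts [⟨_, hr⟩, ⟨_, hs⟩, ⟨_, hs.mul (hr.mul ha)⟩, ⟨_, hs.mul (hr.mul hb)⟩,
      ⟨_, hs.mul (hr.mul (ha.mul hb))⟩]
  have g2 : ∀ i, γ i * γ i = 1 := fun i => by
    simpa [cl_sE, qs_apply, sE_dot] using cl_sq (F := F) hγ h2 (sE i : Fin 5 → ZMod p)
  have of := oframe_qs (F := F) (κ := Fin 5) (p := p) h2
  have sw : ∀ i j, i ≠ j → (refl (qs (Fin 5) p) (sE i - sE j)).1 ∈ clY F γ X := fun i j ij => by
    obtain ⟨y, hy⟩ := hL i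
    obtain ⟨z, hz⟩ := hL j
    have e1 := hγ i j
    rw [if_neg ij, add_eq_zero_iff_eq_neg] at e1
    have e2 : -(γ i * γ j) * -(γ i * γ j) = -1 := by
      rw [neg_mul_neg]; nth_rewrite 2 [e1]
      rw [mul_neg, mul_assoc, ← mul_assoc (γ j), g2, one_mul, g2]
    exact refl_mem_clY hγ h2 ((of.Q_sub ij).trans_ne of.ne2) (mul_mem (h.mem hy.isUnit.unit _ hy)
      (h.T _ _ e2 (hy.mul hz).neg)) (by
        rw [cl_sub]; simp [cl_sE, tu_val, mul_add, ← mul_assoc, g2, sub_eq_add_neg])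
  have hY : FrY (qs (Fin 5) p) (clY F γ X) sE 1 := ⟨of, fun _ h => h.1, fun i =>
    let ⟨y, hy⟩ := hL i; refl_mem_clY hγ h2 (of.ne0 i) (h.mem hy.isUnit.unit _ hy) (by simp [cl_sE]),
    fun a b c d h1 h2 => mul_mem (sw a b h1) (sw c d h2)⟩
  have p2 := of.two
  have q1 : qs (Fin 5) p ![0, 2⁻¹, -2⁻¹, 2⁻¹, 2⁻¹] = 1 := by
    simp [qs_apply, dotProduct, Fin.sum_univ_five]; field_simp; ring
  have hΩ := omega_five hY (by simpa using hp.out) (fun e => h3 (by
    simpa [map_ofNat] using congrArg (fp F) e)) ⟨q1, refl_mem_clY hγ h2 (q1.trans_ne one_ne_zero)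
      (mul_mem (mul_mem hk hsX) (inv_mem hk)) (by
        rw [Units.val_mul, Units.mul_inv_eq_iff_eq_mul, Units.val_mul, k3]
        simp only [cl, Fin.sum_univ_five, γ, Matrix.cons_val, map_zero, map_neg, map_inv₀, map_ofNat]
        simp only [mul_add, add_mul, mul_sub, sub_mul, mul_assoc, smul_mul_assoc, mul_smul_comm, ar,
          br, mul_one, one_mul, aa, a2, bb, b2, ba, ba', ar', br', rr, r2, mul_neg, neg_mul, smul_neg,
          neg_neg, smul_add, smul_sub, rs, rs', as, as', bs, bs', zero_smul, zero_mul]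
        match_scalars <;> field_simp <;> ring)⟩ (by
      ext i; simp [co_apply, qs_polar, sE_dot, p2])
  obtain ⟨c, d, cd⟩ := ZMod.sq_add_sq p (-1)
  have u0 : qs (Fin 5) p ![0, 1, 0, c, d] = 0 := by
    simp [qs_apply, dotProduct, Fin.sum_univ_five]; linear_combination cd
  have w0 : qs (Fin 5) p ![0, 0, 1, d, -c] = 0 := by
    simp [qs_apply, dotProduct, Fin.sum_univ_five]; linear_combination cd
  have uw : polar (qs (Fin 5) p) ![0, 1, 0, c, d] ![0, 0, 1, d, -c] = 0 := by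
    simp [qs_polar, dotProduct, Fin.sum_univ_five, mul_comm]
  obtain ⟨-, g, hg, ε, ε2, hε⟩ := hΩ (eich_mem_OmegaV of.nd (notExc_of_two_ne_zero p2) u0 uw)
  have e1 := eich_cl (F := F) hγ h2 u0 w0 uw
  have cd' : fp F d * fp F d + -fp F c * -fp F c = -1 := by
    simpa [pow_two, add_comm] using congrArg (fp F) cd
  have e2 : cl F γ ![0, 1, 0, c, d] * cl F γ ![0, 0, 1, d, -c] =
      -((α + fp F d • β + -fp F c • (α * β)) * (1 - r)) := by
    simp only [cl, Fin.sum_univ_five, γ, Matrix.cons_val, map_zero, map_neg, map_one]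
    simp only [mul_add, add_mul, mul_sub, sub_mul, mul_assoc, smul_mul_assoc, mul_smul_comm, ar,
      br, mul_one, one_mul, aa, a2, bb, b2, ba, ba', ar', br', rr, r2, mul_neg, neg_mul, smul_neg,
      neg_neg, smul_add, smul_sub, rs, rs', as, as', bs, bs', zero_smul, ss, s4, one_smul, zero_mul,
      mul_zero]
    match_scalars <;> first | ring1 | linear_combination cd' | linear_combination -cd'
  obtain ⟨N, hN⟩ : ∃ N, N = cl F γ ![0, 1, 0, c, d] * cl F γ ![0, 0, 1, d, -c] := ⟨_, rfl⟩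
  have N2 : N * N = 0 := by
    rw [hN, mul_assoc, ← mul_assoc (cl F γ ![0, 0, 1, d, -c]), cl_polar hγ ![0, 0, 1, d, -c],
      polar_comm, uw]
    simp [← mul_assoc, cl_sq hγ h2, u0]
  rw [← hN] at e1 e2
  let τ : Aˣ := ⟨1 + N, 1 - N, by simp [mul_sub, add_mul, N2], by simp [sub_mul, mul_add, N2]⟩
  have e3 : ∀ i, ((τ⁻¹ * τ⁻¹ * (g * g) : Aˣ) : A) * γ i = γ i * (τ⁻¹ * τ⁻¹ * (g * g) : Aˣ) := by
    intro i
    have e4 : ∀ v, (τ⁻¹ : Aˣ) * cl F γ ((eich _ ![0, 1, 0, c, d] ![0, 0, 1, d, -c]).1 v) =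
        cl F γ v * (τ⁻¹ : Aˣ) := fun v => by
      rw [Units.inv_mul_eq_iff_eq_mul, ← mul_assoc, eq_comm, Units.mul_inv_eq_iff_eq_mul]
      exact e1 v
    rw [← cl_sE (F := F) (p := p) (γ := γ) i]
    simp only [Units.val_mul, mul_assoc, hε, mul_smul_comm, ← mul_assoc (g : A) (cl F γ _),
      smul_mul_assoc, smul_smul, ε2, one_smul, ← mul_assoc ((τ⁻¹ : Aˣ) : A) (cl F γ _), e4]
  generalize hm : τ⁻¹ * τ⁻¹ * (g * g) = m at e3
  have li : LinearIndependent (ZMod 2) ![x, s, a, b] := Fintype.linearIndependent_iff.2 fun c e i => by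
    have e1 := congrArg (D.B x) e
    have e2 := congrArg (D.B s) e
    have e3 := congrArg (D.B a) e
    have e4 := congrArg (D.B b) e
    simp [Fin.sum_univ_four, D.alt, D.symm x s, D.symm x a, D.symm x b, D.symm a s, D.symm b s,
      D.symm b a, ax, bx, ab, s1, s2, s3] at e1 e2 e3 e4
    fin_cases i <;> assumption
  have m1 := hr.mem_cen (e3 0)
  have m2 := hs.mem_cen (e3 1)
  have m3 := (hs.mul (hr.mul ha)).mem_cen (e3 2)
  have m4 := (hs.mul (hr.mul hb)).mem_cen (e3 3)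
  rw [add_mem_cancel_left m2, add_mem_cancel_left m1] at m3 m4
  obtain ⟨z, hz⟩ := D.scalar_of_comm (a := m) fun y => ((Submodule.span_le.2 (by
    rintro _ ⟨i, rfl⟩; fin_cases i <;> assumption) : _ ≤ D.cen m)
    ((li.span_eq_top_of_card_eq_finrank (by simp [h4])).ge trivial) _ (D.L_ρ y)).symm
  have z0 : z ≠ 0 := by rintro rfl; have := D.nt; simp at hz
  refine out (-2) _ _ (by simp [h2]) cd' ⟨g * g * m⁻¹, mul_mem (mul_mem hg hg)
    (inv_mem (h.mem _ 0 (hz ▸ L_one.smul z0))), ?_⟩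
  rw [show g * g * m⁻¹ = τ * τ by rw [← hm]; simp [mul_assoc], neg_smul, ← smul_neg, ← e2]
  simp [τ, mul_add, add_mul, N2, two_smul, add_assoc]

end AB

end H12.C6
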