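import Cfsg.Agent.H12.C6f

/-!
# Normalisers of Pauli groups: restriction to an eigenspace
-/

set_option autoImplicit false
set_option maxHeartbeats 400000

namespace H12.C6

open Module

variable {F V W E : Type*} [Field F] [AddCommGroup V] [Module F V] [AddCommGroup W] [Module F W]
  [AddCommGroup E] [Module (ZMod 2) E]

/-- An involution in odd characteristic with its negative eigenspace. -/
structure IV (r : End F V) (W : Type*) [AddCommGroup W] [Module F W] where
  ι : W →ₗ[F] V
  pj : V →ₗ[F] W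
  two : (2 : F) ≠ 0
  r2 : r * r = 1
  pj_ι : ∀ w, pj (ι w) = w
  ι_pj : ∀ v, ι (pj v) = (2 : F)⁻¹ • (v - r v)

/-- The standard choice. -/
def IV.std {r : End F V} (h2 : (2 : F) ≠ 0) (r2 : r * r = 1) : IV r (LinearMap.ker (r + 1)) where
  ι := Submodule.subtype _
  pj := ((2 : F)⁻¹ • (1 - r)).codRestrict _ fun v => by
    have : r (r v) = v := LinearMap.congr_fun r2 v
    simp [this, ← smul_add]
  two := h2
  r2 := r2
  pj_ι w := Subtype.ext (by
    have : r w = -w := eq_neg_of_add_eq_zero_left w.2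
    simp [this, ← two_smul F, inv_smul_smul₀ h2])
  ι_pj _ := rfl

theorem det_one_add_comm [FiniteDimensional F V] [FiniteDimensional F W] (f : W →ₗ[F] V)
    (g : V →ₗ[F] W) : LinearMap.det (1 + f ∘ₗ g) = LinearMap.det (1 + g ∘ₗ f) := by
  classical
  let b := Module.finBasis F V
  let c := Module.finBasis F W
  rw [← LinearMap.det_toMatrix b, ← LinearMap.det_toMatrix c, map_add, map_add,
    LinearMap.toMatrix_comp b c b, LinearMap.toMatrix_comp c b c, LinearMap.toMatrix_one,
    LinearMap.toMatrix_one, Matrix.det_one_add_mul_comm]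

namespace IV

variable {r a b : End F V} (h : IV r W)

include h in
theorem rr (v : V) : r (r v) = v := congr($h.r2 v)

theorem ι_inj : Function.Injective h.ι := Function.LeftInverse.injective h.pj_ι

theorem r_ι (w : W) : r (h.ι w) = -h.ι w := by
  have := h.ι_pj (h.ι w)
  rw [h.pj_ι, eq_inv_smul_iff₀ h.two, two_smul] at this
  linear_combination (norm := abel) this

theorem ι_pj' {v : V} (e : r v = -v) : h.ι (h.pj v) = v := by
  rw [ι_pj, e, sub_neg_eq_add, ← two_smul F, inv_smul_smul₀ h.two]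

theorem pj_r (v : V) : h.pj (r v) = -h.pj v := h.ι_inj (by simp [ι_pj, h.rr, ← smul_neg])

include h in
theorem fin [FiniteDimensional F V] : FiniteDimensional F W := .of_injective _ h.ι_inj

/-- Compression to the eigenspace. -/
def res : End F V →ₗ[F] End F W where
  toFun a := h.pj ∘ₗ a ∘ₗ h.ι
  map_add' _ _ := by ext; simp
  map_smul' _ _ := by ext; simp

/-- Extension by zero. -/
def ext : End F W →ₗ[F] End F V where
  toFun f := h.ι ∘ₗ f ∘ₗ h.pj
  map_add' _ _ := by ext; simp
  map_smul' _ _ := by ext; simp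

theorem res_apply (a : End F V) (w : W) : h.res a w = h.pj (a (h.ι w)) := rfl

theorem ext_apply (f : End F W) (v : V) : h.ext f v = h.ι (f (h.pj v)) := rfl

theorem res_ext (f : End F W) : h.res (h.ext f) = f := by
  ext w; simp [res_apply, ext_apply, pj_ι]

theorem r_ext (f : End F W) : r * h.ext f = -h.ext f :=
  LinearMap.ext fun _ => h.r_ι _

theorem ext_r (f : End F W) : h.ext f * r = -h.ext f := by
  ext v; simp [ext_apply, pj_r]

theorem ext_mul (f g : End F W) : h.ext (f * g) = h.ext f * h.ext g := by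
  ext v; simp [ext_apply, pj_ι]

theorem res_coe (c : a * r = r * a) (w : W) : h.ι (h.res a w) = a (h.ι w) :=
  h.ι_pj' (v := a (h.ι w)) (by rw [← End.mul_apply r, ← c, End.mul_apply, h.r_ι, map_neg])

theorem res_mul (c : b * r = r * b) : h.res (a * b) = h.res a * h.res b := by
  ext w; simp [h.res_apply a, h.res_apply (a * b), h.res_coe c]

theorem res_one : h.res 1 = 1 := LinearMap.ext h.pj_ι

theorem res_r : h.res r = -1 := by ext w; simp [res_apply, pj_r, pj_ι]

theorem res_an (c : a * r = -(r * a)) : h.res a = 0 := by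
  ext w
  have := congr($c (h.ι w))
  simp only [End.mul_apply, h.r_ι, map_neg, LinearMap.neg_apply, neg_inj] at this
  exact h.ι_inj (by simp [res_apply, ι_pj, ← this])

theorem ext_res (c : a * r = r * a) : h.ext (h.res a) = (2 : F)⁻¹ • (a * (1 - r)) := by
  ext v; simp [ext_apply, h.res_coe c, ι_pj]

theorem res_sub (a : End F V) : h.res (a * (1 - r)) = (2 : F) • h.res a := by
  rw [mul_sub, map_sub, h.res_mul rfl, res_r, two_smul]; simp

theorem res_eq (e : a * (1 - r) = b * (1 - r)) : h.res a = h.res b :=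
  smul_right_injective _ h.two (by simp only [← h.res_sub, e])

theorem eq_of_res (c : a * r = r * a) (c' : b * r = r * b) (e : h.res a = h.res b) :
    a * (1 - r) = b * (1 - r) :=
  smul_right_injective _ (inv_ne_zero h.two) (by simp only [← h.ext_res, c, c', e])

theorem ext_eq (c : a * r = -a) (c' : r * a = -a) : h.ext (h.res a) = a := by
  rw [h.ext_res (c.trans c'.symm), mul_sub, c, inv_smul_eq_iff₀ h.two, two_smul]; simp

/-- Restriction of a unit. -/
def resU (g : (End F V)ˣ) (c : g * r = r * g) : (End F W)ˣ where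
  val := h.res g
  inv := h.res (g⁻¹ : (End F V)ˣ)
  val_inv := by rw [← h.res_mul (Commute.units_inv_left c), Units.mul_inv, res_one]
  inv_val := by rw [← h.res_mul c, Units.inv_mul, res_one]

/-- The restriction of the centraliser. -/
def P (X : Subgroup (End F V)ˣ) : Subgroup (End F W)ˣ where
  carrier := {k | ∃ g ∈ X, g * r = r * g ∧ (k : End F _) = h.res g}
  one_mem' := ⟨1, one_mem _, by simp, h.res_one.symm⟩
  mul_mem' := fun ⟨g, g0, g1, g2⟩ ⟨k, k0, k1, k2⟩ => ⟨g * k, mul_mem g0 k0, Commute.mul_left g1 k1, by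
    simp [g2, k2, h.res_mul k1]⟩
  inv_mem' := fun {k} ⟨g, g0, g1, g2⟩ => ⟨g⁻¹, inv_mem g0, Commute.units_inv_left g1, by
    rw [show k = h.resU g g1 from Units.ext g2]; rfl⟩

@[simp] theorem resU_val (g : (End F V)ˣ) (c : g * r = r * g) : (h.resU g c : End F W) = h.res g := rfl

theorem res_conj (g : (End F V)ˣ) (c : g * r = r * g) (c' : a * r = r * a) :
    h.res (g * a * (g⁻¹ : (End F V)ˣ)) = h.resU g c * h.res a * ((h.resU g c)⁻¹ : (End F _)ˣ) := by
  rw [h.res_mul (Commute.units_inv_left c), h.res_mul c']; rfl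

theorem eq_ext (e : a * (1 + r) = 1 + r) (c : a * r = r * a) : a = 1 + h.ext (h.res a - 1) := by
  rw [map_sub, ← h.res_one, h.ext_res c, h.ext_res (by simp), ← smul_sub, ← sub_eq_iff_eq_add',
    eq_inv_smul_iff₀ h.two, two_smul]
  linear_combination (norm := noncomm_ring) e

theorem det_ext [FiniteDimensional F V] (f : End F W) :
    LinearMap.det (1 + h.ext f) = LinearMap.det (1 + f) := by
  have := h.fin
  refine (det_one_add_comm h.ι (f ∘ₗ h.pj)).trans ?_
  congr 2; ext w; simp [pj_ι]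

theorem mul_ext (c : a * r = r * a) (f : End F W) : a * h.ext f = h.ext (h.res a * f) := by
  ext v; simp [ext_apply, h.res_coe c]

theorem ext_mul' (c : a * r = r * a) (f : End F W) : h.ext f * a = h.ext (f * h.res a) := by
  ext v
  have : h.pj (a v) = h.res a (h.pj v) := h.ι_inj (by
    simp [h.res_coe c, ι_pj, ← End.mul_apply a r, c])
  simp [ext_apply, this]

/-- Extension by the identity. -/
def extM : End F W →* End F V where
  toFun f := 1 + h.ext (f - 1)
  map_one' := by simp
  map_mul' f g := by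
    simp only [mul_add, add_mul, ← h.ext_mul, one_mul, mul_one, add_assoc, ← map_add]
    congr 2; noncomm_ring

theorem extM_apply (f : End F W) : h.extM f = 1 + h.ext (f - 1) := rfl

theorem conj_extM (g : (End F V)ˣ) (c : g * r = r * g) (k : (End F W)ˣ) :
    g * Units.map h.extM k * g⁻¹ = Units.map h.extM (h.resU g c * k * (h.resU g c)⁻¹) := by
  ext1
  simp only [Units.val_mul, Units.coe_map, extM_apply, mul_add, add_mul, mul_one, Units.mul_inv,
    h.mul_ext c, h.ext_mul' (Commute.units_inv_left c), mul_sub, sub_mul]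
  congr 3; exact (h.resU g c).mul_inv

theorem det_of_res [FiniteDimensional F V] {c : F} (e : a * (1 + r) = 1 + r) (cm : a * r = r * a)
    (e' : h.res a = c • 1) : LinearMap.det a = c ^ finrank F W := by
  have := h.fin
  rw [h.eq_ext e cm, h.det_ext, add_sub_cancel, e', LinearMap.det_smul, map_one, mul_one]

end IV

namespace PD

variable (D : PD F (End F V) E) {x₀ s x y : E} {r a b : End F V} {X : Subgroup (End F V)ˣ}

/-- The data for a restriction. -/
structure RD (x₀ s : E) (r : End F V) (W : Type*) [AddCommGroup W] [Module F W] extends IV r W where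
  L : D.L x₀ r
  dual : D.B s x₀ = 1

/-- The classes on the eigenspace. -/
def Ep (x₀ s : E) : Submodule (ZMod 2) E := D.perp (Submodule.span (ZMod 2) {x₀, s})

variable {D}

theorem mem_Ep : x ∈ D.Ep x₀ s ↔ D.B x x₀ = 0 ∧ D.B x s = 0 :=
  ⟨fun h => ⟨D.symm _ _ ▸ h _ (Submodule.subset_span (by simp)),
    D.symm _ _ ▸ h _ (Submodule.subset_span (by simp))⟩, fun h z hz => by
      rcases mem_span2.1 hz with rfl | rfl | rfl | rfl <;> simp [D.symm _ x, h.1, h.2]⟩

theorem exists_RD [Finite E] (hr : D.L x₀ r) (h0 : x₀ ≠ 0) (r2 : r * r = 1) :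
    ∃ s, Nonempty (D.RD x₀ s r (LinearMap.ker (r + 1))) :=
  let ⟨s, hs⟩ := D.sep0 h0; ⟨s, ⟨⟨.std D.two r2, hr, hs⟩⟩⟩

namespace RD

variable (h : D.RD x₀ s r W)
include h

theorem ne : x₀ ≠ 0 := fun e => by simpa [e] using h.dual

theorem finrank_Ep [Finite E] : finrank (ZMod 2) (D.Ep x₀ s) + 2 = finrank (ZMod 2) E := by
  have : LinearIndependent (ZMod 2) ![x₀, s] := LinearIndependent.pair_iff.2 fun a b e => by
    simpa [D.alt, h.dual, D.symm x₀] using And.intro (congrArg (D.B s) e) (congrArg (D.B x₀) e)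
  have h1 := finrank_span_eq_card this
  rw [Matrix.range_cons_cons_empty] at h1
  rw [← D.finrank_perp (Submodule.span (ZMod 2) {x₀, s})]
  exact congrArg _ h1.symm

/-- The projection of classes. -/
def π (y : E) : D.Ep x₀ s := ⟨y + D.B y s • x₀ + D.B y x₀ • s, mem_Ep.2 (by
  simp [D.alt, h.dual, D.symm x₀, zbb])⟩

theorem cm (y : D.Ep x₀ s) (hb : D.L y b) : b * r = r * b := hb.cm h.L (mem_Ep.1 y.2).1

theorem res_π (hb : D.L y b) (e : D.B y x₀ = 0) : ∃ a, D.L (h.π y) a ∧ h.res a = h.res b := by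
  rcases z01 (D.B y s) with e' | e'
  · exact ⟨b, by simpa [π, e, e'] using hb, rfl⟩
  · exact ⟨-(b * r), by simpa [π, e, e'] using (hb.mul h.L).neg, by
      simp [h.res_mul rfl, h.res_r]⟩

/-- The restricted Pauli data. -/
noncomputable def D' : PD F (End F W) (D.Ep x₀ s) where
  B := D.B.domRestrict₁₂ _ _
  alt x := D.alt x
  nd x hx := Subtype.ext (D.nd _ fun y => by
    simpa [π, mem_Ep.1 x.2] using show D.B x (h.π y) = 0 from hx (h.π y))
  ρ x := h.resU (D.ρ x) (h.cm x (D.L_ρ x))
  mul x y := let ⟨c, e⟩ := D.mul x y; ⟨c, by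
    simpa [h.res_mul (h.cm y (D.L_ρ _))] using congrArg h.res e⟩
  cm x y e := by simpa [h.res_mul (h.cm _ (D.L_ρ _))] using congrArg h.res (D.cm x y e)
  an x y e := by simpa [h.res_mul (h.cm _ (D.L_ρ _))] using congrArg h.res (D.an x y e)
  span := by
    refine eq_top_iff.2 fun f _ => ?_
    rw [← h.res_ext f]
    refine Submodule.mem_comap.1 ((Submodule.span_le.2 ?_ : _ ≤ Submodule.comap h.res _)
      (D.span.ge trivial))
    rintro _ ⟨y, rfl⟩
    rcases z01 (D.B y x₀) with e | e
    · obtain ⟨_, ⟨c, -, rfl⟩, e'⟩ := h.res_π (D.L_ρ y) e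
      refine Submodule.mem_comap.2 (e' ▸ ?_)
      rw [map_smul]
      exact Submodule.smul_mem _ _ (Submodule.subset_span ⟨_, rfl⟩)
    · simp [h.res_an ((D.L_ρ y).an h.L e)]
  two := D.two
  nt := by
    by_contra hn
    rw [not_nontrivial_iff_subsingleton] at hn
    simpa [h.L.sub_ne h.ne] using h.eq_of_res (a := 1) (b := 0) (by simp) (by simp)
      (Subsingleton.elim _ _)

theorem L' {y : D.Ep x₀ s} {f : End F W} : h.D'.L y f ↔ ∃ b, D.L y b ∧ h.res b = f :=
  ⟨fun ⟨c, h0, e⟩ => ⟨_, ⟨c, h0, rfl⟩, by rw [e, map_smul]; rfl⟩,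
    fun ⟨_, ⟨c, h0, e⟩, e'⟩ => ⟨c, h0, by rw [← e', e, map_smul]; rfl⟩⟩

theorem L_res (hb : D.L y b) (e : b * r = r * b) : h.D'.L (h.π y) (h.res b) :=
  h.L'.2 (h.res_π hb (hb.of_cm h.L e))

theorem sq_of_res {y : D.Ep x₀ s} {c : F} (hb : D.L y b) (e : h.res b * h.res b = c • 1) :
    b * b = c • 1 := by
  obtain ⟨d, -, e'⟩ := hb.sq
  have := h.D'.nt
  rw [← h.res_mul (h.cm y hb), e', map_smul, h.res_one] at e
  rw [e', smul_left_injective F (one_ne_zero (α := End F W)) e]

theorem loc [Finite E] {g : (End F V)ˣ} (c : g * r = r * g) (hg : h.resU g c ∈ h.D'.Nm) :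
    D.Loc g r := fun _ a ha e => by
  obtain ⟨y, hy⟩ := Nm.ex hg (h.L_res ha e)
  obtain ⟨b, hb, e'⟩ := h.L'.1 hy
  exact ⟨y, b, hb, h.eq_of_res (conj_comm c e) (h.cm y hb) (by rw [e', h.res_conj g c e])⟩

theorem ab {I : F} (hA : AB D X I) : AB h.D' (h.P X) I where
  II := hA.II
  sq x := (h.res_mul (h.cm x (D.L_ρ _))).symm.trans (by rw [hA.sq, h.res_one])
  mem g x hg := let ⟨_, hb, e⟩ := h.L'.1 hg
    ⟨hb.isUnit.unit, hA.mem _ _ hb, h.cm x hb, e.symm⟩
  T x α e hα := by
    obtain ⟨b, hb, rfl⟩ := h.L'.1 hα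
    have e' : b * b = -1 := by simpa using h.sq_of_res (c := -1) hb (by simpa)
    exact ⟨_, hA.T _ _ e' hb, tu_cm _ (h.cm x hb), by simp [tu_val, h.res_one]⟩

theorem exists_l {N : End F V} (h0 : N ≠ 0) (rN : r * N = -N) (Nr : N * r = -N) :
    ∃ y : D.Ep x₀ s, N * D.ρ y * N ≠ 0 := by
  by_contra! hn
  have h1 : ∀ f, h.res N * f * h.res N = 0 := fun f => by
    refine Submodule.span_induction ?_ (by simp) (fun _ _ _ _ a b => by simp [mul_add, add_mul, a, b])
      (fun _ _ _ a => by simp [a]) (h.D'.span.ge (Submodule.mem_top (x := f)))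
    rintro _ ⟨y, rfl⟩
    simpa [h.res_mul (Nr.trans rN.symm), h.res_mul (h.cm _ (D.L_ρ _)), D'] using
      congrArg h.res (hn y)
  refine h0 ((h.ext_eq Nr rN).symm.trans ?_)
  by_contra h2
  obtain ⟨v, hv⟩ : ∃ v, h.res N v ≠ 0 := by
    by_contra! h3; exact h2 (by rw [LinearMap.ext h3 (g := 0), map_zero])
  obtain ⟨φ, hφ⟩ := Module.Projective.exists_dual_eq_one F hv
  simpa [hφ, hv] using congr($(h1 (φ.smulRight v)) v)

end RD

end PD

theorem PD.finrank_sq [Finite E] [FiniteDimensional F V] (D : PD F (End F V) E) :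
    finrank F V * finrank F V = 2 ^ finrank (ZMod 2) E := by
  rw [← card_two, D.card_eq, finrank_linearMap]

end H12.C6
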