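import Cfsg.Agent.H12.C6g
import Cfsg.Agent.H13.McL2

/-!
# Normalisers of Pauli groups: the linear case
-/

set_option autoImplicit false
set_option maxHeartbeats 400000

namespace H12.C6

open Module H13.McL

universe u v

variable {F V W E : Type*} [Field F] [AddCommGroup V] [Module F V] [AddCommGroup W] [Module F W]
  [AddCommGroup E] [Module (ZMod 2) E]

/-- Units of the endomorphism ring as linear equivalences. -/
abbrev eqv : (End F V)ˣ ≃* (V ≃ₗ[F] V) := LinearMap.GeneralLinearGroup.generalLinearEquiv F V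

/-- The corresponding group of linear equivalences. -/
def eqG (X : Subgroup (End F V)ˣ) : Subgroup (V ≃ₗ[F] V) := X.comap eqv.symm.toMonoidHom

theorem mem_eqG {X : Subgroup (End F V)ˣ} {g : (End F V)ˣ} : eqv g ∈ eqG X ↔ g ∈ X := by
  simp [eqG]

theorem eqv_symm (g : V ≃ₗ[F] V) (v : V) : (eqv.symm g).1 v = g v := rfl

theorem tr_eqG {X : Subgroup (End F V)ˣ} {v : V} {φ : Dual F V} :
    Tr (eqG X) v φ ↔ ∃ t ∈ X, (t : End F V) = 1 + φ.smulRight v :=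
  ⟨fun ⟨g, hg, e⟩ => ⟨_, hg, LinearMap.ext e⟩, fun ⟨t, ht, e⟩ =>
    ⟨eqv t, mem_eqG.2 ht, fun x => LinearMap.congr_fun e x⟩⟩

@[simp] theorem uinv (g : (End F V)ˣ) (v : V) : (g⁻¹).1 (g.1 v) = v :=
  LinearMap.congr_fun g.inv_mul v

@[simp] theorem uinv' (g : (End F V)ˣ) (v : V) : g.1 ((g⁻¹).1 v) = v :=
  LinearMap.congr_fun g.mul_inv v

theorem tr_conj {X : Subgroup (End F V)ˣ} {v : V} {φ : Dual F V} (h : Tr (eqG X) v φ)
    {g : (End F V)ˣ} (hg : g ∈ X) : Tr (eqG X) (g.1 v) (φ ∘ₗ (g⁻¹).1) := h.conj (mem_eqG.2 hg)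

theorem rank_one [FiniteDimensional F W] (h : finrank F W = 2) {N : End F W} (h0 : N ≠ 0)
    (h2 : N * N = 0) : ∃ v φ, v ≠ 0 ∧ φ ≠ 0 ∧ φ v = 0 ∧ N = LinearMap.smulRight (S := F) φ v := by
  obtain ⟨u, hu⟩ : ∃ u, N u ≠ 0 := by by_contra! h3; exact h0 (LinearMap.ext h3)
  have h3 : N (N u) = 0 := LinearMap.congr_fun h2 u
  have li : LinearIndependent F ![u, N u] := LinearIndependent.pair_iff.2 fun a b e => by
    have : a = 0 := by simpa [h3, hu] using congrArg N e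
    simpa [this, hu] using e
  let b := basisOfLinearIndependentOfCardEqFinrank li (by simp [h])
  have b0 : b 0 = u := by simp [b]
  have b1 : b 1 = N u := by simp [b]
  refine ⟨N u, b.coord 0, hu, fun e => by simpa using LinearMap.congr_fun e (b 0), by simp [← b1],
    b.ext fun i => ?_⟩
  fin_cases i
  · simp [← b0]
  · simp [← b1]; simp [b1, h3]

theorem tr_smul_nat {X : Subgroup (V ≃ₗ[F] V)} {v : V} {φ : Dual F V} (h : Tr X v φ) (h0 : φ v = 0)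
    (n : ℕ) : Tr X v ((n : F) • φ) := by
  induction n with
  | zero => simpa using tr_zero_right
  | succ n ih => simpa [add_smul] using ih.add_right h (by simp [h0])

theorem IV.ext_smulRight {r : End F V} (h : IV r W) (φ : Dual F W) (w : W) :
    h.ext (φ.smulRight w) = (φ ∘ₗ h.pj).smulRight (h.ι w) := by ext; simp [IV.ext_apply]

theorem PD.exists_ne (D : PD F (End F V) E) {v : V} {φ : Dual F V} (hv : v ≠ 0) (hφ : φ ≠ 0) :
    ∃ y, φ ((D.ρ y).1 v) ≠ 0 := by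
  by_contra! hn
  obtain ⟨ψ, hψ⟩ := Module.Projective.exists_dual_eq_one F hv
  refine hφ (LinearMap.ext fun w => ?_)
  simpa [hψ] using (Submodule.span_le.2 (by rintro _ ⟨y, rfl⟩; exact hn y) :
    _ ≤ LinearMap.ker (φ ∘ₗ LinearMap.applyₗ v)) (D.span.ge (Submodule.mem_top (x := ψ.smulRight w)))

theorem PD.eq_top (D : PD F (End F V) E) {S : Submodule F V} (h0 : S ≠ ⊥)
    (h : ∀ y, ∀ v ∈ S, (D.ρ y).1 v ∈ S) : S = ⊤ := by
  obtain ⟨v, hv, v0⟩ := (Submodule.ne_bot_iff _).1 h0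
  obtain ⟨ψ, hψ⟩ := Module.Projective.exists_dual_eq_one F v0
  refine eq_top_iff.2 fun w _ => ?_
  simpa [hψ] using (Submodule.span_le.2 (by rintro _ ⟨y, rfl⟩; exact h y v hv) :
    _ ≤ S.comap (LinearMap.applyₗ v)) (D.span.ge (Submodule.mem_top (x := ψ.smulRight w)))

theorem nat_of_pow (p : ℕ) [Fact p.Prime] [CharP F p] {a : F} (h : a ^ p = a) : ∃ n : ℕ, a = n := by
  obtain ⟨b, rfl⟩ := bot_le (a := (fp F (p := p)).fieldRange) ((Subfield.mem_bot_iff_pow_eq_self F p).2 h)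
  exact ⟨b.val, by conv_lhs => rw [← ZMod.natCast_zmod_val b, map_natCast]⟩

theorem sq_eq_four {n : ℕ} (h : n * n = 2 ^ 2) : n = 2 := by nlinarith

namespace AB

open PD

variable {D : PD F (End F V) E} {X : Subgroup (End F V)ˣ} {I : F} (h : AB D X I) {x s : E}
  {r : End F V} (p : ℕ) [hp : Fact p.Prime] [CharP F p]
include h p hp

theorem lift (h3 : (3 : F) ≠ 0) (hd : D.RD x s r W) {w : W} {φ : Dual F W} (w0 : w ≠ 0) (φ0 : φ ≠ 0)
    (e : φ w = 0) (hm : ∀ y, ∃ m : ℕ, φ ((hd.D'.ρ y).1 w) * φ ((hd.D'.ρ y).1 w) = m)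
    (ht : Tr (eqG (hd.P X)) w φ) : Tr (eqG X) (hd.ι w) (φ ∘ₗ hd.pj) := by
  obtain ⟨_, ⟨g, g0, g1, g3⟩, g2⟩ := tr_eqG.1 ht
  obtain ⟨y, hy⟩ := hd.D'.exists_ne w0 φ0
  obtain ⟨m, hm⟩ := hm y
  rw [tr_eqG, ← hd.ext_smulRight]
  refine h.braid p h3 hd.L hd.r2 (D.L_ρ y) (h.sq _) (hd.cm y (D.L_ρ _)) ?_ (hd.r_ext _) (hd.ext_r _)
    hy ?_ hm g0 g1 (hd.eq_of_res g1 (by simp [add_mul, mul_add, hd.r_ext, hd.ext_r]) ?_)
  · ext; simp [hd.ext_apply, hd.pj_ι, e]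
  · ext v; simp [hd.ext_apply, smul_smul, mul_comm]; rfl
  · rw [← g3, g2, map_add, hd.res_one, hd.res_ext]

variable [Finite E] [Fintype F] [FiniteDimensional F V]

theorem step_or {k : ℕ} (h4 : finrank (ZMod 2) E = 2 * k + 4) : X ≤ D.Nm ∨
    ∃ x s r, ∃ hd : D.RD x s r (LinearMap.ker (r + 1)), ¬ hd.P X ≤ hd.D'.Nm ∨ k = 0 ∧
      ∃ w φ, w ≠ 0 ∧ φ ≠ 0 ∧ φ w = 0 ∧ Tr (eqG X) (hd.ι w) (φ ∘ₗ hd.pj) := by
  have : Finite (End F V) := Module.finite_of_finite F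
  by_cases hL : D.HL X
  · by_cases hc : 5 ≤ finrank (ZMod 2) E ∨ ¬ D.Cfg X
    · exact .inl (h.step hL hc (by omega))
    push Not at hc
    obtain ⟨x, r, N, x0, hr, r2, N0, N2, rN, Nr, t, t0, t1⟩ := h.nil_of_cfg p (by omega) hc.2
    obtain ⟨s, ⟨hd⟩⟩ := exists_RD hr x0 r2
    have := hd.finrank_Ep
    obtain ⟨w, φ, w0, φ0, e, e'⟩ := rank_one (N := hd.res N) (sq_eq_four (hd.D'.finrank_sq.trans
      (by congr 1; omega))) (fun e => N0 (by rw [← hd.ext_eq Nr rN, e, map_zero]))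
      (by rw [← hd.res_mul (Nr.trans rN.symm), N2, map_zero])
    exact .inr ⟨x, s, r, hd, .inr ⟨by omega, w, φ, w0, φ0, e, tr_eqG.2 ⟨t, t0, by
      rw [← hd.ext_smulRight, ← e', hd.ext_eq Nr rN, t1]⟩⟩⟩
  simp only [HL, not_forall] at hL
  obtain ⟨x, x0, r, hr, r2, g, g0, g1, g2⟩ := hL
  obtain ⟨s, ⟨hd⟩⟩ := exists_RD hr x0 r2
  exact .inr ⟨x, s, r, hd, .inl fun e => g2 (hd.loc g1 (e ⟨g, g0, g1, rfl⟩))⟩

theorem base (h2 : finrank (ZMod 2) E = 2) :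
    X ≤ D.Nm ∨ ∃ w φ, w ≠ 0 ∧ φ ≠ 0 ∧ φ w = 0 ∧ Tr (eqG X) w φ := by
  have h3 := sq_eq_four (h2 ▸ D.finrank_sq)
  refine (h.base1 p (LinearMap.toMatrixAlgEquiv (finBasisOfFinrankEq F V h3)) h2.ge).imp_right
    fun ⟨N, N0, N2, ht⟩ => ?_
  obtain ⟨w, φ, w0, φ0, e, rfl⟩ := rank_one h3 N0 N2
  exact ⟨w, φ, w0, φ0, e, tr_eqG.2 ht⟩

end AB

theorem three_ne {I : F} (hI : I * I = -1) (h2 : (2 : F) ≠ 0) (hF : ∀ a : F, ∃ n : ℕ, a = n) :
    (3 : F) ≠ 0 := fun h3 => by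
  obtain ⟨n, rfl⟩ := hF I
  obtain ⟨m, rfl | rfl | rfl⟩ : ∃ m, n = 3 * m ∨ n = 3 * m + 1 ∨ n = 3 * m + 2 := ⟨n / 3, by omega⟩ <;>
    grind

theorem indA [Fintype F] (p : ℕ) [Fact p.Prime] [CharP F p] (hF : ∀ a : F, ∃ n : ℕ, a = n) {I : F}
    (k : ℕ) : ∀ {V : Type u} {E : Type v} [AddCommGroup V] [Module F V] [FiniteDimensional F V]
    [AddCommGroup E] [Module (ZMod 2) E] [Finite E] {D : PD F (End F V) E} {X : Subgroup (End F V)ˣ},
    AB D X I → finrank (ZMod 2) E = 2 * k + 2 → X ≤ D.Nm ∨ ∃ w φ, w ≠ 0 ∧ φ ≠ 0 ∧ φ w = 0 ∧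
      Tr (eqG X) w φ ∧ (k = 0 ∨ ∃ x r, x ≠ 0 ∧ D.L x r ∧ r * r = 1 ∧ r w = -w ∧ φ ∘ₗ r = -φ) := by
  induction k with
  | zero => exact fun h h2 => (h.base p h2).imp_right fun ⟨w, φ, a, b, c, d⟩ =>
      ⟨w, φ, a, b, c, d, .inl rfl⟩
  | succ k ih =>
    intro V E _ _ _ _ _ _ D X h h2
    refine (h.step_or p (k := k) h2).imp_right fun ⟨x, s, r, hd, h3⟩ => ?_
    obtain ⟨w, φ, w0, φ0, e, ht⟩ : ∃ w φ, w ≠ 0 ∧ φ ≠ 0 ∧ φ w = 0 ∧
        Tr (eqG X) (hd.ι w) (φ ∘ₗ hd.pj) := h3.elim (fun h3 =>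
      let ⟨w, φ, w0, φ0, e, ht, _⟩ := (ih (hd.ab h) (by have := hd.finrank_Ep; omega)).resolve_left h3
      ⟨w, φ, w0, φ0, e, h.lift p (three_ne h.II D.two hF) hd w0 φ0 e (fun _ => hF _) ht⟩) And.right
    exact ⟨_, _, (map_ne_zero_iff _ hd.ι_inj).2 w0, fun e' => φ0 (LinearMap.ext fun v => by
      simpa [hd.pj_ι] using LinearMap.congr_fun e' (hd.ι v)), by simp [hd.pj_ι, e], ht,
      .inr ⟨x, r, hd.ne, hd.L, hd.r2, hd.r_ι w, by ext; simp [hd.pj_r]⟩⟩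

namespace AB

open PD

variable {D : PD F (End F V) E} {X : Subgroup (End F V)ˣ} {I : F} (h : AB D X I)
include h

theorem ρρ (y : E) (v : V) : (D.ρ y).1 ((D.ρ y).1 v) = v := LinearMap.congr_fun (h.sq y) v

theorem ts (hF : ∀ a : F, ∃ n : ℕ, a = n) : TS (Dual.eval F V) (R (eqG X)) := by
  have sr : ∀ {v φ} (c : F), R (eqG X) v φ → R (eqG X) v (c • φ) := fun c h =>
    let ⟨n, e⟩ := hF c; ⟨e ▸ tr_smul_nat h.1 h.2 n, by simp [h.2]⟩
  refine ⟨D.two, And.right, fun _ => ⟨tr_zero_left, by simp⟩, fun _ => ⟨tr_zero_right, rfl⟩,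
    fun c h => ⟨(tr_smul c).2 (sr c h).1, by simp [h.2]⟩, sr,
    fun h h' => ⟨h.1.add_left h'.1 h'.2, by simp [h.2, h'.2]⟩,
    fun h h' => ⟨h.1.add_right h'.1 h.2, by simp [h.2, h'.2]⟩,
    fun h h' => ⟨h.1.conj_tr h'.1 h.2, by simp [h.2, h'.2, mul_comm]⟩, fun {v φ} h1 hv hφ => ?_,
    fun {v φ w ψ u χ} h1 h3 h4 h5 h6 h7 h8 h9 h10 => ?_⟩
  · obtain ⟨y, hy⟩ := D.exists_ne hv hφ
    exact ⟨_, _, ⟨tr_conj h1.1 (h.mem _ y (D.L_ρ y)), by simpa using h1.2⟩, hy, by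
      rwa [inv_eq_of_mul_eq_one_right (Units.ext (h.sq y))]⟩
  · have := sr (2 * φ u * χ v)⁻¹ ⟨tr_rad h1 h3 h4 h5 h6 (eq_neg_of_add_eq_zero_right (by simpa using h7))
      (eq_neg_of_add_eq_zero_right (by simpa using h8)), by
        simp [h1.2, h3.2, show φ w = 0 from h5, show ψ v = 0 from h6]⟩
    rwa [smul_smul, inv_mul_cancel₀ (a := 2 * φ u * χ v) (mul_ne_zero (mul_ne_zero D.two h9) h10),
      one_smul] at this

theorem slv [Finite E] [Finite F] [FiniteDimensional F V] (hF : ∀ a : F, ∃ n : ℕ, a = n) {x : E}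
    {r : End F V} {w : V} {φ : Dual F V} (w0 : w ≠ 0) (φ0 : φ ≠ 0) (e : φ w = 0)
    (ht : Tr (eqG X) w φ) (x0 : x ≠ 0) (hr : D.L x r) (r2 : r * r = 1) (rw : r w = -w)
    (φr : φ ∘ₗ r = -φ) : SLV F V ≤ eqG X := by
  have : Finite V := Module.finite_of_finite F
  have T := h.ts hF
  have cj : ∀ {v ψ} {g : (End F V)ˣ}, g ∈ X → R (eqG X) v ψ → R (eqG X) (g.1 v) (ψ ∘ₗ (g⁻¹).1) :=
    fun hg h1 => ⟨tr_conj h1.1 hg, by simpa using h1.2⟩
  have cP : ∀ {v} {g : (End F V)ˣ}, g ∈ X → P (R (eqG X)) v → P (R (eqG X)) (g.1 v) :=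
    fun {v g} hg ⟨h1, ψ, h2, h3⟩ => ⟨fun e => h1 (by simpa using congrArg (g⁻¹).1 e), _, fun e =>
      h2 (LinearMap.ext fun z => by simpa using LinearMap.congr_fun e (g.1 z)), cj hg h3⟩
  have hW : T.W w = ⊤ := by
    refine D.eq_top ((Submodule.ne_bot_iff _).2 ⟨w, T.mem_W.2 (.inr (T.E_refl ⟨w0, φ, φ0, ht, e⟩)),
      w0⟩) fun y v hv => ?_
    by_cases v0 : v = 0
    · simp [v0]
    have p1 := T.P_of_mem hv v0
    have p2 := cP (h.mem (h.LI y).isUnit.unit y (h.LI y)) p1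
    have p3 := cP (h.T _ _ (h.Isq (h.sq y)) (h.LI y)) p1
    obtain ⟨u, hu⟩ := T.exists_N p3
    rw [← Submodule.smul_mem_iff _ h.I_ne]
    rcases N.or hu with h1 | h1
    · exact (add_mem_cancel_left hv).1 (T.mem_of_N' hu (T.mem_of_N h1 hv) p3)
    · have m := T.mem_W.2 (.inr (T.E_refl p2))
      have : v ∈ _ := (Submodule.add_mem_iff_left _ m).1 (T.mem_of_N' hu (T.mem_of_N h1 m) p3)
      rw [T.W_eq ((T.mem_W.1 hv).resolve_left v0), ← T.W_eq ((T.mem_W.1 this).resolve_left v0)]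
      exact m
  have m : ∀ v, v ∈ T.W w := fun v => hW.ge trivial
  by_cases hS : ∀ {v u φ ψ}, v ∈ T.W w → u ∈ T.W w → φ ≠ 0 → u ≠ 0 → R (eqG X) v φ → R (eqG X) u ψ →
      φ u = 0 → ψ v = 0
  · exfalso
    obtain ⟨B', -, h1⟩ := T.symp_case hS
    let B := B'.compl₁₂ (LinearMap.id.codRestrict _ m) (LinearMap.id.codRestrict _ m)
    have h2 : ∀ {v ψ}, v ≠ 0 → R (eqG X) v ψ → ∃ c, ∀ y, ψ y = c * B v y := fun {v ψ} v0 h2 =>
      let ⟨_, _, _, _, h3⟩ := h1 ⟨v, m v⟩ (by simpa using v0)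
      let ⟨c, hc⟩ := h3 ψ h2; ⟨c, fun y => hc ⟨y, m y⟩⟩
    have h3 : ∀ {v y} {g : (End F V)ˣ}, g ∈ X → B v y = 0 → B (g.1 v) (g.1 y) = 0 := by
      intro v y g hg h3
      by_cases v0 : v = 0
      · simp [v0]
      obtain ⟨ψ, ψ0, h4, h5, -⟩ := h1 ⟨v, m v⟩ (by simpa using v0)
      obtain ⟨c, hc⟩ := h2 (cP hg ⟨v0, ψ, ψ0, h4⟩).1 (cj hg h4)
      have := hc (g.1 y)
      rw [show (ψ ∘ₗ (g⁻¹).1) (g.1 y) = B v y by rw [LinearMap.comp_apply, uinv]; exact (h5 ⟨y, m y⟩).symm,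
        h3] at this
      refine (mul_eq_zero.1 this.symm).resolve_left fun c0 => ψ0 (LinearMap.ext fun z => ?_)
      simpa [c0] using hc (g.1 z)
    obtain ⟨s, ⟨hd⟩⟩ := exists_RD hr x0 r2
    obtain ⟨c, hc⟩ := h2 w0 ⟨ht, e⟩
    have c0 : c ≠ 0 := fun c0 => φ0 (LinearMap.ext fun z => by simp [hc, c0])
    obtain ⟨y, hy, ry⟩ : ∃ y, φ y ≠ 0 ∧ r y = -y := by
      by_contra! hn
      refine φ0 (LinearMap.ext fun z => mul_left_cancel₀ D.two ?_)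
      have := LinearMap.congr_fun φr z
      by_contra h4
      exact hn (z - r z) (fun h5 => h4 (by simp at this h5 ⊢; grind)) (by simp [hd.rr])
    have rs : ∀ z, r ((D.ρ s).1 z) = -(D.ρ s).1 (r z) := fun z =>
      LinearMap.congr_fun (hr.an (D.L_ρ s) ((D.symm _ _).trans hd.dual)) z
    have sX := h.mem _ s (D.L_ρ s)
    have b1 : B w ((D.ρ s).1 y) = 0 := by
      have := LinearMap.congr_fun φr ((D.ρ s).1 y)
      simp only [LinearMap.comp_apply, rs, ry, map_neg, neg_neg, LinearMap.neg_apply, hc] at this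
      exact mul_left_cancel₀ (mul_ne_zero D.two c0) (by linear_combination this)
    have b2 := h3 sX b1
    rw [h.ρρ] at b2
    have b3 : B w y ≠ 0 := fun e => hy (by simp [hc, e])
    have b4 : B ((D.ρ s).1 w) ((D.ρ s).1 y) ≠ 0 := fun e => b3 (by simpa [h.ρρ] using h3 sX e)
    have := h3 (v := w + (D.ρ s).1 w) (y := y + -(B w y / B ((D.ρ s).1 w) ((D.ρ s).1 y)) • (D.ρ s).1 y)
      (h.T _ _ (h.Isq r2) (hr.smul h.I_ne)) (by simp [b1, b2, b4])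
    simp only [tu_val, LinearMap.add_apply, End.one_apply, LinearMap.smul_apply, map_add, map_smul,
      map_neg, LinearMap.neg_apply, rs, rw, ry, b1, b2, smul_eq_mul] at this
    field_simp at this
    exact mul_ne_zero (mul_ne_zero (mul_ne_zero (mul_ne_zero D.two D.two) h.I_ne) b3) b4 (by
      linear_combination -this)
  push Not at hS
  obtain ⟨v, u, φ, ψ, hv, hu, h0, h1, h2, h3, h4, h5⟩ := hS
  refine SLV_le_of_tr fun y θ e => ?_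
  obtain ⟨ω, h6, h7⟩ := (T.perfect w).2 (θ ∘ₗ (T.W w).subtype)
  obtain rfl : θ = ω := LinearMap.ext fun z => h7 ⟨z, m z⟩
  rcases h6 with rfl | ⟨z, hz, h8, h9⟩
  · exact tr_zero_right
  · exact (T.linear_case hv hu h0 h1 h2 h3 h4 h5 hz h8 h9 y (m y) e).1

theorem thmA [Finite E] [Fintype F] [FiniteDimensional F V] (p : ℕ) [Fact p.Prime] [CharP F p]
    (hF : ∀ a : F, ∃ n : ℕ, a = n) {k : ℕ} (h4 : finrank (ZMod 2) E = 2 * k + 4) :
    X ≤ D.Nm ∨ SLV F V ≤ eqG X :=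
  (indA p hF (k + 1) h h4).imp_right fun ⟨_, _, a, b, c, d, e⟩ =>
    let ⟨_, _, f, g, i, j, l⟩ := e.resolve_left k.succ_ne_zero
    h.slv hF a b c d f g i j l

end AB

end H12.C6
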