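import Cfsg.Agent.H12.C6h
import Cfsg.Agent.H12.NondegMax
import Cfsg.Agent.H11.SUSimple
import Cfsg.Agent.H11.LS3

/-!
# Normalisers of Pauli groups: the unitary case
-/

set_option autoImplicit false
set_option maxHeartbeats 400000

namespace H12.C6

open Module H11

universe u v

variable {F V W E : Type*} [Field F] [AddCommGroup V] [Module F V] [AddCommGroup W] [Module F W]
  [AddCommGroup E] [Module (ZMod 2) E]

section

variable {T : FormType F} (C : CForm T V) {a b r : End F V}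

/-- Self-adjoint endomorphisms. -/
def SA (a : End F V) : Prop := ∀ u v, C.B (a u) v = C.B u (a v)

/-- A group of similarities. -/
def Sim (X : Subgroup (End F V)ˣ) : Prop :=
  ∀ g ∈ X, ∃ m, ∀ u v, C.B (g.1 u) (g.1 v) = m * C.B u v

variable {C}

theorem SA.neg (h : SA C a) : SA C (-a) := fun u v => by simp [h u v]

theorem SA.one_sub (h : SA C a) : SA C (1 - a) := fun u v => by simp [h u v]

theorem SA.mul (h : SA C a) (h' : SA C b) (e : a * b = b * a) : SA C (a * b) := fun u v => by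
  rw [End.mul_apply, h, h', e, End.mul_apply]

theorem SA.nondegOn (h : SA C a) (hC : C.Nondeg) {c : F} (c0 : c ≠ 0) (e : a * a = c • a) :
    C.NondegOn (LinearMap.range a) := by
  rintro _ ⟨v, rfl⟩ h1
  have := hC (a (a v)) fun y => by rw [h]; exact h1 _ ⟨_, rfl⟩
  rwa [← End.mul_apply, e, LinearMap.smul_apply, smul_eq_zero_iff_right c0] at this

theorem SA.orth (h : SA C r) (h2 : (2 : F) ≠ 0) {u v : V} (hu : r u = -u) (hv : r v = v) :
    C.B u v = 0 := by
  have := h u v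
  rw [hu, hv, C.B_neg_left] at this
  exact mul_left_cancel₀ h2 (by linear_combination -this)

theorem IV.B_pj (h : IV r W) (hr : SA C r) (w : W) (v : V) :
    C.B (h.ι w) (h.ι (h.pj v)) = C.B (h.ι w) v := by
  rw [← sub_eq_zero, ← map_sub]
  refine hr.orth h.two (h.r_ι w) ?_
  rw [map_sub, h.r_ι, h.ι_pj, ← sub_eq_zero, ← smul_eq_zero_iff_right h.two]
  simp only [smul_sub, smul_neg, smul_inv_smul₀ h.two]; module

theorem IV.nondeg (h : IV r W) (hr : SA C r) (hC : C.Nondeg) : (C.comap h.ι).Nondeg := fun w hw =>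
  h.ι_inj ((hC _ fun v => (h.B_pj hr w v).symm.trans (hw _)).trans (map_zero _).symm)

theorem IV.sim (h : IV r W) {X : Subgroup (End F V)ˣ} (hX : Sim C X) : Sim (C.comap h.ι) (h.P X) :=
  fun _ ⟨g, g0, g1, g2⟩ => let ⟨m, e⟩ := hX g g0
    ⟨m, fun u v => by simp [g2, CForm.comap_B, h.res_coe g1, e]⟩

theorem IV.sa (h : IV r W) (ha : SA C a) (c : a * r = r * a) : SA (C.comap h.ι) (h.res a) :=
  fun u v => by simp [CForm.comap_B, h.res_coe c, ha _ _]

theorem PD.L.sa {D : PD F (End F V) E} (h : ∀ x, SA C (D.ρ x).1) (h2 : ∀ x, (D.ρ x).1 * D.ρ x = 1)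
    {x : E} (hr : D.L x r) (r2 : r * r = 1) : SA C r :=
  (hr.pm (D.L_ρ x) (r2.trans (h2 x).symm)).elim (· ▸ h x) (· ▸ (h x).neg)

end

theorem PD.RD.finrank_eq [Finite E] [FiniteDimensional F V] {D : PD F (End F V) E} {x s : E}
    {r : End F V} (h : D.RD x s r W) : finrank F V = 2 * finrank F W ∧
      4 * (finrank F W * finrank F W) = 2 ^ finrank (ZMod 2) E := by
  have := h.fin
  have h1 := h.D'.finrank_sq
  have h2 := D.finrank_sq
  rw [← h.finrank_Ep, pow_add, ← h1] at h2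
  exact ⟨Nat.mul_self_inj.1 (by rw [h2]; ring), by rw [← h.finrank_Ep, pow_add, ← h1]; ring⟩

theorem dvd_of_sq {m k j : ℕ} (h : 4 * (m * m) = 2 ^ (2 * k + 2 * j + 2)) : m = 2 ^ k * 2 ^ j :=
  Nat.mul_self_inj.1 (Nat.eq_of_mul_eq_mul_left (by norm_num : 0 < 4) (by rw [h]; ring))

theorem PD.L.det [Finite E] [FiniteDimensional F V] {D : PD F (End F V) E} {x : E} {r : End F V}
    (hr : D.L x r) (r2 : r * r = 1) {k : ℕ} (h4 : finrank (ZMod 2) E = 2 * k + 4) :
    LinearMap.det r = 1 := by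
  by_cases x0 : x = 0
  · obtain ⟨c, -, rfl⟩ := (x0 ▸ hr).zero
    have := D.nt
    have h1 : c * c = 1 := smul_left_injective F (one_ne_zero (α := End F V)) (by
      simpa [smul_smul] using r2)
    have h2 := Nat.mul_self_inj.1 (D.finrank_sq.trans (by rw [h4]; ring) : _ = 2 * 2 ^ (k + 1) * (2 * 2 ^ (k + 1)))
    rw [LinearMap.det_smul, h2, pow_mul, pow_two, h1]; simp
  obtain ⟨s, ⟨hd⟩⟩ := PD.exists_RD hr x0 r2
  rw [hd.det_of_res (c := -1) (by simp [mul_add, r2, add_comm]) rfl (hd.res_r.trans (neg_one_smul F 1).symm),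
    dvd_of_sq (k := k) (j := 1) (h4 ▸ hd.finrank_eq.2 :), pow_mul']; simp

variable [Fintype F] {p : ℕ} {hF : Fintype.card F = p ^ 2} {C : CForm (hermT hF) V}

theorem fix_nat [Fact p.Prime] [CharP F p] {a : F} (h : frob hF a = a) : ∃ n : ℕ, a = n :=
  nat_of_pow p h

theorem pu_of_tr [Fact p.Prime] [CharP F p] {X : Subgroup (End F V)ˣ} (hC : C.Nondeg) (hX : Sim C X)
    {w : V} {φ : Dual F V} (w0 : w ≠ 0) (φ0 : φ ≠ 0) (e : φ w = 0) (ht : Tr (eqG X) w φ) :
    PU (eqG X) C w := by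
  obtain ⟨t, t0, t1⟩ := tr_eqG.1 ht
  obtain ⟨m, hm⟩ := hX t t0
  simp only [t1, LinearMap.add_apply, End.one_apply, LinearMap.smulRight_apply, map_add, map_smul,
    herm_B_smul_left, smul_eq_mul] at hm
  obtain ⟨u, hu⟩ := hC.exists_eq w0 1
  obtain ⟨v, hv⟩ : ∃ v, φ v ≠ 0 := by by_contra! h; exact φ0 (LinearMap.ext h)
  have m1 : m = 1 := by have := hm w u; have := hm w w; simp only [e, hu, map_zero] at *; grind
  have w1 : C.B w w = 0 := by have := hm w v; simp only [e, map_zero] at *; grind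
  have u1 : C.B u w = 1 := by rw [herm_symm, hu, map_one]
  have h1 : ∀ v, φ v = φ u * C.B w v ∧ φ u + frob hF (φ u) = 0 := fun v => by
    have := hm u v; have := hm u u; simp only [hu, u1, w1, m1] at *; grind
  refine ⟨by rw [← herm_B_self, w1], fun c hc => ?_⟩
  have u0 : φ u ≠ 0 := fun h => hv (by rw [(h1 v).1, h, zero_mul])
  obtain ⟨n, hn⟩ := fix_nat (hF := hF) (a := c / φ u) (by
    rw [map_div₀, eq_neg_of_add_eq_zero_right hc, eq_neg_of_add_eq_zero_right (h1 u).2, neg_div_neg_eq])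
  convert tr_smul_nat ht e n using 1
  ext v; simp [(h1 v).1, ← hn, u0, ← mul_assoc]

theorem pu_conj [Fact p.Prime] [CharP F p] {X : Subgroup (End F V)ˣ} (hC : C.Nondeg) (hX : Sim C X)
    {w : V} (h : PU (eqG X) C w) {g : (End F V)ˣ} (hg : g ∈ X) : PU (eqG X) C (g.1 w) := by
  by_cases w0 : w = 0
  · simpa [w0] using h
  obtain ⟨c, c0, hc⟩ := exists_trace_zero' (hσ2 := frob_frob hF) (frob_ne_id hF)
  obtain ⟨u, hu⟩ := hC.exists_eq w0 1
  exact pu_of_tr hC hX (fun e => w0 (by simpa using congrArg (g⁻¹).1 e)) (fun e => c0 (by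
    simpa [hu] using LinearMap.congr_fun e (g.1 u))) (by simp [herm_B_self, h.1])
    (tr_conj (h.2 c hc) hg)

theorem plane [Fact p.Prime] [CharP F p] {X : Subgroup (End F V)ˣ} (hC : C.Nondeg) (hX : Sim C X)
    (ι : W →ₗ[F] V) (h2 : finrank F W = 2) {w w' : W} (h : PU (eqG X) C (ι w))
    (h' : PU (eqG X) C (ι w')) (e : C.B (ι w) (ι w') ≠ 0) (z : W) (hz : C.N (ι z) = 0) :
    PU (eqG X) C (ι z) := by
  have li : LinearIndependent F ![w, w'] := LinearIndependent.pair_iff.2 fun a b e' => by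
    have h1 := congrArg (fun z => C.B (ι w) (ι z)) e'
    have h2 := congrArg (fun z => C.B (ι w') (ι z)) e'
    simpa [herm_B_self, h.1, h'.1, e, C.B_swap_ne e, and_comm] using And.intro h1 h2
  have := (li.span_eq_top_of_card_eq_finrank (by simp [h2])).ge (Submodule.mem_top (x := z))
  rw [Matrix.range_cons_cons_empty] at this
  obtain ⟨a, b, rfl⟩ := Submodule.mem_span_pair.1 this
  by_cases b0 : b = 0
  · simpa [b0] using h.smul a
  rw [map_add, map_smul, map_smul, herm_N_add, C.N_smul_of_zero h.1, C.N_smul_of_zero h'.1,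
    herm_B_smul_left, map_smul, smul_eq_mul, map_mul, map_mul, frob_frob] at hz
  obtain ⟨t, t0, t1⟩ := tr_eqG.1 (h.2 (a / (b * C.B (ι w) (ι w'))) (by
    rw [map_div₀, map_mul]
    have := (map_ne_zero (frob hF)).2 b0
    have := (map_ne_zero (frob hF)).2 e
    field_simp; linear_combination hz))
  convert (pu_conj hC hX h' t0).smul b using 1
  simp only [t1, map_add, map_smul, LinearMap.add_apply, End.one_apply, LinearMap.smulRight_apply,
    LinearMap.smul_apply, smul_eq_mul]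
  match_scalars <;> field_simp

/-- The unitary data. -/
structure HB (D : PD F (End F V) E) (X : Subgroup (End F V)ˣ) (I : F) (C : CForm (hermT hF) V) : Prop
    extends AB D X I where
  nd : C.Nondeg
  sa : ∀ x, SA C (D.ρ x).1
  sim : Sim C X

namespace HB

open PD

variable {D : PD F (End F V) E} {X : Subgroup (End F V)ˣ} {I : F} (h : HB D X I C) {x s : E}
  {r : End F V}
include h

theorem res (hd : D.RD x s r W) : HB hd.D' (hd.P X) I (C.comap hd.ι) :=
  ⟨hd.ab h.toAB, hd.nondeg (hd.L.sa h.sa h.sq hd.r2) h.nd, fun y => hd.sa (h.sa y) (hd.cm y (D.L_ρ _)),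
    hd.sim h.sim⟩

theorem exists_B {w : V} (w0 : w ≠ 0) : ∃ y, C.B w ((D.ρ y).1 w) ≠ 0 :=
  D.exists_ne w0 fun e => w0 (h.nd _ (LinearMap.congr_fun e))

variable [Finite E] [FiniteDimensional F V] [hp : Fact p.Prime] [CharP F p]

theorem base3 (h3 : (3 : F) = 0) (h2 : finrank (ZMod 2) E = 2) : X ≤ D.Nm := by
  classical
  refine fun g hg => mem_Nm fun x => ?_
  by_cases x0 : x = 0
  · exact ⟨0, L_one.conj' (by simpa using L_one) (x0 ▸ D.L_ρ x)⟩
  obtain ⟨u, hu⟩ : ∃ u, u = g.1 * D.ρ x * (g⁻¹).1 := ⟨_, rfl⟩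
  have u2 : u * u = 1 := by rw [hu, conj_mul, h.sq, mul_one, Units.mul_inv]
  have u1 : SA C u := fun v w => by
    obtain ⟨m, hm⟩ := h.sim g hg
    obtain ⟨v, rfl⟩ : ∃ z, v = g.1 z := ⟨_, (uinv' g v).symm⟩
    obtain ⟨w, rfl⟩ : ∃ z, w = g.1 z := ⟨_, (uinv' g w).symm⟩
    simp [hu, hm, h.sa x _ _]
  have u0 : ∀ c : F, u ≠ c • 1 := fun c e => by
    have : (D.ρ x).1 = c • 1 := by
      rw [hu, Units.mul_inv_eq_iff_eq_mul] at e
      exact g.mul_right_inj.1 (by simpa using e)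
    exact x0 ((D.L_ρ x).inj (this ▸ L_one.smul fun c0 => D.ρ_ne x (by simp [this, c0])))
  rw [← hu]
  have := Fintype.ofFinite E
  have cf : ∀ y, D.bas.repr u y * D.bas.repr u y = 1 ∨ D.bas.repr u y = 0 := fun y => by
    have e : u = ∑ y, frob hF (D.bas.repr u y) • D.bas y := LinearMap.ext fun v => h.nd.ext' fun w => by
      rw [← u1]
      conv_lhs => rw [← D.bas.sum_repr u]
      simp [bas_apply, h.sa _ _ _, map_sum, LinearMap.sum_apply]; rfl
    obtain ⟨n, hn⟩ := fix_nat (hF := hF) (a := D.bas.repr u y) (by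
      conv_rhs => rw [e, D.bas.repr_sum_self])
    rw [hn]
    obtain ⟨m, rfl | rfl | rfl⟩ : ∃ m, n = 3 * m ∨ n = 3 * m + 1 ∨ n = 3 * m + 2 := ⟨n / 3, by omega⟩ <;>
      grind
  obtain ⟨b, hb⟩ := D.sep0 x0
  have b0 : b ≠ 0 := by rintro rfl; simp at hb
  have bx : x ≠ b := by rintro rfl; simp [D.alt] at hb
  have hU : (Finset.univ : Finset E) = {0, x, b, x + b} := (Finset.eq_univ_of_card _ (by
    rw [← Nat.card_eq_fintype_card, card_two, h2]
    exact Finset.card_eq_four.2 ⟨_, _, _, _, Ne.symm x0, b0.symm, fun e => bx (xy0.1 e.symm), bx, by simpa, by simpa, rfl⟩)).symm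
  have e := D.bas.sum_repr u
  rw [hU, Finset.sum_insert (by simp [x0, b0, eq_comm (a := (0 : E)), xy0, bx]),
    Finset.sum_insert (by simp [bx, b0]), Finset.sum_pair (by simpa)] at e
  simp only [bas_apply] at e
  obtain ⟨c, -, e0⟩ := (D.L_ρ 0).zero
  have a1 := D.an b x hb
  have a2 := D.an (x + b) x (by simp [hb, D.alt])
  have a3 := D.an (x + b) b (by simp [hb, D.alt, D.symm x])
  have c1 := cf x
  have c2 := cf b
  have c3 := cf (x + b)
  generalize D.bas.repr u 0 = d0, D.bas.repr u x = d1, D.bas.repr u b = d2,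
    D.bas.repr u (x + b) = d3 at *
  obtain ⟨w, hw⟩ : ∃ w, w = d1 • (D.ρ x).1 + (d2 • (D.ρ b).1 + d3 • (D.ρ (x + b)).1) := ⟨_, rfl⟩
  have w2 : w * w = (d1 * d1 + d2 * d2 + d3 * d3) • 1 := by
    simp only [hw, mul_add, add_mul, smul_mul_assoc, mul_smul_comm, h.sq, a1, a2, a3]; module
  rw [← hw, e0, smul_smul] at e
  have d0' : d0 * c = 0 := by
    by_contra hn
    refine u0 (d0 * c + (2 * (d0 * c))⁻¹ * (1 - d0 * c * (d0 * c) - (d1 * d1 + d2 * d2 + d3 * d3))) ?_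
    rw [← e, add_smul, add_right_inj, mul_smul, eq_inv_smul_iff₀ (mul_ne_zero D.two hn)]
    rw [← e] at u2
    simp only [mul_add, add_mul, smul_mul_assoc, mul_smul_comm, w2, one_mul, mul_one] at u2
    linear_combination (norm := module) u2
  rw [d0', zero_smul, zero_add] at e
  have := D.nt
  have e1 : d1 * d1 + d2 * d2 + d3 * d3 = 1 :=
    smul_left_injective F (one_ne_zero (α := End F V)) (by simp only [← w2, e, u2, one_smul])
  have h2 := D.two
  rw [← e, hw]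
  rcases c1 with c1 | rfl <;> rcases c2 with c2 | rfl <;> rcases c3 with c3 | rfl
  any_goals exfalso; grind
  · exact ⟨x, by simpa using (D.L_ρ _).smul (left_ne_zero_of_mul_eq_one c1)⟩
  · exact ⟨b, by simpa using (D.L_ρ _).smul (left_ne_zero_of_mul_eq_one c2)⟩
  · exact ⟨x + b, by simpa using (D.L_ρ _).smul (left_ne_zero_of_mul_eq_one c3)⟩

theorem lift (hd : D.RD x s r W) (h3 : (3 : F) ≠ 0 ∨ 4 ≤ finrank F W)
    (H : ∀ w, C.N (hd.ι w) = 0 → PU (eqG (hd.P X)) (C.comap hd.ι) w) (w : W) (hw : C.N (hd.ι w) = 0) :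
    PU (eqG X) C (hd.ι w) := by
  have h' := h.res hd
  have := hd.fin
  obtain ⟨c, c0, hc⟩ := exists_trace_zero' (hσ2 := frob_frob hF) (frob_ne_id hF)
  by_cases w0 : w = 0
  · exact ⟨hw, fun _ _ => by simpa [w0] using tr_zero_left⟩
  obtain ⟨u, hu⟩ := h'.nd.exists_eq w0 1
  have b0 : ∀ {w}, C.N (hd.ι w) = 0 → (C.comap hd.ι).B w w = 0 := fun e => (herm_B_self _).trans e
  refine pu_of_tr (φ := (c • (C.comap hd.ι).B w) ∘ₗ hd.pj) h.nd h.sim ((map_ne_zero_iff _ hd.ι_inj).2 w0)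
    (fun e => c0 (by simpa [hd.pj_ι, hu] using LinearMap.congr_fun e (hd.ι u)))
    (by simp [hd.pj_ι, b0 hw]) ?_
  rcases h3 with h3 | h3
  · refine h.toAB.lift p h3 hd w0 (fun e => c0 (by simpa [hu] using LinearMap.congr_fun e u))
      (by simp [b0 hw]) (fun y => fix_nat (hF := hF) ?_) ((H w hw).2 c hc)
    simp only [LinearMap.smul_apply, smul_eq_mul, map_mul, eq_neg_of_add_eq_zero_right hc]
    rw [← herm_symm, h'.sa]; ring
  generalize hC' : C.comap hd.ι = C' at *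
  have hS : C'.isom ⊓ SLV F W ≤ eqG (hd.P X) := (h'.nd.subG_top inf_le_left).symm.trans_le
    (subG_le_herm (frob_ne_id hF) (exists_norm_of_finite (frob_frob hF) (frob_ne_id hF)) h'.nd
      (C'.nondegOn_top.2 h'.nd) (.inl (by rw [finrank_top]; omega)) fun u _ hu => (H u (hC' ▸ hu :)).2)
  let f : sisom C' →* (End F W)ˣ := eqv.symm.toMonoidHom.comp (C'.isom.subtype.comp (sisom C').subtype)
  let K := X.comap ((Units.map hd.extM).comp f)
  have : K.Normal := ⟨fun k hk s => by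
    obtain ⟨g, g0, g1, g2⟩ : f s ∈ hd.P X := hS ⟨s.1.2, s.2⟩
    change Units.map hd.extM (f (s * k * s⁻¹)) ∈ X
    rw [map_mul f, map_mul f, map_inv f, show f s = hd.resU g g1 from Units.ext g2, ← hd.conj_extM]
    exact mul_mem (mul_mem g0 hk) (inv_mem g0)⟩
  have tS : ∀ {u} (hu : C'.N u = 0), tv C' hu (tvOk_herm.2 hc) ∈ sisom C' := fun hu =>
    (closure_tvSet_le.trans iSup_tvGroup_le_sisom) (Subgroup.subset_closure ⟨_, hu, _, _, rfl⟩)
  have hw' : C'.N w = 0 := hC' ▸ hw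
  rcases LS.le_center_or (herm_perfect h'.nd (by omega) (by omega))
    (herm_simple h'.nd (by omega) (by omega)) K with hK | hK
  · obtain ⟨y, hy⟩ := h'.exists_B w0
    have hw2 : C'.N ((hd.D'.ρ y).1 w) = 0 := by rw [← herm_B_self, h'.sa, h'.ρρ, herm_B_self, hw']
    obtain ⟨q, q0, q1, q2, q3⟩ := h.ctrl hd.L hd.r2 (D.L_ρ y) (h.sq _) (hd.cm y (D.L_ρ _))
    obtain ⟨g, g0, g1, g2⟩ : f ⟨_, tS hw'⟩ ∈ hd.P X := hS ⟨Subtype.prop _, tS hw'⟩
    have q4 : q = Units.map hd.extM (hd.resU q q3) := Units.ext (hd.eq_ext q1 q3)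
    have q5 : (hd.resU q q3).1 = I • (hd.D'.ρ y).1 := (hd.res_eq q2).trans (map_smul _ _ _)
    have k1 : ⟨_, tS hw2⟩ * (⟨_, tS hw'⟩ : sisom C')⁻¹ ∈ K := by
      change Units.map hd.extM (f (_ * _)) ∈ X
      rw [map_mul f, map_inv f, show f ⟨_, tS hw2⟩ = hd.resU q q3 * f ⟨_, tS hw'⟩ * (hd.resU q q3)⁻¹ from
        Units.ext (by
          rw [Units.val_mul, Units.val_mul, conj_smul q5,
            inv_eq_of_mul_eq_one_right (Units.ext (h'.sq y))]
          ext v; simp [f, eqv_symm, tv_apply, h'.ρρ, h'.sa y _ _]), show f ⟨_, tS hw'⟩ = hd.resU g g1 from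
          Units.ext g2, mul_assoc, mul_assoc, map_mul, ← mul_assoc, ← hd.conj_extM, map_inv, ← q4]
      exact mul_mem q0 (mul_mem (mul_mem g0 (inv_mem q0)) (inv_mem g0))
    have k2 := Subgroup.mem_center_iff.1 (hK k1) ⟨_, tS hw'⟩
    rw [← mul_assoc, mul_inv_eq_iff_eq_mul, mul_assoc, mul_assoc, inv_mul_cancel_left] at k2
    have k3 := congrArg (fun s : sisom C' => s.1.1 w) k2
    have := C'.B_swap_ne hy
    simp [tv_apply, herm_B_self, hw', c0, hy, this, w0] at k3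
  · exact tr_eqG.2 ⟨_, hK.ge (Subgroup.mem_top ⟨_, tS hw'⟩), by
      rw [← hd.ext_smulRight]; exact congrArg (1 + hd.ext ·) (by ext; simp [f, eqv_symm, tv_apply])⟩

theorem big (hd : D.RD x s r W) {k : ℕ} (h4 : finrank (ZMod 2) E = 2 * k + 4)
    (H : ∀ w, C.N (hd.ι w) = 0 → PU (eqG X) C (hd.ι w)) : C.isom ⊓ SLV F V ≤ eqG X := by
  have hσ := frob_ne_id hF
  have hN := exists_norm_of_finite (frob_frob hF) hσ
  have h2 := D.two
  have hr := hd.L.sa h.sa h.sq hd.r2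
  have pu : ∀ {v}, PU (eqG X) C v → PU (eqG X ⊓ (C.isom ⊓ SLV F V)) C v := fun hv => ⟨hv.1, fun c hc =>
    tr_inf.2 ⟨hv.2 c hc, (tr_subG le_rfl (S := ⊤) trivial hv.1 (tvOk_herm.2 hc)).mono (subG_le _)⟩⟩
  have s0 : LinearMap.range (1 - r) = LinearMap.range hd.ι := le_antisymm
    (by rintro _ ⟨v, rfl⟩; exact ⟨(2 : F) • hd.pj v, by simp [hd.ι_pj, smul_inv_smul₀ h2]⟩)
    (by rintro _ ⟨w, rfl⟩; exact ⟨(2 : F)⁻¹ • hd.ι w, by simp [hd.r_ι, ← two_smul F, inv_smul_smul₀ h2]⟩)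
  have sq : ∀ {r : End F V}, r * r = 1 → (1 - r) * (1 - r) = (2 : F) • (1 - r) := fun e => by
    simp [mul_sub, sub_mul, e, two_smul]; abel
  have s1 := s0 ▸ hr.one_sub.nondegOn h.nd h2 (sq hd.r2)
  obtain ⟨d1, d2⟩ := hd.finrank_eq
  have d3 := dvd_of_sq (k := k) (j := 1) (h4 ▸ d2)
  have := Nat.one_le_two_pow (n := k)
  have d4 := LinearMap.finrank_range_of_inj hd.ι_inj
  have h1 : ∃ a, frob hF a = a ∧ a ≠ 0 ∧ a ≠ 1 := ⟨-1, by rw [map_neg, map_one], by simp,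
    fun e => h2 (by linear_combination -e)⟩
  obtain ⟨z, z1, z2⟩ := D.exists_perp (Submodule.span _ {x}) (Submodule.span _ {x}) (by
    have := rk1 x; omega)
  rw [mem_span1, not_or] at z2
  obtain ⟨n, n0, -, -, n1⟩ := h.move (S := ⊥) hd.ne z2.1 (by simp) (by simp)
  have l' := n1 r hd.L
  have r2' : n * r * (n⁻¹ : (End F V)ˣ) * (n * r * (n⁻¹ : (End F V)ˣ)) = 1 := by
    rw [conj_mul, hd.r2, mul_one, Units.mul_inv]
  have pu' : ∀ v, (n * r * (n⁻¹ : (End F V)ˣ)) v = -v → C.N v = 0 → PU (eqG X) C v := fun v e e' => by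
    obtain ⟨m, hm⟩ := h.sim _ (inv_mem n0)
    have e1 := hd.ι_pj' (v := (n⁻¹).1 v) (by simpa using congrArg (n⁻¹).1 e)
    simpa [e1] using pu_conj h.nd h.sim (H (hd.pj ((n⁻¹).1 v)) (by
      rw [e1, ← herm_B_self, hm, herm_B_self, e', mul_zero])) n0
  generalize n * r * (n⁻¹ : (End F V)ˣ) = r' at *
  have ex : ∀ {r}, D.L x r → r * r = 1 → ∃ v, r v = -v ∧ r' v = -v ∧ C.N v ≠ 0 := fun {r} hr r2 => by
    have c := hr.cm l' (z1 x (Submodule.mem_span_singleton_self x))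
    have c' : Commute (1 - r) (1 - r') := comm_sub (comm_sub c.symm).symm
    obtain ⟨_, ⟨v, rfl⟩, e⟩ := herm_exists_nonisotropic hσ (((hr.sa h.sa h.sq r2).one_sub.mul
      (l'.sa h.sa h.sq r2').one_sub c').nondegOn h.nd (mul_ne_zero h2 h2) (by
        rw [c'.symm.mul_mul_mul_comm, sq r2, sq r2', smul_mul_smul_comm]))
      (LinearMap.range_eq_bot.not.2 (sub_mul_ne hr l' hd.ne z2.1 (Ne.symm z2.2)))
    refine ⟨_, ?_, ?_, e⟩
    · rw [← End.mul_apply, ← mul_assoc, mul_sub r, r2, mul_one, ← neg_sub, neg_mul]; rfl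
    · rw [← End.mul_apply, c'.eq, ← mul_assoc, mul_sub r', r2', mul_one, ← neg_sub, neg_mul]; rfl
  obtain ⟨v, v1, v2, v3⟩ := ex hd.L hd.r2
  obtain ⟨w, w1, w2, w3⟩ := ex hd.L.neg (by simpa using hd.r2)
  rw [LinearMap.neg_apply, neg_inj] at w1
  obtain ⟨b, hb⟩ := hN (-C.N w / C.N v) (by rw [map_div₀, map_neg, herm_σN, herm_σN])
  obtain ⟨S', a1, a2, a3⟩ := herm_enlarge_of_nonisotropic hσ hN h.nd (inf_le_right.trans inf_le_left) s1
    (by omega) (.inr h1) (subG_le_herm hσ hN h.nd s1 (.inr h1) (by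
      rintro _ ⟨u, rfl⟩ hu; exact (pu (H u hu)).2)) (s₀ := b • v) (r := w)
    ⟨_, hd.ι_pj' (by simp [v1])⟩ (by rintro _ ⟨u, rfl⟩; exact hr.orth h2 (hd.r_ι u) w1) w3
    (pu (pu' _ (by simp [v2, w2, add_comm]) (by
      rw [C.N_add_of_orth (hr.orth h2 (by simp [v1]) w1), herm_N_smul, hb]; field_simp; ring)))
  have d5 := Submodule.finrank_lt_finrank_of_lt a1
  have ρm : ∀ y, eqv (D.ρ y) ∈ eqG X ⊓ (C.isom ⊓ SLV F V) := fun y =>
    have e : ∀ u v, C.B ((D.ρ y).1 u) ((D.ρ y).1 v) = C.B u v := fun u v => by rw [h.sa, h.ρρ]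
    ⟨mem_eqG.2 (h.mem _ y (D.L_ρ y)), ⟨e, fun u => by rw [← herm_B_self, ← herm_B_self]; exact e u u⟩,
      mem_SLV.2 ((D.L_ρ y).det (h.sq y) h4)⟩
  have s2 : ∀ {S : Submodule F V}, S' ≤ S → S ≠ ⊥ := fun e e' => by
    have := Submodule.finrank_mono e
    rw [e', finrank_bot] at this; omega
  obtain ⟨S, b1, b2, b3, b4⟩ := (enlarge_herm hσ hN h.nd).exists_max inf_le_right a2 (by omega) a3
    fun v v0 => by
      obtain ⟨u, hu, u0⟩ := (Submodule.ne_bot_iff _).1 (s2 le_rfl)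
      obtain ⟨y, hy⟩ := D.exists_ne (φ := C.B v) u0 fun e => v0 (h.nd _ (LinearMap.congr_fun e))
      exact ⟨_, ρm y, u, hu, C.B_swap_ne hy⟩
  obtain rfl : S = ⊤ := D.eq_top (s2 b1) fun y v hv => ((b4 _ (ρm y)).resolve_right fun e => by
    have := Submodule.finrank_mono e
    have := Submodule.finrank_mono b1
    have := h.nd.finrank_add_finrank_perp S
    rw [finrank_map_equiv] at *; omega).le ⟨v, hv, rfl⟩
  exact (h.nd.subG_top inf_le_left).symm.trans_le (b3.trans inf_le_left)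

end HB

theorem indB [Fact p.Prime] [CharP F p] {I : F} (k : ℕ) : ∀ {V : Type u} {E : Type v}
    [AddCommGroup V] [Module F V] [FiniteDimensional F V] [AddCommGroup E] [Module (ZMod 2) E]
    [Finite E] {D : PD F (End F V) E} {X : Subgroup (End F V)ˣ} {C : CForm (hermT hF) V},
    HB D X I C → finrank (ZMod 2) E = 2 * k + 2 → X ≤ D.Nm ∨
      (∀ v, C.N v = 0 → PU (eqG X) C v) ∧ (k = 0 → (3 : F) ≠ 0) := by
  induction k with
  | zero =>
    intro V E _ _ _ _ _ _ D X C h h2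
    by_cases h3 : (3 : F) = 0
    · exact .inl (h.base3 h3 h2)
    refine (h.base p h2).imp_right fun ⟨w, φ, a, b, c, d⟩ => ⟨?_, fun _ => h3⟩
    obtain ⟨y, hy⟩ := h.exists_B a
    have := pu_of_tr h.nd h.sim a b c d
    exact plane h.nd h.sim LinearMap.id (sq_eq_four (D.finrank_sq.trans (by rw [h2]))) this
      (pu_conj h.nd h.sim this (h.mem _ y (D.L_ρ y))) hy
  | succ k ih =>
    intro V E _ _ _ _ _ _ D X C h h2
    refine (h.step_or p (k := k) h2).imp_right fun ⟨x, s, r, hd, h3⟩ => ⟨fun v hv => pu_of_mem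
      ((subG_le ⊤).trans (h.big hd h2 ?_)) trivial hv, by simp⟩
    have d3 := dvd_of_sq (k := k) (j := 1) (h2 ▸ hd.finrank_eq.2)
    rcases h3 with h3 | ⟨rfl, w, φ, w0, φ0, e, ht⟩
    · obtain ⟨h4, h5⟩ := (ih (h.res hd) (by have := hd.finrank_Ep; omega)).resolve_left h3
      refine h.lift hd (or_iff_not_imp_left.2 fun h6 => ?_) h4
      have := Nat.one_lt_two_pow (mt h5 h6); omega
    obtain ⟨y, hy⟩ := (h.res hd).exists_B w0
    have := pu_of_tr h.nd h.sim ((map_ne_zero_iff _ hd.ι_inj).2 w0) (fun e' => φ0 (LinearMap.ext fun v => by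
      simpa [hd.pj_ι] using LinearMap.congr_fun e' (hd.ι v))) (by simp [hd.pj_ι, e]) ht
    exact plane h.nd h.sim hd.ι d3 this ((hd.res_coe (hd.cm y (D.L_ρ _)) w).symm ▸
      pu_conj h.nd h.sim this (h.mem _ _ (D.L_ρ y))) hy

end H12.C6
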