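import Cfsg.Agent.H12.C6i
import Cfsg.Agent.H21.Sp23
import Cfsg.Agent.H13.MP

/-!
# Normalisers of Pauli groups: maximality in the linear and unitary groups
-/

set_option autoImplicit false
set_option maxHeartbeats 400000

namespace H12.C6

open Module H11 Cfsg Cfsg.Geo H27.Asch H21.C6

section

variable {F A E : Type*} [Field F] [Ring A] [Algebra F A] [AddCommGroup E] [Module (ZMod 2) E]
  (D : PD F A E)

/-- Other representatives. -/
def PD.re (ρ : E → Aˣ) (h : ∀ x, D.L x (ρ x)) : PD F A E where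
  toSS := D.toSS
  ρ := ρ
  mul x y := let ⟨c, _, e⟩ := ((h x).mul (h y)).rel (h (x + y)); ⟨c, e⟩
  cm x y := (h x).cm (h y)
  an x y := (h x).an (h y)
  span := eq_top_iff.2 (D.span.ge.trans (Submodule.span_le.2 (by
    rintro _ ⟨x, rfl⟩
    obtain ⟨c, -, e⟩ := (D.L_ρ x).rel (h x)
    exact show (D.ρ x).1 ∈ _ from e ▸ Submodule.smul_mem _ c (Submodule.subset_span ⟨x, rfl⟩))))
  two := D.two
  nt := D.nt

theorem PD.L_re {ρ : E → Aˣ} (h : ∀ x, D.L x (ρ x)) {x : E} {a : A} : (D.re ρ h).L x a ↔ D.L x a :=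
  ⟨fun ⟨_, c0, e⟩ => e ▸ (h x).smul c0, fun e => e.rel (h x)⟩

variable {D} [Finite E] {X R G : Subgroup Aˣ}

theorem PD.Nil.not_le (h : D.Nil X) : ¬ X ≤ D.Nm := fun hX => by
  obtain ⟨x, r, N, x0, hr, r2, N0, N2, rN, Nr, t, t0, t1⟩ := h
  obtain ⟨s, hs⟩ := D.sep0 x0
  obtain ⟨y, hy⟩ := PD.Nm.ex (hX t0) (D.L_ρ s)
  obtain ⟨c, c0, e⟩ := (D.L_ρ s).sq
  have a := hr.an (D.L_ρ s) ((D.symm _ _).trans hs)
  have h1 : N * D.ρ s * N = 0 := D.two_smul_eq (by
    have := congrArg (N * · * N) a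
    simp only [← mul_assoc N, Nr, mul_neg, neg_mul, mul_assoc _ r, rN, neg_neg] at this
    exact this.symm)
  rw [t1, show (t⁻¹).1 = 1 - N from Units.inv_eq_of_mul_eq_one_right (by
    simp [t1, add_mul, mul_sub, N2]), mul_sub, add_mul, add_mul _ _ N, h1] at hy
  have := D.nt
  rcases z01 (D.B y s) with h2 | h2
  · have h3 := hy.cm (D.L_ρ s) h2
    simp only [mul_sub, sub_mul, mul_add, add_mul, one_mul, mul_one, add_zero, ← mul_assoc, e,
      mul_assoc N, smul_mul_assoc, mul_smul_comm] at h3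
    have h4 : c • N = D.ρ s * N * D.ρ s := by
      rw [← sub_eq_zero]; exact D.two_smul_eq (by linear_combination (norm := abel) h3)
    have h5 := congrArg (r * ·) h4
    simp only [← mul_assoc r, a, mul_smul_comm, neg_mul, mul_assoc _ r, rN, mul_neg, neg_neg,
      smul_neg] at h5
    rw [← h4] at h5
    exact smul_ne_zero c0 N0 (D.two_smul_eq h5.symm)
  · have h3 := hy.an (D.L_ρ s) h2
    simp only [mul_sub, sub_mul, mul_add, add_mul, one_mul, mul_one, add_zero, ← mul_assoc, e,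
      mul_assoc N, smul_mul_assoc, mul_smul_comm] at h3
    exact smul_ne_zero c0 one_ne_zero (D.two_smul_eq (by linear_combination (norm := abel) h3))

theorem PD.isMax [Finite A] (h1 : ∀ x, D.ρ x ∈ R) (h2 : ∀ g ∈ R, ∃ x, D.L x g)
    (h3 : ∀ g ∈ G, ∀ t ∈ R, ∀ y, D.L y (g * t * g⁻¹ : Aˣ) → g * t * g⁻¹ ∈ R) (h4 : D.Nil G)
    (h5 : ∀ H, D.Nm ⊓ G ≤ H → H ≤ G → H ≤ D.Nm ∨ G ≤ H) :
    IsMaximalIn G (Subgroup.normalizer (R : Set Aˣ) ⊓ G) := by
  rw [show Subgroup.normalizer (R : Set Aˣ) ⊓ G = D.Nm ⊓ G from Subgroup.ext fun g =>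
    and_congr_left fun hg => ⟨fun h => PD.mem_Nm fun x =>
      h2 _ ((Subgroup.mem_normalizer_iff.1 h _).1 (h1 x)), fun h => Subgroup.mem_normalizer_fintype
        fun t ht => let ⟨_, e⟩ := h2 t ht; let ⟨y, e'⟩ := PD.Nm.ex h e; h3 g hg t ht y e'⟩]
  exact isMaximalIn_of _ _ inf_le_right (fun h => h4.not_le (h.trans inf_le_left))
    fun M a b g c d => (h5 M a b).resolve_left fun e => d ⟨e c, b c⟩

theorem mem_sup_sc {g : Aˣ} : g ∈ X ⊔ sc F A ↔ ∃ k ∈ X, ∃ c : F, c ≠ 0 ∧ (g : A) = c • k := by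
  rw [Subgroup.mem_sup_of_normal_right]
  refine exists_congr fun k => and_congr_right fun _ => ⟨?_, fun ⟨c, c0, e⟩ =>
    ⟨k⁻¹ * g, mem_sc.2 ⟨c, c0, by simp [e]⟩, by simp⟩⟩
  rintro ⟨z, hz, rfl⟩
  obtain ⟨c, c0, e⟩ := mem_sc.1 hz
  exact ⟨c, c0, by simp [e]⟩

omit [Finite E] in
theorem nil_of_sup [Fintype F] {N : A} (N2 : N * N = 0) (h : ∃ t ∈ X ⊔ sc F A, (t : A) = 1 + N) :
    ∃ t ∈ X, (t : A) = 1 + N := by
  obtain ⟨t, ht, e⟩ := h
  obtain ⟨k, hk, c, c0, e'⟩ := mem_sup_sc.1 ht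
  refine ⟨(k ^ (Fintype.card F - 1))⁻¹, inv_mem (pow_mem hk _), Units.inv_eq_of_mul_eq_one_right ?_⟩
  have := congrArg (· ^ (Fintype.card F - 1)) (e'.symm.trans e)
  simp only [smul_pow, FiniteField.pow_card_sub_one_eq_one c c0, one_smul, pow_nil (F := F) N2,
    Nat.cast_pred Fintype.card_pos, FiniteField.cast_card_eq_zero] at this
  simp [this, add_mul, mul_add, N2]

theorem ab_sup {I : F} (II : I * I = -1) (sq : ∀ x, (D.ρ x * D.ρ x : A) = 1) (hX : D.Nm ⊓ G ≤ X)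
    (hU : ∀ x r, x ≠ 0 → D.L x r → r * r = 1 → ∀ u : Aˣ, (u : A) = (1 + I)⁻¹ • (1 + I • r) → u ∈ G) :
    AB D (X ⊔ sc F A) I := by
  have I0 : I ≠ 0 := by rintro rfl; simp at II
  have I1 : 1 + I ≠ 0 := fun e => D.two (by linear_combination (1 - I) * e + II)
  have T : ∀ x α (h : α * α = -1), D.L x α → D.tu α h ∈ X ⊔ sc F A := fun x α h hα => by
    by_cases x0 : x = 0
    · obtain ⟨c, -, rfl⟩ := (x0 ▸ hα).zero
      refine mem_sup_sc.2 ⟨1, one_mem _, 1 + c, fun e => ?_, by simp [PD.tu_val, add_smul]⟩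
      have := D.nt
      exact (D.tu _ h).ne_zero (by simpa [PD.tu_val, add_smul] using congrArg (· • (1 : A)) e)
    obtain ⟨u, e⟩ : ∃ u : Aˣ, (u : A) = (1 + I)⁻¹ • (D.tu α h).1 :=
      ⟨(PD.L_one.smul (D := D) (inv_ne_zero I1)).isUnit.unit * D.tu α h, by simp⟩
    exact mem_sup_sc.2 ⟨u, hX ⟨PD.mem_Nm_of_smul e (PD.tu_mem h hα), hU x (-I • α) x0
      (hα.smul (neg_ne_zero.2 I0)) (by simp [smul_smul, II, h]) u (by
        simp [e, PD.tu_val, smul_smul, II])⟩, 1 + I, I1, by rw [e, smul_inv_smul₀ I1]⟩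
  refine ⟨II, sq, fun g x hg => ?_, T⟩
  have e : I • (D.ρ x).1 * I • (D.ρ x).1 = -1 := by simp [smul_smul, II, sq]
  obtain ⟨k, hk, c, c0, e1⟩ := mem_sup_sc.1 (pow_mem (T x _ e ((D.L_ρ x).smul I0)) 2)
  obtain ⟨d, d0, e2⟩ := hg
  refine mem_sup_sc.2 ⟨k, hk, d * (2 * I)⁻¹ * c, by simp [d0, c0, I0, D.two], ?_⟩
  rw [mul_smul, ← e1, e2, mul_smul, Units.val_pow_eq_pow_val, PD.tu_val, pow_two, add_mul, mul_add,
    mul_add, e, smul_right_inj d0, eq_inv_smul_iff₀ (mul_ne_zero D.two I0), mul_smul, two_smul]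
  simp only [mul_one, one_mul]; abel

theorem mem_of_four {I : F} (II : I * I = -1) {J : Aˣ} (hJ : J ∈ R) (J1 : (J : A) = I • 1)
    (sq : ∀ x, (D.ρ x * D.ρ x : A) = 1) (h1 : ∀ x, D.ρ x ∈ R) {u : Aˣ} {y : E} (hu : D.L y u)
    (h4 : u ^ 4 = 1) : u ∈ R := by
  obtain ⟨c, -, e⟩ := hu
  have := D.nt
  have h2 : (c - 1) * (c - I) * (c - I ^ 2) * (c - I ^ 3) = 0 := by
    have := congrArg Units.val h4
    rw [Units.val_pow_eq_pow_val, e, smul_pow, show 4 = 2 * 2 from rfl, pow_mul (D.ρ y).1, pow_two (D.ρ y).1,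
      sq, one_pow] at this
    have := smul_left_injective F (one_ne_zero (α := A)) (this.trans (one_smul F _).symm)
    grind
  obtain ⟨j, rfl⟩ : ∃ j, c = I ^ j := by
    simp only [mul_eq_zero, sub_eq_zero] at h2
    rcases h2 with ((h | h) | h) | h
    exacts [⟨0, by simpa⟩, ⟨1, by simpa⟩, ⟨2, h⟩, ⟨3, h⟩]
  exact (show J ^ j * D.ρ y = u from Units.ext (by simp [J1, e, smul_pow])) ▸
    mul_mem (pow_mem hJ j) (h1 y)

end

section

variable {F V E : Type*} [Field F] [AddCommGroup V] [Module F V] [AddCommGroup E]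
  [Module (ZMod 2) E] [Finite E] [FiniteDimensional F V] {D : PD F (End F V) E}

theorem det_U {I : F} (II : I * I = -1) {k : ℕ} (h6 : finrank (ZMod 2) E = 2 * k + 6) {x : E}
    {r : End F V} (x0 : x ≠ 0) (hr : D.L x r) (r2 : r * r = 1) :
    LinearMap.det ((1 + I)⁻¹ • (1 + I • r)) = 1 := by
  have I1 : 1 + I ≠ 0 := fun e => D.two (by linear_combination (1 - I) * e + II)
  obtain ⟨s, ⟨hd⟩⟩ := PD.exists_RD hr x0 r2
  rw [hd.det_of_res (c := -I) ?_ (by simp [add_mul, mul_add]) ?_,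
    dvd_of_sq (k := k) (j := 2) (h6 ▸ hd.finrank_eq.2 :), pow_mul', show (-I) ^ 2 ^ 2 = 1 by grind,
    one_pow]
  · rw [smul_mul_assoc, inv_smul_eq_iff₀ I1]; simp [add_mul, mul_add, r2, add_smul]; abel
  · rw [map_smul, inv_smul_eq_iff₀ I1, map_add, map_smul, hd.res_r, hd.res_one]
    match_scalars; linear_combination II

theorem tr_of_sup [Fintype F] {X : Subgroup (End F V)ˣ} {v : V} {φ : Dual F V} (e : φ v = 0)
    (h : Tr (eqG (X ⊔ sc F _)) v φ) : Tr (eqG X) v φ :=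
  tr_eqG.2 (nil_of_sup (by ext; simp [e]) (tr_eqG.1 h))

theorem nil_of_tr {W : Type*} [AddCommGroup W] [Module F W] {G : Subgroup (V ≃ₗ[F] V)} {x s : E}
    {r : End F V} (hd : D.RD x s r W) {w : W} {φ : Dual F W} (w0 : w ≠ 0) (φ0 : φ ≠ 0) (e : φ w = 0)
    (h : Tr G (hd.ι w) (φ ∘ₗ hd.pj)) : D.Nil (G.comap eqv.toMonoidHom) :=
  ⟨x, r, hd.ext (φ.smulRight w), hd.ne, hd.L, hd.r2, fun e => φ0 (LinearMap.ext fun v => by
    simpa [hd.res_ext, w0] using LinearMap.congr_fun (congrArg hd.res e) v),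
    by ext; simp [hd.ext_apply, hd.pj_ι, e], hd.r_ext _, hd.ext_r _, by
      rw [hd.ext_smulRight]; exact tr_eqG.1 h⟩

variable [Fintype F] {R : Subgroup (End F V)ˣ} {I : F} (II : I * I = -1) {J : (End F V)ˣ} (hJ : J ∈ R)
  (J1 : (J : End F V) = I • 1) (sq : ∀ x, (D.ρ x * D.ρ x : End F V) = 1) (h1 : ∀ x, D.ρ x ∈ R)
  (h2 : ∀ g ∈ R, ∃ x, D.L x g) (h4 : ∀ g ∈ R, g ^ 4 = 1) {k : ℕ}
  (h6 : finrank (ZMod 2) E = 2 * k + 6)
include II hJ J1 sq h1 h2 h4 h6

theorem maxA (p : ℕ) [Fact p.Prime] [CharP F p] (hF : ∀ a : F, ∃ n : ℕ, a = n) :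
    IsMaximalIn ((SLV F V).comap eqv.toMonoidHom)
      (Subgroup.normalizer (R : Set (End F V)ˣ) ⊓ (SLV F V).comap eqv.toMonoidHom) := by
  have : Finite (End F V) := Module.finite_of_finite F
  refine D.isMax h1 h2 (fun g _ t ht y e => mem_of_four II hJ J1 sq h1 e (by simp [h4 t ht])) ?_
    fun H a b => ((ab_sup II sq a fun x r x0 hr r2 u e => mem_SLV.2 ?_).thmA p hF (k := k + 1)
      h6).imp le_sup_left.trans fun c g hg => mem_eqG.1 (SLV_le_of_tr (fun v φ e =>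
        tr_of_sup e ((tr_SLV e).mono c)) hg)
  · obtain ⟨x, -, -, -, x0, -⟩ := exists_two (E := E) (S := ⊤) (by rw [finrank_top]; omega)
    obtain ⟨s, ⟨hd⟩⟩ := PD.exists_RD (D.L_ρ x) x0 (sq x)
    have d := dvd_of_sq (k := k) (j := 2) (h6 ▸ hd.finrank_eq.2 :)
    have := Nat.one_le_two_pow (n := k)
    obtain ⟨w, w0⟩ := (Module.finrank_pos_iff_exists_ne_zero (R := F)).1 (show 0 < finrank F
      (LinearMap.ker ((D.ρ x).1 + 1)) by omega)
    obtain ⟨φ, φ0, e⟩ := H13.KL.exists_dual_ker (F := F) (by omega) w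
    exact nil_of_tr hd w0 φ0 e (tr_SLV (by simp [hd.pj_ι, e]))
  · exact (congrArg LinearMap.det e).trans (det_U II h6 x0 hr r2)

theorem maxB {p : ℕ} [Fact p.Prime] [CharP F p] {hF : Fintype.card F = p ^ 2} {C : CForm (hermT hF) V}
    (hC : C.Nondeg) (hR : ∀ g ∈ R, eqv g ∈ C.isom) :
    IsMaximalIn ((C.isom ⊓ SLV F V).comap eqv.toMonoidHom)
      (Subgroup.normalizer (R : Set (End F V)ˣ) ⊓ (C.isom ⊓ SLV F V).comap eqv.toMonoidHom) := by
  have : Finite (End F V) := Module.finite_of_finite F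
  have hσ := frob_ne_id hF
  have hN := exists_norm_of_finite (frob_frob hF) hσ
  have sa : ∀ x, SA C (D.ρ x).1 := fun x u v => by
    rw [← (hR _ (h1 x)).1]; exact congrArg (C.B · _) (LinearMap.congr_fun (sq x) u)
  obtain ⟨x, -, -, -, x0, -⟩ := exists_two (E := E) (S := ⊤) (by rw [finrank_top]; omega)
  obtain ⟨s, ⟨hd⟩⟩ := PD.exists_RD (D.L_ρ x) x0 (sq x)
  have d := dvd_of_sq (k := k) (j := 2) (h6 ▸ hd.finrank_eq.2 :)
  have := Nat.one_le_two_pow (n := k)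
  obtain ⟨w, -, w0, w1⟩ := herm_exists_iso hN (C.comap hd.ι) (W := ⊤) (by rw [finrank_top]; omega)
  obtain ⟨u, hu⟩ := (hd.nondeg (sa x) hC).exists_eq w0 1
  have σI : frob hF I = -I := by
    have := (hR _ hJ).1 (hd.ι w) (hd.ι u)
    change C.B (J.1 _) (J.1 _) = _ at this
    simp only [J1, LinearMap.smul_apply, End.one_apply, herm_B_smul_left, map_smul,
      show C.B (hd.ι w) (hd.ι u) = 1 from hu, smul_eq_mul] at this
    linear_combination -I * this + frob hF I * II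
  refine D.isMax h1 h2 (fun g _ t ht y e => mem_of_four II hJ J1 sq h1 e (by simp [h4 t ht])) ?_
    fun H a b => (indB (k + 2) ⟨ab_sup II sq a fun x r x0 hr r2 u e => ⟨?_, mem_SLV.2 ?_⟩, hC, sa,
      fun g hg => ?_⟩ h6).imp le_sup_left.trans fun c g hg => mem_eqG.1 (subG_le_herm hσ hN hC
        (C.nondegOn_top.2 hC) (.inl (by rw [finrank_top, hd.finrank_eq.1]; omega)) (fun v _ e _ hc =>
          tr_of_sup (by simp [herm_B_self, e]) ((c.1 v e).2 _ hc)) ((hC.subG_top inf_le_left).ge hg))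
  · obtain ⟨c, c0, hc⟩ := exists_trace_zero' (hσ2 := frob_frob hF) hσ
    refine nil_of_tr hd w0 (φ := c • (C.comap hd.ι).B w) (fun e => c0 (by
      simpa [hu] using LinearMap.congr_fun e u)) (congrArg (c * ·) ((herm_B_self _).trans w1) |>.trans (mul_zero c)) ?_
    convert (tr_subG (C := C) le_rfl (S := ⊤) trivial w1 (tvOk_herm.2 hc)).mono (subG_le _) using 1
    ext v; exact congrArg (c * ·) (hd.B_pj (sa x) w v)
  · have I1 : 1 + I ≠ 0 := fun e => D.two (by linear_combination (1 - I) * e + II)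
    have I2 : 1 + -I ≠ 0 := fun e => D.two (by linear_combination (1 + I) * e + II)
    have e1 : ∀ a b, C.B (u.1 a) (u.1 b) = C.B a b := fun a b => by
      simp only [e, LinearMap.smul_apply, LinearMap.add_apply, End.one_apply, herm_B_smul_left, map_smul,
        map_add, smul_eq_mul, hr.sa sa sq r2 _ _, ← End.mul_apply r r, r2, map_inv₀, map_one, σI]
      field_simp; linear_combination 0 * II
    exact ⟨e1, fun a => by rw [← herm_B_self, ← herm_B_self]; exact e1 a a⟩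
  · exact (congrArg LinearMap.det e).trans (det_U II h6 x0 hr r2)
  · obtain ⟨k, hk, c, -, e⟩ := mem_sup_sc.1 hg
    exact ⟨c * frob hF c, fun u v => by
      simp only [e, LinearMap.smul_apply, herm_B_smul_left, map_smul, smul_eq_mul, mul_assoc]
      exact congrArg (fun z => c * (frob hF c * z)) ((b hk).1.1 u v)⟩

end

variable {F : Type*} [Field F] {ι : Type} [Fintype ι] [DecidableEq ι] {R : Subgroup (GL ι F)}

/-- Matrices as units of the endomorphism ring. -/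
noncomputable abbrev toE : GL ι F ≃* (End F (ι → F))ˣ := Matrix.GeneralLinearGroup.toLin

theorem toE_val (g : GL ι F) : (toE g).1 = Matrix.toLinAlgEquiv' g.1 := rfl

theorem bridge {G : Subgroup ((ι → F) ≃ₗ[F] (ι → F))} (h : IsMaximalIn (G.comap eqv.toMonoidHom)
    (Subgroup.normalizer (R.map toE.toMonoidHom : Set (End F (ι → F))ˣ) ⊓ G.comap eqv.toMonoidHom)) :
    IsMaximalIn (G.comap (glHom ι F)) (subgroupNormalizer R ⊓ G.comap (glHom ι F)) := by
  have h1 := Subgroup.comap_normalizer_eq_of_surjective (R.map toE.toMonoidHom)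
    (f := toE.toMonoidHom) toE.surjective
  rw [Subgroup.comap_map_eq_self_of_injective (f := toE.toMonoidHom) toE.injective] at h1
  rw [subgroupNormalizer, ← h1]
  exact isMaximalIn_comap toE h

theorem exists_PD [Finite F] (hE : EData 2 R) : ∃ (E : Submodule (ZMod 2) (R → ZMod 2))
    (D : PD F (End F (ι → F)) E), (∀ x, D.ρ x ∈ R.map toE.toMonoidHom) ∧
      ∀ g ∈ R.map toE.toMonoidHom, ∃ x, D.L x g.1 := by
  have := nonempty_of_two hE.two
  let E : Submodule (ZMod 2) (R → ZMod 2) :=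
    { carrier := {f | ∃ x ∈ R, ∀ y : R, f y = bt x y.1}
      zero_mem' := ⟨1, one_mem _, fun y => (bt_zero.2 (by simp)).symm⟩
      add_mem' := fun ⟨x, hx, e⟩ ⟨y, hy, e'⟩ => ⟨x * y, mul_mem hx hy, fun t => by
        rw [Pi.add_apply, e, e', bt_mul hE hx hy t.2]⟩
      smul_mem' := fun c f hf => by
        rcases z01 c with rfl | rfl
        · exact ⟨1, one_mem _, fun y => by simpa using (bt_zero.2 (by simp)).symm⟩
        · rwa [one_smul] }
  choose ρ h1 h2 using fun f : E => f.2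
  have h3 : ∀ f g : E, f.1 ⟨ρ g, h1 g⟩ = g.1 ⟨ρ f, h1 f⟩ := fun f g => by rw [h2, h2, bt_symm]
  have h4 : ∀ x ∈ R, ∀ f : E, (∀ y : R, f.1 y = bt x y.1) → ∃ c : F, c ≠ 0 ∧
      (toE x).1 = c • (toE (ρ f)).1 := fun x hx f e => by
    obtain ⟨c, hc⟩ := exists_sc (mem_scalars_of_comm hE.top (x := x * (ρ f)⁻¹) fun y hy => bt_zero.1 (by
      rw [bt_mul hE hx (inv_mem (h1 f)) hy, ← e ⟨y, hy⟩, h2, bt_congr (x := (ρ f)⁻¹) (a := ρ f) (b := y)
        ⟨fun h => by simpa using (Commute.inv_left (a := (ρ f)⁻¹) h).eq, fun h => Commute.inv_left h⟩, zbb]))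
    exact ⟨c, c.ne_zero, by rw [mul_inv_eq_iff_eq_mul.1 hc, toE_val, toE_val, Units.val_mul, sc_val]; simp⟩
  have h5 : ∀ x ∈ R, ∃ f : E, ∃ c : F, c ≠ 0 ∧ (toE x).1 = c • (toE (ρ f)).1 := fun x hx =>
    ⟨⟨fun y => bt x y.1, x, hx, fun _ => rfl⟩, h4 x hx _ fun _ => rfl⟩
  refine ⟨E, ⟨⟨LinearMap.mk₂ _ (fun f g => f.1 ⟨ρ g, h1 g⟩) (fun _ _ _ => rfl) (fun _ _ _ => rfl)
    (fun f g k => by rw [h3, h3 f, h3 f]; rfl) (fun c f g => by rw [h3, h3 f]; rfl),
    fun f => (h2 f _).trans (bt_zero.2 rfl), fun f hf => Subtype.ext (funext fun y => ?_)⟩,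
    fun f => toE (ρ f), fun f g => ?_, fun f g e => ?_, fun f g e => ?_, ?_, hE.two_ne, inferInstance⟩,
    fun f => ⟨_, h1 f, rfl⟩, by rintro _ ⟨x, hx, rfl⟩; exact h5 x hx⟩
  · have := hf ⟨fun t => bt y.1 t.1, y, y.2, fun _ => rfl⟩
    rw [LinearMap.mk₂_apply, h3] at this
    exact (h2 f y).trans ((bt_symm _ _).trans this)
  · obtain ⟨c, -, e⟩ := h4 _ (mul_mem (h1 f) (h1 g)) (f + g) fun y => by
      rw [bt_mul hE (h1 f) (h1 g) y.2, ← h2, ← h2]; rfl
    exact ⟨c, by simpa using e⟩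
  · simpa using congrArg (fun g => (toE g).1) (bt_zero.1 ((h2 f _).symm.trans e))
  · simp only [toE_val, ← map_mul, ← map_neg]
    exact congrArg (fun g : GL ι F => Matrix.toLinAlgEquiv' g.1)
      (an_of hE (h1 f) (h1 g) ((h2 f _).symm.trans e))
  · refine eq_top_iff.2 fun a _ => ?_
    obtain ⟨a, rfl⟩ := (Matrix.toLinAlgEquiv' (R := F)).surjective a
    have : a ∈ (alg R).toSubmodule := hE.top.ge trivial
    rw [alg, Algebra.adjoin_eq_span] at this
    refine Submodule.mem_comap.1 ((Submodule.span_le.2 fun b hb => ?_ : _ ≤ Submodule.comap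
      (Matrix.toLinAlgEquiv' (R := F)).toLinearMap _) this)
    obtain ⟨x, hx, rfl⟩ := (Submonoid.closure_le (S := R.toSubmonoid.map (Units.coeHom _))).2
      (fun _ h => h) hb
    obtain ⟨f, c, -, e⟩ := h5 x hx
    change (toE x).1 ∈ Submodule.span F _
    rw [e]; exact Submodule.smul_mem _ c (Submodule.subset_span ⟨f, rfl⟩)

theorem exists_PD4 [Finite F] (hι : 2 ≤ Fintype.card ι) (h : IsSymplecticTypeGroup 2 R)
    (hi : ActsAbsolutelyIrreducibly (matrixSet R)) (hZ : Nat.card (Subgroup.center R) = 4) :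
    ∃ (E : Submodule (ZMod 2) (R → ZMod 2)) (D : PD F (End F (ι → F)) E) (I : F),
      I * I = -1 ∧ ∃ J ∈ R.map toE.toMonoidHom, J.1 = I • 1 ∧ (∀ x, (D.ρ x).1 * D.ρ x = 1) ∧
      (∀ x, D.ρ x ∈ R.map toE.toMonoidHom) ∧ (∀ g ∈ R.map toE.toMonoidHom, ∃ x, D.L x g.1) ∧
      (∀ g ∈ R.map toE.toMonoidHom, g ^ 4 = 1) ∧
      Fintype.card ι * Fintype.card ι = 2 ^ finrank (ZMod 2) E := by
  have hE := eData_of hι h hi
  obtain ⟨E, D, h1, h2⟩ := exists_PD hE
  obtain ⟨ζ, z1, z2⟩ := hE.exists_gen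
  have II : (ζ : F) * ζ = -1 := by
    have h3 := congrArg Units.val (pow_orderOf_eq_one ζ)
    rw [z1, hZ, show 4 = 2 * 2 from rfl, pow_mul, Units.val_pow_eq_pow_val, Units.val_one,
      sq_eq_one_iff] at h3
    simpa [pow_two] using h3.resolve_left fun e => absurd (z1.trans hZ ▸ orderOf_dvd_of_pow_eq_one
      (Units.ext e)) (by decide)
  have J1 : (toE (H27.Asch.sc ι ζ)).1 = (ζ : F) • 1 := by rw [toE_val, sc_val, map_smul, map_one]
  have J0 : toE (H27.Asch.sc ι ζ) ∈ R.map toE.toMonoidHom := ⟨_, (z2 ζ).2 (Subgroup.mem_zpowers ζ), rfl⟩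
  have h4 : ∀ g ∈ R.map toE.toMonoidHom, g ^ 4 = 1 := by
    rintro _ ⟨x, hx, rfl⟩; rw [← map_pow, exp_four h hx, map_one]
  have : ∀ x, ∃ g ∈ R.map toE.toMonoidHom, D.L x g.1 ∧ g.1 * g = 1 := fun x => by
    obtain ⟨c, -, e⟩ := (D.L_ρ x).sq
    have := congrArg Units.val (h4 _ (h1 x))
    rw [Units.val_pow_eq_pow_val, show 4 = 2 * 2 from rfl, pow_mul, pow_two (D.ρ x).1, e, smul_pow,
      one_pow] at this
    rcases sq_eq_one_iff.1 (smul_left_injective F (PD.L_one (D := D)).ne (this.trans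
      (one_smul F _).symm)) with rfl | rfl
    · exact ⟨_, h1 x, D.L_ρ x, by simpa using e⟩
    · exact ⟨_, mul_mem J0 (h1 x), by simpa [J1] using (D.L_ρ x).smul ζ.ne_zero, by
        simp [J1, smul_smul, II, e]⟩
  choose ρ r1 r2 r3 using this
  exact ⟨E, D.re ρ r2, ζ, II, _, J0, J1, r3, r1, fun g hg => (h2 g hg).imp fun _ => (D.L_re r2).2, h4,
    by simpa using D.finrank_sq⟩

theorem sl_c6 [Fintype F] {n p k : ℕ} (hn : n = 2 ^ (k + 3)) (hp : p.Prime) (hF : Fintype.card F = p)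
    {R : Subgroup (GL (Fin n) F)} (h : IsLinearSymplecticTypeData 2 R) :
    IsMaximalIn (specialLinear (Fin n) F) (subgroupNormalizer R ⊓ specialLinear (Fin n) F) := by
  have := Fact.mk hp
  have : 8 ≤ n := hn ▸ Nat.pow_le_pow_right (n := 2) (by norm_num) (by omega : 3 ≤ k + 3)
  have : CharP F p := charP_of_card_eq_prime hF
  obtain ⟨E, D, I, II, J, J0, J1, a, b, c, d, e⟩ := exists_PD4 (by simp; omega) h.symplecticType
    h.absIrred (by
      obtain ⟨_, _, -, -, h | h | h⟩ := h.field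
      exacts [absurd h.1 (by decide), h.2.2.1, by have := h.2.2.1; simp at this; omega])
  rw [specialLinear_eq]
  exact bridge (maxA II J0 J1 a b c d (k := k) (Nat.pow_right_injective le_rfl (by
    simp only [← e, Fintype.card_fin, hn]; ring)) p fun a => nat_of_pow p (hF ▸ FiniteField.pow_card a))

theorem su_c6 [Fintype F] {n p k : ℕ} (hn : n = 2 ^ (k + 3)) (hp : p.Prime)
    (hF : Fintype.card F = p ^ 2) {R : Subgroup (GL (Fin n) F)} (h : IsSymplecticTypeGroup 2 R)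
    (hi : ActsAbsolutelyIrreducibly (matrixSet R)) (hR : R ≤ GU n F p)
    (hZ : Nat.card (Subgroup.center R) = 4) : IsMaximalIn (GU n F p ⊓ specialLinear (Fin n) F)
      (subgroupNormalizer R ⊓ (GU n F p ⊓ specialLinear (Fin n) F)) := by
  have := Fact.mk hp
  have : 8 ≤ n := hn ▸ Nat.pow_le_pow_right (n := 2) (by norm_num) (by omega : 3 ≤ k + 3)
  have : CharP F p := charP_of_card_eq_prime_pow hF
  obtain ⟨E, D, I, II, J, J0, J1, a, b, c, d, e⟩ := exists_PD4 (by simp; omega) h hi hZ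
  rw [SU_eq hF]
  exact bridge (maxB II J0 J1 a b c d (k := k) (Nat.pow_right_injective le_rfl (by
    simp only [← e, Fintype.card_fin, hn]; ring)) (hermC_nondeg hF) (by
      rintro _ ⟨x, hx, rfl⟩; exact (GU_eq hF n).le (hR hx)))

end H12.C6
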