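import Cfsg.Agent.H12.C6j

/-!
# Normalisers of extraspecial groups: the abstract part
-/

set_option autoImplicit false
set_option maxHeartbeats 400000

namespace H12.C6

open Module

theorem burn {G : Type*} [Group G] [Finite G] {A : Subgroup G} (h2 : ∀ a ∈ A, a * a = 1)
    (hN : Subgroup.normalizer (A : Set G) ≤ A) {u v : G} (hu : u ∈ A) (hv : v ∈ A)
    (hC : ∀ x, x = u ∨ x = v ∨ x = u * v → ∀ k, k * x = x * k → k ∈ A) : A = ⊤ := by
  have hp : IsPGroup 2 A := fun a => ⟨1, Subtype.ext (by simpa [sq] using h2 a a.2)⟩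
  obtain ⟨S, hS⟩ := hp.exists_le_sylow
  have := S.2.isNilpotent
  obtain rfl : A = S := le_antisymm hS (Subgroup.subgroupOf_eq_top.1
    (normalizerCondition_iff_only_full_group_self_normalizing.1 Group.normalizerCondition_of_isNilpotent _
      (by rw [← Subgroup.subgroupOf_normalizer_eq hS, le_antisymm hN Subgroup.le_normalizer])))
  have hP : Subgroup.normalizer (S : Set G) ≤ Subgroup.centralizer S := fun a ha b hb => by
    have := h2 _ (mul_mem hb (hN ha))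
    rw [← inv_eq_of_mul_eq_one_right this, mul_inv_rev, inv_eq_of_mul_eq_one_right (h2 _ hb),
      inv_eq_of_mul_eq_one_right (h2 _ (hN ha))]
  have hc := MonoidHom.ker_transferSylow_isComplement' S hP
  generalize hO : (MonoidHom.transferSylow S hP).ker = O at hc
  have : O.Normal := hO ▸ inferInstance
  have k : ∀ x ∈ (S : Subgroup G), (∀ k, k * x = x * k → k ∈ (S : Subgroup G)) → ∀ o ∈ O,
      x * o * x⁻¹ = o⁻¹ := fun x hx h o ho => congrArg Subtype.val (congrFun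
    (MonoidHom.FixedPointFree.coe_eq_inv_of_involutive (φ := MulAut.conjNormal (H := O) x)
      (fun g e => Subtype.ext (Subgroup.disjoint_def.1 hc.disjoint g.2 (h _
        (mul_inv_eq_iff_eq_mul.1 (congrArg Subtype.val e)).symm))) fun g => Subtype.ext (by
          simp [inv_eq_of_mul_eq_one_right (h2 x hx), mul_assoc, ← mul_assoc x x, h2 x hx])) ⟨o, ho⟩)
  refine hc.sup_eq_top ▸ (sup_eq_right.2 fun o ho => hC _ (.inr (.inr rfl)) o ?_).symm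
  have := k u hu (hC u (.inl rfl)) _ (inv_mem ho)
  rw [inv_inv, ← k v hv (hC v (.inr (.inl rfl))) o ho] at this
  conv_lhs => rw [← this]
  group

variable {F A E : Type*} [Field F] [Ring A] [Algebra F A] [AddCommGroup E] [Module (ZMod 2) E]

/-- A quadratic form with given polar form. -/
def SS.QF (D : SS E) (Q : E → ZMod 2) : Prop := ∀ x y, Q (x + y) = Q x + Q y + D.B x y

/-- A symplectic transvection. -/
def SS.tv (D : SS E) (a x : E) : E := x + D.B a x • a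

namespace SS.QF

variable {D : SS E} {Q : E → ZMod 2} (h : D.QF Q) {a b c d x : E}
include h

theorem zero : Q 0 = 0 := by simpa using h 0 0

theorem ne (e : Q a = 1) : a ≠ 0 := by rintro rfl; simp [h.zero] at e

theorem or (ha : Q a = 1) (e : D.B a x = 0) : Q x = 1 ∨ Q (x + a) = 1 := by
  rcases z01 (Q x) with e' | e' <;> simp [h x a, D.symm x, e, e', ha]

variable [Finite E]

theorem exists_ns {U : Submodule (ZMod 2) E} (hU : 2 * finrank (ZMod 2) U < finrank (ZMod 2) E ∨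
    2 * finrank (ZMod 2) U ≤ finrank (ZMod 2) E ∧ ∃ a ∈ U, Q a = 1) :
    ∃ w, (∀ s ∈ U, D.B s w = 0) ∧ Q w = 1 := by
  by_contra! hn
  simp only [zne'] at hn
  have h1 : D.perp U ≤ U := fun x hx => by
    by_contra h2
    obtain ⟨w, w1, w2⟩ := D.sep h2
    have w3 : w ∈ D.perp U := fun s hs => (D.symm _ _).trans (w1 s hs)
    simpa [hn _ w3, hn _ hx, hn _ (add_mem w3 hx), w2] using h w x
  have := D.finrank_perp U
  have := Submodule.finrank_mono h1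
  obtain ⟨-, a, e, ha⟩ := hU.resolve_left (by omega)
  simp [hn a ((Submodule.eq_of_le_of_finrank_le h1 (by omega)).ge e)] at ha

theorem exists_out (ha : Q a = 1) (S T : Submodule (ZMod 2) E) (h1 : a ∈ S) (h2 : a ∈ T)
    (h3 : ∀ s ∈ S, D.B s a = 0) (h4 : finrank (ZMod 2) S + finrank (ZMod 2) T < finrank (ZMod 2) E) :
    ∃ b, (∀ s ∈ S, D.B s b = 0) ∧ b ∉ T ∧ Q b = 1 := by
  obtain ⟨w, w1, w2⟩ := D.exists_perp S T h4
  exact (h.or ha (w1 a h1)).elim (⟨w, w1, w2, ·⟩) (⟨w + a, fun s hs => by simp [w1 s hs, h3 s hs],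
    fun e => w2 ((Submodule.add_mem_iff_left _ h2).1 e), ·⟩)

theorem exists_an {S : Submodule (ZMod 2) E} (h1 : a ∉ S) (hb : b ∉ S) (hc : c ∈ S) (c1 : Q c = 1)
    (c2 : ∀ s ∈ S, D.B s c = 0) (c3 : D.B c a = 0) (c4 : D.B c b = 0) (q : ZMod 2) :
    ∃ w, (∀ s ∈ S, D.B w s = 0) ∧ D.B w a = 1 ∧ D.B w b = 1 ∧ Q w = q := by
  obtain ⟨w, w1, w2, w3⟩ := D.sep_both h1 hb
  by_cases e : Q w = q
  · exact ⟨w, w1, w2, w3, e⟩
  exact ⟨w + c, fun s hs => by simp [w1 s hs, D.symm c, c2 s hs], by simp [w2, c3], by simp [w3, c4],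
    by rw [h, c1, w1 c hc]; revert e; generalize Q w = t; decide +revert⟩

theorem exists_c (h7 : 7 ≤ finrank (ZMod 2) E) (ha : a ≠ 0) (hb : b ≠ 0) : ∃ c, Q c = 1 ∧
    ∀ z, z = a ∨ z = b → z ∉ Submodule.span (ZMod 2) {c} ∧ D.B z c = 0 := by
  obtain ⟨x, a1, a2⟩ := h.exists_ns (U := .span _ {a, b}) (.inl (by have := rk2 a b; omega))
  obtain ⟨c, c1, c2, c3⟩ := h.exists_out a2 (.span _ {x, a, b}) (.span _ {x, a, b})
    (Submodule.subset_span (by simp)) (Submodule.subset_span (by simp)) (fun s hs =>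
      (Submodule.span_le.2 (by
        rintro _ (rfl | rfl | rfl)
        exacts [D.alt _, a1 _ (mem_span2.2 (by simp)), a1 _ (mem_span2.2 (by simp))]) :
        _ ≤ LinearMap.ker (D.B.flip x)) hs) (by have := rk3 x a b; omega)
  exact ⟨c, c3, fun z hz => ⟨fun e => (mem_span1.1 e).elim (by rcases hz with rfl | rfl <;> assumption)
    fun e => c2 (e ▸ Submodule.subset_span (.inr hz)), c1 z (Submodule.subset_span (.inr hz))⟩⟩

theorem exists_an2 (h7 : 7 ≤ finrank (ZMod 2) E) (ha : a ≠ 0) (hb : b ≠ 0) (q : ZMod 2) :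
    ∃ w, D.B w a = 1 ∧ D.B w b = 1 ∧ Q w = q :=
  let ⟨c, c1, k⟩ := h.exists_c h7 ha hb
  (h.exists_an (k a (.inl rfl)).1 (k b (.inr rfl)).1 (mem_span1.2 (.inr rfl)) c1 (fun s hs => by
    rcases mem_span1.1 hs with rfl | rfl <;> simp [D.alt]) ((D.symm _ _).trans (k a (.inl rfl)).2)
    ((D.symm _ _).trans (k b (.inr rfl)).2) q).imp fun _ e => e.2

omit h in
theorem _root_.H12.C6.SS.mem_of_tv (h0 : a ≠ 0) (h1 : a ≠ b)
    (e : ∀ v, D.tv c (D.tv d v) = D.tv a (D.tv b v)) : a ∈ Submodule.span (ZMod 2) {c, d} := by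
  obtain ⟨v, v1, v2⟩ := D.sep1 h0 h1
  have := e v
  simp only [SS.tv, D.symm b, D.symm a, v1, v2, zero_smul, add_zero, one_smul, add_assoc,
    add_right_inj] at this
  exact this ▸ add_mem (Submodule.smul_mem _ _ (mem_span2.2 (by simp)))
    (Submodule.smul_mem _ _ (mem_span2.2 (by simp)))

theorem fix {m : E →ₗ[ZMod 2] E} (h6 : 6 ≤ finrank (ZMod 2) E) (mB : ∀ x y, D.B (m x) (m y) = D.B x y)
    (mQ : ∀ x, Q (m x) = Q x) (key : ∀ a b w, Q a = 1 → Q b = 1 → Q w = 1 → D.B a w = 0 → D.B b w = 0 →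
      D.B (m a) w = 0 → D.B (m b) w = 0 → ∀ v, D.tv (m a) (D.tv (m b) v) = D.tv a (D.tv b v)) :
    ∃ a, Q a = 1 ∧ m a = a := by
  by_contra! hn
  have inj : Function.Injective m := (injective_iff_map_eq_zero m).2 fun x e => D.nd x fun y => by
    simp [← mB, e]
  have k1 : ∀ a, Q a = 1 → a = m (m a) ∨ a = m a + m (m a) := fun a ha => by
    obtain ⟨w, w1, w2⟩ := h.exists_ns (U := .span _ {a, m a, m (m a)}) (.inr ⟨by
      have := rk3 a (m a) (m (m a)); omega, a, Submodule.subset_span (by simp), ha⟩)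
    have w3 : ∀ s ∈ ({a, m a, m (m a)} : Set E), D.B s w = 0 := fun s hs => w1 s (Submodule.subset_span hs)
    simpa [h.ne ha, (hn a ha).symm] using mem_span2.1 (SS.mem_of_tv (h.ne ha) (hn a ha).symm
      (key a (m a) w ha ((mQ a).trans ha) w2 (w3 _ (by simp)) (w3 _ (by simp)) (w3 _ (by simp))
        (w3 _ (by simp))))
  have k2 : ∀ w, Q w = 1 → ∀ b, D.B w b = 0 → D.B (m w) b = 0 → D.B (m b) w = 0 := fun w hw b e e' => by
    rcases k1 w hw with e1 | e1 <;> rw [D.symm, e1] <;> simp [mB, e, e']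
  obtain ⟨a, -, ha⟩ := h.exists_ns (U := ⊥) (.inl (by rw [finrank_bot]; omega))
  obtain ⟨w, w1, w2⟩ := h.exists_ns (U := .span _ {a, m a}) (.inl (by have := rk2 a (m a); omega))
  have w3 := w1 a (mem_span2.2 (by simp))
  have w4 := w1 (m a) (mem_span2.2 (by simp))
  obtain ⟨b, b1, b2, b3⟩ := h.exists_out ha (.span _ {a, w, m w}) (.span _ {a, m a})
    (Submodule.subset_span (by simp)) (mem_span2.2 (by simp)) (fun s hs => (Submodule.span_le.2 (by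
      rintro _ (rfl | rfl | rfl)
      exacts [D.alt _, (D.symm _ _).trans w3, k2 a ha w w3 w4]) : _ ≤ LinearMap.ker (D.B.flip a)) hs)
    (by have := rk3 a w (m w); have := rk2 a (m a); omega)
  have b4 := b1 w (Submodule.subset_span (by simp))
  have := mem_span2.1 (SS.mem_of_tv (h.ne ha) (fun e => b2 (e ▸ mem_span2.2 (by simp)))
    (key a b w ha b3 w2 w3 ((D.symm _ _).trans b4) w4 (k2 w w2 b b4
      (b1 _ (Submodule.subset_span (by simp))))))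
  refine b2 (mem_span2.2 ?_)
  simp only [h.ne ha, (hn a ha).symm, false_or] at this
  rcases this with e | e <;> rcases k1 a ha with e1 | e1 <;> have e2 := e.symm.trans e1 <;>
    simp only [← map_add, inj.eq_iff, add_right_inj] at e2 <;> simp [← e2, xxy]

end SS.QF

theorem PD.Nm.act [Finite E] {D : PD F A E} {g : Aˣ} (hg : g ∈ D.Nm) : ∃ m : E →ₗ[ZMod 2] E,
    ∀ x b, D.L x b → D.L (m x) (g * b * (g⁻¹ : Aˣ)) :=
  let ⟨m, e⟩ := (D.tid (X := D.Nm) (fun x => (D.L_ρ x).mem_Nm) fun _ h _ _ _ _ => h).exists_act hg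
  ⟨m, fun x _ hb => hb.conj (PD.conj_iff.1 (e x))⟩

theorem PD.L.conj_self {D : PD F A E} {g : Aˣ} {w x : E} {b : A} (hg : D.L w g) (hb : D.L x b) :
    D.L x (g * b * (g⁻¹ : Aˣ)) := by
  simpa [add_comm w, yxx] using (hg.mul hb).mul hg.inv

theorem PD.L.tv2 {D : PD F A E} {n : Aˣ} {a b x : E} {α β c : A} (l : D.L a α) (l' : D.L b β)
    (e : α * α = -1) (e' : β * β = -1) (h : (n : A) = (2 : F)⁻¹ • ((1 + α) * (1 + β))) (hc : D.L x c) :
    D.L (D.tv a (D.tv b x)) (n * c * (n⁻¹ : Aˣ)) := by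
  rw [conj_smul (k := D.tu α e * D.tu β e') h, conj_conj]; exact l.tu e (l'.tu e' hc)

/-- The data for extraspecial groups. -/
structure CD (D : PD F A E) (X : Subgroup Aˣ) (Q : E → ZMod 2) : Prop where
  qf : D.QF Q
  sq : ∀ x, (D.ρ x * D.ρ x : A) = D.sg (Q x) • 1
  mem : ∀ x, D.ρ x ∈ X
  neg : -1 ∈ X
  pm : ∀ g ∈ X, ∀ c : F, (g : A) = c • 1 → c * c = 1
  T : ∀ a b α β, Q a = 1 → Q b = 1 → D.L a α → D.L b β → ∀ (h : α * α = -1) (h' : β * β = -1),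
    ∃ n ∈ X, (n : A) = (2 : F)⁻¹ • (D.tu α h * D.tu β h').1

namespace CD

open PD

variable {D : PD F A E} {X K : Subgroup Aˣ} {Q : E → ZMod 2} (h : CD D X Q) {a b x y z : E} {g : Aˣ}
  {α β : A}
include h

theorem sq1 (e : Q x = 1) : (D.ρ x * D.ρ x : A) = -1 := by simp [h.sq, e, sg]

theorem sq0 (e : Q x = 0) : (D.ρ x * D.ρ x : A) = 1 := by simp [h.sq, e, sg]

theorem Lsq (hg : g ∈ X) (e : D.L x g) : (g * g : A) = D.sg (Q x) • 1 := by
  obtain ⟨c, -, e⟩ := e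
  simp [e, smul_smul, h.sq, h.pm _ (mul_mem hg (inv_mem (h.mem x))) c (by simp [e]), ← mul_assoc]

theorem conjQ (hg : g ∈ X) (e : D.L y (g * D.ρ x * (g⁻¹ : Aˣ))) : Q y = Q x := by
  have := h.Lsq (mul_mem (mul_mem hg (h.mem x)) (inv_mem hg)) e
  rw [Units.val_mul, Units.val_mul, conj_mul, h.sq, mul_smul_comm, smul_mul_assoc, mul_one,
    Units.mul_inv] at this
  exact (sg_inj (smul_left_injective F (L_one (D := D)).ne this)).symm

theorem mem_of_sq (e : D.L x g) (e' : (g * g : A) = D.sg (Q x) • 1) : g ∈ X := by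
  rcases e.pm (D.L_ρ x) (e'.trans (h.sq x).symm) with e | e
  · exact Units.ext e ▸ h.mem x
  · exact (show -1 * D.ρ x = g from Units.ext (by simp [e])) ▸ mul_mem h.neg (h.mem x)

variable [Finite E]

theorem exT (ha : Q a = 1) (hb : Q b = 1) (l : D.L a α) (l' : D.L b β) (e : α * α = -1)
    (e' : β * β = -1) : ∃ n ∈ X, (n : A) = (2 : F)⁻¹ • ((1 + α) * (1 + β)) ∧ n ∈ D.Nm ∧
      ∀ x c, D.L x c → D.L (D.tv a (D.tv b x)) (n * c * (n⁻¹ : Aˣ)) :=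
  let ⟨n, n0, n1⟩ := h.T a b α β ha hb l l' e e'
  ⟨n, n0, n1, mem_Nm_of_smul n1 (mul_mem (tu_mem e l) (tu_mem e' l')), fun _ _ => l.tv2 l' e e' n1⟩

theorem move {S : Submodule (ZMod 2) E} {c : E} (hx : x ∉ S) (hy : y ∉ S) (hx' : ∀ s ∈ S, D.B x s = 0)
    (hy' : ∀ s ∈ S, D.B y s = 0) (e : Q x = Q y) (hc : c ∈ S) (c1 : Q c = 1) (c2 : ∀ s ∈ S, D.B s c = 0) :
    ∃ n ∈ X, n ∈ D.Nm ∧ (∀ s ∈ S, ∀ r, D.L s r → n * r = r * n) ∧
      ∀ b, D.L x b → D.L y (n * b * (n⁻¹ : Aˣ)) := by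
  obtain ⟨w, w1, w2, w3, w4⟩ := h.qf.exists_an hx hy hc c1 c2 ((D.symm _ _).trans (hx' c hc))
    ((D.symm _ _).trans (hy' c hc)) (Q x)
  have q1 : Q (w + y) = 1 := by rw [h.qf, w3, w4, e, zbb, zero_add]
  have q2 : Q (w + x) = 1 := by rw [h.qf, w2, w4, zbb, zero_add]
  obtain ⟨n, n0, n1, n2, n3⟩ := h.exT q1 q2 (D.L_ρ _) (D.L_ρ _) (h.sq1 q1) (h.sq1 q2)
  refine ⟨n, n0, n2, fun s hs r hr => ?_, fun b hb => by
    simpa [SS.tv, D.alt, w2, add_comm w x, xxy, D.symm y, w3] using n3 x b hb⟩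
  rw [n1, smul_mul_assoc, mul_smul_comm]
  exact congrArg _ (Commute.mul_left
    (tu_cm (D := D) (h.sq1 q1) ((D.L_ρ _).cm hr (by simp [w1 s hs, hy' s hs])))
    (tu_cm (D := D) (h.sq1 q2) ((D.L_ρ _).cm hr (by simp [w1 s hs, hx' s hs])))).eq

theorem move0 (h7 : 7 ≤ finrank (ZMod 2) E) (hx : x ≠ 0) (hy : y ≠ 0) (e : Q x = Q y) :
    ∃ n ∈ X, n ∈ D.Nm ∧ ∀ b, D.L x b → D.L y (n * b * (n⁻¹ : Aˣ)) := by
  obtain ⟨c, c1, k⟩ := h.qf.exists_c h7 hx hy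
  have k' : ∀ z, D.B z c = 0 → ∀ s ∈ Submodule.span (ZMod 2) {c}, D.B z s = 0 := fun z e s hs => by
    rcases mem_span1.1 hs with rfl | rfl <;> simp [e]
  obtain ⟨n, n0, n1, -, n2⟩ := h.move (k x (.inl rfl)).1 (k y (.inr rfl)).1 (k' _ (k x (.inl rfl)).2)
    (k' _ (k y (.inr rfl)).2) e (mem_span1.2 (.inr rfl)) c1 fun s hs => D.symm _ _ ▸ k' c (D.alt c) s hs
  exact ⟨n, n0, n1, n2⟩

theorem of_cent (h7 : 7 ≤ finrank (ZMod 2) E) (hx : x ≠ 0)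
    (loc : ∀ g ∈ X, (g * D.ρ x : A) = D.ρ x * g → g ∈ D.Nm) (hg : g ∈ X)
    (e : D.L y (g * D.ρ x * (g⁻¹ : Aˣ))) : g ∈ D.Nm := by
  obtain ⟨n, a1, a2, a3⟩ := h.move0 h7 ((D.L_ρ x).ne_conj e hx) hx (h.conjQ hg e)
  exact nm_of_move h.mem L_one hx hx (fun g hg _ e => loc g hg (congrArg Units.val e)) hg (by simp) a1
    a2 (by simp) (a3 _ e)

theorem star (h7 : 7 ≤ finrank (ZMod 2) E) (loc : ∀ y, Q y = 1 → ∀ g ∈ X, (g * D.ρ y : A) = D.ρ y * g →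
    ∀ w, D.B w y = 0 → ∃ z, D.L z (g * D.ρ w * (g⁻¹ : Aˣ))) (hx : Q x = 1) (hg : g ∈ X)
    (e : D.L y (g * D.ρ x * (g⁻¹ : Aˣ))) : g ∈ D.Nm := by
  have x0 := h.qf.ne hx
  refine h.of_cent h7 x0 (fun g hg e' => ?_) hg e
  have k : ∀ s ∈ Submodule.span (ZMod 2) {x}, D.B s x = 0 := fun s hs => by
    rcases mem_span1.1 hs with rfl | rfl <;> simp [D.alt]
  obtain ⟨z, z1, z2, z5⟩ := h.qf.exists_out hx (.span _ {x}) (.span _ {x}) (mem_span1.2 (.inr rfl))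
    (mem_span1.2 (.inr rfl)) k (by have := rk1 x; omega)
  have z3 := z1 x (mem_span1.2 (.inr rfl))
  have z4 := not_or.1 (mt mem_span1.2 z2)
  obtain ⟨y, hy⟩ := loc x hx g hg e' z ((D.symm _ _).trans z3)
  have y1 : D.L x (g * D.ρ x * (g⁻¹ : Aˣ)) := by rw [conj_of_comm e']; exact D.L_ρ x
  obtain ⟨n, n1, n2, n3, n4⟩ := h.move (S := .span _ {x}) (x := y) (y := z) (by
    rw [mem_span1, not_or]
    refine ⟨(D.L_ρ z).ne_conj hy z4.1, ?_⟩
    rintro rfl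
    obtain ⟨c, hc, e⟩ := hy.rel y1
    rw [← smul_mul_assoc, ← mul_smul_comm, Units.mul_left_inj, Units.mul_right_inj] at e
    exact z4.2 ((D.L_ρ z).inj ⟨c, hc, e⟩)) z2 (fun s hs => by
      rcases mem_span1.1 hs with rfl | rfl
      · simp
      · rw [(D.L_ρ z).conj_B (D.L_ρ s) hy y1, D.symm, z3]) (fun s hs => (D.symm _ _).trans (z1 s hs))
    (h.conjQ hg hy) (mem_span1.2 (.inr rfl)) hx k
  exact nm_of_move h.mem (D.L_ρ x) z4.1 z4.2 (fun g hg e e' => nm_of_two x0 (Ne.symm z4.2)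
    (loc x hx g hg e) (loc z z5 g hg (congrArg Units.val e'))) hg e' n1 n2
    (n3 x (mem_span1.2 (.inr rfl)) _ (D.L_ρ x)) (n4 _ hy)

variable [Finite A]

theorem final (h3 : 3 ≤ finrank (ZMod 2) E)
    (ti : ∀ g ∈ X, ∀ x, x ≠ 0 → ∀ y, D.L y (g * D.ρ x * (g⁻¹ : Aˣ)) → g ∈ D.Nm) : X ≤ D.Nm := by
  have T := D.tid h.mem ti
  intro g hg
  by_contra hn
  by_cases hI : ∀ k ∈ X.map (pr F), ∀ x, x ≠ 0 → k * D.ε x * k⁻¹ ∈ NN D.ε → k ∈ NN D.ε
  · exact T.caseI hI ⟨g, hg, rfl⟩ hn h3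
  push Not at hI
  obtain ⟨_, ⟨k, hk, rfl⟩, z, hz, a1, a2⟩ := hI
  have hk' : pr F k ∈ X.map (pr F) := ⟨k, hk, rfl⟩
  have T' := T.conj hk'
  refine T.caseII T' (fun x y => T.disj (x := x) (y := y) hk' a2) a1 hz fun b1 z b2 b3 y a b4 _ b5 => ?_
  have c0 : ∀ z, pr F k * D.ε z * (pr F k)⁻¹ = pr F (k * D.ρ z * k⁻¹) := fun z => by simp [ε]
  simp only [c0, conj_iff] at b4 b5
  have c1 : ∀ {z w}, D.L (w + a) ((k * D.ρ z * k⁻¹ : Aˣ) * D.ρ w * ((k * D.ρ z * k⁻¹)⁻¹ : Aˣ)) →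
      D.B w a = Q a := fun {z w} e => by
    have := h.conjQ (mul_mem (mul_mem hk (h.mem z)) (inv_mem hk)) e
    rwa [h.qf, add_assoc, add_eq_left, add_comm, xy0] at this
  by_contra c4
  have c2 : ∀ z ∈ AA _ D.ε T', z ≠ 0 → ((k * D.ρ z * k⁻¹ : Aˣ) * D.ρ a : A) =
      -(D.ρ a * (k * D.ρ z * k⁻¹ : Aˣ)) := fun z hz z0 => by
    obtain ⟨w, hw⟩ := b5 z hz z0
    rw [sg_conj (c := D.sg (Q z)) (by simp only [Units.val_mul]; rw [conj_mul, h.sq]; simp) (D.L_ρ w) hw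
      (D.L_ρ a), c1 hw, ← c1 b4, zne.1 c4, sg, if_neg one_ne_zero, neg_one_smul]
  obtain ⟨u, u1, v, v1, u2, v2, u3⟩ := exists_two (S := AA _ D.ε T') (by omega)
  have e := c2 u u1 u2
  have e' := c2 v v1 v2
  have e1 := c2 _ (add_mem u1 v1) u3
  obtain ⟨c, -, e''⟩ := (D.L_ρ _).rel ((D.L_ρ u).mul (D.L_ρ v))
  have := D.nt
  refine (D.ρ a * (k * D.ρ (u + v) * k⁻¹)).ne_zero (D.two_smul_eq (Eq.trans ?_ e1))
  simp only [Units.val_mul] at e e' ⊢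
  rw [e'', mul_smul_comm, smul_mul_assoc, ← conj_mul, smul_mul_assoc, mul_smul_comm, mul_assoc _ _
    (D.ρ a : A), e', mul_neg, ← mul_assoc _ (D.ρ a : A), e, neg_mul, neg_neg, mul_assoc (D.ρ a : A)]

theorem core (h6 : 6 ≤ finrank (ZMod 2) E) (hK : K ≤ X) (hn : ∀ g ∈ X, ∀ k ∈ K, g * k * g⁻¹ ∈ K)
    (hρ : ∀ y, Q y = 1 → D.ρ y ∈ K)
    (hC : ∀ k ∈ K, ∀ y, Q y = 1 → D.L y (k * D.ρ y * (k⁻¹ : Aˣ)) → ∃ w, D.L w k) :
    (∀ k ∈ K, ∃ w, D.L w k) ∧ X ≤ D.Nm := by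
  have T := D.tid (X := D.Nm) (fun x => (D.L_ρ x).mem_Nm) fun _ h _ _ _ _ => h
  obtain ⟨a, -, ha⟩ := h.qf.exists_ns (U := ⊥) (.inl (by rw [finrank_bot]; omega))
  have hε : ∀ y, D.ε y ∈ K.map (pr F) := fun y => by
    rcases z01 (Q y) with e | e
    · obtain ⟨w, w1, w2⟩ := h.qf.exists_ns (U := .span _ {y}) (.inl (by have := rk1 y; omega))
      rw [← yxx w y, T.add]
      exact mul_mem ⟨_, hρ _ (by rw [h.qf, e, w2, w1 y (mem_span1.2 (.inr rfl))]; simp), rfl⟩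
        ⟨_, hρ w w2, rfl⟩
    · exact ⟨_, hρ y e, rfl⟩
  have h1 : ∀ k ∈ K, k ∈ D.Nm → ∃ w, D.L w k := fun k hk hk' => by
    obtain ⟨m, hm⟩ := Nm.act hk'
    have mQ : ∀ x, Q (m x) = Q x := fun x => h.conjQ (hK hk) (hm x _ (D.L_ρ x))
    obtain ⟨a, a1, a2⟩ := h.qf.fix h6 (fun x y => (D.L_ρ x).conj_B (D.L_ρ y) (hm x _ (D.L_ρ x))
      (hm y _ (D.L_ρ y))) mQ fun a b w a1 b1 w1 e1 e2 e3 e4 v => by
        obtain ⟨n, n0, n1, -, n3⟩ := h.exT a1 b1 (D.L_ρ _) (D.L_ρ _) (h.sq1 a1) (h.sq1 b1)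
        have sq : ∀ {a}, Q a = 1 → (k * D.ρ a * (k⁻¹ : Aˣ) * (k * D.ρ a * (k⁻¹ : Aˣ)) : A) = -1 :=
          fun e => by rw [conj_mul, h.sq1 e]; simp
        obtain ⟨n', -, n1', -, n3'⟩ := h.exT ((mQ a).trans a1) ((mQ b).trans b1) (hm a _ (D.L_ρ a))
          (hm b _ (D.L_ρ b)) (sq a1) (sq b1)
        have e5 : n' = k * n * k⁻¹ := Units.ext (by
          simp only [n1', Units.val_mul, n1, mul_smul_comm, smul_mul_assoc, ← conj_mul]
          simp [mul_add, add_mul])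
        have hκ : n⁻¹ * n' ∈ K := by
          simpa [e5, mul_assoc] using mul_mem (hn _ (inv_mem n0) k hk) (inv_mem hk)
        obtain ⟨u, hu⟩ := hC _ hκ w w1 (by
          have l1 := n3 w _ (D.L_ρ w)
          have l2 := n3' w _ (D.L_ρ w)
          simp only [SS.tv, e1, e2, e3, e4, zero_smul, add_zero] at l1 l2
          obtain ⟨c, c0, e⟩ := l2.rel l1
          rw [conj_conj, e, mul_smul_comm, smul_mul_assoc, ← conj_conj]
          simpa using (D.L_ρ w).smul c0)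
        have := n3 v _ (hu.conj_self (D.L_ρ v))
        rw [← conj_conj, mul_inv_cancel_left] at this
        exact (n3' v _ (D.L_ρ v)).inj this
    exact hC k hk a a1 (a2 ▸ hm a _ (D.L_ρ a) :)
  let B : Subgroup (Aˣ ⧸ sc F A) :=
    { carrier := Set.range D.ε
      one_mem' := ⟨0, T.zero⟩
      mul_mem' := by rintro _ _ ⟨x, rfl⟩ ⟨y, rfl⟩; exact ⟨_, T.add x y⟩
      inv_mem' := by rintro _ ⟨x, rfl⟩; exact ⟨x, (T.inv x).symm⟩ }
  have hB : B ≤ K.map (pr F) := by rintro _ ⟨x, rfl⟩; exact hε x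
  obtain ⟨b, -, b1, -, b2⟩ : ∃ b, True ∧ D.B b a = 1 ∧ True ∧ Q b = 1 := by
    obtain ⟨c, c1, c2, c3⟩ := h.qf.exists_out ha (.span _ {a}) (.span _ {a}) (mem_span1.2 (.inr rfl))
      (mem_span1.2 (.inr rfl)) (fun s hs => by rcases mem_span1.1 hs with rfl | rfl <;> simp [D.alt])
      (by have := rk1 a; omega)
    have c4 : a ∉ Submodule.span (ZMod 2) {c} := fun e => (mem_span1.1 e).elim (h.qf.ne ha)
      fun e => c2 (mem_span1.2 (.inr e.symm))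
    have c5 := (D.symm _ _).trans (c1 a (mem_span1.2 (.inr rfl)))
    obtain ⟨w, -, w1, -, w2⟩ := h.qf.exists_an c4 c4 (mem_span1.2 (.inr rfl)) c3 (fun s hs => by
      rcases mem_span1.1 hs with rfl | rfl <;> simp [D.alt]) c5 c5 1
    exact ⟨w, trivial, w1, trivial, w2⟩
  have h2 := Subgroup.subgroupOf_eq_top.1 (burn (A := B.subgroupOf (K.map (pr F)))
    (fun ⟨_, _⟩ ⟨x, e⟩ => Subtype.ext (by obtain rfl : D.ε x = _ := e; exact T.sq x))
    (by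
      rw [← Subgroup.subgroupOf_normalizer_eq hB]
      rintro ⟨_, k, hk, rfl⟩ e
      obtain ⟨w, hw⟩ := h1 k hk (mem_NN fun x =>
        ((Subgroup.mem_normalizer_iff.1 e _).1 ⟨x, rfl⟩).imp fun _ => Eq.symm)
      exact ⟨w, (pr_iff.2 hw).symm⟩) (u := ⟨_, hε b⟩) (v := ⟨_, hε a⟩) ⟨b, rfl⟩ ⟨a, rfl⟩ (by
      rintro x hx ⟨_, k, hk, rfl⟩ e
      obtain ⟨y, y1, y2⟩ : ∃ y, Q y = 1 ∧ x.1 = D.ε y := by
        rcases hx with rfl | rfl | rfl
        exacts [⟨b, b2, rfl⟩, ⟨a, ha, rfl⟩, ⟨b + a, by rw [h.qf, b1, b2, ha]; rfl, (T.add _ _).symm⟩]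
      obtain ⟨w, hw⟩ := hC k hk y y1 (conj_iff.1 (by
        rw [← y2]; exact mul_inv_eq_iff_eq_mul.2 (congrArg Subtype.val e)))
      exact ⟨w, (pr_iff.2 hw).symm⟩))
  have h3 : ∀ k ∈ K, ∃ w, D.L w k := fun k hk => (h2 ⟨k, hk, rfl⟩).imp fun _ e => pr_iff.1 e.symm
  refine ⟨h3, fun g hg => mem_Nm fun x => ?_⟩
  obtain ⟨k, hk, e⟩ := hε x
  exact (h3 _ (hn g hg k hk)).imp fun _ e' => (pr_iff.1 e).conj' e' (D.L_ρ x)

end CD

end H12.C6
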