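import Cfsg.Agent.H12.C6k

/-!
# Normalisers of extraspecial groups: centralisers of involutions
-/

set_option autoImplicit false
set_option maxHeartbeats 400000

namespace H12.C6

open Module

variable {F V W W' E : Type*} [Field F] [AddCommGroup V] [Module F V] [AddCommGroup W] [Module F W]
  [AddCommGroup W'] [Module F W'] [AddCommGroup E] [Module (ZMod 2) E] {𝒯 : FormType F}
  {C : CForm 𝒯 V} {a b r : End F V}

variable (C) in
/-- Isometric endomorphisms. -/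
def Iso (a : End F V) : Prop := ∀ u v, C.B (a u) (a v) = C.B u v

theorem Iso.sa (h : Iso C a) (e : a * a = 1) : SA C a := fun u v => by
  rw [← h]; exact congrArg (C.B · _) (LinearMap.congr_fun e u)

theorem Iso.neg (h : Iso C a) : Iso C (-a) := fun u v => by simp [h u v]

theorem Iso.skew (h : Iso C a) (e : a * a = -1) (u v : V) : C.B (a u) v = -C.B u (a v) := by
  rw [← h, ← End.mul_apply, e]; simp

namespace IV

variable (h : IV r W)

theorem res_extM (f : End F W) : h.res (h.extM f) = f := by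
  simp [extM_apply, res_one, res_ext]

theorem extM_cm (f : End F W) : h.extM f * r = r * h.extM f := by
  simp only [extM_apply, add_mul, mul_add, ext_r, r_ext, one_mul, mul_one]

theorem extM_plus (f : End F W) : h.extM f * (1 + r) = 1 + r := by
  simp only [extM_apply, add_mul, mul_add, ext_r, one_mul, mul_one]; abel

theorem extM_res (e : a * (1 + r) = 1 + r) (c : a * r = r * a) : h.extM (h.res a) = a :=
  (h.eq_ext e c).symm

theorem half {α β : End F V} (e : a = (2 : F)⁻¹ • ((1 + α) * (1 + β))) (e1 : α * r = r * α)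
    (e2 : β * r = r * β) :
    a * r = r * a ∧ h.res a = (2 : F)⁻¹ • ((1 + h.res α) * (1 + h.res β)) := by
  have c : (1 + β) * r = r * (1 + β) := Commute.add_left (.one_left _) e2
  rw [e, smul_mul_assoc, mul_smul_comm, map_smul, h.res_mul c, map_add, map_add, h.res_one]
  exact ⟨congrArg _ (Commute.mul_left (Commute.add_left (.one_left _) e1) c), rfl⟩

end IV

/-- The data for extraspecial groups of isometries. -/
structure CF (D : PD F (End F V) E) (X : Subgroup (End F V)ˣ) (Q : E → ZMod 2) (C : CForm 𝒯 V) : Prop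
    extends CD D X Q where
  σ : ∀ a, 𝒯.σ a = a
  nd : C.Nondeg
  iso : ∀ g ∈ X, Iso C g.1

namespace CF

open PD

variable {D : PD F (End F V) E} {X : Subgroup (End F V)ˣ} {Q : E → ZMod 2} (h : CF D X Q C)
  {x s y : E} {g : (End F V)ˣ}
include h

theorem res (hd : D.RD x s r W) (hr : Iso C r) : CD hd.D' (hd.P X) fun y => Q y where
  qf y z := h.qf y z
  sq y := (hd.res_mul (hd.cm y (D.L_ρ _))).symm.trans (by rw [h.sq, map_smul, hd.res_one]; rfl)
  mem y := ⟨_, h.mem y, hd.cm y (D.L_ρ _), rfl⟩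
  neg := ⟨_, h.neg, by simp, by simp [hd.res_one]⟩
  pm k := fun ⟨g, g0, g1, g2⟩ c e => by
    have := hd.D'.nt
    obtain ⟨w, w0⟩ : ∃ w : W, w ≠ 0 := by
      by_contra! hn; exact one_ne_zero (LinearMap.ext fun w => hn _ : (1 : End F W) = 0)
    obtain ⟨u, hu⟩ := (hd.nondeg (hr.sa hd.r2) h.nd).exists_eq w0 1
    have := h.iso g g0 (hd.ι w) (hd.ι u)
    simpa [← hd.res_coe g1, ← g2, e, C.B_smul_left, h.σ, show C.B (hd.ι w) (hd.ι u) = 1 from hu]
      using this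
  T a b _ _ ha hb l₁ l₂ e e' := by
    obtain ⟨α, l, rfl⟩ := hd.L'.1 l₁
    obtain ⟨β, l', rfl⟩ := hd.L'.1 l₂
    obtain ⟨n, n0, n1⟩ := h.T a b α β ha hb l l'
      (by simpa using hd.sq_of_res (c := -1) l (by simpa)) (by simpa using hd.sq_of_res (c := -1) l' (by simpa))
    obtain ⟨c, e⟩ := hd.half n1 (hd.cm a l) (hd.cm b l')
    exact ⟨hd.resU n c, ⟨n, n0, c, rfl⟩, e⟩

variable [Finite E] [Finite (End F V)] (h8 : 8 ≤ finrank (ZMod 2) E)
  (star : ∀ g ∈ X, ∀ x y, Q x = 1 → D.L y (g * D.ρ x * (g⁻¹ : (End F V)ˣ)) → g ∈ D.Nm)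
include h8 star

theorem core' (hd : D.RD x s r W) (hr : Iso C r) (hx : Q x = 0) :
    (∀ k, Units.map hd.extM k ∈ X → ∃ w, hd.D'.L w k.1) ∧ hd.P X ≤ hd.D'.Nm := by
  have : Finite (End F W) := .of_surjective _ fun f => ⟨_, hd.res_ext f⟩
  have := hd.finrank_Ep
  refine (h.res hd hr).core (K := X.comap (Units.map hd.extM)) (by omega)
    (fun k hk => ⟨_, hk, hd.extM_cm _, (hd.res_extM _).symm⟩) (fun _ ⟨g, g0, g1, g2⟩ k hk => ?_)
    (fun y hy => ?_) fun k hk y hy e => ?_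
  · obtain rfl : _ = hd.resU g g1 := Units.ext g2
    exact Subgroup.mem_comap.2 (hd.conj_extM g g1 k ▸ mul_mem (mul_mem g0 hk) (inv_mem g0))
  · have c := hd.cm y (D.L_ρ _)
    have e := h.sq1 hy
    obtain ⟨n, n0, n1, -⟩ := h.exT hy (b := y + x) (by rw [h.qf, hx, hy, (mem_Ep.1 y.2).1]; simp)
      (D.L_ρ y) ((D.L_ρ y).mul hd.L).neg e (by
        rw [neg_mul_neg, mul_assoc, ← mul_assoc r, ← c, mul_assoc, hd.r2, mul_one, e])
    refine Subgroup.mem_comap.2 ((show n = Units.map hd.extM _ from Units.ext ?_) ▸ n0)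
    obtain ⟨c1, c2⟩ := hd.half n1 c (Commute.neg_left (Commute.mul_left c rfl))
    rw [← hd.extM_res (a := n) ?_ c1]
    · refine congrArg hd.extM ?_
      rw [c2, inv_smul_eq_iff₀ D.two, two_smul, map_neg, hd.res_mul rfl, hd.res_r, mul_neg, mul_one,
        neg_neg, add_mul, mul_add, mul_add, ← hd.res_mul c, e, map_neg, hd.res_one]
      simp [RD.D']; abel
    · rw [n1, smul_mul_assoc, inv_smul_eq_iff₀ D.two, two_smul]
      simp only [mul_add, add_mul, neg_mul, mul_neg, ← mul_assoc, e, mul_assoc _ r r, hd.r2, mul_one,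
        one_mul]
      abel
  · have c := hd.extM_cm k
    have c1 : ∀ w : D.Ep x s, (Units.map hd.extM k * D.ρ w * (Units.map hd.extM k)⁻¹.1) * (1 + r) =
        D.ρ w * (1 + r) := fun w => by
      simpa using conj_loc (k := Units.map hd.extM k) (m := 1) (e := 1 + r) (c := D.ρ w)
        (by simpa using hd.extM_plus k) (by simp) (by simp [mul_add, add_mul, hd.cm w (D.L_ρ _)])
    have c2 : ∀ w : D.Ep x s, hd.res (Units.map hd.extM k * D.ρ w * (Units.map hd.extM k)⁻¹.1) =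
        k * hd.D'.ρ w * (k⁻¹).1 := fun w => by
      rw [hd.res_conj _ c (hd.cm w (D.L_ρ _)), show hd.resU (Units.map hd.extM k) c = k from
        Units.ext (hd.res_extM _)]; rfl
    have c3 : ∀ w : D.Ep x s, _ := fun w => conj_comm (g := Units.map hd.extM k) c (hd.cm w (D.L_ρ _))
    obtain ⟨b, hb, e'⟩ := hd.L'.1 e
    have hN := (glue (c := -1) hd.L hd.ne hd.r2 (c3 y) (by
      rw [conj_mul, h.sq1 hy, mul_neg, mul_one, neg_mul, Units.mul_inv, neg_one_smul]) hb (D.L_ρ y)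
      (hd.eq_of_res (c3 y) (hd.cm y hb) ((c2 y).trans e'.symm)) (c1 y) (.inl (xx _))).elim
      (star _ hk _ _ hy) (star _ hk _ _ hy)
    have := hd.D'.nt
    refine L_of_eigen k.ne_zero fun w => ?_
    obtain ⟨z, hz⟩ := Nm.ex hN (D.L_ρ w)
    have h1 := hd.L_res hz (c3 w)
    rw [c2, show hd.π z = w from Subtype.ext (by
      rcases eig1 hd.L.neg hd.ne hz (D.L_ρ w) (by simpa using c1 w) with e | e
      · simp [RD.π, xy0.1 e, mem_Ep.1 w.2]
      · simp [RD.π, show z = w + x from (yxx _ _).symm.trans ((congrArg (· + w.1) e).trans (add_comm _ _)), mem_Ep.1 w.2, D.alt, D.symm x,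
          hd.dual, yxx])] at h1
    obtain ⟨c, -, e⟩ := (hd.D'.L_ρ w).rel h1
    exact ⟨c, by conv_lhs => rw [e]; simp⟩

theorem graph (hd : D.RD x s r W) (hd' : D.RD x s (-r) W') (hr : Iso C r) (hx : Q x = 0) (hg : g ∈ X)
    (c : g * r = r * g) {a b a₁ b₁ a₂ b₂ : D.Ep x s} (ha : Q a = 1) (hb : Q b = 1)
    (l₁ : hd.D'.L a₁ (hd.res (g * D.ρ a * (g⁻¹).1))) (l₂ : hd.D'.L b₁ (hd.res (g * D.ρ b * (g⁻¹).1)))
    (l₃ : hd'.D'.L a₂ (hd'.res (g * D.ρ a * (g⁻¹).1))) (l₄ : hd'.D'.L b₂ (hd'.res (g * D.ρ b * (g⁻¹).1)))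
    (a1 : Q a₂ = 1) (b1 : Q b₂ = 1) (v : D.Ep x s) :
    hd.D'.tv a₁ (hd.D'.tv b₁ v) = hd.D'.tv a₂ (hd.D'.tv b₂ v) := by
  have u1 : ∀ a : D.Ep x s, _ := fun a => conj_comm c (hd.cm a (D.L_ρ _))
  have u3 : ∀ a, Q a = 1 → (g * D.ρ a * (g⁻¹).1 * (g * D.ρ a * (g⁻¹).1) : End F V) = -1 := fun a e => by
    rw [conj_mul, h.sq1 e]; simp
  have u5 : ∀ {a a₂ : D.Ep x s}, Q a = 1 → hd'.D'.L a₂ (hd'.res (g * D.ρ a * (g⁻¹).1)) →
      ∃ α, D.L a₂ α ∧ α * α = -1 ∧ hd'.res α = hd'.res (g * D.ρ a * (g⁻¹).1) := fun {a _} e l =>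
    let ⟨α, l, e'⟩ := hd'.L'.1 l
    ⟨α, l, (hd'.sq_of_res (c := -1) l (by rw [e', ← hd'.res_mul (Commute.neg_right (u1 a)), u3 a e,
      map_neg, hd'.res_one, neg_one_smul])).trans (neg_one_smul _ _), e'⟩
  obtain ⟨α, a2, a3, a4⟩ := u5 ha l₃
  obtain ⟨β, b2, b3, b4⟩ := u5 hb l₄
  obtain ⟨n, n0, n1, -⟩ := h.exT ha hb (D.L_ρ _) (D.L_ρ _) (h.sq1 ha) (h.sq1 hb)
  obtain ⟨n', n0', n1', -⟩ := h.exT a1 b1 a2 b2 a3 b3
  have e1 : (g * n * g⁻¹).1 = (2 : F)⁻¹ • ((1 + g * D.ρ a * (g⁻¹).1) * (1 + g * D.ρ b * (g⁻¹).1)) := by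
    simp only [Units.val_mul, n1, mul_smul_comm, smul_mul_assoc, ← conj_mul]
    simp [mul_add, add_mul]
  have n2 := mul_mem (mul_mem hg n0) (inv_mem hg)
  generalize g * n * g⁻¹ = k at e1 n2
  obtain ⟨c1, c2⟩ := hd.half e1 (u1 a) (u1 b)
  obtain ⟨d1, d2⟩ := hd.half n1' (hd.cm _ a2) (hd.cm _ b2)
  obtain ⟨c3, c4⟩ := hd'.half e1 (Commute.neg_right (u1 a)) (Commute.neg_right (u1 b))
  obtain ⟨d3, d4⟩ := hd'.half n1' (hd'.cm _ a2) (hd'.cm _ b2)
  have c5 : (k * n'⁻¹).1 * r = r * (k * n'⁻¹).1 := Commute.mul_left c1 (Commute.units_inv_left d1)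
  have c6 := hd'.eq_of_res c3 d3 (by rw [c4, d4, a4, b4])
  rw [sub_neg_eq_add] at c6
  have c7 : n' * (1 + r) = (1 + r) * n' := Commute.add_right (.one_right _) d1
  obtain ⟨w, hw⟩ := (h.core' h8 star hd hr hx).1 (hd.resU _ c5) (by
    rw [show Units.map hd.extM (hd.resU _ c5) = k * n'⁻¹ from Units.ext (hd.extM_res (by
      rw [Units.val_mul, mul_assoc, (Commute.units_inv_left c7).eq, ← mul_assoc, c6, conj_of_comm c7])
      c5)]
    exact mul_mem n2 (inv_mem n0'))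
  have sq : ∀ {α : End F V}, α * r = r * α → α * α = -1 → hd.res α * hd.res α = -1 :=
    fun e e' => by rw [← hd.res_mul e, e', map_neg, hd.res_one]
  have l1 := l₁.tv2 (n := hd.resU _ c1) l₂ (sq (u1 a) (u3 a ha)) (sq (u1 b) (u3 b hb)) c2 (hd.D'.L_ρ v)
  have l2 := hw.conj_self ((hd.L'.2 ⟨_, a2, rfl⟩).tv2 (n := hd.resU _ d1) (hd.L'.2 ⟨_, b2, rfl⟩)
    (sq (hd.cm _ a2) a3) (sq (hd.cm _ b2) b3) d2 (hd.D'.L_ρ v))
  rw [← conj_conj, show hd.resU _ c5 * hd.resU _ d1 = hd.resU _ c1 from Units.ext (by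
    simp [← hd.res_mul d1])] at l2
  exact l1.inj l2

theorem sing' (hd : D.RD x s r W) (hd' : D.RD x s (-r) W') (hr : Iso C r) (hx : Q x = 0) (hg : g ∈ X)
    (c : g * r = r * g) : g ∈ D.Nm := by
  have c' : g * -r = -r * g := Commute.neg_right c
  have h1 := h.res hd hr
  have p2 : hd'.resU g c' ∈ hd'.P X := ⟨g, hg, c', rfl⟩
  obtain ⟨m, hm⟩ := Nm.act ((h.core' h8 star hd hr hx).2 (⟨g, hg, c, rfl⟩ : hd.resU g c ∈ hd.P X))
  obtain ⟨m', hm'⟩ := Nm.act ((h.core' h8 star hd' hr.neg hx).2 p2)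
  have d := hd.finrank_Ep
  have u4 : ∀ a : D.Ep x s, hd.D'.L (m a) (hd.res (g * D.ρ a * (g⁻¹).1)) := fun a => by
    rw [hd.res_conj g c (hd.cm a (D.L_ρ _))]; exact hm a _ (hd.D'.L_ρ a)
  have u5 : ∀ a : D.Ep x s, hd'.D'.L (m' a) (hd'.res (g * D.ρ a * (g⁻¹).1)) := fun a => by
    rw [hd'.res_conj g c' (hd'.cm a (D.L_ρ _))]; exact hm' a _ (hd'.D'.L_ρ a)
  have u6 : ∀ a : D.Ep x s, Q (m' a) = Q a := fun a =>
    (h.res hd' hr.neg).conjQ p2 (hm' a _ (hd'.D'.L_ρ a))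
  have inj : Function.Injective m := (injective_iff_map_eq_zero m).2 fun y e => by
    by_contra y0; exact (hd.D'.L_ρ y).ne_conj (hm y _ (hd.D'.L_ρ y)) y0 e
  have inj' : Function.Injective m' := (injective_iff_map_eq_zero m').2 fun y e => by
    by_contra y0; exact (hd'.D'.L_ρ y).ne_conj (hm' y _ (hd'.D'.L_ρ y)) y0 e
  obtain ⟨a, -, ha⟩ := h1.qf.exists_ns (U := ⊥) (.inl (by rw [finrank_bot]; omega))
  obtain ⟨a', e⟩ := Finite.injective_iff_surjective.1 inj (m' a)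
  obtain ⟨b, -, b2, b3⟩ := h1.qf.exists_out ha (.span _ {a}) (.span _ {a, a'}) (mem_span1.2 (.inr rfl))
    (mem_span2.2 (by simp)) (fun s hs => by rcases mem_span1.1 hs with rfl | rfl <;> simp [hd.D'.alt])
    (by have := rk1 a; have := rk2 a a'; omega)
  have a0 := h1.qf.ne ((u6 a).trans ha)
  have := mem_span2.1 (SS.mem_of_tv a0 (fun e => b2 (inj' e ▸ mem_span2.2 (by simp)))
    (h.graph h8 star hd hd' hr hx hg c ha b3 (u4 a) (u4 b) (u5 a) (u5 b) ((u6 a).trans ha)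
      ((u6 b).trans b3)))
  simp only [a0, false_or] at this
  simp only [← e, ← map_add, inj.eq_iff] at this
  obtain rfl : a' = a := this.resolve_right fun e => b2 (mem_span2.2 (by
    rcases e with rfl | rfl <;> simp [xxy]))
  obtain ⟨β, l, e'⟩ := hd.L'.1 (u4 a')
  obtain ⟨α, l', e''⟩ := hd'.L'.1 (u5 a')
  have u1 := conj_comm c (hd.cm a' (D.L_ρ _))
  exact (glue (c := -1) hd.L hd.ne hd.r2 u1 (by rw [conj_mul, h.sq1 ha]; simp) l l'
    (hd.eq_of_res u1 (hd.cm _ l) e'.symm) (by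
      simpa using hd'.eq_of_res (Commute.neg_right u1) (hd'.cm _ l') e''.symm)
    (.inl (by rw [e, xx]))).elim (star g hg _ _ ha) (star g hg _ _ ha)

theorem sing (x0 : x ≠ 0) (hx : Q x = 0) (hg : g ∈ X) (c : (g * D.ρ x : End F V) = D.ρ x * g) :
    g ∈ D.Nm :=
  let ⟨_, ⟨hd⟩⟩ := exists_RD (D.L_ρ x) x0 (h.sq0 hx)
  h.sing' h8 star hd ⟨.std D.two (by simp [h.sq0 hx]), (D.L_ρ x).neg, hd.dual⟩ (h.iso _ (h.mem x)) hx hg c

omit star in
theorem of_loc (loc : ∀ y, Q y = 1 → ∀ g ∈ X, (g * D.ρ y : End F V) = D.ρ y * g →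
    ∀ w, D.B w y = 0 → ∃ z, D.L z (g * D.ρ w * (g⁻¹ : (End F V)ˣ))) : X ≤ D.Nm :=
  have star := fun g hg x y e => h.star (x := x) (y := y) (g := g) (by omega) loc e hg
  h.final (by omega) fun g hg x x0 y e => (z01 (Q x)).elim
    (fun e' => h.of_cent (by omega) x0 (fun _ => h.sing h8 star x0 e') hg e) (star g hg x y · e)

end CF

end H12.C6
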