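import Cfsg.Agent.H12.C6l
import Cfsg.Agent.H11.QuadExt

/-!
# Normalisers of extraspecial groups: centralisers of elements of order four
-/

set_option autoImplicit false
set_option maxHeartbeats 400000

namespace H12.C6

open Module PD H11

variable {F V K W E : Type*} [Field F] [AddCommGroup V] [Module F V] [Field K] [Algebra F K]
  [AddCommGroup W] [Module K W] [AddCommGroup E] [Module (ZMod 2) E] {𝒯 : FormType F}
  {C : CForm 𝒯 V} {a b α : End F V} {I : K} {D : PD F (End F V) E} {X : Subgroup (End F V)ˣ}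
  {Q : E → ZMod 2} {y s z : E}

theorem Iso.mul (h : Iso C a) (h' : Iso C b) : Iso C (a * b) := fun _ _ => (h _ _).trans (h' _ _)

theorem iso_one : Iso C 1 := fun _ _ => rfl

/-- The centraliser of a complex structure acting on a complex space. -/
structure CR (C : CForm 𝒯 V) (α : End F V) (W : Type*) [AddCommGroup W] [Module K W] (I : K) where
  φ : End F V →+ End K W
  smul : ∀ (c : F) a, φ (c • a) = algebraMap F K c • φ a
  mul : ∀ a {b}, b * α = α * b → φ (a * b) = φ a * φ b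
  one : φ 1 = 1
  self : φ α = I • 1
  an : ∀ {a}, a * α = -(α * a) → φ a = 0
  surj : Function.Surjective φ
  II : I * I = -1
  inj : ∀ {g : (End F V)ˣ} {b}, Iso C g.1 → Iso C b → g * α = α * g → b * α = α * b → φ g = φ b → g = b

variable (C X α) in
/-- The group contains the quadratic unipotent isometries commuting with `α`. -/
def Big : Prop := ∀ N, N * N = 0 → N * α = α * N → Iso C (1 + N) → ∃ t ∈ X, (t : End F V) = 1 + N

variable (D) in
/-- The projection of classes. -/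
def PD.π' (hs : D.B s y = 1) (z : E) : D.Ep y s := ⟨z + D.B z s • y + D.B z y • s, mem_Ep.2 (by
  simp [D.alt, hs, D.symm y, zbb])⟩

theorem PD.finrank_Ep [Finite E] (hs : D.B s y = 1) :
    finrank (ZMod 2) (D.Ep y s) + 2 = finrank (ZMod 2) E := by
  have : LinearIndependent (ZMod 2) ![y, s] := LinearIndependent.pair_iff.2 fun a b e => by
    simpa [D.alt, hs, D.symm y] using And.intro (congrArg (D.B s) e) (congrArg (D.B y) e)
  have h1 := finrank_span_eq_card this
  rw [Matrix.range_cons_cons_empty] at h1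
  rw [← D.finrank_perp (Submodule.span (ZMod 2) {y, s})]
  exact congrArg _ h1.symm

namespace CR

variable (h : CR C α W I)

/-- Restriction of a unit. -/
def U (g : (End F V)ˣ) (c : g * α = α * g) : (End K W)ˣ where
  val := h.φ g
  inv := h.φ (g⁻¹ : (End F V)ˣ)
  val_inv := by rw [← h.mul _ (Commute.units_inv_left c), Units.mul_inv, h.one]
  inv_val := by rw [← h.mul _ c, Units.inv_mul, h.one]

@[simp] theorem U_val (g : (End F V)ˣ) (c : g * α = α * g) : (h.U g c : End K W) = h.φ g := rfl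

/-- The restriction of the centraliser. -/
def P (X : Subgroup (End F V)ˣ) : Subgroup (End K W)ˣ where
  carrier := {k | ∃ g ∈ X, g * α = α * g ∧ (k : End K W) = h.φ g}
  one_mem' := ⟨1, one_mem _, by simp, h.one.symm⟩
  mul_mem' := fun ⟨g, g0, g1, g2⟩ ⟨k, k0, k1, k2⟩ => ⟨g * k, mul_mem g0 k0, Commute.mul_left g1 k1, by
    simp [g2, k2, h.mul _ k1]⟩
  inv_mem' := fun {k} ⟨g, g0, g1, g2⟩ => ⟨g⁻¹, inv_mem g0, Commute.units_inv_left g1, by
    rw [show k = h.U g g1 from Units.ext g2]; rfl⟩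

include h in
theorem I_ne : I ≠ 0 := by rintro rfl; simpa using h.II

variable (hα : D.L y α) (hs : D.B s y = 1)
include hα hs

theorem φ_π (hb : D.L z b) (e : D.B z y = 0) :
    ∃ c : K, c ≠ 0 ∧ h.φ b = c • h.φ (D.ρ (D.π' hs z)) := by
  rcases z01 (D.B z s) with e' | e'
  · obtain ⟨c, c0, rfl⟩ := hb
    exact ⟨algebraMap F K c, (map_ne_zero _).2 c0, by simp [h.smul, π', e, e']⟩
  · obtain ⟨c, c0, rfl⟩ := hb.rel (b := D.ρ (z + y) * α) (by simpa [yxx] using (D.L_ρ (z + y)).mul hα)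
    exact ⟨algebraMap F K c * I, mul_ne_zero ((map_ne_zero _).2 c0) h.I_ne, by
      simp [h.smul, h.mul _ rfl, h.self, π', e, e', mul_smul]⟩

/-- The restricted Pauli data. -/
noncomputable def D₀ : PD K (End K W) (D.Ep y s) where
  B := D.B.domRestrict₁₂ _ _
  alt x := D.alt x
  nd x hx := Subtype.ext (D.nd _ fun z => by
    simpa [π', mem_Ep.1 x.2] using show D.B x (D.π' hs z) = 0 from hx (D.π' hs z))
  ρ x := h.U (D.ρ x) ((D.L_ρ x).cm hα (mem_Ep.1 x.2).1)
  mul x z := let ⟨c, e⟩ := D.mul x z; ⟨algebraMap F K c, by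
    simpa [h.mul _ ((D.L_ρ _).cm hα (mem_Ep.1 z.2).1), h.smul] using congrArg h.φ e⟩
  cm x z e := by
    simpa [h.mul _ ((D.L_ρ _).cm hα (mem_Ep.1 (Subtype.prop _)).1)] using congrArg h.φ (D.cm x z e)
  an x z e := by
    simpa [h.mul _ ((D.L_ρ _).cm hα (mem_Ep.1 (Subtype.prop _)).1)] using congrArg h.φ (D.an x z e)
  span := by
    refine eq_top_iff.2 fun f _ => ?_
    obtain ⟨a, rfl⟩ := h.surj f
    refine Submodule.span_induction ?_ (by simp) (fun _ _ _ _ a b => map_add h.φ _ _ ▸ add_mem a b)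
      (fun _ _ _ a => h.smul _ _ ▸ Submodule.smul_mem _ _ a) (D.span.ge (Submodule.mem_top (x := a)))
    rintro _ ⟨z, rfl⟩
    rcases z01 (D.B z y) with e | e
    · obtain ⟨c, -, e'⟩ := h.φ_π hα hs (D.L_ρ z) e
      exact e' ▸ Submodule.smul_mem _ _ (Submodule.subset_span ⟨_, rfl⟩)
    · simp [h.an ((D.L_ρ z).an hα e)]
  two := map_ofNat (algebraMap F K) 2 ▸ (map_ne_zero _).2 D.two
  nt := by
    by_contra hn
    rw [not_nontrivial_iff_subsingleton] at hn
    exact (L_one (D := D)).ne (D.two_smul_eq (h.inj (g := 1) iso_one iso_one.neg (by simp) (by simp)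
      (Subsingleton.elim _ _)))

end CR

namespace CF

variable (h : CF D X Q C) (R : CR C (D.ρ y).1 W I) (hy : Q y = 1) (hs : D.B s y = 1)
include h hy

theorem exb (w : D.Ep y s) (q : ZMod 2) : ∃ b ∈ X, (∃ z, D.L z b.1 ∧ Q z = q) ∧
    b * (D.ρ y).1 = (D.ρ y).1 * b ∧ (R.D₀ (D.L_ρ y) hs).L w (R.φ b) := by
  have e := mem_Ep.1 w.2
  have c := (D.L_ρ w.1).cm (D.L_ρ y) e.1
  by_cases e' : Q w = q
  · exact ⟨_, h.mem w, ⟨_, D.L_ρ _, e'⟩, c, (R.D₀ _ hs).L_ρ w⟩
  refine ⟨_, mul_mem (h.mem w) (h.mem y), ⟨_, (D.L_ρ _).mul (D.L_ρ _), ?_⟩, Commute.mul_left c rfl,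
    I, R.I_ne, by simp [R.mul _ rfl, R.self]; rfl⟩
  rw [h.qf, hy, e.1]; revert e'; generalize Q w = t; decide +revert

variable [Finite E] [Fintype K]

theorem dich (H : ∀ ρ hρ, AB ((R.D₀ (D.L_ρ y) hs).re ρ hρ) (R.P X ⊔ sc K _) I → (∀ w, ρ w ∈ R.P X) →
    R.P X ⊔ sc K _ ≤ ((R.D₀ (D.L_ρ y) hs).re ρ hρ).Nm ∨ ∀ N, N * N = 0 → N * (D.ρ y).1 = D.ρ y * N →
      Iso C (1 + N) → ∃ t ∈ R.P X ⊔ sc K _, (t : End K W) = 1 + R.φ N) :
    (∀ g ∈ X, (g * D.ρ y : End F V) = D.ρ y * g → ∀ w, D.B w y = 0 →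
      ∃ z, D.L z (g * D.ρ w * (g⁻¹ : (End F V)ˣ))) ∨ Big C (D.ρ y).1 X := by
  choose τ t0 t1 t2 t3 using fun w => h.exb R hy hs w 0
  have sq : ∀ {b : (End F V)ˣ} {z}, b ∈ X → D.L z b.1 → b * (D.ρ y).1 = (D.ρ y).1 * b →
      R.φ b * R.φ b = algebraMap F K (D.sg (Q z)) • 1 := fun hb l c => by
    rw [← R.mul _ c, h.Lsq hb l, R.smul, R.one]
  have I1 : 1 + I ≠ 0 := fun e => (R.D₀ (D.L_ρ y) hs).two (by linear_combination (1 - I) * e + R.II)
  refine (H (fun w => R.U _ (t2 w)) t3 ⟨R.II, fun w => ?_, fun g w ⟨c, c0, e⟩ => mem_sup_sc.2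
    ⟨_, ⟨_, t0 w, t2 w, rfl⟩, c, c0, e⟩, fun w β e l => ?_⟩ fun w => ⟨_, t0 w, t2 w, rfl⟩).imp
    (fun H g hg c w hw => ?_) fun H N N2 c hN => ?_
  · obtain ⟨z, l, e⟩ := t1 w
    exact (sq (t0 w) l (t2 w)).trans (by simp [e, sg])
  · obtain ⟨b, b0, ⟨z, b1, b2⟩, b3, b4⟩ := h.exb R hy hs w 1
    obtain ⟨b, b0, b1, b3, rfl⟩ : ∃ b ∈ X, D.L z b.1 ∧ b * (D.ρ y).1 = (D.ρ y).1 * b ∧ β = R.φ b := by
      rcases ((L_re _ _).1 l).pm b4 (by simpa [e, b2, sg] using (sq b0 b1 b3).symm) with e | e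
      exacts [⟨b, b0, b1, b3, e⟩, ⟨-1 * b, mul_mem h.neg b0, by simpa using b1.neg, by simp [b3],
        by simp [e]⟩]
    obtain ⟨n, n0, n1, -⟩ := h.exT b2 hy b1 (D.L_ρ y) (by simpa [b2, sg] using h.Lsq b0 b1) (h.sq1 hy)
    have c : (1 + D.ρ y) * (D.ρ y).1 = (D.ρ y).1 * (1 + D.ρ y) := Commute.add_left (.one_left _) rfl
    have c' : n * (D.ρ y).1 = (D.ρ y).1 * n := by
      rw [n1, smul_mul_assoc, mul_smul_comm]
      exact congrArg _ (Commute.mul_left (Commute.add_left (.one_left _) b3) c)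
    refine mem_sup_sc.2 ⟨R.U n c', ⟨n, n0, c', rfl⟩, 2 / (1 + I),
      div_ne_zero (R.D₀ (D.L_ρ y) hs).two I1, ?_⟩
    change 1 + R.φ b = _ • R.φ n
    rw [n1, R.smul, R.mul _ c, map_add, map_add, R.one, R.self, show 1 + I • (1 : End K W) = (1 + I) • 1 by
      module, mul_smul_comm, mul_one, smul_smul, smul_smul, map_inv₀, map_ofNat]
    have := (R.D₀ (D.L_ρ y) hs).two
    rw [show 2 / (1 + I) * 2⁻¹ * (1 + I) = 1 by field_simp, one_smul]
  · have c1 := (D.L_ρ w).cm (D.L_ρ y) hw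
    obtain ⟨z, hz⟩ := Nm.ex (H (Subgroup.mem_sup_left (⟨g, hg, c, rfl⟩ : R.U g c ∈ R.P X)))
      ((L_re _ _).2 (R.φ_π (D.L_ρ y) hs (D.L_ρ w) hw))
    have c2 : (g * D.ρ w * g⁻¹).1 * (D.ρ y).1 = (D.ρ y).1 * (g * D.ρ w * g⁻¹).1 := conj_comm c c1
    have e : R.U g c * R.φ (D.ρ w) * (R.U g c)⁻¹.1 = R.φ (g * D.ρ w * g⁻¹).1 := by
      rw [Units.val_mul, Units.val_mul, R.mul _ (Commute.units_inv_left c), R.mul _ c1]; rfl
    obtain ⟨b, b0, ⟨z', b1, b2⟩, b3, b4⟩ := h.exb R hy hs z (Q w)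
    have i := h.iso _ (mul_mem (mul_mem hg (h.mem w)) (inv_mem hg))
    rcases (e ▸ (L_re _ _).1 hz).pm b4 (by
      rw [sq b0 b1 b3, ← R.mul _ c2, Units.val_mul, Units.val_mul, conj_mul, h.sq, b2]
      simp [R.smul, R.one]) with e | e
    · exact ⟨z', (R.inj i (h.iso _ b0) c2 b3 e ▸ b1 : D.L z' (g * D.ρ w * g⁻¹).1)⟩
    · exact ⟨z', (R.inj i (h.iso _ b0).neg c2 (by simp [b3]) (e.trans (map_neg _ _).symm) ▸ b1.neg :
        D.L z' (g * D.ρ w * g⁻¹).1)⟩
  · obtain ⟨t, ⟨g, g0, g1, g2⟩, e⟩ := nil_of_sup (by rw [← R.mul _ c, N2, map_zero]) (H N N2 c hN)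
    exact ⟨g, g0, R.inj (h.iso _ g0) hN g1 (Commute.add_left (.one_left _) c) (by
      rw [← g2, e, map_add, R.one])⟩

end CF

theorem det_nil [FiniteDimensional K W] (p : ℕ) [hp : Fact p.Prime] [CharP K p] {N : End K W}
    (h : N * N = 0) : ∃ t : (End K W)ˣ, t.1 = 1 + N ∧ eqv t ∈ SLV K W := by
  refine ⟨⟨1 + N, 1 - N, by simp [add_mul, mul_sub, h], by simp [mul_add, sub_mul, h]⟩, rfl,
    mem_SLV.2 (frobenius_inj K p ?_)⟩
  change LinearMap.det (1 + N) ^ p = _
  rw [← map_pow, pow_nil (F := K) h]; simp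

/-- The split case. -/
def CR.ofIV {I : F} (II : I * I = -1) (hσ : ∀ a, 𝒯.σ a = a) (hC : C.Nondeg) (hα : Iso C α)
    (α2 : α * α = -1) {W : Type*} [AddCommGroup W] [Module F W] (h : IV (I • α) W) : CR C α W I where
  φ := h.res.toAddMonoidHom
  smul c a := h.res.map_smul c a
  mul a b c := h.res_mul (by simp [c])
  one := h.res_one
  self := by
    have := congrArg (I • ·) h.res_r
    simp only [map_smul, smul_smul, II, neg_smul, one_smul, smul_neg, neg_inj] at this
    exact this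
  an c := h.res_an (by simp [c])
  surj f := ⟨_, h.res_ext f⟩
  II := II
  inj {g b} i i' c c' e := by
    have c1 : g * I • α = I • α * g := by simp [c]
    have c2 : b * I • α = I • α * b := by simp [c']
    have e := h.eq_of_res c1 c2 e
    have s : ∀ u v, C.B ((I • α) u) v = -C.B u ((I • α) v) := fun u v => by
      simp [C.B_smul_left, hσ, hα.skew α2]
    generalize I • α = r at *
    have e1 := fun v => congr($e v)
    have c3 := fun v => congr($c1 v)
    have c4 := fun v => congr($c2 v)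
    simp only [End.mul_apply, LinearMap.sub_apply, End.one_apply] at e1 c3 c4
    have e2 : ∀ v, g.1 (v + r v) = b (v + r v) := fun v => hC.ext' fun u => by
      obtain ⟨u, rfl⟩ : ∃ w, g.1 w = u := ⟨_, uinv' g u⟩
      have h1 := (i (u - r u) (v + r v)).trans ((i' _ _).symm.trans (congrArg (C.B · _) (e1 u).symm))
      simp only [map_sub, map_add, c3, c4, LinearMap.sub_apply, s, h.rr] at h1 ⊢
      exact mul_left_cancel₀ h.two (by linear_combination h1)
    ext v
    refine smul_right_injective V h.two ?_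
    have := e2 v
    have := e1 v
    simp only [map_sub, map_add, two_smul] at *
    linear_combination (norm := abel) this + e2 v

open QuadraticAlgebra

/-- A space with a complex structure. -/
def Cx {α : End F V} (_ : α * α = -1) : Type _ := V

namespace Cx

variable [Fact (∀ r : F, r ^ 2 ≠ -1 + 0 * r)] (α2 : α * α = -1)

instance : AddCommGroup (Cx α2) := inferInstanceAs (AddCommGroup V)

noncomputable instance : Module (QuadraticAlgebra F (-1) 0) (Cx α2) :=
  Module.compHom V (lift ⟨α, by simp [α2]⟩ : QuadraticAlgebra F (-1) 0 →ₐ[F] End F V).toRingHom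

/-- The underlying vector. -/
def e : Cx α2 ≃+ V := .refl V

theorem e_smul (z : QuadraticAlgebra F (-1) 0) (v : Cx α2) :
    e α2 (z • v) = z.re • e α2 v + z.im • α (e α2 v) := rfl

include α2 in
omit [Fact (∀ r : F, r ^ 2 ≠ -1 + 0 * r)] in
theorem αα (v : V) : α (α v) = -v := congr($α2 v)

/-- The complex structure in the non-split case. -/
noncomputable def cr (h2 : (2 : F) ≠ 0) (C : CForm 𝒯 V) : CR C α (Cx α2) (ω : QuadraticAlgebra F (-1) 0) where
  φ :=
    { toFun a :=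
        { toFun v := (e α2).symm ((2 : F)⁻¹ • (a (e α2 v) - α (a (α (e α2 v)))))
          map_add' u v := (e α2).injective (by simp; module)
          map_smul' z v := (e α2).injective (by simp [e_smul, αα α2]; module) }
      map_zero' := by ext; simp
      map_add' a b := by ext v; exact (e α2).injective (by simp; module) }
  smul c a := by ext v; exact (e α2).injective (by simp [e_smul]; module)
  mul a b c := by
    ext v
    have := fun v => congr($c v)
    simp only [End.mul_apply] at this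
    exact (e α2).injective (by simp [this, αα α2]; match_scalars <;> field_simp <;> ring)
  one := by ext v; exact (e α2).injective (by simp [αα α2]; match_scalars; field_simp; ring)
  self := by ext v; exact (e α2).injective (by simp [αα α2, e_smul]; match_scalars; field_simp; ring)
  an c := by
    ext v
    have := congr($c (e α2 v))
    exact (e α2).injective (by simp at this; simp [this, αα α2])
  surj f := by
    have : ∀ v, e α2 (f ((e α2).symm (α v))) = α (e α2 (f ((e α2).symm v))) := fun v => by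
      simpa [e_smul] using congrArg (e α2) ((congrArg f ((e α2).injective (by
        simp [e_smul]))).trans (f.map_smul ω ((e α2).symm v)))
    refine ⟨⟨⟨fun v => e α2 (f ((e α2).symm v)), by simp⟩, fun c v => ?_⟩, ?_⟩
    · simpa [e_smul] using congrArg (e α2) ((congrArg f ((e α2).injective (by
        simp [e_smul]))).trans (f.map_smul (algebraMap F _ c) ((e α2).symm v)))
    · ext v; exact (e α2).injective (by simp [this, αα α2]; match_scalars; field_simp; ring)
  II := by ext <;> simp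
  inj {g b} _ _ c c' h := by
    ext v
    have := congrArg (e α2) congr($h ((e α2).symm v))
    have c := congr($c v)
    have c' := congr($c' v)
    simp only [End.mul_apply] at c c'
    simpa [c, c', αα α2, h2, ← two_smul F] using this

theorem cr_apply (h2 : (2 : F) ≠ 0) (c : a * α = α * a) (v : Cx α2) :
    e α2 ((cr α2 h2 C).φ a v) = a (e α2 v) := by
  have c := congr($c (e α2 v))
  simp only [End.mul_apply] at c
  simp [cr, c, αα α2]; match_scalars; field_simp; ring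

theorem exists_herm [Fintype F] (γ : V →ₗ[F] V →ₗ[F] F) (h1 : ∀ u v, γ u v = γ v u)
    (h2 : ∀ u v, γ (α u) v = -γ u (α v)) : ∃ C' : CForm (hermT (card_quadAlg (-1 : F) 0)) (Cx α2),
      ∀ u v, C'.B u v = ⟨γ (e α2 u) (e α2 v), -γ (e α2 u) (α (e α2 v))⟩ := by
  have f : ∀ z, frob (card_quadAlg (-1 : F) 0) z = star z := quadAlg_pow_card
  refine ⟨.ofHerm _ (frob_ne_id _) _ (LinearMap.mk₂'ₛₗ _ _
    (fun u v => ⟨γ (e α2 u) (e α2 v), -γ (e α2 u) (α (e α2 v))⟩) (fun _ _ _ => ?_) (fun _ _ _ => ?_)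
    (fun _ _ _ => ?_) (fun _ _ _ => ?_)) ⟨fun u v => ?_⟩, fun _ _ => rfl⟩
  · ext <;> simp [add_comm]
  · ext <;> simp [-frob_apply, f, e_smul, h2, αα α2] <;> ring
  · ext <;> simp [add_comm]
  · ext <;> simp [e_smul, αα α2] <;> ring
  · ext <;> simp [-frob_apply, f, h1 (e α2 u), h2]

end Cx

theorem Big.conj (h : Big C α X) (hX : ∀ g ∈ X, Iso C g.1) {n : (End F V)ˣ} (hn : n ∈ X) :
    Big C (n * α * (n⁻¹).1) X := fun N N2 c hN => by
  obtain ⟨t, t0, t1⟩ := h ((n⁻¹).1 * N * n) (by simpa [N2] using conj_mul n⁻¹ N N)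
    (by simpa [mul_assoc] using congrArg ((n⁻¹).1 * · * n) c) (by
      simpa [mul_add, add_mul] using ((hX _ (inv_mem hn)).mul hN).mul (hX _ hn))
  exact ⟨_, mul_mem (mul_mem hn t0) (inv_mem hn), by simp [t1, mul_add, add_mul, mul_assoc]⟩

namespace CF

variable (h : CF D X Q C) [Finite E] [Fintype F] [FiniteDimensional F V] {k : ℕ}
  (h8 : finrank (ZMod 2) E = 2 * k + 8) (hp : (Fintype.card F).Prime) (hε : 𝒯.ε = 1 ∨ 𝒯.ε = -1)
include h h8 hp hε

theorem dich' (hy : Q y = 1) : (∀ g ∈ X, (g * D.ρ y : End F V) = D.ρ y * g → ∀ w, D.B w y = 0 →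
    ∃ z, D.L z (g * D.ρ w * (g⁻¹ : (End F V)ˣ))) ∨ Big C (D.ρ y).1 X := by
  have := Fact.mk hp
  have := charP_of_card_eq_prime (R := F) rfl
  obtain ⟨s, hs⟩ := D.sep0 (h.qf.ne hy)
  have d := D.finrank_Ep hs
  have α2 := h.sq1 hy
  have hα := h.iso _ (h.mem y)
  by_cases hI : ∃ I : F, I * I = -1
  · obtain ⟨I, II⟩ := hI
    refine h.dich (.ofIV II h.σ h.nd hα α2 (.std D.two (by simp [smul_smul, II, α2]))) hy hs
      fun ρ hρ hA _ => (hA.thmA (Fintype.card F) (fun a => nat_of_pow _ (FiniteField.pow_card a))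
        (k := k + 1) (by omega)).imp_right fun H N N2 c _ => ?_
    exact (det_nil _ (by rw [← CR.mul _ _ c, N2, map_zero])).imp fun t e => ⟨mem_eqG.1 (H e.2), e.1⟩
  have : Fact (∀ r : F, r ^ 2 ≠ -1 + 0 * r) := ⟨fun r e => hI ⟨r, by simpa [sq] using e⟩⟩
  obtain ⟨δ, d1, d2, d3⟩ : ∃ δ : (End F V)ˣ, δ * (D.ρ y).1 = (D.ρ y).1 * δ ∧
      (∀ u v, C.B u (δ.1 v) = C.B v (δ.1 u)) ∧ ∀ a, a * (D.ρ y).1 = (D.ρ y).1 * a → a * δ = δ * a := by
    rcases hε with e | e
    · exact ⟨1, by simp, fun u v => by simp [C.symm v u, e, h.σ], by simp⟩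
    · exact ⟨D.ρ y, rfl, fun u v => by simp [C.symm _ v, e, h.σ, hα.skew α2], fun _ e => e⟩
  obtain ⟨C', hC⟩ := Cx.exists_herm α2 (LinearMap.mk₂ F (fun u v => C.B u (δ.1 v)) (by simp)
    (by simp [C.B_smul_left, h.σ]) (by simp) (by simp)) d2 fun u v => by
      simp [hα.skew α2, ← End.mul_apply, d1]
  have i : ∀ a, a * (D.ρ y).1 = (D.ρ y).1 * a → Iso C a → Iso C' ((Cx.cr α2 D.two C).φ a) :=
    fun a c i u v => by
      have c1 := fun v => congr($c v)
      have c2 := fun v => congr($(d3 a c) v)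
      simp only [End.mul_apply] at c1 c2
      simp [hC, Cx.cr_apply _ _ c, ← c1, ← c2, i _ _]
  have nd : C'.Nondeg := fun u e => (Cx.e α2).injective ((h.nd _ fun v => by
    simpa [hC, uinv'] using congrArg QuadraticAlgebra.re (e ((Cx.e α2).symm ((δ⁻¹).1 v)))).trans
      (map_zero _).symm)
  have : Finite V := Module.finite_of_finite F
  have : Finite (Cx α2) := ‹Finite V›
  have := charP_of_injective_algebraMap (algebraMap F (QuadraticAlgebra F (-1) 0)).injective
    (Fintype.card F)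
  have hσ := frob_ne_id (card_quadAlg (-1 : F) 0)
  refine h.dich (Cx.cr α2 D.two C) hy hs fun ρ hρ hA h1 => (indB (C := C') (k + 2) ⟨hA, nd, fun w => ?_,
    fun g hg => ?_⟩ (by omega)).imp_right fun H N N2 c hN => ?_
  · obtain ⟨g, g0, g1, g2⟩ := h1 w
    exact (g2 ▸ i _ g1 (h.iso g g0) : Iso C' (ρ w).1).sa (hA.sq w)
  · obtain ⟨_, ⟨g, g0, g1, g2⟩, c, -, e⟩ := mem_sup_sc.1 hg
    exact ⟨c * frob (card_quadAlg (-1 : F) 0) c, fun u v => by
      simp only [e, LinearMap.smul_apply, herm_B_smul_left, map_smul, smul_eq_mul, mul_assoc, g2,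
        i _ g1 (h.iso g g0) _ _]⟩
  obtain ⟨t, t1, t2⟩ := det_nil (Fintype.card F) (show (Cx.cr α2 D.two C).φ N * (Cx.cr α2 D.two C).φ N = 0 by
    rw [← CR.mul _ _ c, N2, map_zero])
  have t3 : Iso C' t.1 := by
    rw [t1, ← (Cx.cr α2 D.two C).one, ← map_add]; exact i _ (Commute.add_left (.one_left _) c) hN
  refine ⟨t, mem_eqG.1 (subG_le_herm hσ (exists_norm_of_finite (frob_frob _) hσ) nd
    (C'.nondegOn_top.2 nd) (.inl fun e => ?_) (fun v _ e _ hc => (H.1 v e).2 _ hc)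
    ((nd.subG_top inf_le_left).ge ⟨⟨t3, fun a => ?_⟩, t2⟩)), t1⟩
  · have := ((Cx.cr α2 D.two C).D₀ (D.L_ρ y) hs).finrank_sq
    rw [← finrank_top, e, show finrank (ZMod 2) (D.Ep y s) = 2 * k + 5 + 1 by omega, pow_succ] at this
    omega
  · rw [← herm_B_self, ← herm_B_self]; exact t3 a a

theorem dich_big : X ≤ D.Nm ∨ ∀ y, Q y = 1 → Big C (D.ρ y).1 X := by
  have : Finite (End F V) := Module.finite_of_finite F
  by_cases H : ∃ y, Q y = 1 ∧ Big C (D.ρ y).1 X
  · obtain ⟨y, hy, H⟩ := H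
    refine .inr fun z hz => ?_
    obtain ⟨n, n0, -, n1⟩ := h.move0 (by omega) (h.qf.ne hy) (h.qf.ne hz) (hy.trans hz.symm)
    have := H.conj h.iso n0
    rcases (n1 _ (D.L_ρ y)).pm (D.L_ρ z) (by rw [conj_mul, h.sq1 hy, h.sq1 hz]; simp) with e | e
    · exact e ▸ this
    · exact fun N N2 c => this N N2 (by simp [e, c])
  · exact .inl (h.of_loc (by omega) fun y hy => (h.dich' h8 hp hε hy).resolve_right fun e => H ⟨y, hy, e⟩)

end CF

end H12.C6
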