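import Cfsg.Agent.H12.C6m
import Cfsg.Agent.H12.USp
import Cfsg.Agent.H12.EnlargeQ

/-!
# Normalisers of extraspecial groups: maximality in the symplectic and orthogonal groups
-/

set_option autoImplicit false
set_option maxHeartbeats 400000

namespace H12.C6

open Module PD H11 Cfsg Cfsg.Geo QuadraticMap

section

variable {F V E : Type*} [Field F] [AddCommGroup V] [Module F V] [AddCommGroup E] [Module (ZMod 2) E]
  {𝒯 : FormType F} {C : CForm 𝒯 V} {a α β n : End F V} {D : PD F (End F V) E}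
  {X R G : Subgroup (End F V)ˣ} {Q : E → ZMod 2} {y : E}

theorem q8_prim {S S' : Submodule F V} (hd : Disjoint S S') (h2 : (2 : F) ≠ 0) (α2 : α * α = -1)
    (β2 : β * β = -1) (an : α * β = -(β * α)) (e : n = (2 : F)⁻¹ • ((1 + α) * (1 + β)))
    (hα : ∀ s ∈ S, α s ∈ S') (H : ∀ a ∈ ({β, α * β, n} : Set (End F V)),
      (∀ s ∈ S, a s ∈ S) ∨ ∀ s ∈ S, a s ∈ S') : S = ⊥ := by
  refine S.eq_bot_iff.2 fun s hs => smul_right_injective V h2 ?_
  have a1 : ∀ v, α (α v) = -v := fun v => congr($α2 v)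
  have b1 : ∀ v, β (β v) = -v := fun v => congr($β2 v)
  have c1 : ∀ v, β (α v) = -α (β v) := fun v => by simpa [neg_eq_iff_eq_neg] using congr(-$an v).symm
  have k : ∀ u ∈ S, ∀ u' ∈ S', u + u' = s + α s + β s + α (β s) → u = 0 ∨ u' = 0 := fun u hu u' hu' e' => by
    have e1 : (2 : F) • n s = u + u' := by simp [e, e', h2]; abel
    rcases H n (by simp) with h | h
    · exact .inr (Submodule.disjoint_def.1 hd _ ((S.add_mem_iff_right hu).1 (e1 ▸ S.smul_mem _ (h s hs))) hu')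
    · exact .inl (Submodule.disjoint_def.1 hd _ hu ((S'.add_mem_iff_left hu').1 (e1 ▸ S'.smul_mem _ (h s hs))))
  simp only [two_smul, add_zero]
  rcases H β (by simp) with h | h
  · have e1 : s + β s = 0 := (k _ (add_mem hs (h s hs)) _ (hα _ (add_mem hs (h s hs))) (by
      simp; abel)).elim id fun e => by simpa [a1, add_comm] using congrArg (-α ·) e
    have := congrArg β e1
    simp only [map_add, b1, map_zero] at this
    linear_combination (norm := abel) e1 - this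
  rcases H (α * β) (by simp) with h' | h'
  · rcases k _ (add_mem hs (h' s hs)) _ (add_mem (hα s hs) (h s hs)) (by simp; abel) with e | e
    · have := congrArg (fun v => α (β v)) e
      simp only [End.mul_apply, map_add, c1, b1, a1, map_neg, map_zero, neg_neg] at this e
      linear_combination (norm := abel) e - this
    · have := congrArg β e
      have := congrArg α e
      simp only [map_add, c1, b1, a1, map_zero] at *
      linear_combination (norm := abel) - ‹-α (β s) + -s = 0› - this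
  rcases k _ hs _ (add_mem (add_mem (hα s hs) (h s hs)) (h' s hs)) (by simp; abel) with e | e
  · simp [e]
  · have := congrArg α e
    simp only [End.mul_apply, map_add, a1, map_zero] at this
    rw [Submodule.disjoint_def.1 hd s hs (by
      convert sub_mem (h' s hs) (h s hs) using 1; exact (by linear_combination (norm := abel) -this :
        s = α (β s) - β s)), add_zero]

theorem Iso.pm (hσ : ∀ a, 𝒯.σ a = a) (hC : C.Nondeg) (D : PD F (End F V) E) {c : F} (h : Iso C a)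
    (h' : Iso C (c • a)) : c * c = 1 := by
  obtain ⟨w, w0⟩ : ∃ w : V, w ≠ 0 := by
    by_contra! hn; exact (L_one (D := D)).ne (LinearMap.ext fun w => hn _)
  obtain ⟨u, hu⟩ := hC.exists_eq w0 1
  simpa [C.B_smul_left, hσ, h w u, hu] using h' w u

theorem Iso.half (hσ : ∀ a, 𝒯.σ a = a) (h2 : (2 : F) ≠ 0) (h : Iso C α) (h' : Iso C β) (e : α * α = -1)
    (e' : β * β = -1) : Iso C ((2 : F)⁻¹ • ((1 + α) * (1 + β))) := fun u v => by
  have k : ∀ {α : End F V}, Iso C α → α * α = -1 → ∀ u v, C.B ((1 + α) u) ((1 + α) v) = 2 * C.B u v :=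
    fun h e u v => by simp [h u v, h.skew e u v]; ring
  simp only [LinearMap.smul_apply, C.B_smul_left, map_smul, End.mul_apply, k h e, k h' e', hσ,
    smul_eq_mul]
  field_simp

theorem CF.skew_mem (h : CF D X Q C) (ha : ∀ u v, C.B (a u) v = -C.B u (a v)) :
    a ∈ Submodule.span F ((fun x => (D.ρ x).1) '' {x | Q x = 1}) := by
  obtain ⟨t, t1, t2, t3⟩ : ∃ t ∈ Submodule.span F ((fun x => (D.ρ x).1) '' {x | Q x = 1}),
      (∀ u v, C.B (t u) v = -C.B u (t v)) ∧ SA C (a - t) := by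
    clear ha
    refine Submodule.span_induction ?_ ⟨0, zero_mem _, by simp, fun u v => by simp⟩
      (fun _ _ _ _ ⟨t, t1, t2, t3⟩ ⟨r, r1, r2, r3⟩ => ⟨t + r, add_mem t1 r1, fun u v => by
        simp [t2, r2]; ring, fun u v => by
          have := t3 u v; have := r3 u v; simp at *; grind⟩)
      (fun c _ _ ⟨t, t1, t2, t3⟩ => ⟨c • t, Submodule.smul_mem _ c t1, fun u v => by
        simp [C.B_smul_left, h.σ, t2], fun u v => by
          rw [← smul_sub]; simp only [LinearMap.smul_apply, C.B_smul_left, h.σ, t3 u v, map_smul]; rfl⟩)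
      (D.span.ge (Submodule.mem_top (x := a)))
    rintro _ ⟨x, rfl⟩
    rcases z01 (Q x) with e | e
    · exact ⟨0, zero_mem _, by simp, by simpa using (h.iso _ (h.mem x)).sa (h.sq0 e)⟩
    · exact ⟨_, Submodule.subset_span ⟨x, e, rfl⟩, (h.iso _ (h.mem x)).skew (h.sq1 e),
        fun u v => by simp⟩
  convert t1 using 1
  ext u
  refine h.nd.ext fun v => mul_left_cancel₀ D.two ?_
  have := t3 u v
  simp only [LinearMap.sub_apply, map_sub, ha, t2] at this ⊢
  linear_combination this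

variable [Finite E] [Fintype F] [FiniteDimensional F V] {k : ℕ}

theorem maxCD (hσ : ∀ a, 𝒯.σ a = a) (hC : C.Nondeg) (hε : 𝒯.ε = 1 ∨ 𝒯.ε = -1)
    (h8 : finrank (ZMod 2) E = 2 * k + 8) (hp : (Fintype.card F).Prime) (h1 : ∀ x, D.ρ x ∈ R)
    (h2 : ∀ g ∈ R, ∃ x, D.L x g.1) (h3 : -1 ∈ R) (hR : ∀ g ∈ R, Iso C g.1) (hG : ∀ g ∈ G, Iso C g.1)
    (hsq : ∀ g : (End F V)ˣ, Iso C g.1 → g * g ∈ G)
    (hN : ∀ x s r, D.RD x s r (LinearMap.ker (r + 1)) → SA C r → D.Nil G)
    (hB : ∀ H Q, CF D H Q C → H ≤ G → (∀ y α, Q y = 1 → D.L y α → α * α = -1 → Big C α H) → G ≤ H) :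
    IsMaximalIn G (Subgroup.normalizer (R : Set (End F V)ˣ) ⊓ G) := by
  classical
  have : Finite (End F V) := Module.finite_of_finite F
  have pm : ∀ {x a}, D.L x a → Iso C a → a = D.ρ x ∨ a = -D.ρ x := fun {x _} ⟨c, _, e⟩ i => by
    rcases mul_self_eq_one_iff.1 ((hR _ (h1 x)).pm hσ hC D (e ▸ i)) with rfl | rfl <;> simp [e]
  let Q : E → ZMod 2 := fun x => if (D.ρ x).1 * D.ρ x = 1 then 0 else 1
  have sq : ∀ x, (D.ρ x).1 * D.ρ x = D.sg (Q x) • 1 := fun x => by
    obtain ⟨c, -, e⟩ := (D.L_ρ x).sq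
    rcases mul_self_eq_one_iff.1 (iso_one.pm hσ hC D (e ▸ (hR _ (h1 x)).mul (hR _ (h1 x)))) with rfl | rfl
    · simp [Q, e, sg]
    · simp [Q, e, sg, show (-1 : End F V) ≠ 1 from fun e => (L_one (D := D)).ne (D.two_smul_eq e.symm)]
  have qf : D.QF Q := fun x y => sg_inj (D := D) (smul_left_injective F (L_one (D := D)).ne (by
    have e : (D.ρ x).1 * D.ρ y * ((D.ρ x).1 * D.ρ y) = (D.ρ (x + y)).1 * D.ρ (x + y) := by
      rcases pm ((D.L_ρ x).mul (D.L_ρ y)) ((hR _ (h1 x)).mul (hR _ (h1 y))) with e | e <;> simp [e]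
    rw [mul_assoc, ← mul_assoc (D.ρ y).1, (D.L_ρ y).sg (D.L_ρ x), smul_mul_assoc, mul_smul_comm,
      mul_assoc, sq, ← mul_assoc, sq, sq, D.symm y] at e
    beta_reduce
    rw [← e]
    rcases z01 (Q x) with a | a <;> rcases z01 (Q y) with b | b <;> rcases z01 (D.B x y) with c | c <;>
      simp [a, b, c, sg, z11]))
  have sq1 : ∀ {x}, Q x = 1 → (D.ρ x).1 * D.ρ x = -1 := fun e => by simp [sq, e, sg]
  have iL : ∀ {x a}, Q x = 1 → D.L x a → a * a = -1 → Iso C a := fun {x _} e l e' =>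
    (l.pm (D.L_ρ x) (e'.trans (sq1 e).symm)).elim (· ▸ hR _ (h1 x)) (· ▸ (hR _ (h1 x)).neg)
  have ex : ∀ {α β : End F V}, α * α = -1 → β * β = -1 → ∃ n : (End F V)ˣ,
      n.1 = (2 : F)⁻¹ • ((1 + α) * (1 + β)) := fun e e' =>
    ⟨(L_one.smul (D := D) (inv_ne_zero D.two)).isUnit.unit * (D.tu _ e * D.tu _ e'), by simp [tu_val]⟩
  obtain ⟨a, -, ha⟩ := qf.exists_ns (U := ⊥) (.inl (by rw [finrank_bot]; omega))
  have neg : -1 ∈ G := (Units.ext (sq1 ha) : D.ρ a * D.ρ a = -1) ▸ hsq _ (hR _ (h1 a))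
  have T0 : ∀ {α β : End F V} {n : (End F V)ˣ}, Iso C α → Iso C β → α * α = -1 → β * β = -1 →
      α * β = -(β * α) → n.1 = (2 : F)⁻¹ • ((1 + α) * (1 + β)) → n ∈ G := fun {α β n} i i' e e' an e1 => by
    have i1 : Iso C n.1 := e1 ▸ i.half hσ D.two i' e e'
    have e2 : n.1 * n = n - 1 := by
      have e3 : ∀ x, α * (α * x) = -x := fun x => by rw [← mul_assoc, e]; simp
      have e4 : ∀ x, β * (α * x) = -(α * (β * x)) := fun x => by rw [← mul_assoc, ← mul_assoc, an]; simp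
      have e5 : β * α = -(α * β) := by simp [an]
      simp only [e1, smul_mul_assoc, mul_smul_comm, mul_add, add_mul, mul_one, one_mul, mul_assoc, e, e',
        e3, e4, e5, mul_neg, neg_neg]
      have := D.two
      match_scalars <;> field_simp <;> ring
    refine (Units.ext ?_ : -1 * (n * n * (n * n)) = n) ▸ mul_mem neg (hsq _ (i1.mul i1))
    simp only [Units.val_mul, e2, mul_sub, sub_mul, Units.val_neg, Units.val_one]
    noncomm_ring
  have T : ∀ {a b α β} {n : (End F V)ˣ}, Q a = 1 → Q b = 1 → D.L a α → D.L b β → α * α = -1 →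
      β * β = -1 → n.1 = (2 : F)⁻¹ • ((1 + α) * (1 + β)) → n ∈ G := fun {a b α β n} ha hb l l' e e' e1 => by
    obtain ⟨w, w1, w2, w3⟩ := qf.exists_an2 (by omega) (qf.ne ha) (qf.ne hb) 1
    have w4 : -(D.ρ w).1 * -(D.ρ w).1 = -1 := by simp [sq1 w3]
    obtain ⟨m, hm⟩ := ex e (sq1 w3)
    obtain ⟨m', hm'⟩ := ex w4 e'
    refine (Units.ext ?_ : m * m' = n) ▸ mul_mem (T0 (iL ha l e) (hR _ (h1 w)) e (sq1 w3)
      (l.an (D.L_ρ w) ((D.symm _ _).trans w1)) hm) (T0 (hR _ (h1 w)).neg (iL hb l' e') w4 e'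
        ((D.L_ρ w).neg.an l' w2) hm')
    rw [Units.val_mul, hm, hm', e1, smul_mul_assoc, mul_smul_comm, mul_assoc (1 + α), ← mul_assoc (1 + (D.ρ w).1),
      show (1 + (D.ρ w).1) * (1 + -(D.ρ w).1) = (2 : F) • 1 by
        simp [mul_add, add_mul, sq1 w3, two_smul]; abel,
      smul_mul_assoc, mul_smul_comm, inv_smul_smul₀ D.two, one_mul]
  have T1 : ∀ {x} {g : (End F V)ˣ}, Q x = 1 → D.L x g.1 → g.1 * g = -1 → g ∈ G := fun e l e' =>
    T e e l l e' e' (by rw [eq_inv_smul_iff₀ D.two]; simp [mul_add, add_mul, e', two_smul]; abel)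
  have mem : ∀ x, D.ρ x ∈ G := fun x => (z01 (Q x)).elim (fun e => by
    obtain ⟨w, w1, w2⟩ := qf.exists_ns (U := .span _ {x}) (.inl (by have := rk1 x; omega))
    have w3 := w1 x (mem_span1.2 (.inr rfl))
    simpa using mul_mem (T1 (g := D.ρ x * D.ρ w) (by rw [qf, e, w2, w3]; simp) ((D.L_ρ x).mul (D.L_ρ w))
      (by rw [Units.val_mul, mul_assoc, ← mul_assoc (D.ρ w).1, ← (D.L_ρ x).cm (D.L_ρ w) w3, mul_assoc,
        sq1 w2, mul_neg, mul_one, mul_neg, sq, e]; simp [sg])) (inv_mem (T1 w2 (D.L_ρ w) (sq1 w2))))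
    fun e => T1 e (D.L_ρ x) (sq1 e)
  obtain ⟨x, x1, -, x2⟩ := qf.exists_an2 (by omega) (qf.ne ha) (qf.ne ha) 0
  have x3 : (D.ρ x).1 * D.ρ x = 1 := by simp [sq, x2, sg]
  obtain ⟨s, ⟨hd⟩⟩ := exists_RD (D.L_ρ x) (by rintro rfl; simp at x1) x3
  refine D.isMax h1 h2 (fun g hg t ht y e => ?_) (hN _ _ _ hd ((hR _ (h1 x)).sa x3)) fun H a b => ?_
  · rcases pm e (((hG g hg).mul (hR t ht)).mul (hG _ (inv_mem hg))) with e | e
    · exact Units.ext e ▸ h1 y
    · exact (Units.ext (by simp [e]) : -1 * D.ρ y = g * t * g⁻¹) ▸ mul_mem h3 (h1 y)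
  have h : CF D H Q C := ⟨⟨qf, sq, fun x => a ⟨(D.L_ρ x).mem_Nm, mem x⟩,
    a ⟨L.mem_Nm (L_one.neg (D := D)), neg⟩, fun g hg c e => iso_one.pm hσ hC D (e ▸ hG g (b hg)),
    fun a' b' α β ha hb l l' e e' => let ⟨n, hn⟩ := ex e e'; ⟨n, a ⟨mem_Nm_of_smul
      (k := D.tu α e * D.tu β e') hn (mul_mem (tu_mem e l) (tu_mem e' l')), T ha hb l l' e e' hn⟩, hn⟩⟩,
    hσ, hC, fun g hg => hG g (b hg)⟩
  exact (h.dich_big h8 hp hε).imp_right fun H' => hB H Q h b fun y α hy l e N N2 c =>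
    H' y hy N N2 (by rcases l.pm (D.L_ρ y) (e.trans (sq1 hy).symm) with rfl | rfl <;> simpa using c)

theorem CF.omega_le {Q' : QuadraticForm F V} (h : CF D X Q (CForm.ofQuad Q')) (h3 : 3 ≤ finrank F V)
    (H : ∀ y α, Q y = 1 → D.L y α → α * α = -1 → Big (CForm.ofQuad Q') α X) : OmegaV Q' ≤ eqG X := by
  have hne := notExc_of_two_ne_zero (V := V) D.two
  refine (h.nd.subG_top OmegaV_le).ge.trans (subG_le_quad h.nd hne (CForm.nondegOn_top _ |>.2 h.nd)
    (notExc_of_two_ne_zero D.two) (by rwa [finrank_top]) fun u _ w _ hu hw => ?_)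
  by_cases u0 : u = 0
  · rw [u0, eich_zero_left]; exact one_mem _
  obtain ⟨u', e⟩ := h.nd.exists_eq u0 1
  replace e : polar Q' u' u = 1 := (polar_comm _ _ _).trans e
  have k : ∀ a ∈ Submodule.span F ((fun x => (D.ρ x).1) '' {x | Q x = 1}), ∀ c : F,
      Ei Q' (eqG X) u (c • a u) := fun a ha => by
    refine Submodule.span_induction ?_ (fun c => by simpa using ei_zero_right hu)
      (fun _ _ _ _ a b c => by simpa using (a c).add (b c))
      (fun d _ _ a c => by simpa [smul_smul] using a (c * d)) ha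
    rintro _ ⟨y, hy, rfl⟩ c
    beta_reduce
    have i := h.iso _ (h.mem y)
    have α2 := h.sq1 hy
    have l := D.L_ρ y
    generalize (D.ρ y).1 = α at i α2 l
    have a1 : ∀ v, α (α v) = -v := fun v => congr($α2 v)
    have s : ∀ u v, polar Q' (α u) v = -polar Q' u (α v) := i.skew α2
    have p0 : polar Q' u u = 0 := by simp [polar_self', hu]
    have p1 : polar Q' u (α u) = 0 := mul_left_cancel₀ D.two (by
      linear_combination s u u - polar_comm Q' (α u) u)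
    have p2 : Q' (c • α u) = 0 := mul_left_cancel₀ D.two (by
      rw [← polar_self', polar_smul_left, polar_smul_right, s, a1]; simp [p0])
    have p3 : polar Q' u (c • α u) = 0 := by simp [p1]
    have e : ∀ v, (eich Q' u (c • α u)).1 v = (1 + ((polarBilin Q' (c • α u)).smulRight u -
        (polarBilin Q' u).smulRight (c • α u)) : End F V) v := fun v => by
      rw [eich_apply hu p3, p2]; simp [add_sub_assoc]
    obtain ⟨t, t0, t1⟩ := H y α hy l α2 ((polarBilin Q' (c • α u)).smulRight u -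
      (polarBilin Q' u).smulRight (c • α u)) (by ext; simp [s, a1, p0, p1]) (by
      ext; simp [s, a1]; module) fun v w => by rw [← e, ← e]; exact orth_polar _ v w
    exact ⟨hu, p3, (show eqv t = _ from LinearEquiv.ext fun v => (congr($t1 v)).trans (e v).symm) ▸
      mem_eqG.2 t0⟩
  simpa [e, polar_comm Q' w, hw] using (k _ (h.skew_mem (a := (polarBilin Q' u').smulRight w -
    (polarBilin Q' w).smulRight u') fun a b => by
      change polar Q' _ _ = -polar Q' _ _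
      simp [polar_comm Q' a]; ring) 1).2.2

theorem CF.sp_le {C : CForm (altType F) V} (h : CF D X Q C) (h8 : finrank (ZMod 2) E = 2 * k + 8)
    (H : ∀ y α, Q y = 1 → D.L y α → α * α = -1 → Big C α X) : C.isom ≤ eqG X := by
  have hX : eqG X ≤ C.isom := fun g hg => ⟨fun u v => by
    obtain ⟨g, rfl⟩ := eqv.surjective g; exact h.iso _ (mem_eqG.1 hg) u v, fun _ => by simp [alt_N]⟩
  have tw : ∀ {y α u}, Q y = 1 → D.L y α → α * α = -1 → Iso C α → C.B u (α u) = 0 → ∀ c : F, ∃ t ∈ X,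
      ∀ v, t.1 v = v + c • (C.B u v • u + C.B (α u) v • α u) := fun {y α u} hy l α2 i e c => by
    have a1 : ∀ v, α (α v) = -v := fun v => congr($α2 v)
    have s := i.skew α2
    exact (H y α hy l α2 (c • ((C.B u).smulRight u + (C.B (α u)).smulRight (α u)))
      (by ext; simp [s, a1, e, alt_B_self]) (by ext; simp [s, a1]; module) fun v w => by
        simp [alt_sigma, s, a1, e, alt_B_self, alt_symm u v, alt_symm (α u) v]; ring).imp
      fun t e => ⟨e.1, fun v => by simp [e.2]⟩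
  have q8 : ∀ {a}, Q a = 1 → ∃ b, Q b = 1 ∧ D.B a b = 1 := fun ha =>
    let ⟨b, b1, _, b2⟩ := h.qf.exists_an2 (by omega) (h.qf.ne ha) (h.qf.ne ha) 1
    ⟨b, b2, (D.symm _ _).trans b1⟩
  have γ2 : ∀ {α β : End F V}, α * α = -1 → β * β = -1 → α * β = -(β * α) → α * β * (α * β) = -1 :=
    fun {α β} e e' an => by
      conv_lhs => rw [mul_assoc, ← mul_assoc β, ← neg_neg (β * α), ← an]
      simp [← mul_assoc, e, e']
  obtain ⟨p, p0, hp⟩ : ∃ p, p ≠ 0 ∧ TvAll (eqG X) C p := by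
    obtain ⟨a, -, ha⟩ := h.qf.exists_ns (U := ⊥) (.inl (by rw [finrank_bot]; omega))
    obtain ⟨b, hb, e⟩ := q8 ha
    obtain ⟨x, x1, x2, x3⟩ := h.qf.exists_an2 (by omega) (h.qf.ne ha) (h.qf.ne hb) 0
    obtain ⟨s, ⟨hd⟩⟩ := exists_RD (D.L_ρ x) (by rintro rfl; simp at x1) (h.sq0 x3)
    have d := dvd_of_sq (k := k) (j := 3) (h8 ▸ hd.finrank_eq.2 :)
    have := Nat.one_le_two_pow (n := k)
    obtain ⟨w, -, w0, w1⟩ := exists_singular_mem ((thQ (D.ρ a * D.ρ b).1 C).comp hd.ι) (W := ⊤)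
      (by rw [finrank_top]; omega)
    have o : ∀ {z}, D.B x z = 1 → C.B (hd.ι w) ((D.ρ z).1 (hd.ι w)) = 0 := fun {z} e =>
      ((h.iso _ (h.mem x)).sa hd.r2).orth D.two (hd.r_ι w) (by
        simpa [hd.r_ι] using congr($((D.L_ρ x).an (D.L_ρ z) e) (hd.ι w)))
    have o1 := o x1
    have o2 := o x2
    replace w1 : C.B (hd.ι w) ((D.ρ a).1 ((D.ρ b).1 (hd.ι w))) = 0 := w1
    refine ⟨hd.ι w, fun e => w0 (hd.ι_inj (by simpa)), fun c => ?_⟩
    generalize hd.ι w = p at *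
    have an := (D.L_ρ a).an (D.L_ρ b) e
    have a1 : ∀ v, (D.ρ a).1 ((D.ρ a).1 v) = -v := fun v => congr($(h.sq1 ha) v)
    have b1 : ∀ v, (D.ρ b).1 ((D.ρ a).1 v) = -(D.ρ a).1 ((D.ρ b).1 v) := fun v => by
      simpa [neg_eq_iff_eq_neg] using congr(-$an v).symm
    have i := h.iso _ (h.mem a)
    have s := i.skew (h.sq1 ha)
    have s' := (h.iso _ (h.mem b)).skew (h.sq1 hb)
    obtain ⟨t, t0, t1⟩ := tw ha (D.L_ρ a) (h.sq1 ha) i o1 (-c / 2)
    obtain ⟨t', t0', t1'⟩ := tw (y := a + b) (u := p) (by rw [h.qf, ha, hb, e]; rfl)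
      ((D.L_ρ a).mul (D.L_ρ b)) (γ2 (h.sq1 ha) (h.sq1 hb) an) (i.mul (h.iso _ (h.mem b))) w1 (-c / 2)
    obtain ⟨t'', t0'', t1''⟩ := tw (u := (D.ρ a).1 p) hb (D.L_ρ b) (h.sq1 hb) (h.iso _ (h.mem b))
      (by simp [b1, i _ _, o2]) (c / 2)
    refine ⟨_, mem_eqG.2 (mul_mem (mul_mem t0 t0') t0''), fun v => ?_⟩
    change t.1 (t'.1 (t''.1 v)) = _
    have := D.two
    simp only [t1, t1', t1'', End.mul_apply, b1, map_add, map_smul, map_neg, i _ _, alt_B_self, o1, o2, w1,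
      alt_symm p ((D.ρ a).1 _), alt_symm p ((D.ρ b).1 _), LinearMap.neg_apply, map_zero]
    match_scalars <;> field_simp <;> ring
  obtain ⟨z, hz⟩ := D.exists_ne p0 (φ := C.B p) fun e => p0 (h.nd _ fun v => by simp [e])
  have hq := hp.conj (mem_eqG.2 (h.mem z)) hX
  change TvAll _ _ ((D.ρ z).1 p) at hq
  generalize (D.ρ z).1 p = q at hz hq
  obtain ⟨S, s1, s2, s3, s4⟩ := (enlarge_alt h.nd one_pos (.inl ⟨-1, by simp, fun e =>
    D.two (by linear_combination -e)⟩)).exists_max hX (S₀ := .span F {p, q}) (fun x hx e => by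
      obtain ⟨a, b, rfl⟩ := Submodule.mem_span_pair.1 hx
      have e1 := e p (Submodule.subset_span (by simp))
      have e2 := e q (Submodule.subset_span (by simp))
      simp [alt_B_smul_left, alt_B_self, alt_symm p q, hz] at e1 e2
      simp [e1, e2])
    (Submodule.one_le_finrank_iff.2 fun e => p0 (e.le (Submodule.subset_span (by simp))))
    (subG_le_alt h.nd (fun x hx e => by
      obtain ⟨a, b, rfl⟩ := Submodule.mem_span_pair.1 hx
      have e1 := e p (Submodule.subset_span (by simp))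
      have e2 := e q (Submodule.subset_span (by simp))
      simp [alt_B_smul_left, alt_B_self, alt_symm p q, hz] at e1 e2
      simp [e1, e2]) fun u hu c => by
        obtain ⟨a, b, rfl⟩ := Submodule.mem_span_pair.1 hu
        have : TvAll (eqG X) C (a • p + b • q) := by
          by_cases a0 : a = 0
          · by_cases b0 : b = 0
            · exact fun _ => ⟨1, one_mem _, by simp [a0, b0]⟩
            exact .of_smul (c := b⁻¹) (by simpa [a0, b0] using hq) (inv_ne_zero b0)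
          exact .of_smul (c := a⁻¹) (by
            simpa [a0, smul_smul] using hp.add hq hX (C.B_swap_ne hz) (a⁻¹ * b)) (inv_ne_zero a0)
        generalize a • p + b • q = u at this
        exact (this (-c)).imp fun g e => ⟨e.1, fun x => by simp [e.2]⟩)
    fun r r0 => let ⟨y, hy⟩ := D.exists_ne p0 (φ := C.B r) fun e => r0 (h.nd _ fun v => by simp [e])
      ⟨_, mem_eqG.2 (h.mem y), p, Submodule.subset_span (by simp), C.B_swap_ne hy⟩
  have S0 : S ≠ ⊥ := fun e => p0 ((s1.trans e.le) (Submodule.subset_span (by simp)))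
  have s5 : ∀ g ∈ X, (∀ s ∈ S, g.1 s ∈ S) ∨ ∀ s ∈ S, g.1 s ∈ C.perp S := fun g hg =>
    (s4 _ (mem_eqG.2 hg)).imp (fun e s hs => e.le ⟨s, hs, rfl⟩) fun e s hs => e ⟨s, hs, rfl⟩
  have s6 : ∀ {y}, ∀ g ∈ X, Q y = 1 → D.L y g.1 → ∀ s ∈ S, g.1 s ∈ S := fun g hg hy l =>
    (s5 g hg).resolve_right fun e => by
      obtain ⟨b, hb, e'⟩ := q8 hy
      have g2 : g.1 * g = -1 := by simpa [hy, sg] using h.Lsq hg l
      obtain ⟨n, n0, n1, -⟩ := h.exT hy hb l (D.L_ρ b) g2 (h.sq1 hb)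
      refine S0 (q8_prim (C.nondegOn_iff.1 s2) D.two g2 (h.sq1 hb) (l.an (D.L_ρ b) e') n1 e ?_)
      rintro _ (rfl | rfl | rfl)
      exacts [s5 _ (h.mem b), s5 _ (mul_mem hg (h.mem b)), s5 _ n0]
  obtain rfl := D.eq_top S0 fun y => (z01 (Q y)).elim (fun e v hv => by
    obtain ⟨w, w1, w2⟩ := h.qf.exists_ns (U := .span _ {y}) (.inl (by have := rk1 y; omega))
    simpa [← End.mul_apply (D.ρ w).1, h.sq1 w2] using s6 _ (mul_mem (h.mem y) (h.mem w)) (by
      rw [h.qf, e, w2, w1 y (mem_span1.2 (.inr rfl))]; simp) ((D.L_ρ y).mul (D.L_ρ w)) _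
      (s6 _ (h.mem w) w2 (D.L_ρ w) v hv)) fun e => s6 _ (h.mem y) e (D.L_ρ y)
  exact (h.nd.subG_top le_rfl).ge.trans s3

variable (h8 : finrank (ZMod 2) E = 2 * k + 8) (hp : (Fintype.card F).Prime) (h1 : ∀ x, D.ρ x ∈ R)
  (h2 : ∀ g ∈ R, ∃ x, D.L x g.1) (h3 : -1 ∈ R)
include h8 hp h1 h2 h3

theorem maxC {C : CForm (altType F) V} (hC : C.Nondeg) (hR : ∀ g ∈ R, eqv g ∈ C.isom) :
    IsMaximalIn (C.isom.comap eqv.toMonoidHom)
      (Subgroup.normalizer (R : Set (End F V)ˣ) ⊓ C.isom.comap eqv.toMonoidHom) := by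
  refine maxCD alt_sigma hC (.inr rfl) h8 hp h1 h2 h3 (fun g hg => (hR g hg).1) (fun g hg => hg.1)
    (fun g i => ⟨i.mul i, fun _ => by simp [alt_N]⟩) (fun x s r hd hr => ?_)
    fun H Q h _ hB g hg => mem_eqG.1 (h.sp_le h8 hB hg)
  have := hd.D'.nt
  obtain ⟨w, w0⟩ : ∃ w : LinearMap.ker (r + 1), w ≠ 0 := by
    by_contra! hn; exact (L_one (D := hd.D')).ne (LinearMap.ext fun w => hn _)
  refine nil_of_tr hd w0 (φ := (C.comap hd.ι).B w) (fun e => w0 (hd.nondeg hr hC _ fun v => by simp [e]))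
    (alt_B_self _) ?_
  convert (tr_subG (C := C) (G := C.isom) inf_le_left (S := ⊤) (c := 1) trivial (alt_N (hd.ι w))
    (by simp [TvOk, altType])).mono (subG_le _) using 1
  ext v; simpa using hd.B_pj hr w v

theorem maxD {Q : QuadraticForm F V} (hQ : QNondeg Q) (hR : ∀ g ∈ R, eqv g ∈ orth Q) :
    IsMaximalIn ((OmegaV Q).comap eqv.toMonoidHom)
      (Subgroup.normalizer (R : Set (End F V)ˣ) ⊓ (OmegaV Q).comap eqv.toMonoidHom) := by
  have hne := notExc_of_two_ne_zero (V := V) D.two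
  have d := D.finrank_sq
  refine maxCD (fun _ => rfl) hQ (.inl rfl) h8 hp h1 h2 h3 (fun g hg => (hR g hg).1)
    (fun g hg => (OmegaV_le hg).1) (fun g i => ?_) (fun x s r hd hr => ?_)
    fun H _ h _ hB g hg => mem_eqG.1 (h.omega_le (by
      by_contra! e
      have := Nat.pow_le_pow_right two_pos (show 8 ≤ finrank (ZMod 2) E by omega)
      nlinarith) hB hg)
  · have : eqv g ∈ orth Q := mem_orth.2 fun v => mul_left_cancel₀ D.two (by
      rw [← polar_self', ← polar_self']; exact i v v)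
    exact (mem_OmegaV (g := ⟨_, this⟩ * ⟨_, this⟩)).2 ((mem_commutator_iff hQ hne _).2 (by
      simp only [map_mul, Int.units_mul_self, and_self]))
  have d := dvd_of_sq (k := k) (j := 3) (h8 ▸ hd.finrank_eq.2 :)
  have := Nat.one_le_two_pow (n := k)
  have hd' := hd.nondeg hr hQ
  have i : Iso3 ((CForm.ofQuad Q).comap hd.ι) := iso3_quad (Q.comp hd.ι)
  obtain ⟨u, -, u0, u1⟩ := i.exists_perpL hd' [] [] (by simp; omega)
  obtain ⟨w, w0, w1, w2⟩ := i.exists_perpL hd' [u] [u] (by simp; omega)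
  replace w0 : polar Q (hd.ι u) (hd.ι w) = 0 := w0 u (by simp)
  replace u1 : Q (hd.ι u) = 0 := u1
  replace w2 : Q (hd.ι w) = 0 := w2
  have s : ∀ u v, polar Q (r u) v = polar Q u (r v) := hr
  refine ⟨x, r, (polarBilin Q (hd.ι w)).smulRight (hd.ι u) - (polarBilin Q (hd.ι u)).smulRight (hd.ι w),
    hd.ne, hd.L, hd.r2, fun e => ?_, by
      ext; simp [polar_self', u1, w2, w0, polar_comm Q (hd.ι w) (hd.ι u)], by
      ext; simp [hd.r_ι]; abel, by ext; simp [← s, hd.r_ι]; abel, eqv.symm (eich Q _ _).1,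
      by simpa using eich_mem_OmegaV hQ hne u1 w0, LinearMap.ext fun v => (eich_apply u1 w0 v).trans (by
        simp [w2, add_sub_assoc])⟩
  obtain ⟨v, hv⟩ := hd'.exists_eq (ne_zero_of_not_mem u0) 1
  have := congr($e (hd.ι v))
  simp only [LinearMap.sub_apply, LinearMap.smulRight_apply, polarBilin_apply_apply, sub_eq_zero,
    show polar Q (hd.ι u) (hd.ι v) = 1 from hv, one_smul, LinearMap.zero_apply, ← map_smul,
    hd.ι_inj.eq_iff] at this
  exact w1 (this ▸ Submodule.smul_mem _ _ (Submodule.subset_span (by simp)))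

end

variable {F : Type*} [Field F] [Fintype F] {ι : Type} [Fintype ι] [DecidableEq ι] {R : Subgroup (GL ι F)}

theorem exists_PD8 (hι : 9 ≤ Fintype.card ι) (h : IsSymplecticTypeGroup 2 R)
    (hi : ActsAbsolutelyIrreducibly (matrixSet R)) : ∃ (E : Submodule (ZMod 2) (R → ZMod 2))
      (D : PD F (End F (ι → F)) E) (k : ℕ), finrank (ZMod 2) E = 2 * k + 8 ∧
      (∀ x, D.ρ x ∈ R.map toE.toMonoidHom) ∧ (∀ g ∈ R.map toE.toMonoidHom, ∃ x, D.L x g.1) ∧
      -1 ∈ R.map toE.toMonoidHom := by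
  have hE := H21.C6.eData_of (by omega) h hi
  obtain ⟨E, D, h1, h2⟩ := exists_PD hE
  have d := D.finrank_sq
  rw [Module.finrank_fintype_fun_eq_card] at d
  obtain ⟨j, -, e⟩ := (Nat.dvd_prime_pow Nat.prime_two).1 (Dvd.intro _ d)
  have : 3 < j := (Nat.pow_lt_pow_iff_right one_lt_two).1 (by omega)
  rw [e, ← pow_add] at d
  exact ⟨E, D, j - 4, by have := Nat.pow_right_injective le_rfl d; omega, h1, h2, -1,
    H21.C6.neg_mem_R hE (one_mem _), Units.ext (by simp [toE_val]; rfl)⟩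

theorem sp_c6 {m : ℕ} (hm : 5 ≤ m) (hp : (Fintype.card F).Prime) {R : Subgroup (GL (Fin m ⊕ Fin m) F)}
    (h : IsSymplecticTypeGroup 2 R) (hi : ActsAbsolutelyIrreducibly (matrixSet R)) (hR : R ≤ spGL m F) :
    IsMaximalIn (spGL m F) (subgroupNormalizer R ⊓ spGL m F) := by
  obtain ⟨E, D, k, a, b, c, d⟩ := exists_PD8 (by simp; omega) h hi
  rw [spGL_eq] at hR ⊢
  exact bridge (maxC a hp b c d spForm_nondeg (by rintro _ ⟨x, hx, rfl⟩; exact hR hx))

theorem omega_c6 (hι : 9 ≤ Fintype.card ι) (hp : (Fintype.card F).Prime) {Q : (ι → F) → F}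
    (hQ : IsNondegenerateQuadraticForm Q) (h : IsSymplecticTypeGroup 2 R)
    (hi : ActsAbsolutelyIrreducibly (matrixSet R)) (hR : R ≤ isometryGroup F Q) :
    IsMaximalIn (omegaGL Q) (subgroupNormalizer R ⊓ omegaGL Q) := by
  obtain ⟨E, D, k, a, b, c, d⟩ := exists_PD8 hι h hi
  obtain ⟨Q, rfl, hQ'⟩ := exists_quad hQ
  rw [isometryGroup_eq] at hR
  rw [omegaGL_eq]
  exact bridge (maxD a hp b c d hQ' (by rintro _ ⟨x, hx, rfl⟩; exact hR hx))

end H12.C6
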