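import Cfsg.Agent.H12.C6n

/-!
# Normalisers of extraspecial groups of order `2 ^ 7`: the abstract part
-/

set_option autoImplicit false
set_option maxHeartbeats 400000

namespace H12.C6

open Module

variable {F A E : Type*} [Field F] [Ring A] [Algebra F A] [AddCommGroup E] [Module (ZMod 2) E]

/-- Quadratic forms of Witt index at most one. -/
def SS.MT (D : SS E) (Q : E → ZMod 2) : Prop :=
  ∀ u v, Q u = 0 → Q v = 0 → u ≠ 0 → v ≠ 0 → u ≠ v → D.B u v = 1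

namespace SS.QF

variable {D : SS E} {Q : E → ZMod 2} (h : D.QF Q) {a b c d x : E} [Finite E]
include h

theorem exists_c5 (h5 : 5 ≤ finrank (ZMod 2) E) (ha : a ≠ 0) (hb : b ≠ 0) : ∃ c, Q c = 1 ∧
    ∀ z, z = a ∨ z = b → z ∉ Submodule.span (ZMod 2) {c} ∧ D.B z c = 0 := by
  obtain ⟨x, a1, a2⟩ := h.exists_ns (U := .span _ {a, b}) (.inl (by have := rk2 a b; omega))
  have k : ∀ z, z = a ∨ z = b → z ∈ Submodule.span (ZMod 2) {a, b} := fun z hz => Submodule.subset_span hz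
  obtain ⟨c, c1, c2, c3⟩ : ∃ c, (∀ s ∈ Submodule.span (ZMod 2) {a, b}, D.B s c = 0) ∧
      c ∉ Submodule.span (ZMod 2) {a, b} ∧ Q c = 1 := by
    by_cases e : x ∈ Submodule.span (ZMod 2) {a, b}
    · exact h.exists_out a2 _ _ e e a1 (by have := rk2 a b; omega)
    · exact ⟨x, a1, e, a2⟩
  exact ⟨c, c3, fun z hz => ⟨fun e => (mem_span1.1 e).elim (by rcases hz with rfl | rfl <;> assumption)
    fun e => c2 (e ▸ k z hz), c1 z (k z hz)⟩⟩

theorem exists_an5 (h7 : 5 ≤ finrank (ZMod 2) E) (ha : a ≠ 0) (hb : b ≠ 0) (q : ZMod 2) :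
    ∃ w, D.B w a = 1 ∧ D.B w b = 1 ∧ Q w = q :=
  let ⟨c, c1, k⟩ := h.exists_c5 h7 ha hb
  (h.exists_an (k a (.inl rfl)).1 (k b (.inr rfl)).1 (mem_span1.2 (.inr rfl)) c1 (fun s hs => by
    rcases mem_span1.1 hs with rfl | rfl <;> simp [D.alt]) ((D.symm _ _).trans (k a (.inl rfl)).2)
    ((D.symm _ _).trans (k b (.inr rfl)).2) q).imp fun _ e => e.2

theorem exists_an1 (h3 : 3 ≤ finrank (ZMod 2) E) (ha : Q a = 1) (q : ZMod 2) :
    ∃ w, D.B w a = 1 ∧ Q w = q := by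
  obtain ⟨c, c1, c2, c3⟩ := h.exists_out ha (.span _ {a}) (.span _ {a}) (mem_span1.2 (.inr rfl))
    (mem_span1.2 (.inr rfl)) (fun s hs => by rcases mem_span1.1 hs with rfl | rfl <;> simp [D.alt])
    (by have := rk1 a; omega)
  have c4 : a ∉ Submodule.span (ZMod 2) {c} := fun e => (mem_span1.1 e).elim (h.ne ha)
    fun e => c2 (mem_span1.2 (.inr e.symm))
  have c5 := (D.symm _ _).trans (c1 a (mem_span1.2 (.inr rfl)))
  obtain ⟨w, -, w1, -, w2⟩ := h.exists_an c4 c4 (mem_span1.2 (.inr rfl)) c3 (fun s hs => by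
    rcases mem_span1.1 hs with rfl | rfl <;> simp [D.alt]) c5 c5 q
  exact ⟨w, w1, w2⟩

theorem fix4 {m : E →ₗ[ZMod 2] E} (h4 : 4 ≤ finrank (ZMod 2) E) (hM : D.MT Q)
    (mB : ∀ x y, D.B (m x) (m y) = D.B x y) (mQ : ∀ x, Q (m x) = Q x)
    (key : ∀ a b w, Q a = 1 → Q b = 1 → Q w = 1 → D.tv (m a) (D.tv (m b) w) = D.tv a (D.tv b w) →
      ∀ v, D.tv (m a) (D.tv (m b) v) = D.tv a (D.tv b v)) : ∃ a, Q a = 1 ∧ m a = a := by
  have inj : Function.Injective m := (injective_iff_map_eq_zero m).2 fun x e => D.nd x fun y => by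
    simp [← mB, e]
  have k1 : ∀ a, Q a = 1 → D.B a (m a) = 1 → m (m a) = a + m a := fun a ha e => by
    have q : Q (a + m a) = 1 := by rw [h, mQ, ha, e]; rfl
    obtain ⟨w, w1, w2⟩ := h.exists_ns (U := .span _ {a + m a, m (m a)}) (.inr ⟨by
      have := rk2 (a + m a) (m (m a)); omega, _, mem_span2.2 (.inr (.inl rfl)), q⟩)
    have w3 := w1 _ (mem_span2.2 (.inr (.inl rfl)))
    have w4 := w1 _ (mem_span2.2 (.inr (.inr (.inl rfl))))
    have k := key a (m a) w ha ((mQ a).trans ha) w2 (by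
      simp only [map_add, LinearMap.add_apply] at w3
      simp [SS.tv, w4, e, w3])
    have a1 : a ≠ m a := fun e' => by simp [← e', D.alt] at e
    rcases mem_span2.1 (SS.mem_of_tv (h.ne ha) a1 k) with e' | e' | e' | e'
    · exact absurd e' (h.ne ha)
    · exact absurd e' a1
    · have := k a
      rw [← e'] at this
      simp [SS.tv, D.alt, e, D.symm (m a), add_comm a, yxx, h.ne ha] at this
    · rw [← xxy (m a) (m (m a)), ← e', add_comm]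
  by_cases H : ∀ v, Q v = 0 → m v = v
  · obtain ⟨a, -, ha⟩ := h.exists_ns (U := ⊥) (.inl (by rw [finrank_bot]; omega))
    obtain ⟨w, w1, w2⟩ := h.exists_an1 (by omega) ha 0
    have := H (w + a) (by rw [h, w1, w2, ha]; rfl)
    exact ⟨a, ha, by rwa [map_add, H w w2, add_right_inj] at this⟩
  push Not at H
  obtain ⟨v, v1, v2⟩ := H
  have v0 : v ≠ 0 := by rintro rfl; simp at v2
  have m0 : ∀ {x}, x ≠ 0 → m x ≠ 0 := fun e e' => e (inj (by simpa))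
  have b1 := hM v (m v) v1 ((mQ v).trans v1) v0 (m0 v0) v2.symm
  have q : Q (v + m v) = 1 := by rw [h, mQ, v1, b1]; rfl
  by_cases e : m (m v) = v
  · exact ⟨_, q, by rw [map_add, e, add_comm]⟩
  have b2 := hM v (m (m v)) v1 ((mQ _).trans ((mQ v).trans v1)) v0 (m0 (m0 v0)) (Ne.symm e)
  have := k1 _ q (by simp [b1, b2, D.alt, mB]; rfl)
  replace this : m (m (m v)) = v := by
    rw [map_add, map_add, add_assoc, xxy, add_comm v, add_right_inj] at this; exact this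
  exact ⟨v + m v + m (m v), by rw [h, q, mQ, mQ, v1]; simp [b1, b2, mB]; rfl, by
    simp only [map_add, this]; abel⟩

end SS.QF

namespace CD

open PD

variable {D : PD F A E} {X K : Subgroup Aˣ} {Q : E → ZMod 2} (h : CD D X Q) {a b x y z : E} {g : Aˣ}
  {α β : A} [Finite E]
include h

theorem move5 (h7 : 5 ≤ finrank (ZMod 2) E) (hx : x ≠ 0) (hy : y ≠ 0) (e : Q x = Q y) :
    ∃ n ∈ X, n ∈ D.Nm ∧ ∀ b, D.L x b → D.L y (n * b * (n⁻¹ : Aˣ)) := by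
  obtain ⟨c, c1, k⟩ := h.qf.exists_c5 h7 hx hy
  have k' : ∀ z, D.B z c = 0 → ∀ s ∈ Submodule.span (ZMod 2) {c}, D.B z s = 0 := fun z e s hs => by
    rcases mem_span1.1 hs with rfl | rfl <;> simp [e]
  obtain ⟨n, n0, n1, -, n2⟩ := h.move (k x (.inl rfl)).1 (k y (.inr rfl)).1 (k' _ (k x (.inl rfl)).2)
    (k' _ (k y (.inr rfl)).2) e (mem_span1.2 (.inr rfl)) c1 fun s hs => D.symm _ _ ▸ k' c (D.alt c) s hs
  exact ⟨n, n0, n1, n2⟩

theorem of_cent5 (h7 : 5 ≤ finrank (ZMod 2) E) (hx : x ≠ 0)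
    (loc : ∀ g ∈ X, (g * D.ρ x : A) = D.ρ x * g → g ∈ D.Nm) (hg : g ∈ X)
    (e : D.L y (g * D.ρ x * (g⁻¹ : Aˣ))) : g ∈ D.Nm := by
  obtain ⟨n, a1, a2, a3⟩ := h.move5 h7 ((D.L_ρ x).ne_conj e hx) hx (h.conjQ hg e)
  exact nm_of_move h.mem L_one hx hx (fun g hg _ e => loc g hg (congrArg Units.val e)) hg (by simp) a1
    a2 (by simp) (a3 _ e)

theorem star5 (h7 : 5 ≤ finrank (ZMod 2) E) (loc : ∀ y, Q y = 1 → ∀ g ∈ X, (g * D.ρ y : A) = D.ρ y * g →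
    ∀ w, D.B w y = 0 → ∃ z, D.L z (g * D.ρ w * (g⁻¹ : Aˣ))) (hx : Q x = 1) (hg : g ∈ X)
    (e : D.L y (g * D.ρ x * (g⁻¹ : Aˣ))) : g ∈ D.Nm := by
  have x0 := h.qf.ne hx
  refine h.of_cent5 h7 x0 (fun g hg e' => ?_) hg e
  have k : ∀ s ∈ Submodule.span (ZMod 2) {x}, D.B s x = 0 := fun s hs => by
    rcases mem_span1.1 hs with rfl | rfl <;> simp [D.alt]
  obtain ⟨z, z1, z2, z5⟩ := h.qf.exists_out hx (.span _ {x}) (.span _ {x}) (mem_span1.2 (.inr rfl))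
    (mem_span1.2 (.inr rfl)) k (by have := rk1 x; omega)
  have z3 := z1 x (mem_span1.2 (.inr rfl))
  have z4 := not_or.1 (mt mem_span1.2 z2)
  obtain ⟨y, hy⟩ := loc x hx g hg e' z ((D.symm _ _).trans z3)
  have y1 : D.L x (g * D.ρ x * (g⁻¹ : Aˣ)) := by rw [conj_of_comm e']; exact D.L_ρ x
  obtain ⟨n, n1, n2, n3, n4⟩ := h.move (S := .span _ {x}) (x := y) (y := z) (by
    rw [mem_span1, not_or]
    refine ⟨(D.L_ρ z).ne_conj hy z4.1, ?_⟩
    rintro rfl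
    obtain ⟨c, hc, e⟩ := hy.rel y1
    rw [← smul_mul_assoc, ← mul_smul_comm, Units.mul_left_inj, Units.mul_right_inj] at e
    exact z4.2 ((D.L_ρ z).inj ⟨c, hc, e⟩)) z2 (fun s hs => by
      rcases mem_span1.1 hs with rfl | rfl
      · simp
      · rw [(D.L_ρ z).conj_B (D.L_ρ s) hy y1, D.symm, z3]) (fun s hs => (D.symm _ _).trans (z1 s hs))
    (h.conjQ hg hy) (mem_span1.2 (.inr rfl)) hx k
  exact nm_of_move h.mem (D.L_ρ x) z4.1 z4.2 (fun g hg e e' => nm_of_two x0 (Ne.symm z4.2)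
    (loc x hx g hg e) (loc z z5 g hg (congrArg Units.val e'))) hg e' n1 n2
    (n3 x (mem_span1.2 (.inr rfl)) _ (D.L_ρ x)) (n4 _ hy)

variable [Finite A]

theorem core4 (h6 : 4 ≤ finrank (ZMod 2) E) (hM : D.MT Q) (hK : K ≤ X) (hn : ∀ g ∈ X, ∀ k ∈ K, g * k * g⁻¹ ∈ K)
    (hρ : ∀ y, Q y = 1 → D.ρ y ∈ K)
    (hC : ∀ k ∈ K, ∀ y, Q y = 1 → D.L y (k * D.ρ y * (k⁻¹ : Aˣ)) → ∃ w, D.L w k) :
    (∀ k ∈ K, ∃ w, D.L w k) ∧ X ≤ D.Nm := by
  have T := D.tid (X := D.Nm) (fun x => (D.L_ρ x).mem_Nm) fun _ h _ _ _ _ => h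
  obtain ⟨a, -, ha⟩ := h.qf.exists_ns (U := ⊥) (.inl (by rw [finrank_bot]; omega))
  have hε : ∀ y, D.ε y ∈ K.map (pr F) := fun y => by
    rcases z01 (Q y) with e | e
    · obtain ⟨w, w1, w2⟩ := h.qf.exists_ns (U := .span _ {y}) (.inl (by have := rk1 y; omega))
      rw [← yxx w y, T.add]
      exact mul_mem ⟨_, hρ _ (by rw [h.qf, e, w2, w1 y (mem_span1.2 (.inr rfl))]; simp), rfl⟩
        ⟨_, hρ w w2, rfl⟩
    · exact ⟨_, hρ y e, rfl⟩
  have h1 : ∀ k ∈ K, k ∈ D.Nm → ∃ w, D.L w k := fun k hk hk' => by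
    obtain ⟨m, hm⟩ := Nm.act hk'
    have mQ : ∀ x, Q (m x) = Q x := fun x => h.conjQ (hK hk) (hm x _ (D.L_ρ x))
    obtain ⟨a, a1, a2⟩ := h.qf.fix4 h6 hM (fun x y => (D.L_ρ x).conj_B (D.L_ρ y) (hm x _ (D.L_ρ x))
      (hm y _ (D.L_ρ y))) mQ fun a b w a1 b1 w1 e1 v => by
        obtain ⟨n, n0, n1, -, n3⟩ := h.exT a1 b1 (D.L_ρ _) (D.L_ρ _) (h.sq1 a1) (h.sq1 b1)
        have sq : ∀ {a}, Q a = 1 → (k * D.ρ a * (k⁻¹ : Aˣ) * (k * D.ρ a * (k⁻¹ : Aˣ)) : A) = -1 :=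
          fun e => by rw [conj_mul, h.sq1 e]; simp
        obtain ⟨n', -, n1', -, n3'⟩ := h.exT ((mQ a).trans a1) ((mQ b).trans b1) (hm a _ (D.L_ρ a))
          (hm b _ (D.L_ρ b)) (sq a1) (sq b1)
        have e5 : n' = k * n * k⁻¹ := Units.ext (by
          simp only [n1', Units.val_mul, n1, mul_smul_comm, smul_mul_assoc, ← conj_mul]
          simp [mul_add, add_mul])
        have hκ : n⁻¹ * n' ∈ K := by
          simpa [e5, mul_assoc] using mul_mem (hn _ (inv_mem n0) k hk) (inv_mem hk)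
        obtain ⟨u, hu⟩ := hC _ hκ w w1 (by
          have l1 := n3 w _ (D.L_ρ w)
          have l2 := n3' w _ (D.L_ρ w)
          rw [e1] at l2
          obtain ⟨c, c0, e⟩ := l2.rel l1
          rw [conj_conj, e, mul_smul_comm, smul_mul_assoc, ← conj_conj]
          simpa using (D.L_ρ w).smul c0)
        have := n3 v _ (hu.conj_self (D.L_ρ v))
        rw [← conj_conj, mul_inv_cancel_left] at this
        exact (n3' v _ (D.L_ρ v)).inj this
    exact hC k hk a a1 (a2 ▸ hm a _ (D.L_ρ a) :)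
  let B : Subgroup (Aˣ ⧸ sc F A) :=
    { carrier := Set.range D.ε
      one_mem' := ⟨0, T.zero⟩
      mul_mem' := by rintro _ _ ⟨x, rfl⟩ ⟨y, rfl⟩; exact ⟨_, T.add x y⟩
      inv_mem' := by rintro _ ⟨x, rfl⟩; exact ⟨x, (T.inv x).symm⟩ }
  have hB : B ≤ K.map (pr F) := by rintro _ ⟨x, rfl⟩; exact hε x
  obtain ⟨b, -, b1, -, b2⟩ : ∃ b, True ∧ D.B b a = 1 ∧ True ∧ Q b = 1 := by
    obtain ⟨c, c1, c2, c3⟩ := h.qf.exists_out ha (.span _ {a}) (.span _ {a}) (mem_span1.2 (.inr rfl))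
      (mem_span1.2 (.inr rfl)) (fun s hs => by rcases mem_span1.1 hs with rfl | rfl <;> simp [D.alt])
      (by have := rk1 a; omega)
    have c4 : a ∉ Submodule.span (ZMod 2) {c} := fun e => (mem_span1.1 e).elim (h.qf.ne ha)
      fun e => c2 (mem_span1.2 (.inr e.symm))
    have c5 := (D.symm _ _).trans (c1 a (mem_span1.2 (.inr rfl)))
    obtain ⟨w, -, w1, -, w2⟩ := h.qf.exists_an c4 c4 (mem_span1.2 (.inr rfl)) c3 (fun s hs => by
      rcases mem_span1.1 hs with rfl | rfl <;> simp [D.alt]) c5 c5 1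
    exact ⟨w, trivial, w1, trivial, w2⟩
  have h2 := Subgroup.subgroupOf_eq_top.1 (burn (A := B.subgroupOf (K.map (pr F)))
    (fun ⟨_, _⟩ ⟨x, e⟩ => Subtype.ext (by obtain rfl : D.ε x = _ := e; exact T.sq x))
    (by
      rw [← Subgroup.subgroupOf_normalizer_eq hB]
      rintro ⟨_, k, hk, rfl⟩ e
      obtain ⟨w, hw⟩ := h1 k hk (mem_NN fun x =>
        ((Subgroup.mem_normalizer_iff.1 e _).1 ⟨x, rfl⟩).imp fun _ => Eq.symm)
      exact ⟨w, (pr_iff.2 hw).symm⟩) (u := ⟨_, hε b⟩) (v := ⟨_, hε a⟩) ⟨b, rfl⟩ ⟨a, rfl⟩ (by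
      rintro x hx ⟨_, k, hk, rfl⟩ e
      obtain ⟨y, y1, y2⟩ : ∃ y, Q y = 1 ∧ x.1 = D.ε y := by
        rcases hx with rfl | rfl | rfl
        exacts [⟨b, b2, rfl⟩, ⟨a, ha, rfl⟩, ⟨b + a, by rw [h.qf, b1, b2, ha]; rfl, (T.add _ _).symm⟩]
      obtain ⟨w, hw⟩ := hC k hk y y1 (conj_iff.1 (by
        rw [← y2]; exact mul_inv_eq_iff_eq_mul.2 (congrArg Subtype.val e)))
      exact ⟨w, (pr_iff.2 hw).symm⟩))
  have h3 : ∀ k ∈ K, ∃ w, D.L w k := fun k hk => (h2 ⟨k, hk, rfl⟩).imp fun _ e => pr_iff.1 e.symm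
  refine ⟨h3, fun g hg => mem_Nm fun x => ?_⟩
  obtain ⟨k, hk, e⟩ := hε x
  exact (h3 _ (hn g hg k hk)).imp fun _ e' => (pr_iff.1 e).conj' e' (D.L_ρ x)

end CD

end H12.C6
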