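import Cfsg.Agent.H12.C6o

/-!
# Normalisers of extraspecial groups of order `2 ^ 7` in `Sp₈`
-/

set_option autoImplicit false
set_option maxHeartbeats 400000

namespace H12.C6

open Module PD H11 Cfsg Cfsg.Geo QuadraticMap

section

variable {F V W W' E : Type*} [Field F] [AddCommGroup V] [Module F V] [AddCommGroup W] [Module F W]
  [AddCommGroup W'] [Module F W'] [AddCommGroup E] [Module (ZMod 2) E]
  {C : CForm (altType F) V} {a b r : End F V}

namespace CF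

variable {D : PD F (End F V) E} {X : Subgroup (End F V)ˣ} {Q : E → ZMod 2} (h : CF D X Q C)
  {x s y : E} {g : (End F V)ˣ}
include h

theorem resF (hd : D.RD x s r W) (hr : Iso C r) : CF hd.D' (hd.P X) (fun y => Q y) (C.comap hd.ι) where
  toCD := h.res hd hr
  σ := h.σ
  nd := hd.nondeg (hr.sa hd.r2) h.nd
  iso k := fun ⟨g, g0, g1, g2⟩ u v => by
    simpa [← hd.res_coe g1, ← g2] using h.iso g g0 (hd.ι u) (hd.ι v)

variable [Finite E] [FiniteDimensional F V]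

theorem dim0 : finrank (ZMod 2) E ≠ 0 := fun e => by
  have d := D.finrank_sq
  rw [e, pow_zero, mul_eq_one] at d
  obtain ⟨v, v0, hv⟩ := finrank_eq_one_iff'.1 d.1
  exact v0 (h.nd v fun w => by obtain ⟨c, rfl⟩ := hv w; simp [alt_B_self])

theorem dim2 (h2 : finrank (ZMod 2) E = 2) (hx : Q x = 0) : x = 0 := by
  by_contra x0
  obtain ⟨s, ⟨hd⟩⟩ := exists_RD (D.L_ρ x) x0 (h.sq0 hx)
  exact (h.resF hd (h.iso _ (h.mem x))).dim0 (by have := hd.finrank_Ep; omega)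

theorem dim4 (h4 : finrank (ZMod 2) E = 4) : D.MT Q := fun u v hu hv u0 v0 e => by
  obtain ⟨s, ⟨hd⟩⟩ := exists_RD (D.L_ρ u) u0 (h.sq0 hu)
  refine (z01 _).resolve_left fun e' => ?_
  have e1 : (hd.π v : E) = v + D.B v s • u := by simp [RD.π, D.symm v u, e']
  have := congrArg Subtype.val ((h.resF hd (h.iso _ (h.mem u))).dim2 (x := hd.π v)
    (by have := hd.finrank_Ep; omega) (by
      rw [e1]; rcases z01 (D.B v s) with c | c <;> simp [c, h.qf v, hu, hv, D.symm v u, e']))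
  rw [e1] at this
  rcases z01 (D.B v s) with c | c <;> simp [c, v0, xy0, e.symm] at this

variable [Finite (End F V)] (h8 : finrank (ZMod 2) E = 6)
  (star : ∀ g ∈ X, ∀ x y, Q x = 1 → D.L y (g * D.ρ x * (g⁻¹ : (End F V)ˣ)) → g ∈ D.Nm)
include h8 star

theorem core6 (hd : D.RD x s r W) (hr : Iso C r) (hx : Q x = 0) :
    (∀ k, Units.map hd.extM k ∈ X → ∃ w, hd.D'.L w k.1) ∧ hd.P X ≤ hd.D'.Nm := by
  have : Finite (End F W) := .of_surjective _ fun f => ⟨_, hd.res_ext f⟩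
  have := hd.finrank_Ep
  refine (h.res hd hr).core4 (K := X.comap (Units.map hd.extM)) (by omega)
    (have := hd.fin; (h.resF hd hr).dim4 (by omega))
    (fun k hk => ⟨_, hk, hd.extM_cm _, (hd.res_extM _).symm⟩) (fun _ ⟨g, g0, g1, g2⟩ k hk => ?_)
    (fun y hy => ?_) fun k hk y hy e => ?_
  · obtain rfl : _ = hd.resU g g1 := Units.ext g2
    exact Subgroup.mem_comap.2 (hd.conj_extM g g1 k ▸ mul_mem (mul_mem g0 hk) (inv_mem g0))
  · have c := hd.cm y (D.L_ρ _)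
    have e := h.sq1 hy
    obtain ⟨n, n0, n1, -⟩ := h.exT hy (b := y + x) (by rw [h.qf, hx, hy, (mem_Ep.1 y.2).1]; simp)
      (D.L_ρ y) ((D.L_ρ y).mul hd.L).neg e (by
        rw [neg_mul_neg, mul_assoc, ← mul_assoc r, ← c, mul_assoc, hd.r2, mul_one, e])
    refine Subgroup.mem_comap.2 ((show n = Units.map hd.extM _ from Units.ext ?_) ▸ n0)
    obtain ⟨c1, c2⟩ := hd.half n1 c (Commute.neg_left (Commute.mul_left c rfl))
    rw [← hd.extM_res (a := n) ?_ c1]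
    · refine congrArg hd.extM ?_
      rw [c2, inv_smul_eq_iff₀ D.two, two_smul, map_neg, hd.res_mul rfl, hd.res_r, mul_neg, mul_one,
        neg_neg, add_mul, mul_add, mul_add, ← hd.res_mul c, e, map_neg, hd.res_one]
      simp [RD.D']; abel
    · rw [n1, smul_mul_assoc, inv_smul_eq_iff₀ D.two, two_smul]
      simp only [mul_add, add_mul, neg_mul, mul_neg, ← mul_assoc, e, mul_assoc _ r r, hd.r2, mul_one,
        one_mul]
      abel
  · have c := hd.extM_cm k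
    have c1 : ∀ w : D.Ep x s, (Units.map hd.extM k * D.ρ w * (Units.map hd.extM k)⁻¹.1) * (1 + r) =
        D.ρ w * (1 + r) := fun w => by
      simpa using conj_loc (k := Units.map hd.extM k) (m := 1) (e := 1 + r) (c := D.ρ w)
        (by simpa using hd.extM_plus k) (by simp) (by simp [mul_add, add_mul, hd.cm w (D.L_ρ _)])
    have c2 : ∀ w : D.Ep x s, hd.res (Units.map hd.extM k * D.ρ w * (Units.map hd.extM k)⁻¹.1) =
        k * hd.D'.ρ w * (k⁻¹).1 := fun w => by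
      rw [hd.res_conj _ c (hd.cm w (D.L_ρ _)), show hd.resU (Units.map hd.extM k) c = k from
        Units.ext (hd.res_extM _)]; rfl
    have c3 : ∀ w : D.Ep x s, _ := fun w => conj_comm (g := Units.map hd.extM k) c (hd.cm w (D.L_ρ _))
    obtain ⟨b, hb, e'⟩ := hd.L'.1 e
    have hN := (glue (c := -1) hd.L hd.ne hd.r2 (c3 y) (by
      rw [conj_mul, h.sq1 hy, mul_neg, mul_one, neg_mul, Units.mul_inv, neg_one_smul]) hb (D.L_ρ y)
      (hd.eq_of_res (c3 y) (hd.cm y hb) ((c2 y).trans e'.symm)) (c1 y) (.inl (xx _))).elim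
      (star _ hk _ _ hy) (star _ hk _ _ hy)
    have := hd.D'.nt
    refine L_of_eigen k.ne_zero fun w => ?_
    obtain ⟨z, hz⟩ := Nm.ex hN (D.L_ρ w)
    have h1 := hd.L_res hz (c3 w)
    rw [c2, show hd.π z = w from Subtype.ext (by
      rcases eig1 hd.L.neg hd.ne hz (D.L_ρ w) (by simpa using c1 w) with e | e
      · simp [RD.π, xy0.1 e, mem_Ep.1 w.2]
      · simp [RD.π, show z = w + x from (yxx _ _).symm.trans ((congrArg (· + w.1) e).trans (add_comm _ _)), mem_Ep.1 w.2, D.alt, D.symm x,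
          hd.dual, yxx])] at h1
    obtain ⟨c, -, e⟩ := (hd.D'.L_ρ w).rel h1
    exact ⟨c, by conv_lhs => rw [e]; simp⟩

theorem graph6 (hd : D.RD x s r W) (hd' : D.RD x s (-r) W') (hr : Iso C r) (hx : Q x = 0) (hg : g ∈ X)
    (c : g * r = r * g) {a b a₁ b₁ a₂ b₂ : D.Ep x s} (ha : Q a = 1) (hb : Q b = 1)
    (l₁ : hd.D'.L a₁ (hd.res (g * D.ρ a * (g⁻¹).1))) (l₂ : hd.D'.L b₁ (hd.res (g * D.ρ b * (g⁻¹).1)))
    (l₃ : hd'.D'.L a₂ (hd'.res (g * D.ρ a * (g⁻¹).1))) (l₄ : hd'.D'.L b₂ (hd'.res (g * D.ρ b * (g⁻¹).1)))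
    (a1 : Q a₂ = 1) (b1 : Q b₂ = 1) (v : D.Ep x s) :
    hd.D'.tv a₁ (hd.D'.tv b₁ v) = hd.D'.tv a₂ (hd.D'.tv b₂ v) := by
  have u1 : ∀ a : D.Ep x s, _ := fun a => conj_comm c (hd.cm a (D.L_ρ _))
  have u3 : ∀ a, Q a = 1 → (g * D.ρ a * (g⁻¹).1 * (g * D.ρ a * (g⁻¹).1) : End F V) = -1 := fun a e => by
    rw [conj_mul, h.sq1 e]; simp
  have u5 : ∀ {a a₂ : D.Ep x s}, Q a = 1 → hd'.D'.L a₂ (hd'.res (g * D.ρ a * (g⁻¹).1)) →
      ∃ α, D.L a₂ α ∧ α * α = -1 ∧ hd'.res α = hd'.res (g * D.ρ a * (g⁻¹).1) := fun {a _} e l =>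
    let ⟨α, l, e'⟩ := hd'.L'.1 l
    ⟨α, l, (hd'.sq_of_res (c := -1) l (by rw [e', ← hd'.res_mul (Commute.neg_right (u1 a)), u3 a e,
      map_neg, hd'.res_one, neg_one_smul])).trans (neg_one_smul _ _), e'⟩
  obtain ⟨α, a2, a3, a4⟩ := u5 ha l₃
  obtain ⟨β, b2, b3, b4⟩ := u5 hb l₄
  obtain ⟨n, n0, n1, -⟩ := h.exT ha hb (D.L_ρ _) (D.L_ρ _) (h.sq1 ha) (h.sq1 hb)
  obtain ⟨n', n0', n1', -⟩ := h.exT a1 b1 a2 b2 a3 b3
  have e1 : (g * n * g⁻¹).1 = (2 : F)⁻¹ • ((1 + g * D.ρ a * (g⁻¹).1) * (1 + g * D.ρ b * (g⁻¹).1)) := by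
    simp only [Units.val_mul, n1, mul_smul_comm, smul_mul_assoc, ← conj_mul]
    simp [mul_add, add_mul]
  have n2 := mul_mem (mul_mem hg n0) (inv_mem hg)
  generalize g * n * g⁻¹ = k at e1 n2
  obtain ⟨c1, c2⟩ := hd.half e1 (u1 a) (u1 b)
  obtain ⟨d1, d2⟩ := hd.half n1' (hd.cm _ a2) (hd.cm _ b2)
  obtain ⟨c3, c4⟩ := hd'.half e1 (Commute.neg_right (u1 a)) (Commute.neg_right (u1 b))
  obtain ⟨d3, d4⟩ := hd'.half n1' (hd'.cm _ a2) (hd'.cm _ b2)
  have c5 : (k * n'⁻¹).1 * r = r * (k * n'⁻¹).1 := Commute.mul_left c1 (Commute.units_inv_left d1)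
  have c6 := hd'.eq_of_res c3 d3 (by rw [c4, d4, a4, b4])
  rw [sub_neg_eq_add] at c6
  have c7 : n' * (1 + r) = (1 + r) * n' := Commute.add_right (.one_right _) d1
  obtain ⟨w, hw⟩ := (h.core6 h8 star hd hr hx).1 (hd.resU _ c5) (by
    rw [show Units.map hd.extM (hd.resU _ c5) = k * n'⁻¹ from Units.ext (hd.extM_res (by
      rw [Units.val_mul, mul_assoc, (Commute.units_inv_left c7).eq, ← mul_assoc, c6, conj_of_comm c7])
      c5)]
    exact mul_mem n2 (inv_mem n0'))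
  have sq : ∀ {α : End F V}, α * r = r * α → α * α = -1 → hd.res α * hd.res α = -1 :=
    fun e e' => by rw [← hd.res_mul e, e', map_neg, hd.res_one]
  have l1 := l₁.tv2 (n := hd.resU _ c1) l₂ (sq (u1 a) (u3 a ha)) (sq (u1 b) (u3 b hb)) c2 (hd.D'.L_ρ v)
  have l2 := hw.conj_self ((hd.L'.2 ⟨_, a2, rfl⟩).tv2 (n := hd.resU _ d1) (hd.L'.2 ⟨_, b2, rfl⟩)
    (sq (hd.cm _ a2) a3) (sq (hd.cm _ b2) b3) d2 (hd.D'.L_ρ v))
  rw [← conj_conj, show hd.resU _ c5 * hd.resU _ d1 = hd.resU _ c1 from Units.ext (by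
    simp [← hd.res_mul d1])] at l2
  exact l1.inj l2

theorem sing6' (hd : D.RD x s r W) (hd' : D.RD x s (-r) W') (hr : Iso C r) (hx : Q x = 0) (hg : g ∈ X)
    (c : g * r = r * g) : g ∈ D.Nm := by
  have c' : g * -r = -r * g := Commute.neg_right c
  have h1 := h.res hd hr
  have p2 : hd'.resU g c' ∈ hd'.P X := ⟨g, hg, c', rfl⟩
  obtain ⟨m, hm⟩ := Nm.act ((h.core6 h8 star hd hr hx).2 (⟨g, hg, c, rfl⟩ : hd.resU g c ∈ hd.P X))
  obtain ⟨m', hm'⟩ := Nm.act ((h.core6 h8 star hd' hr.neg hx).2 p2)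
  have d := hd.finrank_Ep
  have u4 : ∀ a : D.Ep x s, hd.D'.L (m a) (hd.res (g * D.ρ a * (g⁻¹).1)) := fun a => by
    rw [hd.res_conj g c (hd.cm a (D.L_ρ _))]; exact hm a _ (hd.D'.L_ρ a)
  have u5 : ∀ a : D.Ep x s, hd'.D'.L (m' a) (hd'.res (g * D.ρ a * (g⁻¹).1)) := fun a => by
    rw [hd'.res_conj g c' (hd'.cm a (D.L_ρ _))]; exact hm' a _ (hd'.D'.L_ρ a)
  have u6 : ∀ a : D.Ep x s, Q (m' a) = Q a := fun a =>
    (h.res hd' hr.neg).conjQ p2 (hm' a _ (hd'.D'.L_ρ a))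
  have inj : Function.Injective m := (injective_iff_map_eq_zero m).2 fun y e => by
    by_contra y0; exact (hd.D'.L_ρ y).ne_conj (hm y _ (hd.D'.L_ρ y)) y0 e
  have inj' : Function.Injective m' := (injective_iff_map_eq_zero m').2 fun y e => by
    by_contra y0; exact (hd'.D'.L_ρ y).ne_conj (hm' y _ (hd'.D'.L_ρ y)) y0 e
  obtain ⟨a, -, ha⟩ := h1.qf.exists_ns (U := ⊥) (.inl (by rw [finrank_bot]; omega))
  obtain ⟨a', e⟩ := Finite.injective_iff_surjective.1 inj (m' a)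
  obtain ⟨b, -, b2, b3⟩ := h1.qf.exists_out ha (.span _ {a}) (.span _ {a, a'}) (mem_span1.2 (.inr rfl))
    (mem_span2.2 (by simp)) (fun s hs => by rcases mem_span1.1 hs with rfl | rfl <;> simp [hd.D'.alt])
    (by have := rk1 a; have := rk2 a a'; omega)
  have a0 := h1.qf.ne ((u6 a).trans ha)
  have := mem_span2.1 (SS.mem_of_tv a0 (fun e => b2 (inj' e ▸ mem_span2.2 (by simp)))
    (h.graph6 h8 star hd hd' hr hx hg c ha b3 (u4 a) (u4 b) (u5 a) (u5 b) ((u6 a).trans ha)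
      ((u6 b).trans b3)))
  simp only [a0, false_or] at this
  simp only [← e, ← map_add, inj.eq_iff] at this
  obtain rfl : a' = a := this.resolve_right fun e => b2 (mem_span2.2 (by
    rcases e with rfl | rfl <;> simp [xxy]))
  obtain ⟨β, l, e'⟩ := hd.L'.1 (u4 a')
  obtain ⟨α, l', e''⟩ := hd'.L'.1 (u5 a')
  have u1 := conj_comm c (hd.cm a' (D.L_ρ _))
  exact (glue (c := -1) hd.L hd.ne hd.r2 u1 (by rw [conj_mul, h.sq1 ha]; simp) l l'
    (hd.eq_of_res u1 (hd.cm _ l) e'.symm) (by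
      simpa using hd'.eq_of_res (Commute.neg_right u1) (hd'.cm _ l') e''.symm)
    (.inl (by rw [e, xx]))).elim (star g hg _ _ ha) (star g hg _ _ ha)

theorem sing6 (x0 : x ≠ 0) (hx : Q x = 0) (hg : g ∈ X) (c : (g * D.ρ x : End F V) = D.ρ x * g) :
    g ∈ D.Nm :=
  let ⟨_, ⟨hd⟩⟩ := exists_RD (D.L_ρ x) x0 (h.sq0 hx)
  h.sing6' h8 star hd ⟨.std D.two (by simp [h.sq0 hx]), (D.L_ρ x).neg, hd.dual⟩ (h.iso _ (h.mem x)) hx hg c

omit star in
theorem of_loc6 (loc : ∀ y, Q y = 1 → ∀ g ∈ X, (g * D.ρ y : End F V) = D.ρ y * g →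
    ∀ w, D.B w y = 0 → ∃ z, D.L z (g * D.ρ w * (g⁻¹ : (End F V)ˣ))) : X ≤ D.Nm :=
  have star := fun g hg x y e => h.star5 (x := x) (y := y) (g := g) (by omega) loc e hg
  h.final (by omega) fun g hg x x0 y e => (z01 (Q x)).elim
    (fun e' => h.of_cent5 (by omega) x0 (fun _ => h.sing6 h8 star x0 e') hg e) (star g hg x y · e)

end CF

namespace CF

variable {D : PD F (End F V) E} {X : Subgroup (End F V)ˣ} {Q : E → ZMod 2} {y : E}
  (h : CF D X Q C) [Finite E] [Fintype F] [FiniteDimensional F V]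
  (h8 : finrank (ZMod 2) E = 6) (hp : (Fintype.card F).Prime)
include h h8 hp

open QuadraticAlgebra in
theorem dich6 (hy : Q y = 1) : (∀ g ∈ X, (g * D.ρ y : End F V) = D.ρ y * g → ∀ w, D.B w y = 0 →
    ∃ z, D.L z (g * D.ρ w * (g⁻¹ : (End F V)ˣ))) ∨ Big C (D.ρ y).1 X := by
  have := Fact.mk hp
  have := charP_of_card_eq_prime (R := F) rfl
  obtain ⟨s, hs⟩ := D.sep0 (h.qf.ne hy)
  have d := D.finrank_Ep hs
  have α2 := h.sq1 hy
  have hα := h.iso _ (h.mem y)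
  by_cases hI : ∃ I : F, I * I = -1
  · obtain ⟨I, II⟩ := hI
    refine h.dich (.ofIV II h.σ h.nd hα α2 (.std D.two (by simp [smul_smul, II, α2]))) hy hs
      fun ρ hρ hA _ => (hA.thmA (Fintype.card F) (fun a => nat_of_pow _ (FiniteField.pow_card a))
        (k := 0) (by omega)).imp_right fun H N N2 c _ => ?_
    exact (det_nil _ (by rw [← CR.mul _ _ c, N2, map_zero])).imp fun t e => ⟨mem_eqG.1 (H e.2), e.1⟩
  have : Fact (∀ r : F, r ^ 2 ≠ -1 + 0 * r) := ⟨fun r e => hI ⟨r, by simpa [_root_.sq] using e⟩⟩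
  obtain ⟨δ, d1, d2, d3⟩ : ∃ δ : (End F V)ˣ, δ * (D.ρ y).1 = (D.ρ y).1 * δ ∧
      (∀ u v, C.B u (δ.1 v) = C.B v (δ.1 u)) ∧ ∀ a, a * (D.ρ y).1 = (D.ρ y).1 * a → a * δ = δ * a := by
    exact ⟨D.ρ y, rfl, fun u v => by simp [alt_symm _ v, hα.skew α2], fun _ e => e⟩
  obtain ⟨C', hC⟩ := Cx.exists_herm α2 (LinearMap.mk₂ F (fun u v => C.B u (δ.1 v)) (by simp)
    (by simp [C.B_smul_left, h.σ]) (by simp) (by simp)) d2 fun u v => by
      simp [hα.skew α2, ← End.mul_apply, d1]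
  have i : ∀ a, a * (D.ρ y).1 = (D.ρ y).1 * a → Iso C a → Iso C' ((Cx.cr α2 D.two C).φ a) :=
    fun a c i u v => by
      have c1 := fun v => congr($c v)
      have c2 := fun v => congr($(d3 a c) v)
      simp only [End.mul_apply] at c1 c2
      simp [hC, Cx.cr_apply _ _ c, ← c1, ← c2, i _ _]
  have nd : C'.Nondeg := fun u e => (Cx.e α2).injective ((h.nd _ fun v => by
    simpa [hC, uinv'] using congrArg QuadraticAlgebra.re (e ((Cx.e α2).symm ((δ⁻¹).1 v)))).trans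
      (map_zero _).symm)
  have : Finite V := Module.finite_of_finite F
  have : Finite (Cx α2) := ‹Finite V›
  have := charP_of_injective_algebraMap (algebraMap F (QuadraticAlgebra F (-1) 0)).injective
    (Fintype.card F)
  have hσ := frob_ne_id (card_quadAlg (-1 : F) 0)
  refine h.dich (Cx.cr α2 D.two C) hy hs fun ρ hρ hA h1 => (indB (C := C') 1 ⟨hA, nd, fun w => ?_,
    fun g hg => ?_⟩ (by omega)).imp_right fun H N N2 c hN => ?_
  · obtain ⟨g, g0, g1, g2⟩ := h1 w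
    exact (g2 ▸ i _ g1 (h.iso g g0) : Iso C' (ρ w).1).sa (hA.sq w)
  · obtain ⟨_, ⟨g, g0, g1, g2⟩, c, -, e⟩ := mem_sup_sc.1 hg
    exact ⟨c * frob (card_quadAlg (-1 : F) 0) c, fun u v => by
      simp only [e, LinearMap.smul_apply, herm_B_smul_left, map_smul, smul_eq_mul, mul_assoc, g2,
        i _ g1 (h.iso g g0) _ _]⟩
  obtain ⟨t, t1, t2⟩ := det_nil (Fintype.card F) (show (Cx.cr α2 D.two C).φ N * (Cx.cr α2 D.two C).φ N = 0 by
    rw [← CR.mul _ _ c, N2, map_zero])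
  have t3 : Iso C' t.1 := by
    rw [t1, ← (Cx.cr α2 D.two C).one, ← map_add]; exact i _ (Commute.add_left (.one_left _) c) hN
  refine ⟨t, mem_eqG.1 (subG_le_herm hσ (exists_norm_of_finite (frob_frob _) hσ) nd
    (C'.nondegOn_top.2 nd) (.inl fun e => ?_) (fun v _ e _ hc => (H.1 v e).2 _ hc)
    ((nd.subG_top inf_le_left).ge ⟨⟨t3, fun a => ?_⟩, t2⟩)), t1⟩
  · have := ((Cx.cr α2 D.two C).D₀ (D.L_ρ y) hs).finrank_sq
    rw [← finrank_top, e, show finrank (ZMod 2) (D.Ep y s) = 3 + 1 by omega, pow_succ] at this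
    omega
  · rw [← herm_B_self, ← herm_B_self]; exact t3 a a

theorem dich_big6 : X ≤ D.Nm ∨ ∀ y, Q y = 1 → Big C (D.ρ y).1 X := by
  have : Finite (End F V) := Module.finite_of_finite F
  by_cases H : ∃ y, Q y = 1 ∧ Big C (D.ρ y).1 X
  · obtain ⟨y, hy, H⟩ := H
    refine .inr fun z hz => ?_
    obtain ⟨n, n0, -, n1⟩ := h.move5 (by omega) (h.qf.ne hy) (h.qf.ne hz) (hy.trans hz.symm)
    have := H.conj h.iso n0
    rcases (n1 _ (D.L_ρ y)).pm (D.L_ρ z) (by rw [conj_mul, h.sq1 hy, h.sq1 hz]; simp) with e | e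
    · exact e ▸ this
    · exact fun N N2 c => this N N2 (by simp [e, c])
  · exact .inl (h.of_loc6 h8 fun y hy => (h.dich6 h8 hp hy).resolve_right fun e => H ⟨y, hy, e⟩)

end CF

variable {D : PD F (End F V) E} {X R G : Subgroup (End F V)ˣ} {Q : E → ZMod 2} {y : E}
  [Finite E] [Fintype F] [FiniteDimensional F V]

theorem maxCD6 (hC : C.Nondeg) (h8 : finrank (ZMod 2) E = 6) (hp : (Fintype.card F).Prime) (h1 : ∀ x, D.ρ x ∈ R)
    (h2 : ∀ g ∈ R, ∃ x, D.L x g.1) (h3 : -1 ∈ R) (hR : ∀ g ∈ R, Iso C g.1) (hG : ∀ g ∈ G, Iso C g.1)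
    (hsq : ∀ g : (End F V)ˣ, Iso C g.1 → g * g ∈ G)
    (hN : ∀ x s r, D.RD x s r (LinearMap.ker (r + 1)) → SA C r → D.Nil G)
    (hB : ∀ H Q, CF D H Q C → H ≤ G → (∀ y α, Q y = 1 → D.L y α → α * α = -1 → Big C α H) → G ≤ H) :
    IsMaximalIn G (Subgroup.normalizer (R : Set (End F V)ˣ) ⊓ G) := by
  classical
  have hσ : ∀ a, (altType F).σ a = a := alt_sigma
  have : Finite (End F V) := Module.finite_of_finite F
  have pm : ∀ {x a}, D.L x a → Iso C a → a = D.ρ x ∨ a = -D.ρ x := fun {x _} ⟨c, _, e⟩ i => by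
    rcases mul_self_eq_one_iff.1 ((hR _ (h1 x)).pm hσ hC D (e ▸ i)) with rfl | rfl <;> simp [e]
  let Q : E → ZMod 2 := fun x => if (D.ρ x).1 * D.ρ x = 1 then 0 else 1
  have sq : ∀ x, (D.ρ x).1 * D.ρ x = D.sg (Q x) • 1 := fun x => by
    obtain ⟨c, -, e⟩ := (D.L_ρ x).sq
    rcases mul_self_eq_one_iff.1 (iso_one.pm hσ hC D (e ▸ (hR _ (h1 x)).mul (hR _ (h1 x)))) with rfl | rfl
    · simp [Q, e, sg]
    · simp [Q, e, sg, show (-1 : End F V) ≠ 1 from fun e => (L_one (D := D)).ne (D.two_smul_eq e.symm)]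
  have qf : D.QF Q := fun x y => sg_inj (D := D) (smul_left_injective F (L_one (D := D)).ne (by
    have e : (D.ρ x).1 * D.ρ y * ((D.ρ x).1 * D.ρ y) = (D.ρ (x + y)).1 * D.ρ (x + y) := by
      rcases pm ((D.L_ρ x).mul (D.L_ρ y)) ((hR _ (h1 x)).mul (hR _ (h1 y))) with e | e <;> simp [e]
    rw [mul_assoc, ← mul_assoc (D.ρ y).1, (D.L_ρ y).sg (D.L_ρ x), smul_mul_assoc, mul_smul_comm,
      mul_assoc, sq, ← mul_assoc, sq, sq, D.symm y] at e
    beta_reduce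
    rw [← e]
    rcases z01 (Q x) with a | a <;> rcases z01 (Q y) with b | b <;> rcases z01 (D.B x y) with c | c <;>
      simp [a, b, c, sg, z11]))
  have sq1 : ∀ {x}, Q x = 1 → (D.ρ x).1 * D.ρ x = -1 := fun e => by simp [sq, e, sg]
  have iL : ∀ {x a}, Q x = 1 → D.L x a → a * a = -1 → Iso C a := fun {x _} e l e' =>
    (l.pm (D.L_ρ x) (e'.trans (sq1 e).symm)).elim (· ▸ hR _ (h1 x)) (· ▸ (hR _ (h1 x)).neg)
  have ex : ∀ {α β : End F V}, α * α = -1 → β * β = -1 → ∃ n : (End F V)ˣ,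
      n.1 = (2 : F)⁻¹ • ((1 + α) * (1 + β)) := fun e e' =>
    ⟨(L_one.smul (D := D) (inv_ne_zero D.two)).isUnit.unit * (D.tu _ e * D.tu _ e'), by simp [tu_val]⟩
  obtain ⟨a, -, ha⟩ := qf.exists_ns (U := ⊥) (.inl (by rw [finrank_bot]; omega))
  have neg : -1 ∈ G := (Units.ext (sq1 ha) : D.ρ a * D.ρ a = -1) ▸ hsq _ (hR _ (h1 a))
  have T0 : ∀ {α β : End F V} {n : (End F V)ˣ}, Iso C α → Iso C β → α * α = -1 → β * β = -1 →
      α * β = -(β * α) → n.1 = (2 : F)⁻¹ • ((1 + α) * (1 + β)) → n ∈ G := fun {α β n} i i' e e' an e1 => by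
    have i1 : Iso C n.1 := e1 ▸ i.half hσ D.two i' e e'
    have e2 : n.1 * n = n - 1 := by
      have e3 : ∀ x, α * (α * x) = -x := fun x => by rw [← mul_assoc, e]; simp
      have e4 : ∀ x, β * (α * x) = -(α * (β * x)) := fun x => by rw [← mul_assoc, ← mul_assoc, an]; simp
      have e5 : β * α = -(α * β) := by simp [an]
      simp only [e1, smul_mul_assoc, mul_smul_comm, mul_add, add_mul, mul_one, one_mul, mul_assoc, e, e',
        e3, e4, e5, mul_neg, neg_neg]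
      have := D.two
      match_scalars <;> field_simp <;> ring
    refine (Units.ext ?_ : -1 * (n * n * (n * n)) = n) ▸ mul_mem neg (hsq _ (i1.mul i1))
    simp only [Units.val_mul, e2, mul_sub, sub_mul, Units.val_neg, Units.val_one]
    noncomm_ring
  have T : ∀ {a b α β} {n : (End F V)ˣ}, Q a = 1 → Q b = 1 → D.L a α → D.L b β → α * α = -1 →
      β * β = -1 → n.1 = (2 : F)⁻¹ • ((1 + α) * (1 + β)) → n ∈ G := fun {a b α β n} ha hb l l' e e' e1 => by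
    obtain ⟨w, w1, w2, w3⟩ := qf.exists_an5 (by omega) (qf.ne ha) (qf.ne hb) 1
    have w4 : -(D.ρ w).1 * -(D.ρ w).1 = -1 := by simp [sq1 w3]
    obtain ⟨m, hm⟩ := ex e (sq1 w3)
    obtain ⟨m', hm'⟩ := ex w4 e'
    refine (Units.ext ?_ : m * m' = n) ▸ mul_mem (T0 (iL ha l e) (hR _ (h1 w)) e (sq1 w3)
      (l.an (D.L_ρ w) ((D.symm _ _).trans w1)) hm) (T0 (hR _ (h1 w)).neg (iL hb l' e') w4 e'
        ((D.L_ρ w).neg.an l' w2) hm')
    rw [Units.val_mul, hm, hm', e1, smul_mul_assoc, mul_smul_comm, mul_assoc (1 + α), ← mul_assoc (1 + (D.ρ w).1),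
      show (1 + (D.ρ w).1) * (1 + -(D.ρ w).1) = (2 : F) • 1 by
        simp [mul_add, add_mul, sq1 w3, two_smul]; abel,
      smul_mul_assoc, mul_smul_comm, inv_smul_smul₀ D.two, one_mul]
  have T1 : ∀ {x} {g : (End F V)ˣ}, Q x = 1 → D.L x g.1 → g.1 * g = -1 → g ∈ G := fun e l e' =>
    T e e l l e' e' (by rw [eq_inv_smul_iff₀ D.two]; simp [mul_add, add_mul, e', two_smul]; abel)
  have mem : ∀ x, D.ρ x ∈ G := fun x => (z01 (Q x)).elim (fun e => by
    obtain ⟨w, w1, w2⟩ := qf.exists_ns (U := .span _ {x}) (.inl (by have := rk1 x; omega))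
    have w3 := w1 x (mem_span1.2 (.inr rfl))
    simpa using mul_mem (T1 (g := D.ρ x * D.ρ w) (by rw [qf, e, w2, w3]; simp) ((D.L_ρ x).mul (D.L_ρ w))
      (by rw [Units.val_mul, mul_assoc, ← mul_assoc (D.ρ w).1, ← (D.L_ρ x).cm (D.L_ρ w) w3, mul_assoc,
        sq1 w2, mul_neg, mul_one, mul_neg, sq, e]; simp [sg])) (inv_mem (T1 w2 (D.L_ρ w) (sq1 w2))))
    fun e => T1 e (D.L_ρ x) (sq1 e)
  obtain ⟨x, x1, -, x2⟩ := qf.exists_an5 (by omega) (qf.ne ha) (qf.ne ha) 0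
  have x3 : (D.ρ x).1 * D.ρ x = 1 := by simp [sq, x2, sg]
  obtain ⟨s, ⟨hd⟩⟩ := exists_RD (D.L_ρ x) (by rintro rfl; simp at x1) x3
  refine D.isMax h1 h2 (fun g hg t ht y e => ?_) (hN _ _ _ hd ((hR _ (h1 x)).sa x3)) fun H a b => ?_
  · rcases pm e (((hG g hg).mul (hR t ht)).mul (hG _ (inv_mem hg))) with e | e
    · exact Units.ext e ▸ h1 y
    · exact (Units.ext (by simp [e]) : -1 * D.ρ y = g * t * g⁻¹) ▸ mul_mem h3 (h1 y)
  have h : CF D H Q C := ⟨⟨qf, sq, fun x => a ⟨(D.L_ρ x).mem_Nm, mem x⟩,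
    a ⟨L.mem_Nm (L_one.neg (D := D)), neg⟩, fun g hg c e => iso_one.pm hσ hC D (e ▸ hG g (b hg)),
    fun a' b' α β ha hb l l' e e' => let ⟨n, hn⟩ := ex e e'; ⟨n, a ⟨mem_Nm_of_smul
      (k := D.tu α e * D.tu β e') hn (mul_mem (tu_mem e l) (tu_mem e' l')), T ha hb l l' e e' hn⟩, hn⟩⟩,
    hσ, hC, fun g hg => hG g (b hg)⟩
  exact (h.dich_big6 h8 hp).imp_right fun H' => hB H Q h b fun y α hy l e N N2 c =>
    H' y hy N N2 (by rcases l.pm (D.L_ρ y) (e.trans (sq1 hy).symm) with rfl | rfl <;> simpa using c)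

theorem CF.sp_le6 (h : CF D X Q C) (h8 : finrank (ZMod 2) E = 6)
    (H : ∀ y α, Q y = 1 → D.L y α → α * α = -1 → Big C α X) : C.isom ≤ eqG X := by
  have hX : eqG X ≤ C.isom := fun g hg => ⟨fun u v => by
    obtain ⟨g, rfl⟩ := eqv.surjective g; exact h.iso _ (mem_eqG.1 hg) u v, fun _ => by simp [alt_N]⟩
  have tw : ∀ {y α u}, Q y = 1 → D.L y α → α * α = -1 → Iso C α → C.B u (α u) = 0 → ∀ c : F, ∃ t ∈ X,
      ∀ v, t.1 v = v + c • (C.B u v • u + C.B (α u) v • α u) := fun {y α u} hy l α2 i e c => by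
    have a1 : ∀ v, α (α v) = -v := fun v => congr($α2 v)
    have s := i.skew α2
    exact (H y α hy l α2 (c • ((C.B u).smulRight u + (C.B (α u)).smulRight (α u)))
      (by ext; simp [s, a1, e, alt_B_self]) (by ext; simp [s, a1]; module) fun v w => by
        simp [alt_sigma, s, a1, e, alt_B_self, alt_symm u v, alt_symm (α u) v]; ring).imp
      fun t e => ⟨e.1, fun v => by simp [e.2]⟩
  have q8 : ∀ {a}, Q a = 1 → ∃ b, Q b = 1 ∧ D.B a b = 1 := fun ha =>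
    let ⟨b, b1, _, b2⟩ := h.qf.exists_an5 (by omega) (h.qf.ne ha) (h.qf.ne ha) 1
    ⟨b, b2, (D.symm _ _).trans b1⟩
  have γ2 : ∀ {α β : End F V}, α * α = -1 → β * β = -1 → α * β = -(β * α) → α * β * (α * β) = -1 :=
    fun {α β} e e' an => by
      conv_lhs => rw [mul_assoc, ← mul_assoc β, ← neg_neg (β * α), ← an]
      simp [← mul_assoc, e, e']
  obtain ⟨p, p0, hp⟩ : ∃ p, p ≠ 0 ∧ TvAll (eqG X) C p := by
    obtain ⟨a, -, ha⟩ := h.qf.exists_ns (U := ⊥) (.inl (by rw [finrank_bot]; omega))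
    obtain ⟨b, hb, e⟩ := q8 ha
    obtain ⟨x, x1, x2, x3⟩ := h.qf.exists_an5 (by omega) (h.qf.ne ha) (h.qf.ne hb) 0
    obtain ⟨s, ⟨hd⟩⟩ := exists_RD (D.L_ρ x) (by rintro rfl; simp at x1) (h.sq0 x3)
    have d := dvd_of_sq (k := 0) (j := 2) (h8 ▸ hd.finrank_eq.2 :)
    obtain ⟨w, -, w0, w1⟩ := exists_singular_mem ((thQ (D.ρ a * D.ρ b).1 C).comp hd.ι) (W := ⊤)
      (by rw [finrank_top]; omega)
    have o : ∀ {z}, D.B x z = 1 → C.B (hd.ι w) ((D.ρ z).1 (hd.ι w)) = 0 := fun {z} e =>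
      ((h.iso _ (h.mem x)).sa hd.r2).orth D.two (hd.r_ι w) (by
        simpa [hd.r_ι] using congr($((D.L_ρ x).an (D.L_ρ z) e) (hd.ι w)))
    have o1 := o x1
    have o2 := o x2
    replace w1 : C.B (hd.ι w) ((D.ρ a).1 ((D.ρ b).1 (hd.ι w))) = 0 := w1
    refine ⟨hd.ι w, fun e => w0 (hd.ι_inj (by simpa)), fun c => ?_⟩
    generalize hd.ι w = p at *
    have an := (D.L_ρ a).an (D.L_ρ b) e
    have a1 : ∀ v, (D.ρ a).1 ((D.ρ a).1 v) = -v := fun v => congr($(h.sq1 ha) v)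
    have b1 : ∀ v, (D.ρ b).1 ((D.ρ a).1 v) = -(D.ρ a).1 ((D.ρ b).1 v) := fun v => by
      simpa [neg_eq_iff_eq_neg] using congr(-$an v).symm
    have i := h.iso _ (h.mem a)
    have s := i.skew (h.sq1 ha)
    have s' := (h.iso _ (h.mem b)).skew (h.sq1 hb)
    obtain ⟨t, t0, t1⟩ := tw ha (D.L_ρ a) (h.sq1 ha) i o1 (-c / 2)
    obtain ⟨t', t0', t1'⟩ := tw (y := a + b) (u := p) (by rw [h.qf, ha, hb, e]; rfl)
      ((D.L_ρ a).mul (D.L_ρ b)) (γ2 (h.sq1 ha) (h.sq1 hb) an) (i.mul (h.iso _ (h.mem b))) w1 (-c / 2)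
    obtain ⟨t'', t0'', t1''⟩ := tw (u := (D.ρ a).1 p) hb (D.L_ρ b) (h.sq1 hb) (h.iso _ (h.mem b))
      (by simp [b1, i _ _, o2]) (c / 2)
    refine ⟨_, mem_eqG.2 (mul_mem (mul_mem t0 t0') t0''), fun v => ?_⟩
    change t.1 (t'.1 (t''.1 v)) = _
    have := D.two
    simp only [t1, t1', t1'', End.mul_apply, b1, map_add, map_smul, map_neg, i _ _, alt_B_self, o1, o2, w1,
      alt_symm p ((D.ρ a).1 _), alt_symm p ((D.ρ b).1 _), LinearMap.neg_apply, map_zero]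
    match_scalars <;> field_simp <;> ring
  obtain ⟨z, hz⟩ := D.exists_ne p0 (φ := C.B p) fun e => p0 (h.nd _ fun v => by simp [e])
  have hq := hp.conj (mem_eqG.2 (h.mem z)) hX
  change TvAll _ _ ((D.ρ z).1 p) at hq
  generalize (D.ρ z).1 p = q at hz hq
  obtain ⟨S, s1, s2, s3, s4⟩ := (enlarge_alt h.nd one_pos (.inl ⟨-1, by simp, fun e =>
    D.two (by linear_combination -e)⟩)).exists_max hX (S₀ := .span F {p, q}) (fun x hx e => by
      obtain ⟨a, b, rfl⟩ := Submodule.mem_span_pair.1 hx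
      have e1 := e p (Submodule.subset_span (by simp))
      have e2 := e q (Submodule.subset_span (by simp))
      simp [alt_B_smul_left, alt_B_self, alt_symm p q, hz] at e1 e2
      simp [e1, e2])
    (Submodule.one_le_finrank_iff.2 fun e => p0 (e.le (Submodule.subset_span (by simp))))
    (subG_le_alt h.nd (fun x hx e => by
      obtain ⟨a, b, rfl⟩ := Submodule.mem_span_pair.1 hx
      have e1 := e p (Submodule.subset_span (by simp))
      have e2 := e q (Submodule.subset_span (by simp))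
      simp [alt_B_smul_left, alt_B_self, alt_symm p q, hz] at e1 e2
      simp [e1, e2]) fun u hu c => by
        obtain ⟨a, b, rfl⟩ := Submodule.mem_span_pair.1 hu
        have : TvAll (eqG X) C (a • p + b • q) := by
          by_cases a0 : a = 0
          · by_cases b0 : b = 0
            · exact fun _ => ⟨1, one_mem _, by simp [a0, b0]⟩
            exact .of_smul (c := b⁻¹) (by simpa [a0, b0] using hq) (inv_ne_zero b0)
          exact .of_smul (c := a⁻¹) (by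
            simpa [a0, smul_smul] using hp.add hq hX (C.B_swap_ne hz) (a⁻¹ * b)) (inv_ne_zero a0)
        generalize a • p + b • q = u at this
        exact (this (-c)).imp fun g e => ⟨e.1, fun x => by simp [e.2]⟩)
    fun r r0 => let ⟨y, hy⟩ := D.exists_ne p0 (φ := C.B r) fun e => r0 (h.nd _ fun v => by simp [e])
      ⟨_, mem_eqG.2 (h.mem y), p, Submodule.subset_span (by simp), C.B_swap_ne hy⟩
  have S0 : S ≠ ⊥ := fun e => p0 ((s1.trans e.le) (Submodule.subset_span (by simp)))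
  have s5 : ∀ g ∈ X, (∀ s ∈ S, g.1 s ∈ S) ∨ ∀ s ∈ S, g.1 s ∈ C.perp S := fun g hg =>
    (s4 _ (mem_eqG.2 hg)).imp (fun e s hs => e.le ⟨s, hs, rfl⟩) fun e s hs => e ⟨s, hs, rfl⟩
  have s6 : ∀ {y}, ∀ g ∈ X, Q y = 1 → D.L y g.1 → ∀ s ∈ S, g.1 s ∈ S := fun g hg hy l =>
    (s5 g hg).resolve_right fun e => by
      obtain ⟨b, hb, e'⟩ := q8 hy
      have g2 : g.1 * g = -1 := by simpa [hy, sg] using h.Lsq hg l
      obtain ⟨n, n0, n1, -⟩ := h.exT hy hb l (D.L_ρ b) g2 (h.sq1 hb)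
      refine S0 (q8_prim (C.nondegOn_iff.1 s2) D.two g2 (h.sq1 hb) (l.an (D.L_ρ b) e') n1 e ?_)
      rintro _ (rfl | rfl | rfl)
      exacts [s5 _ (h.mem b), s5 _ (mul_mem hg (h.mem b)), s5 _ n0]
  obtain rfl := D.eq_top S0 fun y => (z01 (Q y)).elim (fun e v hv => by
    obtain ⟨w, w1, w2⟩ := h.qf.exists_ns (U := .span _ {y}) (.inl (by have := rk1 y; omega))
    simpa [← End.mul_apply (D.ρ w).1, h.sq1 w2] using s6 _ (mul_mem (h.mem y) (h.mem w)) (by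
      rw [h.qf, e, w2, w1 y (mem_span1.2 (.inr rfl))]; simp) ((D.L_ρ y).mul (D.L_ρ w)) _
      (s6 _ (h.mem w) w2 (D.L_ρ w) v hv)) fun e => s6 _ (h.mem y) e (D.L_ρ y)
  exact (h.nd.subG_top le_rfl).ge.trans s3

variable (h8 : finrank (ZMod 2) E = 6) (hp : (Fintype.card F).Prime) (h1 : ∀ x, D.ρ x ∈ R)
  (h2 : ∀ g ∈ R, ∃ x, D.L x g.1) (h3 : -1 ∈ R)
include h8 hp h1 h2 h3

theorem maxC6 (hC : C.Nondeg) (hR : ∀ g ∈ R, eqv g ∈ C.isom) :
    IsMaximalIn (C.isom.comap eqv.toMonoidHom)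
      (Subgroup.normalizer (R : Set (End F V)ˣ) ⊓ C.isom.comap eqv.toMonoidHom) := by
  refine maxCD6 hC h8 hp h1 h2 h3 (fun g hg => (hR g hg).1) (fun g hg => hg.1)
    (fun g i => ⟨i.mul i, fun _ => by simp [alt_N]⟩) (fun x s r hd hr => ?_)
    fun H Q h _ hB g hg => mem_eqG.1 (h.sp_le6 h8 hB hg)
  have := hd.D'.nt
  obtain ⟨w, w0⟩ : ∃ w : LinearMap.ker (r + 1), w ≠ 0 := by
    by_contra! hn; exact (L_one (D := hd.D')).ne (LinearMap.ext fun w => hn _)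
  refine nil_of_tr hd w0 (φ := (C.comap hd.ι).B w) (fun e => w0 (hd.nondeg hr hC _ fun v => by simp [e]))
    (alt_B_self _) ?_
  convert (tr_subG (C := C) (G := C.isom) inf_le_left (S := ⊤) (c := 1) trivial (alt_N (hd.ι w))
    (by simp [TvOk, altType])).mono (subG_le _) using 1
  ext v; simpa using hd.B_pj hr w v

end

variable {F : Type*} [Field F] [Fintype F]

theorem sp_c6_8 (hp : (Fintype.card F).Prime) {R : Subgroup (GL (Fin 4 ⊕ Fin 4) F)}
    (h : IsSymplecticTypeGroup 2 R) (hi : ActsAbsolutelyIrreducibly (matrixSet R)) (hR : R ≤ spGL 4 F) :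
    IsMaximalIn (spGL 4 F) (subgroupNormalizer R ⊓ spGL 4 F) := by
  have hE := H21.C6.eData_of (by simp) h hi
  obtain ⟨E, D, h1, h2⟩ := exists_PD hE
  have d := D.finrank_sq
  rw [Module.finrank_fintype_fun_eq_card] at d
  rw [spGL_eq] at hR ⊢
  exact bridge (maxC6 (Nat.pow_right_injective le_rfl (d.symm.trans (by simp))) hp h1 h2 ⟨-1,
    H21.C6.neg_mem_R hE (one_mem _), Units.ext (by simp [toE_val]; rfl)⟩ spForm_nondeg
    (by rintro _ ⟨x, hx, rfl⟩; exact hR hx))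

end H12.C6
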