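import Cfsg.Agent.H12.RatLow

/-!
# Orthogonal subfield subgroups of unitary groups in dimension at least nine
-/

set_option autoImplicit false
set_option maxHeartbeats 400000

namespace H12

open Module H11 Submodule Cfsg.Geo

variable {K F : Type*} [Field K] [Field F] [Algebra K F] {V₀ V : Type*} [AddCommGroup V₀]
  [Module K V₀] [AddCommGroup V] [Module F V] [Module K V] [IsScalarTower K F V]
  {ι : V₀ →ₗ[K] V} {X : Subgroup (V ≃ₗ[F] V)}

local notation "𝔣" => algebraMap K F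

theorem Rat.exists_two (h : Rat F ι) {θ : F} (h2 : ∀ α, ∃ k k', α = 𝔣 k + 𝔣 k' * θ) (w : V) :
    ∃ p q, w = ι p + θ • ι q := by
  simpa using h.mem (Z :=
    { carrier := {w | ∀ c : F, ∃ p q, c • w = ι p + θ • ι q}
      zero_mem' := fun _ => ⟨0, 0, by simp⟩
      add_mem' := fun ha hb c => by
        obtain ⟨p, q, e⟩ := ha c
        obtain ⟨p', q', e'⟩ := hb c
        exact ⟨p + p', q + q', by rw [smul_add, e, e', map_add, map_add]; module⟩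
      smul_mem' := fun d _ ha c => by rw [smul_smul]; exact ha _ })
    (fun x c => let ⟨k, k', e⟩ := h2 c
      ⟨k • x, k' • x, by rw [e, ι_smul (F := F), ι_smul (F := F)]; module⟩) w 1

variable [FiniteDimensional K V₀] [FiniteDimensional F V] [Finite F] [Finite V₀]

theorem RW.le_of_line_two {T : FormType F} {T₀ : FormType K} {C : CForm T V} {C₀ : CForm T₀ V₀}
    (h : RW ι C C₀ X) (hQ : RatQ ι C C₀ X)
    (hT : ∀ u, C₀.N u = 0 → ∀ s ∈ X, s ∈ cen (span F {ι u}) → s = 1) (h2 : (2 : F) ≠ 0) {θ : F}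
    (hθ : ∀ α, ∃ k k', α = 𝔣 k + 𝔣 k' * θ) (hd : 9 ≤ finrank K V₀) : X ≤ ratStab F ι := by
  have := Module.finite_of_finite F (M := V)
  obtain ⟨a, ha, ha0⟩ := h.sing
  obtain ⟨b, e⟩ := h.tsp ha ha0
  have te := h.map_tsp e
  have ti := h.ti_line hQ hT e
  by_contra hc
  obtain ⟨k, hk⟩ := exists_maxK (L := span F {ι a, ι b}) hc
  set L := span F {ι a, ι b}
  set M := L.map (k : V →ₗ[F] V)
  have dM : finrank F M = 2 := by rw [finrank_map_equiv, te.finrank_eq]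
  have h0 : L ⊓ M = ⊥ := by
    refine (Submodule.eq_bot_iff _).2 fun l ⟨a1, a2⟩ => by_contra fun h0 => ?_
    obtain ⟨m, m1, m2⟩ : ∃ m ∈ M, m ∉ L := by
      by_contra hc
      push Not at hc
      exact hk.nm (ti.stab hk.mem (mem_glStab_of_mapsTo fun x hx => hc _ ⟨x, hx, rfl⟩))
    obtain ⟨p, q, rfl⟩ := h.rat.exists_two hθ m
    obtain ⟨u, u1, u2, u3⟩ := h.iso.exists_perpL h.nd₀ [a, b, p, q] [] (by simp; omega)
    obtain ⟨w, w1, w2, w3⟩ := h.iso.exists_perpL h.nd₀ [a, b, p, q, u] [u] (by simp; omega)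
    obtain ⟨g, g1, g2, g3, g4⟩ := h.witt2 e ⟨u3, w3, w1 u (by simp), ne_zero_of_not_mem u2,
      not_mem_span_of_spanL w2 (by simp)⟩
    obtain ⟨s, s1, s2, s3⟩ := ti.ex
    have b1 : ∀ x, C.B x (ι u) = 0 → C.B x (ι w) = 0 → (g * s * g⁻¹) x = x := fun x c1 c2 => by
      rw [LinearEquiv.mul_apply, LinearEquiv.mul_apply, ti.fix s1 s2 (C.mem_perp_pair.2
        ⟨C.B_swap_zero _, C.B_swap_zero _⟩), apply_inv_apply]
      · rwa [← CForm.isom_B (h.le g1), apply_inv_apply, g3]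
      · rwa [← CForm.isom_B (h.le g1), apply_inv_apply, g4]
    have b2 : M = span F {l, ι p + θ • ι q} := (eq_of_le_of_finrank_eq (span_le.2 (by
      rintro _ (rfl | rfl); exacts [a2, m1])) (by
        rw [dM, finrank_span_pair_of_not_mem h0 fun e =>
          m2 ((span_singleton_le_iff_mem _ _).2 a1 e)])).symm
    have b3 : ∀ x ∈ M, (g * s * g⁻¹) x = x := fun x hx => by
      obtain ⟨c, d, rfl⟩ := mem_span_pair.1 (b2 ▸ hx)
      obtain ⟨α, β, rfl⟩ := mem_span_pair.1 a1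
      refine b1 _ ?_ ?_ <;> simp [h.B0, u1, w1]
    have g5 := h.rat.mem_ratStab_one g2
    refine hk.nm ((mul_mem_cancel_left (inv_mem g5)).1 (ti.hR _ (mul_mem (inv_mem g1) hk.mem)
      s s1 s2 s3 (ti.stab (mul_mem (mul_mem (inv_mem (mul_mem (inv_mem g1) hk.mem)) s1)
        (mul_mem (inv_mem g1) hk.mem)) (mem_glStab_of_mapsTo fun x hx => ?_))))
    rwa [show (g⁻¹ * k)⁻¹ * s * (g⁻¹ * k) = k⁻¹ * (g * s * g⁻¹) * k by group, LinearEquiv.mul_apply,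
      LinearEquiv.mul_apply, b3 (k x) ⟨x, hx, rfl⟩, inv_apply_apply]
  have key : ∀ u w, TSP C₀ u w → ∀ x ∈ M, C.B (ι u) x = 0 → C.B (ι w) x = 0 → x = 0 :=
    fun u w e' x hx a1 a2 => by
      obtain ⟨g, hg, b1, b2, b3⟩ := h.witt2 e e'
      exact ti.perp_eq_zero hk h0 hg (h.rat.mem_ratStab_one b1) hx fun l hl => by
        obtain ⟨c, d, rfl⟩ := mem_span_pair.1 hl
        simp [b2, b3, a1, a2]
  obtain ⟨g, g1, g2, -, g3, g4, g5⟩ := ti.fr_odd h2 hk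
  obtain ⟨d, -, d1, d2, d3⟩ := h.ix a b e
  obtain ⟨x, t, a1, a2⟩ := h.rat.exists_sub (h.rat.isRat_of_sub g2 d3 (span_pair_le
    (g5 _ (C.mem_perp_pair.2 ⟨h.B0 d1, h.B0 d2⟩)))) g4
  obtain ⟨l, hl, m, hm, e'⟩ := mem_sup.1 (a1 ▸ g3 (ι x))
  obtain ⟨l₀, l1, l2, l3⟩ := exists_perp_in_pair C₀ e.nm e.ne t
  obtain ⟨u, u1, u2, u3⟩ := h.iso.exists_perpL h.nd₀ [a, b, t] [l₀] (by simp; omega)
  have u4 := C₀.mem_perp_pair.2 ⟨u1 a (by simp), u1 b (by simp)⟩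
  refine a2 ?_
  rw [← e', key l₀ u ⟨e.ts.1 _ l1, u3, C₀.mem_perp.1 u4 _ l1, l2,
    not_mem_span_of_spanL u2 (by simp)⟩ m hm ?_ ?_, add_zero]
  · exact hl
  · rw [eq_sub_iff_add_eq'.2 e', map_sub, h.B0 (C₀.B_swap_zero l3),
      te.ts.2 _ (ι_mem_pair l1) _ hl, sub_zero]
  · rw [eq_sub_iff_add_eq'.2 e', map_sub, h.B0 (C₀.B_swap_zero (u1 t (by simp))),
      C.mem_perp'.1 (C.mem_perp_pair.2 ⟨h.B0 (u1 a (by simp)), h.B0 (u1 b (by simp))⟩) _ hl,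
      sub_zero]

omit [FiniteDimensional K V₀] [Finite F] [Finite V₀] in
theorem rq_of_cen {σ : F →+* F} {hσ2 : ∀ a, σ (σ a) = a} {C : CForm (hermType σ hσ2) V}
    (hC : C.Nondeg) (hX : X ≤ C.isom) {u : V} {s : V ≃ₗ[F] V} (hs : s ∈ X)
    (hs' : s ∈ cen (span F {u})) (h1 : s ≠ 1) : ∃ a, a ≠ 0 ∧ Rq C X u 0 a := by
  obtain ⟨y, hy⟩ := not_forall.1 (not_mem_cen_bot h1)
  obtain ⟨c, hc⟩ := mem_span_singleton.1 (hs' y)
  have a1 : ∀ x, C.B u x = 0 → s x = x := fun x hx =>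
    hC.cen_fix (hX hs) hs' (C.mem_perp_singleton.2 hx)
  have a2 : C.B u y ≠ 0 := fun e => hy (by simp [a1 y e])
  refine ⟨-(c / C.B u y), neg_ne_zero.2 (div_ne_zero (by rintro rfl; exact hy (by simp [← hc])) a2),
    s, hs, fun x => ?_⟩
  have := a1 (x - (C.B u x / C.B u y) • y) (by simp [a2])
  rw [map_sub, map_smul, sub_eq_iff_eq_add, eq_add_of_sub_eq' hc.symm] at this
  rw [this]
  match_scalars <;> simp
  field_simp

theorem isMaximalIn_rat_herm_quad' (hR : Rat F ι) (hmax : MaxSub K F)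
    (hne : ∃ α : F, ∀ k : K, α ≠ algebraMap K F k) {σ : F →+* F} {hσ2 : ∀ a, σ (σ a) = a}
    {C : CForm (hermType σ hσ2) V} (hσ : σ ≠ RingHom.id F) (hC : C.Nondeg) (hd : 9 ≤ finrank K V₀)
    (hK : ∀ k, σ (𝔣 k) = 𝔣 k) (h2 : (2 : F) ≠ 0) (hr : ∀ x y, ∃ k, C.B (ι x) (ι y) = 𝔣 k) :
    IsMaximalIn (C.isom ⊓ SLV F V) (ratStab F ι ⊓ (C.isom ⊓ SLV F V)) := by
  have := Finite.of_injective _ (𝔣).injective
  obtain ⟨B₀, hB⟩ := exists_restrB C (σ₀ := RingHom.id K) hK hr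
  obtain ⟨θ, hθ⟩ := hmax.two hσ hσ2 hK
  have h3 : (2 : K) ≠ 0 := fun e => h2 (by rw [← map_ofNat 𝔣, e, map_zero])
  let Q₀ : QuadraticForm K V₀ := LinearMap.BilinMap.toQuadraticMap ((2⁻¹ : K) • B₀)
  have hB' : ∀ x y, 1 * C.B (ι x) (ι y) = 𝔣 ((CForm.ofQuad Q₀).B x y) := fun x y => by
    rw [CForm.ofQuad_B, LinearMap.BilinMap.polar_toQuadraticMap, one_mul, hB,
      LinearMap.smul_apply, LinearMap.smul_apply, LinearMap.smul_apply, LinearMap.smul_apply,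
      show B₀ y x = B₀ x y from (𝔣).injective (by rw [← hB, herm_symm, hB, hK])]
    congr 1
    simp only [smul_eq_mul]; field_simp; ring
  have h0 : QNondeg Q₀ := hR.nondeg₀ (C₀ := CForm.ofQuad Q₀) hC fun x y => by rw [← hB', one_mul]
  refine isMaximalIn_rat_herm_aux' hR hmax hne hσ hC (by omega) one_ne_zero hB' (fun x => ?_) hK
    ((iso3_quad _).ix3 h0 (by omega)) (spec_quad h0 (notExc_of_two_ne_zero h3)) OmegaV_le_SLV
    fun Y hY _ hle hQ => ?_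
  · rw [← herm_B_self, hB, map_eq_zero]
    simp [Q₀, h3]
  by_cases hT : ∀ u, Q₀ u = 0 → ∀ s ∈ Y, s ∈ cen (span F {ι u}) → s = 1
  · exact hY.le_of_line_two hQ hT h2 hθ hd
  push Not at hT
  obtain ⟨u, u1, s, s1, s2, s3⟩ := hT
  obtain ⟨a, a0, ha⟩ := rq_of_cen hC (hle.trans inf_le_left) s1 s2 s3
  refine hY.le_of_point hQ a0 (fun v hv => (rho_scale one_ne_zero).2 ?_) fun e => (h2 e).elim
  rw [smul_zero, mul_one]
  by_cases v0 : v = 0
  · exact ⟨1, one_mem _, fun x => by simp [v0]⟩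
  obtain ⟨k, k1, -, k2⟩ := hY.witt1 u1 hv (by
    rintro rfl; exact not_mem_cen_bot s3 (by simpa using s2)) v0
  simpa [k2] using ha.conj k1 (hle k1).1

end H12
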