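import Cfsg.Agent.H12.Ten6

/-!
# Tensor products of forms: the dihedral argument over the smallest fields
-/

set_option autoImplicit false
set_option maxHeartbeats 400000

namespace H12

open Module H11 Submodule TensorProduct H13.KL

theorem exists_swap_of_odd {G : Type*} [Group G] {a b : G} (ha : a * a = 1) (hb : b * b = 1)
    (h : Odd (orderOf (a * b))) : ∃ c ∈ Subgroup.zpowers (a * b), ∃ d, d = c * a * c⁻¹ ∧
      d * a * d⁻¹ = b ∧ ∀ g, g * a * g⁻¹ = b → g * b * g⁻¹ = a → g * d = d * g := by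
  obtain ⟨j, hj⟩ := h
  have h1 := pow_orderOf_eq_one (a * b)
  have h2 := H10.zpow_conj_of_inverts (H10.inverts_left ha hb)
  have h3 : (a * b) ^ (2 * (j : ℤ) + 1) = 1 := by exact_mod_cast hj ▸ h1
  have ha' := inv_eq_of_mul_eq_one_right ha
  have hb' : b = a * (a * b) := by rw [← mul_assoc, ha, one_mul]
  have h4 : (a * b) ^ ((j : ℤ) * (j + 1)) * a * ((a * b) ^ ((j : ℤ) * (j + 1)))⁻¹ =
      a * (a * b) ^ (-(j : ℤ)) := by
    rw [h2, show -(2 * ((j : ℤ) * (j + 1))) = (2 * j + 1) * -j + -j by ring, zpow_add, zpow_mul, h3]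
    simp
  refine ⟨_, ⟨j * (j + 1), rfl⟩, _, rfl, ?_, fun g g1 g2 => ?_⟩
  · have := h2 (-j)
    rw [h4, mul_inv_rev, mul_assoc a, mul_assoc a, ← mul_assoc _ _ a⁻¹, ← mul_assoc _ _ _⁻¹, this,
      show -(2 * -(j : ℤ)) = (2 * j + 1) + -1 by ring, zpow_add, h3, ha']
    simp [← mul_assoc, ha, inv_eq_of_mul_eq_one_right hb, ha']
    simp [mul_assoc, ha]
  · rw [h4, ← mul_inv_eq_iff_eq_mul, show g * (a * (a * b) ^ (-(j : ℤ))) * g⁻¹ = g * a * g⁻¹ *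
      (g * a * g⁻¹ * (g * b * g⁻¹)) ^ (-(j : ℤ)) by rw [conj_mul, conj_zpow, conj_mul], g1, g2,
      show b * a = (a * b)⁻¹ by rw [mul_inv_rev, ha', inv_eq_of_mul_eq_one_right hb]]
    nth_rw 1 [hb']
    rw [mul_assoc, inv_zpow', neg_neg, ← zpow_one_add,
      show 1 + (j : ℤ) = (2 * j + 1) + -j by ring, zpow_add, h3, one_mul]

theorem conj_conj_of_sq {G : Type*} [Group G] {d : G} (h : d * d = 1) (x : G) :
    d * (d * x * d⁻¹) * d⁻¹ = x := by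
  rw [show d * (d * x * d⁻¹) * d⁻¹ = d * d * x * (d * d)⁻¹ by group, h]; simp

theorem exists_central_of_odd {G : Type*} [Group G] {t e : G} (ht : t * t = 1) (he : e * e = 1)
    (h : Odd (orderOf (t * (e * t * e⁻¹)))) : ∃ c ∈ Subgroup.zpowers (t * e),
      c * t * c⁻¹ * e = e * (c * t * c⁻¹) ∧ t * (c * t * c⁻¹ * e) = c * t * c⁻¹ * e * t := by
  obtain ⟨j, hj⟩ := h
  have h1 := pow_orderOf_eq_one (t * (e * t * e⁻¹))
  rw [hj, inv_eq_of_mul_eq_one_right he, show t * (e * t * e) = (t * e) ^ 2 by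
    simp [pow_two, mul_assoc], ← pow_mul, mul_comm, pow_mul, pow_two] at h1
  have h2 : (t * e) ^ j * t * ((t * e) ^ j)⁻¹ * e = (t * e) ^ (2 * j + 1) := by
    have := H10.zpow_conj_of_inverts (H10.inverts_left ht he) (-j)
    rw [zpow_neg, inv_inv, zpow_natCast, show -(2 * -(j : ℤ)) = (j + j : ℕ) by push_cast; ring,
      zpow_natCast, pow_add, mul_assoc, inv_mul_eq_iff_eq_mul, ← mul_assoc, ← mul_assoc,
      mul_left_inj] at this
    rw [two_mul, pow_succ, pow_add, ← mul_assoc, mul_left_inj, mul_inv_eq_iff_eq_mul,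
      mul_assoc, mul_assoc, mul_right_inj, ← mul_assoc, ← this]
  have h3 := H10.commute_of_inverts_of_sq (H10.inverts_left ht he) _ h1
  have h4 := H10.commute_of_inverts_of_sq (H10.inverts_right ht he) _ h1
  refine ⟨_, ⟨j, zpow_natCast _ _⟩, ?_, by rw [h2, h3.eq]⟩
  rw [← h2] at h4
  exact mul_right_cancel (b := e) (by rw [h4.eq, mul_assoc e])

variable {F : Type*} [Field F] {U W : Type*} [AddCommGroup U] [Module F U] [AddCommGroup W]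
  [Module F W] {T T₁ T₂ : FormType F} {C : CForm T (U ⊗[F] W)} {C₁ : CForm T₁ U}
  {C₂ : CForm T₂ W} {X : Subgroup ((U ⊗[F] W) ≃ₗ[F] (U ⊗[F] W))} {R : Subgroup (W ≃ₗ[F] W)}
  {w y : W} {g k s e : (U ⊗[F] W) ≃ₗ[F] (U ⊗[F] W)}

theorem MaxK.conj {V : Type*} [AddCommGroup V] [Module F V] [FiniteDimensional F V]
    {X H : Subgroup (V ≃ₗ[F] V)} {L : Submodule F V} {k t : V ≃ₗ[F] V} (h : MaxK X H L k)
    (ht : t ∈ X) (e : ∀ l ∈ L, t l = l) (hn : k⁻¹ * t * k ∉ H) : MaxK X H L (k⁻¹ * t * k) :=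
  ⟨mul_mem (mul_mem (inv_mem h.mem) ht) h.mem, hn, fun k' a b => (h.max k' a b).trans (by
    rw [← finrank_map_equiv _ k⁻¹]
    refine finrank_mono ?_
    rintro _ ⟨_, ⟨c, l, hl, rfl⟩, rfl⟩
    exact ⟨by simpa [inv_apply_apply] using hl, l, hl, congrArg (k⁻¹ ·) (e _ c)⟩)⟩

variable [FiniteDimensional F U] [FiniteDimensional F W]

theorem exists_eigen {α : U ≃ₗ[F] U} {β : W ≃ₗ[F] W} {Z : Submodule F (U ⊗[F] W)}
    (hU : 3 ≤ finrank F U) (hd : finrank F U < finrank F W) (hZ : finrank F Z ≤ 2 * finrank F U)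
    (h : TensorProduct.congr α β ∈ cen Z) :
    ∃ (Y : Submodule F W) (c : F), 2 ≤ finrank F Y ∧ ∀ y ∈ Y, c • β y = y := by
  by_cases hs : ∀ u, α u ∈ span F {u}
  · obtain ⟨c, hc⟩ := exists_scalar_of_eigen (A := α.toLinearMap) hs
    refine ⟨LinearMap.ker (c • β.toLinearMap - 1), c, ?_, fun y hy => sub_eq_zero.1 (by simpa using hy)⟩
    have h1 := finrank_mono (tl_le (Y := LinearMap.range (c • β.toLinearMap - 1)) (Z := Z) (by
      rintro u _ ⟨y, rfl⟩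
      simpa [show α u = c • u from hc u, smul_tmul, tmul_sub] using h (u ⊗ₜ y)))
    have h2 := (c • β.toLinearMap - 1).finrank_range_add_finrank_ker
    rw [finrank_tl] at h1
    have := Nat.le_of_mul_le_mul_left (h1.trans (hZ.trans_eq (mul_comm _ _))) (by omega)
    omega
  obtain ⟨u, hu⟩ := not_forall.1 hs
  obtain ⟨v, -, hv⟩ := exists_mem_not_mem_of_finrank_lt (W := span F {u, α u}) (W' := ⊤)
    (by have := finrank_span_pair_le (F := F) u (α u); rw [finrank_top]; omega)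
  obtain ⟨ψ, a1, a2⟩ := exists_dual_eq_one hv
  obtain ⟨ψ', a3, a4⟩ := exists_dual_eq_one hu
  let f := LinearMap.codRestrict Z (((TensorProduct.congr α β).toLinearMap - 1) ∘ₗ
    (TensorProduct.mk F U W u).coprod (TensorProduct.mk F U W v))
      fun p => h (u ⊗ₜ p.1 + v ⊗ₜ p.2)
  have hf : ∀ p ∈ LinearMap.ker f, α u ⊗ₜ[F] β p.1 + α v ⊗ₜ β p.2 = u ⊗ₜ p.1 + v ⊗ₜ p.2 :=
    fun p hp => by simpa [f, sub_eq_zero] using congrArg Subtype.val hp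
  refine ⟨(LinearMap.ker f).map (LinearMap.snd F W W), ψ (α v), ?_, ?_⟩
  · have h1 := f.finrank_range_add_finrank_ker
    have h2 := finrank_le (LinearMap.range f)
    have h3 := ((LinearMap.snd F W W).domRestrict (LinearMap.ker f)).finrank_range_add_finrank_ker
    have h4 : LinearMap.ker ((LinearMap.snd F W W).domRestrict (LinearMap.ker f)) = ⊥ :=
      LinearMap.ker_eq_bot'.2 fun ⟨⟨y, y'⟩, hp⟩ e => by
        obtain rfl : y' = 0 := e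
        have := congrArg (cL W ψ') (hf _ hp)
        simp [a3 u (mem_span_singleton_self u), a4] at this
        simp [this]
    rw [LinearMap.range_domRestrict, h4, finrank_bot] at h3
    rw [finrank_prod] at h1
    omega
  · rintro _ ⟨p, hp, rfl⟩
    simpa [a1 u (mem_pair_left _ _), a1 _ (mem_pair_right _ _), a2] using
      congrArg (cL W ψ) (hf p hp)

variable (C₂ X) in
/-- `s` is the transvection type element attached to `w`. -/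
structure IsT (w : W) (s : (U ⊗[F] W) ≃ₗ[F] (U ⊗[F] W)) : Prop where
  hw : C₂.N w = 0
  ne : w ≠ 0
  mem : s ∈ X
  cen : s ∈ cen (tl U (span F {w}))
  ne' : s ≠ 1

namespace TX

variable (h : TX C C₁ C₂ X R) (hQ : QS C₂ X) (hsc : ScS C) {a₀ : F} (ha₀ : a₀ ≠ 0)
  (e₀ : a₀ * T₂.ε + T₂.σ a₀ = 0) (hu : ∀ a, a * T₂.ε + T₂.σ a = 0 → a = 0 ∨ a = a₀)
include h hQ hsc ha₀ e₀ hu

omit hsc ha₀ e₀ in
theorem T_apply (hs : IsT C₂ X w s) (x : U ⊗[F] W) : s x = x + (-a₀ • cB U C₂ w x) ⊗ₜ w := by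
  obtain ⟨-, c, a1, a2⟩ := h.cen_point hQ hs.hw hs.ne hs.mem hs.cen
  rw [a2, ← (hu _ a1).resolve_left fun e => hs.ne' (LinearEquiv.ext fun x => by
    simp [a2, neg_eq_zero.1 e]), neg_neg]

omit hsc ha₀ e₀ in
theorem T_uniq (hs : IsT C₂ X w s) (he : IsT C₂ X w e) : s = e :=
  LinearEquiv.ext fun x => by rw [h.T_apply hQ hu hs, h.T_apply hQ hu he]

omit hsc ha₀ e₀ in
theorem T_sq (hs : IsT C₂ X w s) : s * s = 1 := by_contra fun e => hs.ne' (mul_eq_left.1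
  (h.T_uniq hQ hu ⟨hs.hw, hs.ne, mul_mem hs.mem hs.mem, mul_mem hs.cen hs.cen, e⟩ hs))

omit hu in
theorem T_ex (hw : C₂.N w = 0) (hw0 : w ≠ 0) : ∃ s, IsT C₂ X w s :=
  let ⟨s, a, b, c⟩ := (h.tiS hQ hsc ha₀ e₀ hw hw0).ex; ⟨s, hw, hw0, a, b, c⟩

omit hu in
theorem T_mem (hs : IsT C₂ X w s) : s ∈ tenStab F U W :=
  (h.tiS hQ hsc ha₀ e₀ hs.hw hs.ne).hZH s hs.mem hs.cen

omit hu in
theorem T_hR (hs : IsT C₂ X w s) (hg : g ∈ X) (e : g * s * g⁻¹ ∈ tenStab F U W) :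
    g ∈ tenStab F U W :=
  by_contra fun c => (h.tiS hQ hsc ha₀ e₀ hs.hw hs.ne).conj_not_mem hg c hs.mem hs.cen hs.ne' e

omit hu in
theorem T_comm (hs : IsT C₂ X w s) (hg : g ∈ X) (e : g * s = s * g) : g ∈ tenStab F U W :=
  h.T_hR hQ hsc ha₀ e₀ hs hg (by rw [e, mul_inv_cancel_right]; exact h.T_mem hQ hsc ha₀ e₀ hs)

omit hQ hsc ha₀ e₀ hu in
theorem T_conj (hs : IsT C₂ X w s) (hg : g ∈ X) {w' : W}
    (e : ∀ u, g (u ⊗ₜ w) ∈ tl U (span F {w'})) : IsT C₂ X w' (g * s * g⁻¹) :=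
  ⟨h.sing_of_point (inv_mem hg) hs.hw (h.inv_point hs.ne e), h.ne_of_point hs.ne e,
    mul_mem (mul_mem hg hs.mem) (inv_mem hg), cen_mono (by
      rintro _ ⟨l, hl, rfl⟩
      obtain ⟨u, rfl⟩ := mem_tl_singleton.1 hl
      exact e u) (conj_mem_cen hs.cen), by simpa using conj_ne_one (k := g⁻¹) hs.ne'⟩

omit hsc in
theorem T_two (hs : IsT C₂ X w s) (he : IsT C₂ X y e) (h1 : s * e = e * s) (h2 : s ≠ e)
    (hg : g ∈ X) (h3 : g * (s * e) = s * e * g) : g ∈ tenStab F U W := by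
  have a1 := h.T_apply hQ hu hs
  have a2 := h.T_apply hQ hu he
  have a3 : y ∉ span F {w} := fun c => h2 (h.T_uniq hQ hu hs ⟨hs.hw, hs.ne, he.mem,
    cen_mono (tl_mono ((span_singleton_le_iff_mem _ _).2 c)) he.cen, he.ne'⟩)
  obtain ⟨u, hu'⟩ := h.ex
  obtain ⟨φ, b1, b2⟩ := exists_dual_eq_one a3
  obtain ⟨r, b3, b4⟩ := h.nd₂.exists_perp_eq (not_mem_span_symm a3 hs.ne) 1
  have a4 : TSP C₂ w y := ⟨hs.hw, he.hw, C₂.B_swap_zero (by
    simpa [a1, a2, C₂.mem_perp_singleton.1 b3, b4, b1 w (mem_span_singleton_self w), b2, ha₀, hu']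
      using congrArg (fun g => cR U φ (g (u ⊗ₜ r))) h1), hs.ne, a3⟩
  obtain ⟨r, r', c1, c2, c3, c4⟩ := a4.exists_dual h.nd₂
  refine h.mem_of_plane hQ (.inr ⟨a₀, ha₀, e₀⟩) hg a4 (finrank_span_pair_le w y) fun x hx => ?_
  obtain ⟨v, v', rfl⟩ := mem_tl_pair.1 hx
  have c5 : (s * e) ((-a₀⁻¹ • v) ⊗ₜ r + (-a₀⁻¹ • v') ⊗ₜ r') - ((-a₀⁻¹ • v) ⊗ₜ r +
      (-a₀⁻¹ • v') ⊗ₜ r') = v ⊗ₜ w + v' ⊗ₜ y := by
    simp [a1, a2, c1, c2, c3, c4, a4.hB, smul_smul, ha₀]; abel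
  rw [← c5, map_sub, ← LinearEquiv.mul_apply, h3, LinearEquiv.mul_apply]
  exact mul_mem (cen_mono (tl_mono (span_mono (by simp))) hs.cen)
    (cen_mono (tl_mono (span_mono (by simp))) he.cen) _

variable [Finite F]

theorem odd_of_maxK (hs : IsT C₂ X w s) (hk : MaxK X (tenStab F U W) (tl U (span F {w})) k) :
    Odd (orderOf (s * (k * s * k⁻¹))) := by
  have : Finite (U ⊗[F] W) := Module.finite_of_finite F
  have : Finite ((U ⊗[F] W) ≃ₗ[F] (U ⊗[F] W)) := DFunLike.finite _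
  have hT := h.tiS hQ hsc ha₀ e₀ hs.hw hs.ne
  have a1 := h.T_sq hQ hu hs
  have a0 := mul_mem (mul_mem hk.mem hs.mem) (inv_mem hk.mem)
  refine Nat.not_even_iff_odd.1 fun hc => ?_
  obtain ⟨b1, b2, b3⟩ := H10.exists_central_invol_of_even a1 (by
    rw [show k * s * k⁻¹ * (k * s * k⁻¹) = k * (s * s) * k⁻¹ by group, a1]; simp)
    (orderOf_pos _).ne' hc
  have b4 := pow_mem (mul_mem hs.mem a0) (orderOf (s * (k * s * k⁻¹)) / 2)
  have b5 := pow_mem (mul_mem (cen_mono le_sup_left hs.cen) (cen_mono le_sup_right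
    (conj_mem_cen (k := k) hs.cen))) (orderOf (s * (k * s * k⁻¹)) / 2)
  generalize (s * (k * s * k⁻¹)) ^ (orderOf (s * (k * s * k⁻¹)) / 2) = z at *
  refine h.of_fr hQ hsc ha₀ e₀ hs.ne hk (h.T_comm hQ hsc ha₀ e₀ hs b4 b2) b5 (fun c => ?_)
    fun x hx => hT.mem_of_sup_perp hk (b5 x) (sub_mem (C.mem_perp.2 fun l hl => ?_) hx)
  · obtain rfl := h.T_uniq hQ hu hs ⟨hs.hw, hs.ne, b4, c, H10.ne_one_of_orderOf_two b1⟩
    exact hk.nm (h.T_hR hQ hsc ha₀ e₀ hs hk.mem (h.T_comm hQ hsc ha₀ e₀ hs a0 b3.symm))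
  · rw [CForm.isom_B_right (h.le b4)]
    exact C.mem_perp.1 hx _ (hT.maps_of_conj (x := z⁻¹) hs.mem hs.cen hs.ne' (by
      rw [b2.inv_left.eq, mul_inv_cancel_right]; exact hs.cen) hl)

theorem eq_bot_of_maxK (hw : C₂.N w = 0) (hw0 : w ≠ 0)
    (hk : MaxK X (tenStab F U W) (tl U (span F {w})) k) :
    tl U (span F {w}) ⊓ (tl U (span F {w})).map (k : _ →ₗ[F] _) = ⊥ := by
  refine eq_bot_iff.2 ?_
  rintro _ ⟨a1, l, a2, rfl⟩
  by_contra a3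
  obtain ⟨y, b⟩ := h.tsp hw hw0
  obtain ⟨s, hs⟩ := h.T_ex hQ hsc ha₀ e₀ hw hw0
  obtain ⟨e, he⟩ := h.T_ex hQ hsc ha₀ e₀ b.hc b.symm.ne
  have b1 : ∀ l ∈ tl U (span F {w}), e l = l := fun l hl => by
    obtain ⟨u, rfl⟩ := mem_tl_singleton.1 hl
    simp [h.T_apply hQ hu he, b.symm.hB]
  have b2 := h.odd_of_maxK hQ hsc ha₀ e₀ hu hs (hk.conj he.mem b1 fun c => hk.nm
    (inv_mem_iff.1 (h.T_hR hQ hsc ha₀ e₀ he (inv_mem hk.mem) (by rwa [inv_inv]))))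
  rw [← orderOf_injective (MulAut.conj k).toMonoidHom (MulAut.conj k).injective,
    show (MulAut.conj k).toMonoidHom (s * (k⁻¹ * e * k * s * (k⁻¹ * e * k)⁻¹)) =
      k * s * k⁻¹ * (e * (k * s * k⁻¹) * e⁻¹) by simp [mul_assoc]] at b2
  have a0 := mul_mem (mul_mem hk.mem hs.mem) (inv_mem hk.mem)
  obtain ⟨c, c1, c2, c3⟩ := exists_central_of_odd (by
    rw [show k * s * k⁻¹ * (k * s * k⁻¹) = k * (s * s) * k⁻¹ by group, h.T_sq hQ hu hs]; simp)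
    (h.T_sq hQ hu he) b2
  have c4 : c ∈ X := Subgroup.zpowers_le.2 (mul_mem a0 he.mem) c1
  have c5 : c (k l) = k l := Subgroup.zpowers_le.2 (show _ ∈ MulAction.stabilizer _ (k l) from
    show k (s (k⁻¹ (e (k l)))) = k l by
      rw [b1 (k l) a1, inv_apply_apply, h.nd.cen_fix (h.le hs.mem) hs.cen (h.ts_tl (h.point_ts hw) a2)])
    c1
  have c6 : c * (k * s * k⁻¹) * c⁻¹ = c * k * s * (c * k)⁻¹ := by group
  obtain ⟨α, β, d1⟩ := h.T_hR hQ hsc ha₀ e₀ hs (mul_mem c4 hk.mem) (c6 ▸ h.T_comm hQ hsc ha₀ e₀ he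
    (mul_mem (mul_mem c4 a0) (inv_mem c4)) c2)
  have d2 : ∀ u, (c * k) (u ⊗ₜ w) ∈ tl U (span F {β w}) := fun u => by
    rw [d1]; exact tmul_mem_tl _ (mem_span_singleton_self _)
  have d3 := h.T_conj hs (mul_mem c4 hk.mem) d2
  obtain ⟨u, rfl⟩ := mem_tl_singleton.1 a2
  obtain ⟨v, hv⟩ := mem_tl_singleton.1 a1
  have d4 := d2 u
  rw [LinearEquiv.mul_apply, c5, show k (u ⊗ₜ w) = v ⊗ₜ w from hv] at d4
  have d5 := h.T_uniq hQ hu d3 ⟨d3.hw, d3.ne, hs.mem, cen_mono (tl_mono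
    ((span_singleton_le_iff_mem _ _).2 (mem_of_tmul_mem_tl (by rintro rfl; simp [hv] at a3) d4)))
    hs.cen, hs.ne'⟩
  rw [c6, d5] at c2 c3
  refine hk.nm (h.T_hR hQ hsc ha₀ e₀ hs hk.mem (h.T_two hQ ha₀ e₀ hu hs he c2 ?_ a0 c3))
  rintro rfl
  obtain ⟨r, r1, r2⟩ := h.nd₂.exists_perp_eq (not_mem_span_symm b.nm hw0) 1
  have := (h.T_apply hQ hu hs (v ⊗ₜ r)).symm.trans (h.T_apply hQ hu he _)
  simp [C₂.mem_perp_singleton.1 r1, r2] at this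
  exact tmul_ne_zero (by simpa [ha₀] using fun e : v = 0 => by simp [hv, e] at a3) hw0 this

theorem le_of_dih (hU : 3 ≤ finrank F U) (hd : finrank F U < finrank F W)
    (hi : ∀ Y : Submodule F W, 2 ≤ finrank F Y → ∃ y ∈ Y, y ≠ 0 ∧ C₂.N y = 0) :
    X ≤ tenStab F U W := by
  by_contra hc
  obtain ⟨k, k1, k2⟩ := SetLike.not_le_iff_exists.1 hc
  have key : ∀ w s, IsT C₂ X w s → ∀ k ∈ X, k ∉ tenStab F U W → ∃ c ∈ X, ∃ d, d = c * s * c⁻¹ ∧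
      d * s * d⁻¹ = k * s * k⁻¹ ∧ ∀ g, g * s * g⁻¹ = k * s * k⁻¹ → g * (k * s * k⁻¹) * g⁻¹ = s →
        g * d = d * g := fun w s hs k k1 k2 => by
    obtain ⟨k₀, hk⟩ := exists_maxK (L := tl U (span F {w})) hc
    obtain ⟨c, a1, a2⟩ := exists_swap_of_odd (h.T_sq hQ hu hs) (by
      rw [show k * s * k⁻¹ * (k * s * k⁻¹) = k * (s * s) * k⁻¹ by group, h.T_sq hQ hu hs]; simp)
      (h.odd_of_maxK hQ hsc ha₀ e₀ hu hs (hk.of_eq k1 k2
        (h.eq_bot_of_maxK hQ hsc ha₀ e₀ hu hs.hw hs.ne hk)).1)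
    exact ⟨c, Subgroup.zpowers_le.2 (mul_mem hs.mem (mul_mem (mul_mem k1 hs.mem) (inv_mem k1))) a1,
      a2⟩
  obtain ⟨w, a1, a2, -⟩ := h.conn 0 0
  obtain ⟨y, b⟩ := h.tsp a2 a1
  obtain ⟨β, a3, rfl⟩ := h.spec.witt_one h.dim a1 b.symm.ne (b.hc.trans a2.symm)
  obtain ⟨s, hs⟩ := h.T_ex hQ hsc ha₀ e₀ a2 a1
  have a4 := h.hX β a3
  have hs' := h.T_conj hs a4 fun u => tmul_mem_tl u (mem_span_singleton_self (β w))
  have a5 := rH_mem (U := U) β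
  generalize rH F U W β = p at *
  obtain ⟨c₁, c1, d₁, c2, c3, -⟩ := key w s hs k k1 k2
  obtain ⟨c₂, c4, d₂, c5, c6, -⟩ := key _ _ hs' (k * p⁻¹) (mul_mem k1 (inv_mem a4))
    fun e => k2 (by simpa using mul_mem e a5)
  rw [show k * p⁻¹ * (p * s * p⁻¹) * (k * p⁻¹)⁻¹ = k * s * k⁻¹ by group] at c6
  have sq : ∀ {w s c d}, IsT C₂ X w s → d = c * s * c⁻¹ → d * d = 1 := fun {_ s c _} hs e => by
    rw [e, show c * s * c⁻¹ * (c * s * c⁻¹) = c * (s * s) * c⁻¹ by group,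
      h.T_sq hQ hu hs]; simp
  have d1 : d₁ ∈ X := c2 ▸ mul_mem (mul_mem c1 hs.mem) (inv_mem c1)
  have d2 : d₂ ∈ X := c5 ▸ mul_mem (mul_mem c4 hs'.mem) (inv_mem c4)
  have d3 := sq hs c2
  have d4 := sq hs' c5
  have d5 : d₂ * d₁ * s * (d₂ * d₁)⁻¹ = p * s * p⁻¹ := by
    rw [show d₂ * d₁ * s * (d₂ * d₁)⁻¹ = d₂ * (d₁ * s * d₁⁻¹) * d₂⁻¹ by group, c3, ← c6,
      conj_conj_of_sq d4]
  obtain ⟨α, γ, e1⟩ := h.T_hR hQ hsc ha₀ e₀ hs (mul_mem d2 d1) (d5 ▸ h.T_mem hQ hsc ha₀ e₀ hs')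
  obtain ⟨Y, c, e2, e3⟩ := exists_eigen hU hd ((finrank_sup_le' _ _).trans (by
    rw [finrank_map_equiv, finrank_map_equiv, finrank_tl, finrank_tl, finrank_span_singleton a1,
      finrank_span_singleton hs'.ne]; omega)) (e1 ▸ mul_mem
    (cen_mono le_sup_left (c5 ▸ conj_mem_cen hs'.cen)) (cen_mono le_sup_right
      (c2 ▸ conj_mem_cen hs.cen)))
  obtain ⟨z, z1, z2, z3⟩ := hi Y e2
  obtain ⟨s₃, hs₃⟩ := h.T_ex hQ hsc ha₀ e₀ z3 z2
  have e4 := h.T_uniq hQ hu (h.T_conj hs₃ (mul_mem d2 d1) fun u => by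
    rw [e1, congr_tmul]
    refine tmul_mem_tl _ (mem_span_singleton.2 ⟨c⁻¹, ?_⟩)
    rw [inv_smul_eq_iff₀ (fun e => z2 (by rw [← e3 z z1, e, zero_smul])), e3 z z1]) hs₃
  have n1 : d₁ ∉ tenStab F U W := fun e => k2 (h.T_hR hQ hsc ha₀ e₀ hs k1
    (c3 ▸ mul_mem (mul_mem e (h.T_mem hQ hsc ha₀ e₀ hs)) (inv_mem e)))
  obtain ⟨c₃, f1, d₃, f2, f3, f4⟩ := key z s₃ hs₃ d₁ d1 n1
  have fin : ∀ w s c d, IsT C₂ X w s → c ∈ X → d = c * s * c⁻¹ →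
      d * s₃ * d⁻¹ = d₁ * s₃ * d₁⁻¹ → d = d₃ := fun w s c d g1 g2 g3 g4 => by
    have g5 := sq g1 g3
    have g6 := f4 d g4 (by rw [← g4, conj_conj_of_sq g5])
    have g7 := mul_mem (inv_mem g2) f1
    have g8 : s * (c⁻¹ * c₃ * s₃ * (c⁻¹ * c₃)⁻¹) = c⁻¹ * c₃ * s₃ * (c⁻¹ * c₃)⁻¹ * s := by
      rw [g3, f2] at g6
      calc _ = c⁻¹ * (c * s * c⁻¹ * (c₃ * s₃ * c₃⁻¹)) * c := by group
        _ = _ := by rw [g6]; group
    obtain ⟨α, β, g9⟩ := h.T_hR hQ hsc ha₀ e₀ hs₃ g7 (h.T_comm hQ hsc ha₀ e₀ g1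
      (mul_mem (mul_mem g7 hs₃.mem) (inv_mem g7)) g8.symm)
    have g10 := h.T_conj hs₃ g7 (w' := β z) fun u => by
      rw [g9]; exact tmul_mem_tl _ (mem_span_singleton_self _)
    by_contra g11
    have g12 := h.T_two hQ ha₀ e₀ hu g1 g10 g8 (fun e => g11 (by rw [g3, f2, e]; group))
      (mul_mem (mul_mem (inv_mem g2) hs₃.mem) g2) (by
        have : d * d₃ * s₃ = s₃ * (d * d₃) := by
          calc _ = d * (d₃ * s₃ * d₃⁻¹) * d₃ := by group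
            _ = d * (d * s₃ * d⁻¹) * d⁻¹ * (d * d₃) := by rw [f3, g4]; group
            _ = _ := by rw [conj_conj_of_sq g5]
        rw [g3, f2] at this
        calc _ = c⁻¹ * (s₃ * (c * s * c⁻¹ * (c₃ * s₃ * c₃⁻¹))) * c := by group
          _ = _ := by rw [← this]; group)
    have g13 := inv_mem_iff.1 (h.T_hR hQ hsc ha₀ e₀ hs₃ (inv_mem g2) (by rwa [inv_inv]))
    have g14 : d ∈ tenStab F U W :=
      g3 ▸ mul_mem (mul_mem g13 (h.T_mem hQ hsc ha₀ e₀ g1)) (inv_mem g13)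
    exact n1 (h.T_hR hQ hsc ha₀ e₀ hs₃ d1
      (g4 ▸ mul_mem (mul_mem g14 (h.T_mem hQ hsc ha₀ e₀ hs₃)) (inv_mem g14)))
  have f6 := (fin _ _ _ _ hs c1 c2 rfl).trans (fin _ _ _ _ hs' c4 c5 (by
    rw [← conj_conj_of_sq d4 (d₁ * s₃ * d₁⁻¹)]; nth_rw 1 [← e4]; group)).symm
  have f7 : p * s * p⁻¹ = s := by
    rw [← d5, ← f6, d3]; simp
  rw [f7] at hs'
  obtain ⟨r, r1, r2⟩ := h.nd₂.exists_perp_eq (not_mem_span_symm b.nm a1) 1
  obtain ⟨v, hv⟩ := h.ex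
  have := (h.T_apply hQ hu hs (v ⊗ₜ r)).symm.trans (h.T_apply hQ hu hs' _)
  simp [C₂.mem_perp_singleton.1 r1, r2] at this
  exact tmul_ne_zero (by simp [ha₀, hv]) a1 this

end TX

theorem isMaximalIn_u_u [Finite F] {σ : F →+* F} {hσ2 : ∀ a, σ (σ a) = a}
    {C : CForm (hermType σ hσ2) (U ⊗[F] W)} {C₁ : CForm (hermType σ hσ2) U}
    {C₂ : CForm (hermType σ hσ2) W} (hσ : σ ≠ RingHom.id F) (hN : ∀ a, σ a = a → ∃ b, b * σ b = a)
    (hC : C.Nondeg) (h₁ : C₁.Nondeg) (h₂ : C₂.Nondeg)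
    (hB : ∀ u w u' w', C.B (u ⊗ₜ w) (u' ⊗ₜ w') = C₁.B u u' * C₂.B w w')
    (hU : 2 ≤ finrank F U) (hW : 5 ≤ finrank F W) (hd : finrank F U < finrank F W)
    (hex : 3 ≤ finrank F U ∨ ∃ b : F, σ b = b ∧ b ≠ 0 ∧ b ≠ 1) :
    Cfsg.Geo.IsMaximalIn (C.isom ⊓ SLV F _) (tenStab F U W ⊓ (C.isom ⊓ SLV F _)) := by
  have h : TF C C₁ C₂ := ⟨hC, h₁, h₂, fun _ => rfl, fun _ => rfl, by simp [hermType],
    by simp [hermType], hB, fun u w u' w' a b => by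
      rw [← herm_B_self, ← herm_B_self, hB, hB, herm_B_self, herm_B_self, a, b, herm_B_self,
        herm_B_self], fun w e => (herm_B_self w).symm.trans e, by omega⟩
  obtain ⟨θ, hθ⟩ := exists_trace_eq hσ hσ2 (map_one σ)
  obtain ⟨a, a1, a2⟩ := exists_trace_zero' (hσ2 := hσ2) hσ
  have a3 : a * (hermType σ hσ2).ε + (hermType σ hσ2).σ a = 0 := by simpa [hermType] using a2
  refine (h.tx_herm hσ hN (by omega)).isMax (rootG_herm hσ hN hC (by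
      rw [finrank_tensorProduct]; have := Nat.mul_le_mul hU hW; omega)) hW
    (ma_herm hσ hN h₁ hU hex)
    (fun α hα => ⟨h.congr_isom hα.1 (one_mem _), congr_mem_SLV_one hα.2⟩)
    (fun a ha _ => ⟨a * θ, ?_⟩) fun X hX _ hS => ?_
  · change a * 1 + σ a = 0 at ha
    change a = σ 1 * (a * θ) - σ (a * θ)
    rw [map_mul, map_one, eq_neg_of_add_eq_zero_right ha]
    linear_combination -a * hθ
  by_cases hb : ∃ b : F, σ b = b ∧ b ≠ 0 ∧ b ≠ 1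
  · obtain ⟨b, b1, b2, b3⟩ := hb
    exact hX.le_of_two hS (scS_of_lt hd) a1 a3 (mul_ne_zero a1 b2) (by
      change a * b * 1 + σ (a * b) = 0
      rw [map_mul, b1]; linear_combination b * a2) (by simpa [a1, eq_comm])
  · push Not at hb
    refine hX.le_of_dih hS (scS_of_lt hd) a1 a3 (fun c hc => or_iff_not_imp_left.2 fun c0 => ?_)
      (hex.resolve_right fun ⟨b, b1, b2, b3⟩ => b3 (hb b b1 b2)) hd
      fun Y => herm_exists_iso hN C₂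
    change c * 1 + σ c = 0 at hc
    rw [← div_eq_one_iff_eq a1]
    refine hb _ ?_ (div_ne_zero c0 a1)
    rw [map_div₀, eq_neg_of_add_eq_zero_right hc, eq_neg_of_add_eq_zero_right a2, mul_one,
      neg_div_neg_eq]

end H12
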