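import Cfsg.Agent.H12.UF5

/-!
# Stabilisers of orthogonal decompositions of unitary spaces
-/

set_option autoImplicit false
set_option maxHeartbeats 400000

namespace H12

open Module H11 QuadraticMap Equiv Finset

variable {F : Type*} [Field F] {V : Type*} [AddCommGroup V] [Module F V] {σ : F →+* F}
  {hσ2 : ∀ a, σ (σ a) = a} {C : CForm (hermType σ hσ2) V} {X : Subgroup (V ≃ₗ[F] V)}
  {κ : Type*} [Fintype κ] {D : κ → Submodule F V} [FiniteDimensional F V]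
  (hσ : σ ≠ RingHom.id F) (hN : ∀ a, σ a = a → ∃ b, b * σ b = a)
include hσ

theorem OrthDec.exists_pu (hD : OrthDec C D) (hC : C.Nondeg) (hX : X ≤ C.isom)
    (hX' : decStab D ⊓ (C.isom ⊓ SLV F V) ≤ X) {i j : κ} (hij : i ≠ j) {e e' r : V} (he : e ∈ D i)
    (he' : e' ∈ D j) (h0 : e ≠ 0) (h0' : e' ≠ 0) (hr : r ∈ C.perp (D i)) (hr' : r ∈ C.perp (D j))
    (h1 : C.N e = 0) (h1' : C.N e' = 0) (hp : PU X C (e + e' + r)) :
    ∃ s ∈ D i, ∃ r ∈ C.perp (D i), C.N s ≠ 0 ∧ PU X C (s + r) := by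
  obtain ⟨f, hf, hef⟩ := exists_hypPair_sub hC (hD.nondeg i) he h0 h1
  obtain ⟨f', hf', hef'⟩ := exists_hypPair_sub hC (hD.nondeg j) he' h0' h1'
  obtain ⟨c, hc0, hc⟩ := exists_trace_zero' (hσ2 := hσ2) hσ
  obtain ⟨a, a1, a2⟩ : ∃ a, σ a ≠ a ∧ a + σ a ≠ 0 := by
    obtain ⟨a, ha⟩ := exists_ne_of_ne_id hσ
    by_cases H : a + σ a = 0
    · exact ⟨a + 1, by simpa using ha, fun e => ha (by
        rw [map_add, map_one] at e; linear_combination H - a * e + a * H)⟩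
    · exact ⟨a, ha, H⟩
  have a0 : a ≠ 0 := by rintro rfl; simp at a1
  have a0' := (map_ne_zero σ).2 a0
  have o : ∀ x ∈ D i, ∀ y ∈ D j, C.B x y = 0 := fun x hx y hy => hD.B_eq_zero hij hx hy
  have o' : ∀ y ∈ D j, ∀ x ∈ D i, C.B y x = 0 := fun y hy x hx => hD.B_eq_zero hij.symm hy hx
  obtain ⟨k, k1, -, k3, k4⟩ := hef.exists_torus hC a0
  obtain ⟨l, l1, -, l3, l4⟩ := hef'.exists_torus hC a0'
  have m1 := (hD.subG_le (G := C.isom) hC i ((mem_subG le_rfl).2 ⟨k.2, fun x hx =>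
    k3 x (C.mem_perp.1 hx e he) (C.mem_perp.1 hx f hf)⟩)).1
  have m2 := (hD.subG_le (G := C.isom) hC j ((mem_subG le_rfl).2 ⟨l.2, fun x hx =>
    l3 x (C.mem_perp.1 hx e' he') (C.mem_perp.1 hx f' hf')⟩)).1
  have r1 := C.mem_perp.1 hr
  have r2 := C.mem_perp.1 hr'
  have p1 := hp.conj (hX' ⟨mul_mem m1 m2, mul_mem k.2 l.2, mem_SLV.2 (by
    rw [LinearEquiv.coe_toLinearMap_mul, map_mul, ← LinearEquiv.coe_det, ← LinearEquiv.coe_det, k4,
      l4, hermσ, hermσ, hσ2]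
    field_simp)⟩) (mul_mem k.2 l.2)
  simp only [LinearEquiv.mul_apply, map_add, l1, l3 e (o' _ he' _ he) (o' _ hf' _ he),
    l3 r (r2 _ he') (r2 _ hf'), k1, map_smul, k3 e' (o _ he _ he') (o _ hf _ he'),
    k3 r (r1 _ he) (r1 _ hf)] at p1
  have pf := pu_of_mem ((hD.subG_le hC i).trans hX') hf hef.right
  have pf' := pu_of_mem ((hD.subG_le hC j).trans hX') hf' hef'.right
  have b1 : C.B f e = 1 := by rw [herm_symm, hef.pair, map_one]
  have b2 : C.B f' e' = 1 := by rw [herm_symm, hef'.pair, map_one]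
  have b3 : C.N r = 0 := by
    simpa [herm_N_add, h1, h1', o _ he _ he', r1 _ he, r2 _ he'] using hp.1
  have p2 := hp.add hX (pf'.add hX (pf.add hX p1 hc) hc) hc
  simp only [map_add, map_smul, LinearMap.add_apply, smul_eq_mul, b1, b2, herm_B_self, h1, h1', b3,
    hef.pair, hef'.pair, o _ he _ he', o _ hf _ he', o _ he _ hf', o' _ he' _ he, o' _ he' _ hf,
    o' _ hf' _ he, o' _ hf' _ hf, r1 _ he, r1 _ hf, r2 _ he', r2 _ hf', C.B_swap_zero (r1 _ he),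
    C.B_swap_zero (r1 _ hf), C.B_swap_zero (r2 _ he'), C.B_swap_zero (r2 _ hf'), mul_zero, add_zero,
    zero_add, mul_one] at p2
  have q1 : ∀ y ∈ D j, y ∈ C.perp (D i) := fun y hy => C.mem_perp.2 fun x hx => o x hx y hy
  refine ⟨(a + c * (c * a + c * σ a)) • e + (c * a) • f,
    add_mem ((D i).smul_mem _ he) ((D i).smul_mem _ hf),
    σ a • e' + r + (c * σ a) • f' + (c * (c * a + c * σ a)) • (e' + r),
    add_mem (add_mem (add_mem (Submodule.smul_mem _ _ (q1 _ he')) hr)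
      (Submodule.smul_mem _ _ (q1 _ hf'))) (Submodule.smul_mem _ _ (add_mem (q1 _ he') hr)), ?_,
    by convert p2 using 1; module⟩
  simp only [herm_N_add, herm_N_smul, h1, hef.right, map_smul, herm_B_smul_left, hef.pair, map_add,
    map_mul, hσ2, smul_eq_mul, eq_neg_of_add_eq_zero_right hc, map_neg, map_one]
  convert mul_ne_zero (mul_ne_zero (pow_ne_zero 3 hc0) a2) (sub_ne_zero.2 a1.symm) using 1
  ring

include hN

theorem OrthDec.isMaximalIn_uplanes [Nontrivial κ] (hD : OrthDec C D) (hC : C.Nondeg)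
    (hV : 5 ≤ finrank F V) (hd : ∀ i, 2 ≤ finrank F (D i)) (hq : ∃ a, σ a = a ∧ a ≠ 0 ∧ a ≠ 1) :
    Cfsg.Geo.IsMaximalIn (C.isom ⊓ SLV F V) (decStab D ⊓ (C.isom ⊓ SLV F V)) := by
  have h := spec_herm hσ hN hC
  refine isMaximalIn_of _ _ inf_le_right (fun e => h.not_le_decStab hV hD (e.trans inf_le_left))
    fun M h2 h3 g hg hg' => ?_
  have hM : M ≤ C.isom := h3.trans inf_le_left
  have sub := fun i => (hD.subG_le hC i).trans h2
  have key : ∀ i, ∀ s ∈ D i, ∀ r ∈ C.perp (D i), C.N s ≠ 0 → PU M C (s + r) →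
      C.isom ⊓ SLV F V ≤ M := by
    intro i s hs r hr h0 hp
    obtain ⟨S, a1, a2, a3⟩ := herm_enlarge_of_nonisotropic hσ hN hC hM (hD.nondeg i) (hd i)
      (Or.inr hq) (sub i) hs hr (fun e => h0 (by
        simpa [C.N_add_of_orth (C.mem_perp.1 hr s hs), e] using hp.1)) hp
    exact ((enlarge_herm hσ hN hC).le_or_of_dec h hD hd h3 h2 a1.le a2
      ((hd i).trans_lt (Submodule.finrank_lt_finrank_of_lt a1)) a3).resolve_right
      fun e => a1.ne' e.1
  obtain ⟨i⟩ : Nonempty κ := inferInstance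
  by_contra hc
  refine hg' ⟨hD.le_decStab hC hM i (fun j => ?_) (fun k hk => ?_) hg, h3 hg⟩
  · obtain ⟨k, hk, e, -⟩ := hD.exists_swap h hd i j
    exact ⟨k, h2 hk, e⟩
  by_contra H
  push Not at H
  obtain ⟨_, ⟨x, hx, rfl⟩, a1, a2, a3⟩ := exists_singular_not_mem_two ((hD.nondeg i).map (hM hk))
    (herm_exists_iso hN C (by rw [finrank_map_equiv]; exact hd i))
    (fun e => H.1 (map_eq_of_le e)) H.2
  have hp : PU M C (k x) := (pu_of_mem (sub i) hx
    (by rw [← CForm.isom_N (hM hk)]; exact a1)).conj hk (hM hk)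
  change k x ∉ _ at a2 a3
  generalize k x = p at *
  obtain ⟨e, he, r, hr, rfl⟩ := hC.exists_add (hD.nondeg i) p
  obtain ⟨j, hj, b1⟩ : ∃ j, j ≠ i ∧ r ∉ C.perp (D j) := by
    by_contra H
    push Not at H
    exact a2 (add_mem he (hD.mem_of_perp hC H))
  obtain ⟨e', he', r', hr', rfl⟩ := hC.exists_add (hD.nondeg j) r
  have b2 : e' ∈ C.perp (D i) := C.mem_perp.2 fun x hx => hD.B_eq_zero hj.symm hx he'
  have b3 : e ∈ C.perp (D j) := C.mem_perp.2 fun x hx => hD.B_eq_zero hj hx he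
  by_cases c1 : C.N e = 0
  swap
  · exact hc (key i e he _ hr c1 hp)
  by_cases c2 : C.N e' = 0
  swap
  · exact hc (key j e' he' _ (add_mem b3 hr') c2 (by convert hp using 1; abel))
  obtain ⟨s, hs, t, ht, c3, c4⟩ := hD.exists_pu hσ hC hM h2 hj.symm he he'
    (by rintro rfl; exact a3 (by simpa using hr)) (by rintro rfl; exact b1 (by simpa using hr'))
    (by simpa using sub_mem hr b2) hr' c1 c2 (by rwa [add_assoc])
  exact hc (key i s hs t ht c3 c4)

theorem OrthDec.isMaximalIn_herm [Fintype F] [Nontrivial κ] (hD : OrthDec C D) (hC : C.Nondeg)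
    (hV : 5 ≤ finrank F V) {k : ℕ} (hk : ∀ i, finrank F (D i) = k)
    (H : 3 ≤ k ∨ k = 2 ∧ (∃ a, σ a = a ∧ a ≠ 0 ∧ a ≠ 1) ∨ k = 1 ∧ 8 ≤ finrank F V) :
    Cfsg.Geo.IsMaximalIn (C.isom ⊓ SLV F V) (decStab D ⊓ (C.isom ⊓ SLV F V)) := by
  rcases H with H | ⟨rfl, H⟩ | ⟨rfl, H⟩
  · exact (enlarge_herm hσ hN hC).isMaximalIn_dec (spec_herm hσ hN hC) hV hD
      (fun i => by rw [hk]; omega) fun i => by rw [hk]; omega
  · exact hD.isMaximalIn_uplanes hσ hN hC hV (fun i => (hk i).ge) H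
  · obtain ⟨π, hπ⟩ := hD.exists_isProj
    have := hπ.finrank_le hk
    exact hD.isMaximalIn_uframe hσ hN hC hk (by omega)

end H12
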