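import Cfsg.Agent.H12.ExU3
import Cfsg.Agent.H12.RatO
import Cfsg.Agent.H12.UF6
import Cfsg.Agent.H12.NonMax2
import Cfsg.Agent.H12.Ten9
import Cfsg.Agent.H12.TvBridge
import Cfsg.Agent.H12.StabBridge

/-!
# Geometric maximal subgroups of `SU_n(q)`
-/

set_option autoImplicit false
set_option maxHeartbeats 400000

namespace H12

open Module H11 Cfsg Cfsg.Geo

variable {F : Type*} [Field F] [Fintype F] {n q : ℕ} (hF : Fintype.card F = q ^ 2)
include hF

local notation "𝓖" => GU n F q ⊓ specialLinear (Fin n) F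

theorem sul_ts (hn : 5 ≤ n) {W : Submodule F (Fin n → F)} (hW0 : W ≠ ⊥)
    (hW : IsTotallySingularFor (hermForm n F q) W) : IsMaximalIn 𝓖 (subspaceStabilizer W ⊓ 𝓖) := by
  have hC := hermC_nondeg (ι := Fin n) hF
  have hd : finrank F (Fin n → F) = n := by simp
  have hW' : (hermC (Fin n) hF).TS W := ⟨fun x hx => hW x hx x hx, fun x hx y hy => hW y hy x hx⟩
  have hσ := frob_ne_id hF
  have hR := rootData_herm hσ (exists_norm_of_finite (frob_frob hF) hσ) hC (by omega)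
  rw [SU_eq hF, subspaceStabilizer_eq, ← Subgroup.comap_inf]
  refine isMaximalIn_comap _ (isMaximalIn_of _ _ inf_le_right
    (fun h => hR.spec.not_le_glStab (by omega) hW0 (hW'.ne_top hC hW0)
      (h.trans inf_le_left)) fun M h1 h2 g hg hg' => ?_)
  exact hR.le_of_parabolic hW' (herm_move hσ hC hW') h1 hg (h2 hg) fun h => hg' ⟨h, h2 hg⟩

theorem sul_nondeg (hn : 5 ≤ n) {W : Submodule F (Fin n → F)} (hW0 : W ≠ ⊥)
    (hW : IsNondegenerateOn (hermForm n F q) W) (hdim : 2 * finrank F W < n) :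
    IsMaximalIn 𝓖 (subspaceStabilizer W ⊓ 𝓖) := by
  have hC := hermC_nondeg (ι := Fin n) hF
  have hd : finrank F (Fin n → F) = n := by simp
  have hW' := nondegOn_of_geo _ (Or.inr (hermC_B_eq hF n)) hW
  have h1 := hC.finrank_add_finrank_perp W
  have hσ := frob_ne_id hF
  have hN := exists_norm_of_finite (frob_frob hF) hσ
  rw [SU_eq hF, subspaceStabilizer_eq, ← Subgroup.comap_inf]
  exact isMaximalIn_comap _ ((enlarge_herm hσ hN hC).isMaximalIn_nondeg (spec_herm hσ hN hC)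
    (by omega) hW' hW0 (by omega) (by omega) (irr_herm hσ hN hW') (Or.inl (by omega)))

theorem sul_dec (hn : 5 ≤ n) {t k : ℕ} {D : Fin t → Submodule F (Fin n → F)}
    (hD : IsNondegenerateMDecomposition (hermForm n F q) k D)
    (hk : 3 ≤ k ∨ k = 2 ∧ 3 ≤ q ∨ k = 1 ∧ 8 ≤ n) :
    IsMaximalIn 𝓖 (decompositionStabilizer D ⊓ 𝓖) := by
  have hC := hermC_nondeg (ι := Fin n) hF
  have hd : finrank F (Fin n → F) = n := by simp
  have h1 := fun i => nondegOn_of_geo _ (Or.inr (hermC_B_eq hF n)) (hD.nondegenerate i)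
  have h2 := hD.decomp.finrank_eq
  have hD' := orthDec_of_geo _ (Or.inr (hermC_B_eq hF n)) hD fun i j =>
    hermT_iso hF ((CForm.restrict_nondeg_iff _).2 (h1 i))
      ((CForm.restrict_nondeg_iff _).2 (h1 j)) (by rw [h2, h2])
  haveI : Nontrivial (Fin t) := Fin.nontrivial_iff_two_le.2 hD.decomp.two_le
  rw [SU_eq hF, decompositionStabilizer_eq, ← Subgroup.comap_inf]
  exact isMaximalIn_comap _ (hD'.isMaximalIn_herm (frob_ne_id hF)
    (exists_norm_of_finite (frob_frob hF) (frob_ne_id hF)) hC (by omega) h2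
    (hk.imp_right (Or.imp (And.imp_right fun e => exists_fixed_ne hF (by omega))
      (And.imp_right fun e => by omega))))

theorem sul_lag (hn : 10 ≤ n) {k : ℕ} (hk : 2 * k = n) {D : Fin 2 → Submodule F (Fin n → F)}
    (hD : IsMDecomposition k D) (hts : ∀ i, IsTotallySingularFor (hermForm n F q) (D i)) :
    IsMaximalIn 𝓖 (decompositionStabilizer D ⊓ 𝓖) := by
  have hC := hermC_nondeg (ι := Fin n) hF
  have hd : finrank F (Fin n → F) = n := by simp
  obtain ⟨π, hπ⟩ := exists_isProj hD.indep hD.iSup_eq_top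
  have hσ := frob_ne_id hF
  have hσ2 := frob_frob hF
  have hL : ∀ i, (hermC (Fin n) hF).Lag (D i) := fun i => ⟨⟨fun x hx => hts i x hx x hx,
    fun x hx y hy => hts i y hy x hx⟩, by rw [hD.finrank_eq]; omega⟩
  rw [SU_eq hF, decompositionStabilizer_eq, ← Subgroup.comap_inf]
  refine isMaximalIn_comap _ ((rhoData_herm hσ (exists_norm_of_finite hσ2 hσ) hC
    (by omega)).isMaximalIn_lagPair (fun c hc => ?_) (by omega) hπ hL fun g hg _ => ?_)
  · obtain ⟨a, ha⟩ := exists_ne_of_ne_id hσ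
    have h1 : frob hF a - a ≠ 0 := sub_ne_zero.2 ha
    have h2 : frob hF c = -c := by
      have : 1 * c + frob hF (1 * c) = 0 := hc
      rw [one_mul] at this
      linear_combination this
    refine ⟨c / (frob hF a - a) * a, ?_⟩
    change frob hF _ - 1 * _ = c
    rw [map_mul, map_div₀, map_sub, hσ2, h2, ← neg_sub (frob hF a), neg_div_neg_eq]
    field_simp
  · have h := lagPair_of hπ hL
    obtain ⟨e, he, f, hf, hef⟩ := h.exists_hyp hC (by omega)
    have h1 := hC.σ_det_mul_det hg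
    obtain ⟨a, ha, e'⟩ := hilbert90 hσ hσ2
      (d := frob hF (LinearMap.det (g : (Fin n → F) →ₗ[F] (Fin n → F)))) (by rw [hσ2]; exact h1)
    obtain ⟨k, h2, h3, h4, h5⟩ := hef.exists_torus hC ha
    refine ⟨k.1, h.torus_mem he hf hef h2 h3 h4, mul_mem hg k.2, mem_SLV.2 ?_⟩
    rw [LinearEquiv.coe_toLinearMap_mul, map_mul, ← LinearEquiv.coe_det k.1, h5, mul_comm]
    exact (congrArg (· * _) e').trans h1

theorem sul_ten_of {n₁ n₂ : ℕ} (h1 : 0 < n₁) (h2 : 0 < n₂) {e : Fin n ≃ Fin n₁ × Fin n₂}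
    {P : GL (Fin n) F} {f₁ : (Fin n₁ → F) → (Fin n₁ → F) → F} {f₂ : (Fin n₂ → F) → (Fin n₂ → F) → F}
    (hf₁ : IsUnitaryFormPow q f₁) (hf₂ : IsUnitaryFormPow q f₂)
    (hT : IsTensorFormStructure (fun x : F => x ^ q) (hermForm n F q) f₁ f₂ e P)
    (H : ∀ (C : CForm (hermT hF) (TensorProduct F (Fin n₁ → F) (Fin n₂ → F)))
      (C₁ : CForm (hermT hF) (Fin n₁ → F)) (C₂ : CForm (hermT hF) (Fin n₂ → F)), C.Nondeg →
      C₁.Nondeg → C₂.Nondeg → (∀ u w u' w', C.B (u ⊗ₜ w) (u' ⊗ₜ w') = C₁.B u u' * C₂.B w w') →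
      IsMaximalIn (C.isom ⊓ SLV F _) (H13.KL.tenStab F _ _ ⊓ (C.isom ⊓ SLV F _))) :
    IsMaximalIn 𝓖 (tensorProductSubgroup n₁ n₂ e P ⊓ 𝓖) := by
  have hσ := frob_ne_id hF
  obtain ⟨c, hc, h⟩ := H13.KL.tf_bridge (fun _ _ => mul_pow _ _ _)
    (H13.KL.formOfGram_herm hF hf₁) (H13.KL.formOfGram_herm hF hf₂) hT
  obtain ⟨C₁, d₁, e₁⟩ := exists_cform_herm' hσ (frob_frob hF) hf₁.add_left hf₁.smul_left
    hf₁.herm hf₁.nondegenerate
  obtain ⟨C₂, d₂, e₂⟩ := exists_cform_herm' hσ (frob_frob hF) hf₂.add_left hf₂.smul_left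
    hf₂.herm hf₂.nondegenerate
  rw [H13.KL.tensorProductSubgroup_eq, H13.KL.SU_eq_trE hF (H13.KL.tenIso e P),
    ← Subgroup.comap_inf]
  have hC := H13.KL.comap_nondeg (hermC_nondeg (ι := Fin n) hF) (H13.KL.tenIso e P)
  have hB : ∀ u w u' w', ((hermC (Fin n) hF).comap (H13.KL.tenIso e P).toLinearMap).B
      (u ⊗ₜ w) (u' ⊗ₜ w') = c * C₁.B u u' * C₂.B w w' := fun u w u' w' => by
    simp only [CForm.comap_B, hermC_B_eq, LinearEquiv.coe_coe, h, e₁, e₂]
    ring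
  have hc' : frob hF c = c := by
    obtain ⟨u, hu⟩ := finrank_pos_iff_exists_ne_zero.1 (show 0 < finrank F (Fin n₁ → F) by simpa)
    obtain ⟨w, hw⟩ := finrank_pos_iff_exists_ne_zero.1 (show 0 < finrank F (Fin n₂ → F) by simpa)
    obtain ⟨u', a⟩ := d₁.exists_eq hu 1
    obtain ⟨w', b⟩ := d₂.exists_eq hw 1
    have := hB u' w' u w
    rw [H12.herm_symm, hB, H12.herm_symm u u', H12.herm_symm w w', a, b] at this
    simpa using this
  refine isMaximalIn_comap _ (H _ _ _ hC (d₁.smulc (c := c) hc' (fun a => ?_) hc) d₂ hB)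
  change c * a + frob hF (c * a) = c * (a + frob hF a)
  rw [map_mul, hc', mul_add]

theorem sul_ten {n₁ n₂ : ℕ} (h1 : 3 ≤ n₁ ∨ n₁ = 2 ∧ 3 ≤ q) (h2 : 5 ≤ n₂) (h12 : n₁ < n₂)
    {e : Fin n ≃ Fin n₁ × Fin n₂} {P : GL (Fin n) F} {f₁ : (Fin n₁ → F) → (Fin n₁ → F) → F}
    {f₂ : (Fin n₂ → F) → (Fin n₂ → F) → F} (hf₁ : IsUnitaryFormPow q f₁)
    (hf₂ : IsUnitaryFormPow q f₂)
    (hT : IsTensorFormStructure (fun x : F => x ^ q) (hermForm n F q) f₁ f₂ e P) :
    IsMaximalIn 𝓖 (tensorProductSubgroup n₁ n₂ e P ⊓ 𝓖) :=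
  sul_ten_of hF (by omega) (by omega) hf₁ hf₂ hT fun _ _ _ a b c d => isMaximalIn_u_u
    (frob_ne_id hF) (exists_norm_of_finite (frob_frob hF) (frob_ne_id hF)) a b c d
    (by simp; omega) (by simpa) (by simpa) (h1.imp (by simp) fun e => exists_fixed_ne hF (by omega))

theorem sul_rat (hn : 6 ≤ n) {F₀ : Subfield F} {r : ℕ} {P : GL (Fin n) F} (hr : r.Prime)
    (hro : Odd r) (hcard : Fintype.card F = Nat.card F₀ ^ r)
    (hP : IsFormRationalStructure (hermForm n F q) F₀ 1 P) :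
    IsMaximalIn 𝓖 (subfieldSubgroup F₀ P ⊓ 𝓖) := by
  have hc : Nat.card F = Nat.card F₀ ^ r := by rwa [Nat.card_eq_fintype_card]
  rw [SU_eq hF, subfieldSubgroup_eq, ← Subgroup.comap_inf]
  refine isMaximalIn_comap _ (isMaximalIn_rat_herm' (rat_ratMap F₀ P) (maxSub_subfield hr hc)
    (exists_not_mem_subfield hr hc) (frob_ne_id hF) (hermC_nondeg hF) (by simpa)
    (σ₀ := (frob hF).restrict F₀ F₀ fun x hx => pow_mem hx q) (fun _ => rfl) (fun h => ?_)
    fun x y => ⟨⟨_, hP _ _ (fun i => (y i).2) fun i => (x i).2⟩, by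
      rw [hermC_B_eq, ratMap_apply, ratMap_apply]; exact (one_mul _).symm⟩)
  obtain ⟨θ, hθ⟩ := (maxSub_subfield hr hc).two (frob_ne_id hF) (frob_frob hF)
    fun k => congrArg Subtype.val (RingHom.congr_fun h k)
  have := Nat.card_le_card_of_surjective (fun k : F₀ × F₀ => (k.1 : F) + k.2 * θ) fun α =>
    let ⟨k, k', e⟩ := hθ α; ⟨(k, k'), e.symm⟩
  rw [Nat.card_prod, hc, ← sq, Nat.pow_le_pow_iff_right Finite.one_lt_card] at this
  have := hr.two_le
  obtain rfl : r = 2 := by omega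
  exact absurd hro (by decide)

theorem fix_of_card_two {F₀ : Subfield F} (hcard : Fintype.card F = Nat.card F₀ ^ 2) (k : F₀) :
    frob hF (algebraMap F₀ F k) = algebraMap F₀ F k := by
  have := Fintype.ofFinite F₀
  have hq : Fintype.card F₀ = q := by
    rw [← Nat.card_eq_fintype_card]; exact Nat.pow_left_injective two_ne_zero (hcard.symm.trans hF)
  exact congrArg Subtype.val (hq ▸ FiniteField.pow_card k)

theorem sul_alt (hn : 6 ≤ n) {F₀ : Subfield F} {P : GL (Fin n) F} {ζ : F}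
    (hcard : Fintype.card F = Nat.card F₀ ^ 2) (hζ0 : ζ ≠ 0)
    (hP : IsFormRationalStructure (hermForm n F q) F₀ ζ P)
    (halt : ∀ u : Fin n → F, (∀ i, u i ∈ F₀) → hermForm n F q
      (Matrix.mulVec (P : Matrix (Fin n) (Fin n) F) u)
      (Matrix.mulVec (P : Matrix (Fin n) (Fin n) F) u) = 0) :
    IsMaximalIn 𝓖 (subfieldSubgroup F₀ P ⊓ 𝓖) := by
  have hc : Nat.card F = Nat.card F₀ ^ 2 := by rwa [Nat.card_eq_fintype_card]
  rw [SU_eq hF, subfieldSubgroup_eq, ← Subgroup.comap_inf]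
  exact isMaximalIn_comap _ (isMaximalIn_rat_herm_alt' (rat_ratMap F₀ P)
    (maxSub_subfield Nat.prime_two hc) (exists_not_mem_subfield Nat.prime_two hc)
    (frob_ne_id hF) (hermC_nondeg hF) (by simpa) (fix_of_card_two hF hcard) hζ0 (fun x y =>
      ⟨⟨_, hP _ _ (fun i => (y i).2) fun i => (x i).2⟩, by
        rw [hermC_B_eq, ratMap_apply, ratMap_apply]; rfl⟩) fun x => by
      rw [hermC_B_eq, ratMap_apply]; exact halt _ fun i => (x i).2)

theorem sul_orth (hn : 9 ≤ n) (hodd : Odd q) {F₀ : Subfield F} {P : GL (Fin n) F}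
    (hcard : Fintype.card F = Nat.card F₀ ^ 2)
    (hP : IsFormRationalStructure (hermForm n F q) F₀ 1 P) :
    IsMaximalIn 𝓖 (subfieldSubgroup F₀ P ⊓ 𝓖) := by
  have hc : Nat.card F = Nat.card F₀ ^ 2 := by rwa [Nat.card_eq_fintype_card]
  rw [SU_eq hF, subfieldSubgroup_eq, ← Subgroup.comap_inf]
  exact isMaximalIn_comap _ (isMaximalIn_rat_herm_quad' (rat_ratMap F₀ P)
    (maxSub_subfield Nat.prime_two hc) (exists_not_mem_subfield Nat.prime_two hc)
    (frob_ne_id hF) (hermC_nondeg hF) (by simpa) (fix_of_card_two hF hcard)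
    (odd_card_iff.1 (hF ▸ hodd.pow)) fun x y =>
      ⟨⟨_, hP _ _ (fun i => (y i).2) fun i => (x i).2⟩, by
        rw [hermC_B_eq, ratMap_apply, ratMap_apply]; exact (one_mul _).symm⟩)

end H12
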