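import Cfsg.Agent.H12.KL2
import Cfsg.Agent.H12.SUList

/-!
# The Klein correspondence for `SU₄`
-/

set_option autoImplicit false
set_option maxHeartbeats 400000

namespace H12.K4

open Module H11 Matrix QuadraticMap Cfsg Cfsg.Geo

variable {F : Type*} [Field F] {σ : F →+* F}

local notation "𝔮" => qPlus 3 F

/-- The fixed field. -/
def fixF (σ : F →+* F) : Subfield F := σ.eqLocusField (RingHom.id F)

theorem mem_fixF {a : F} : a ∈ fixF σ ↔ σ a = a := Iff.rfl

theorem σ_fix (k : fixF σ) : σ (algebraMap (fixF σ) F k) = algebraMap (fixF σ) F k := k.2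

variable (σ) in
/-- The fixed points of the semilinear Hodge star. -/
def Wσ : Submodule (fixF σ) (A6 F) where
  carrier := {a | hd a = σ ∘ a}
  zero_mem' := by ext (i | i) <;> simp
  add_mem' {a b} ha hb := by
    change hd (a + b) = _
    rw [map_add, ha, hb]; ext; simp
  smul_mem' c a ha := by
    change hd ((c : F) • a) = σ ∘ ((c : F) • a)
    rw [map_smul, ha]; ext; simp [mem_fixF.1 c.2]

theorem mem_Wσ {a : A6 F} : a ∈ Wσ σ ↔ hd a = σ ∘ a := Iff.rfl

theorem emb_map (a : A6 F) : o6Emb F (σ ∘ a) = (o6Emb F a).map σ := by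
  simp [o6Emb_apply, altM_map]

theorem map_act (g : Matrix (Fin 4) (Fin 4) F) (a : A6 F) :
    σ ∘ act g a = act (g.map σ) (σ ∘ a) := o6Emb_injective (by
  rw [emb_map, emb_act, emb_act, emb_map, Matrix.map_mul, Matrix.map_mul, transpose_map])

theorem q_map (a : A6 F) : 𝔮 (σ ∘ a) = σ (𝔮 a) := by simp [q_apply]

theorem map_hd (a : A6 F) : σ ∘ hd a = hd (σ ∘ a) := by ext (i | i) <;> rfl

variable (σ) in
/-- The Pfaffian on the fixed points. -/
def Qσ : QuadraticForm (fixF σ) (Wσ σ) :=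
  QuadraticMap.ofPolar (fun w => ⟨𝔮 w, by rw [mem_fixF, ← q_map, ← mem_Wσ.1 w.2, q_hd]⟩)
    (fun c x => Subtype.ext (QuadraticMap.map_smul 𝔮 (c : F) x.1))
    (fun x y z => Subtype.ext (polar_add_left 𝔮 x.1 y.1 z.1))
    (fun c x y => Subtype.ext (polar_smul_left 𝔮 (c : F) x.1 y.1))

theorem act_mem_Wσ {g : Matrix (Fin 4) (Fin 4) F} (h : gᵀ * g.map σ = 1) (hd' : g.det = 1)
    {a : A6 F} (ha : a ∈ Wσ σ) : act g a ∈ Wσ σ := by
  have := congrArg (act (g.map σ)) (act_hd_act g a)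
  rw [← act_mul, mul_eq_one_comm.1 h, act_one, hd', one_smul, mem_Wσ.1 ha] at this
  rw [mem_Wσ, this, map_act]

theorem add_mem_Wσ (hσ2 : ∀ a, σ (σ a) = a) (a : A6 F) : a + σ ∘ hd a ∈ Wσ σ := by
  rw [mem_Wσ]
  ext (i | i) <;> simp [hσ2, add_comm]

theorem finrank_fixF (hσ : σ ≠ RingHom.id F) (hσ2 : ∀ a, σ (σ a) = a) :
    finrank (fixF σ) F = 2 := by
  obtain ⟨θ, hθ⟩ := exists_ne_of_ne_id hσ
  have h := sub_ne_zero.2 hθ
  have := finrank_eq_card_basis (Basis.mk (R := fixF σ) (v := ![1, θ])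
    (LinearIndependent.pair_iff.2 fun s t e => by
      have e1 : (s : F) + t * θ = 0 := by simpa [Subfield.smul_def] using e
      have e2 := congrArg σ e1
      rw [map_add, map_mul, mem_fixF.1 s.2, mem_fixF.1 t.2, map_zero] at e2
      have e3 : (t : F) = 0 := (mul_eq_zero.1 (by linear_combination e2 - e1 :
        (t : F) * (σ θ - θ) = 0)).resolve_right h
      exact ⟨Subtype.ext (by simpa [e3] using e1), Subtype.ext e3⟩) fun x _ => by
      rw [Matrix.range_cons, Matrix.range_cons, Matrix.range_empty, Set.union_empty,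
        Set.singleton_union, Submodule.mem_span_pair]
      refine ⟨⟨(x * σ θ - σ x * θ) / (σ θ - θ), ?_⟩, ⟨(σ x - x) / (σ θ - θ), ?_⟩, ?_⟩
      · simp only [mem_fixF, map_div₀, map_sub, map_mul, hσ2]
        rw [← neg_div_neg_eq]; congr 1 <;> ring
      · simp only [mem_fixF, map_div₀, map_sub, hσ2]
        rw [← neg_div_neg_eq]; congr 1 <;> ring
      · simp only [Subfield.smul_def, smul_eq_mul]
        field_simp
        ring)
  simpa using this

theorem rat_Wσ (hσ : σ ≠ RingHom.id F) (hσ2 : ∀ a, σ (σ a) = a) : Rat F (Wσ σ).subtype := by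
  have h2 := finrank_fixF hσ hσ2
  have : FiniteDimensional (fixF σ) F := Module.finite_of_finrank_eq_succ h2
  let e : Wσ σ ≃ₗ[fixF σ] (Fin 3 → F) :=
    { toFun := fun w i => w.1 (.inl i)
      invFun := fun z => ⟨Sum.elim z (σ ∘ z), by rw [mem_Wσ]; ext (i | i) <;> simp [hσ2]⟩
      map_add' := fun _ _ => rfl
      map_smul' := fun _ _ => rfl
      left_inv := fun w => Subtype.ext (by
        ext (i | i)
        exacts [rfl, (congrFun w.2 (.inl i)).symm])
      right_inv := fun _ => rfl }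
  have := e.symm.finiteDimensional
  refine rat_of_span (by rw [e.finrank_eq]; simp [finrank_pi_fintype, h2]) fun v => ?_
  obtain ⟨θ, hθ⟩ := exists_ne_of_ne_id hσ
  have : v = (σ θ - θ)⁻¹ • (σ θ • (v + σ ∘ hd v) - (θ • v + σ ∘ hd (θ • v))) := by
    ext i
    simp only [map_smul, Pi.smul_apply, Pi.sub_apply, Pi.add_apply, Function.comp_apply,
      smul_eq_mul, map_mul]
    field_simp [sub_ne_zero.2 hθ]
    ring
  rw [this]
  exact Submodule.smul_mem _ _ (sub_mem (Submodule.smul_mem _ _ (Submodule.subset_span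
    ⟨⟨_, add_mem_Wσ hσ2 _⟩, rfl⟩)) (Submodule.subset_span ⟨⟨_, add_mem_Wσ hσ2 _⟩, rfl⟩))

variable [Fintype F] {q : ℕ} (hF : Fintype.card F = q ^ 2)

local notation "𝓖" => GU 4 F q ⊓ specialLinear (Fin 4) F

noncomputable instance : Fintype (fixF σ) := Fintype.ofFinite _

theorem card_fixF : Fintype.card (fixF (frob hF)) = q := by
  have := Module.card_eq_pow_finrank (K := fixF (frob hF)) (V := F)
  rw [finrank_fixF (frob_ne_id hF) (frob_frob hF), hF] at this
  exact (Nat.pow_left_injective two_ne_zero this).symm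

theorem mem_SU {g : GL (Fin 4) F} : g ∈ 𝓖 ↔ g.1ᵀ * g.1.map (frob hF) = 1 ∧ g.1.det = 1 := by
  rw [Subgroup.mem_inf, mem_GU_iff_matrix hF, mem_SL]

theorem kl_SU : KL (Wσ (frob hF)).subtype (Qσ (frob hF)) 𝓖 1 := by
  let e : SU 4 F q ≃* (𝓖 : Subgroup _) :=
    (Subgroup.equivMapOfInjective _ _ SpecialLinearGroup.toGL_injective).trans
      (MulEquiv.subgroupCongr (by
        ext g
        exact ⟨by rintro ⟨x, hx, rfl⟩; exact ⟨hx, mem_SL.2 x.2⟩,
          fun h => ⟨⟨g.val, mem_SL.1 h.2⟩, h.1, Units.ext rfl⟩⟩))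
  have hr := rat_Wσ (frob_ne_id hF) (frob_frob hF)
  have hd := hr.finrank_eq.trans finrank_A6
  have : FiniteDimensional (fixF (frob hF)) (Wσ (frob hF)) := Module.finite_of_finrank_eq_succ hd
  refine kl_of_card hr (fun _ => rfl) (fun g hg => ((mem_SU hF).1 hg).2)
    (fun g hg w => ⟨⟨_, act_mem_Wσ ((mem_SU hF).1 hg).1 ((mem_SU hF).1 hg).2 w.2⟩, rfl⟩)
    (perfect_of_equiv e (su_perfect hF (by simp) (by simp))) ?_
  obtain ⟨c, h1, h2⟩ := card_omega_six (Q := Qσ (frob hF)) (fun x e => Subtype.ext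
    (qPlus_nondeg 3 _ fun y => hr.map_eq_zero (φ := (CForm.ofQuad 𝔮).B x.1)
      (fun z => congrArg Subtype.val (e z)) y)) hd
  have h3 := (card_SU_mul hF (n := 4) (by simp)).trans (card_GU hF 4)
  rw [h1, ← Nat.card_congr e.toEquiv, card_fixF]
  refine Nat.le_of_mul_le_mul_left ?_ (Nat.succ_pos q)
  rw [Nat.succ_eq_add_one, h3]
  have : c ≤ q ^ 3 + 1 := by rw [card_fixF] at h2; omega
  simp only [Finset.prod_range_succ, Finset.prod_range_zero, show Even 0 by decide,
    show ¬ Even 1 by decide, show Even 2 by decide, show ¬ Even 3 by decide, if_true, if_false]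
  calc _ ≤ (q + 1) * (q ^ 6 * (q ^ 3 + 1) * ((q ^ 2 - 1) * (q ^ 4 - 1))) := by gcongr
    _ = _ := by ring

end H12.K4
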