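import Cfsg.Agent.H12.OF11
import Cfsg.Agent.H12.KL3
import Cfsg.Agent.H12.C6j

/-!
# Normalisers of symplectic type groups in dimension four
-/

set_option autoImplicit false
set_option maxHeartbeats 400000

namespace H12.K4

open Module H11 Matrix QuadraticMap Cfsg Cfsg.Geo H12.C6

section

variable {K F : Type*} [Field K] [Field F] [Algebra K F] {W : Type*} [AddCommGroup W] [Module K W]
  {ι : W →ₗ[K] A6 F} {Q : QuadraticForm K W} {G R : Subgroup (GL (Fin 4) F)} {δ : F}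

theorem cor_neg_one : Cor ι (-1) 1 := fun w => by
  rw [Units.val_neg, Units.val_one, ← neg_one_smul F, act_smul]; simp [act_one]

theorem KL.c6 [Fintype K] [Finite F] (h : KL ι Q G δ) (hp : (Fintype.card K).Prime) (h2 : (2 : F) ≠ 0)
    (hR : R ≤ G) (hn : -1 ∈ R) (sq : ∀ g ∈ R, g * g = 1 ∨ g * g = -1) {T : Type*} (f : T → GL (Fin 4) F)
    (hT : Nat.card T = 32) (f1 : ∀ t, f t ∈ R) (f2 : ∀ s t, f s = f t ∨ f s = -f t → s = t) :
    IsMaximalIn G (subgroupNormalizer R ⊓ G) := by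
  have := h.fin
  have : Finite W := Module.finite_of_finite K
  have : Finite (W ≃ₗ[K] W) := DFunLike.finite _
  let A : Subgroup (W ≃ₗ[K] W) :=
    { carrier := {k | ∃ g ∈ R, Cor ι g k}
      one_mem' := ⟨1, one_mem _, cor_one⟩
      mul_mem' := fun ⟨m, hm, c⟩ ⟨m', hm', c'⟩ => ⟨_, mul_mem hm hm', c.mul c'⟩
      inv_mem' := fun ⟨m, hm, c⟩ => ⟨_, inv_mem hm, c.inv⟩ }
  have om : ∀ g ∈ G, ∀ k, Cor ι g k → k ∈ OmegaV Q := fun g hg k c =>
    let ⟨_, hk, c'⟩ := h.map g hg; h.uniq c' c ▸ hk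
  have pm : ∀ {g g' k}, Cor ι g k → Cor ι g' k → g = g' ∨ g = -g' := fun c c' =>
    (scalar_of_cor h.rat (by simpa using c.mul c'.inv)).imp mul_inv_eq_one.1 fun e => by
      simpa using mul_inv_eq_iff_eq_mul.1 e
  choose φ φ1 φ2 using fun t => h.map _ (hR (f1 t))
  obtain ⟨e, γ, hF, H⟩ := exists_frame6 (A := A) h.nd (fun e => h2 (by
      simpa only [map_ofNat, map_zero] using congrArg (algebraMap K F) e)) h.dim (fun k ⟨g, hg, c⟩ => om g (hR hg) k c)
    (fun k ⟨g, hg, c⟩ => (sq g hg).elim (fun e => h.uniq (e ▸ c.mul c) cor_one)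
      fun e => h.uniq (e ▸ c.mul c) cor_neg_one)
    (hT ▸ Nat.card_le_card_of_injective (fun t => (⟨φ t, _, f1 t, φ2 t⟩ : A)) fun s t e =>
      f2 s t (pm (φ2 s) ((show φ t = φ s from (congrArg Subtype.val e).symm) ▸ φ2 t)))
  refine h.isMaximalIn (fun g hg k c => ?_) (hF.isMaximalIn6 hp (by simp) h.dim)
  rw [H k (om g hg k c)]
  refine ⟨fun hN a ⟨r, hr, c'⟩ => ⟨_, (Subgroup.mem_normalizer_iff.1 hN r).1 hr, (c.mul c').mul c.inv⟩,
    fun hN => Subgroup.mem_normalizer_fintype fun r hr => ?_⟩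
  obtain ⟨a, -, c'⟩ := h.map r (hR hr)
  obtain ⟨r', hr', c''⟩ := hN a ⟨r, hr, c'⟩
  rcases pm ((c.mul c').mul c.inv) c'' with e | e
  · exact e ▸ hr'
  · simpa [e] using mul_mem hn hr'

end

universe u

variable {F : Type u} [Field F] {R : Subgroup (GL (Fin 4) F)}

theorem det_of_anti {r s : Matrix (Fin 4) (Fin 4) F} {I : F} (II : I * I = -1) (h2 : (2 : F) ≠ 0)
    (r2 : r * r = 1) (s2 : s * s = 1) (h : r * s = -(s * r)) : r.det = 1 := by
  have a1 : (1 + I • r) * (1 + I • r) = (2 * I) • r := by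
    simp only [add_mul, mul_add, smul_mul_smul_comm, r2, II]; simp [two_mul, add_smul]; abel
  have a2 : (1 + I • r) * (s * (1 + I • r) * s) = (2 : F) • 1 := by
    have : s * r * s = -r := by rw [mul_assoc, h, mul_neg, ← mul_assoc, s2, one_mul]
    simp only [mul_add, add_mul, mul_one, s2, mul_smul_comm, smul_mul_assoc, this, one_mul, mul_neg, r2,
      smul_neg, smul_smul, smul_add, II]
    module
  have a3 := congrArg det s2
  replace a1 := congrArg det a1
  replace a2 := congrArg det a2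
  simp only [det_mul, det_smul, Fintype.card_fin, det_one] at a1 a2 a3
  exact mul_left_cancel₀ (pow_ne_zero 4 h2) (by grind)

theorem exists_c6 [Finite F] (h : IsSymplecticTypeGroup 2 R)
    (hi : ActsAbsolutelyIrreducibly (matrixSet R)) (hZ : Nat.card (Subgroup.center R) = 4) :
    (2 : F) ≠ 0 ∧ (∀ g ∈ R, g.1.det = 1) ∧ -1 ∈ R ∧ (∀ g ∈ R, g * g = 1 ∨ g * g = -1) ∧
      ∃ (T : Type u) (f : T → GL (Fin 4) F), Nat.card T = 32 ∧ (∀ t, f t ∈ R) ∧
        ∀ s t, f s = f t ∨ f s = -f t → s = t := by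
  obtain ⟨E, D, I, II, _, ⟨J, J0, rfl⟩, J1, a, b, c, d, e⟩ := exists_PD4 (by simp) h hi hZ
  choose r r1 r2 using b
  have inj := (toLinAlgEquiv' (R := F) (n := Fin 4)).injective
  have r3 : ∀ x, toLinAlgEquiv' (r x).1 = (D.ρ x).1 := fun x => congrArg Units.val (r2 x)
  have rr : ∀ x, (r x).1 * (r x).1 = 1 := fun x => inj (by rw [map_mul, r3, a, map_one])
  have J2 : J.1 = I • 1 := inj (by rw [map_smul, map_one]; exact J1)
  have sc : ∀ {c d : F}, c • (1 : Matrix (Fin 4) (Fin 4) F) = d • 1 → c = d := fun e => by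
    simpa using congrFun (congrFun e 0) 0
  have k : ∀ g ∈ R, ∃ x, ∃ c : F, c ^ 4 = 1 ∧ g.1 = c • (r x).1 := fun g hg => by
    obtain ⟨x, c, -, e⟩ := c _ ⟨g, hg, rfl⟩
    have e1 : g.1 = c • (r x).1 := inj (by rw [map_smul, r3]; exact e)
    have e2 : g ^ 4 = 1 := toE.injective (by simpa using d _ ⟨g, hg, rfl⟩)
    refine ⟨x, c, sc ?_, e1⟩
    have := congrArg Units.val e2
    rwa [Units.val_pow_eq_pow_val, e1, smul_pow, pow_mul (r x).1 2 2, pow_two (r x).1, rr, one_pow,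
      Units.val_one, ← one_smul F (1 : Matrix _ _ F), smul_smul, mul_one] at this
  have I0 : I ≠ 0 := by rintro rfl; simp at II
  have L : ∀ s : E × Fin 2, D.L s.1 (toLinAlgEquiv' (J ^ s.2.1 * r s.1).1) := fun s => by
    simpa [J2, smul_pow, r3] using (D.L_ρ s.1).smul (pow_ne_zero s.2.1 I0)
  refine ⟨D.two, fun g hg => ?_, ?_, fun g hg => ?_, E × Fin 2, fun s => J ^ s.2.1 * r s.1, ?_,
    fun s => mul_mem (pow_mem J0 _) (r1 _), fun ⟨x, i⟩ ⟨y, j⟩ H => ?_⟩
  · obtain ⟨x, c, c4, e1⟩ := k g hg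
    rw [e1, det_smul, Fintype.card_fin, c4, one_mul]
    by_cases x0 : x = 0
    · obtain ⟨c, -, e2⟩ := PD.L.zero (D := D) (a := (D.ρ x).1) (x0 ▸ D.L_ρ 0)
      have e3 : (r x).1 = c • 1 := inj (by rw [r3, map_smul, map_one]; exact e2)
      have := rr x
      rw [e3, smul_mul_smul_comm, one_mul, ← one_smul F (1 : Matrix _ _ F), smul_smul, mul_one] at this
      rw [e3, det_smul, Fintype.card_fin, det_one, show c ^ 4 = c * c * (c * c) by ring, sc this]; simp
    · obtain ⟨w, hw⟩ := D.sep0 x0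
      exact det_of_anti II D.two (rr x) (rr w) (inj (by
        simpa [r3] using (D.L_ρ x).an (D.L_ρ w) ((D.symm _ _).trans hw)))
  · exact (show J * J = -1 from Units.ext (by simp [J2, smul_smul, II])) ▸ mul_mem J0 J0
  · obtain ⟨x, c, c4, e1⟩ := k g hg
    exact (mul_self_eq_one_iff.1 (show c * c * (c * c) = 1 by linear_combination c4)).imp
      (fun e => Units.ext (by simp [e1, smul_smul, rr, e])) fun e => Units.ext (by simp [e1, smul_smul, rr, e])
  · rw [Nat.card_prod, card_two, ← e]; simp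
  · obtain rfl : x = y := H.elim (fun e => (L (x, i)).inj ((show _ = J ^ i.1 * r x from e.symm) ▸ L (y, j))) fun e =>
      (L (x, i)).inj (by simpa [-Units.val_mul, show J ^ i.1 * r x = _ from e] using (L (y, j)).neg)
    have h2 := D.two
    have : I ^ i.1 = I ^ j.1 ∨ I ^ i.1 = -I ^ j.1 := H.imp
      (fun e => sc (by simpa [J2, smul_pow] using congrArg Units.val (mul_right_cancel e)))
      fun e => sc (by simpa [J2, smul_pow] using congrArg Units.val (mul_right_cancel (e.trans (neg_mul _ _).symm)))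
    fin_cases i <;> fin_cases j <;> simp at this ⊢ <;> grind

theorem sl4_c6 [Fintype F] (hp : (Fintype.card F).Prime) (h : IsLinearSymplecticTypeData 2 R) :
    IsMaximalIn (specialLinear (Fin 4) F) (subgroupNormalizer R ⊓ specialLinear (Fin 4) F) := by
  obtain ⟨a, b, c, d, T, f, e1, e2, e3⟩ := exists_c6 h.symplecticType h.absIrred (by
    obtain ⟨_, _, -, -, h | h | h⟩ := h.field
    exacts [absurd h.1 (by decide), h.2.2.1, by simpa using h.2.2.1])
  exact (kl_SL F).c6 hp a (fun g hg => mem_SL.2 (b g hg)) c d f e1 e2 e3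

theorem su4_c6 [Fintype F] {q : ℕ} (hF : Fintype.card F = q ^ 2) (hp : q.Prime)
    (h : IsSymplecticTypeGroup 2 R) (hi : ActsAbsolutelyIrreducibly (matrixSet R)) (hR : R ≤ GU 4 F q)
    (hZ : Nat.card (Subgroup.center R) = 4) : IsMaximalIn (GU 4 F q ⊓ specialLinear (Fin 4) F)
      (subgroupNormalizer R ⊓ (GU 4 F q ⊓ specialLinear (Fin 4) F)) := by
  obtain ⟨a, b, c, d, T, f, e1, e2, e3⟩ := exists_c6 h hi hZ
  exact (kl_SU hF).c6 (by rwa [card_fixF]) a (fun g hg => ⟨hR hg, mem_SL.2 (b g hg)⟩) c d f e1 e2 e3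

end H12.K4
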