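/-
Five-dimensional matrix groups, part 2: nondegenerate subspaces.
-/
import Cfsg.Agent.H12.D5K

set_option autoImplicit false
set_option linter.unusedSectionVars false

namespace H12.D5
open Matrix Cfsg.Geo H27.Asch

variable {ι m : Type} [Fintype ι] [DecidableEq ι] [Fintype m] [DecidableEq m] {k : Type*} [Field k]

local notation "vv" => vecMulVec

/-- a subspace with a complement -/
structure Emb (ι m : Type) [Fintype ι] [DecidableEq m] (k : Type*) [Field k] where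
  I : Matrix ι m k
  P : Matrix m ι k
  h : P * I = 1

namespace Emb
variable (E : Emb ι m k) {ε : k} {G : Subgroup (GL ι k)} {a α b β : m → k} {u θ v φ w ψ : ι → k}

/-- extension by the identity -/
def jm : Matrix m m k →* Matrix ι ι k where
  toFun x := 1 + E.I * (x - 1) * E.P
  map_one' := by simp
  map_mul' x y := by
    have : E.I * (x - 1) * E.P * (E.I * (y - 1) * E.P) = E.I * ((x - 1) * (y - 1)) * E.P := by
      simp only [Matrix.mul_assoc]; rw [← Matrix.mul_assoc E.P, E.h, Matrix.one_mul]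
    rw [add_mul, mul_add, mul_add, this, show x * y - 1 = (y - 1) + ((x - 1) + (x - 1) * (y - 1)) by noncomm_ring]
    simp only [Matrix.mul_add, Matrix.add_mul, one_mul, mul_one]; abel

/-- extension by the identity -/
def j : GL m k →* GL ι k := Units.map E.jm

theorem j_val (x : GL m k) : (E.j x).val = 1 + E.I * (x.val - 1) * E.P := rfl

theorem PI (a : m → k) : E.P *ᵥ E.I *ᵥ a = a := by rw [mulVec_mulVec, E.h, one_mulVec]

theorem PI' (α : m → k) : (α ᵥ* E.P) ᵥ* E.I = α := by rw [vecMul_vecMul, E.h, vecMul_one]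

theorem dot (α a : m → k) : (α ᵥ* E.P) ⬝ᵥ E.I *ᵥ a = α ⬝ᵥ a := by rw [dotProduct_mulVec, PI']

theorem I_ne (h : a ≠ 0) : E.I *ᵥ a ≠ 0 := fun e => h (by rw [← E.PI a, e, mulVec_zero])

theorem P_ne (h : α ≠ 0) : α ᵥ* E.P ≠ 0 := fun e => h (by rw [← E.PI' α, e, zero_vecMul])

theorem j_ro {x : GL m k} (h : x.val = 1 - vv a α) : (E.j x).val = 1 - vv (E.I *ᵥ a) (α ᵥ* E.P) := by
  rw [j_val, h, sub_sub_cancel_left, Matrix.mul_neg, Matrix.neg_mul, mul_vecMulVec, vecMulVec_mul, sub_eq_add_neg]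

theorem rk_iff (hε : ε * ε = 1) : Rk ε (G.comap E.j) a α ↔ Rk ε G (E.I *ᵥ a) (α ᵥ* E.P) := by
  refine ⟨fun ⟨h, x, hx, e⟩ => ⟨by rw [dot, h], _, hx, E.j_ro e⟩, fun ⟨h, g, hg, e⟩ => ?_⟩
  rw [dot] at h
  obtain ⟨x, hx⟩ := exists_ro hε h
  exact ⟨h, x, show E.j x ∈ G from (Units.ext (e.trans (E.j_ro hx).symm) : g = E.j x) ▸ hg, hx⟩

theorem rk1 : Rk 1 (G.comap E.j) a α ↔ Rk 1 G (E.I *ᵥ a) (α ᵥ* E.P) := E.rk_iff (one_mul 1)

theorem j_mulVec (x : GL m k) (a : m → k) (h : E.P *ᵥ u = 0) :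
    (E.j x).val *ᵥ (E.I *ᵥ a + u) = E.I *ᵥ x.val *ᵥ a + u := by
  rw [j_val, add_mulVec, one_mulVec, ← mulVec_mulVec, ← mulVec_mulVec, mulVec_add, PI, h, add_zero, sub_mulVec,
    mulVec_sub, one_mulVec]
  abel

theorem vecMul_j (x : GL m k) (α : m → k) (h : θ ᵥ* E.I = 0) :
    (α ᵥ* E.P + θ) ᵥ* (E.j x).val = (α ᵥ* x.val) ᵥ* E.P + θ := by
  rw [j_val, vecMul_add, vecMul_one, ← vecMul_vecMul, ← vecMul_vecMul, add_vecMul, PI', h, add_zero, vecMul_sub,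
    sub_vecMul, vecMul_one]
  abel

theorem e2 (h : E2 G) : E2 (G.comap E.j) := fun _ _ _ h1 h2 h3 h4 =>
  h ((E.rk_iff neg_one_sq').1 h1) (by simpa [smul_vecMul] using (E.rk_iff neg_one_sq').1 h2) (E.I_ne h3) (E.P_ne h4)

theorem sy (hε : ε * ε = 1) (h : Sy ε G) : Sy ε (G.comap E.j) := fun _ _ _ _ h1 h2 h3 h4 h5 =>
  E.dot _ _ ▸ h ((E.rk_iff hε).1 h1) ((E.rk_iff hε).1 h2) (E.P_ne h3) (E.I_ne h4) (by rwa [dot])

theorem norm {g : GL ι k} (hg : g ∈ G) {x : GL m k} (h1 : g.val * E.I = E.I * x.val) (h2 : E.P * g.val = x.val * E.P)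
    (h : Rk 1 (G.comap E.j) a α) : Rk 1 (G.comap E.j) (x.val *ᵥ a) (α ᵥ* (x⁻¹).val) := by
  refine E.rk1.2 (((E.rk1.1 h).conj hg).of_eq ?_ ?_)
  · rw [mulVec_mulVec, mulVec_mulVec, h1]
  · rw [vecMul_vecMul, vecMul_vecMul]
    congr 1
    rw [← Matrix.mul_one ((x⁻¹).val * E.P), ← g.mul_inv, ← Matrix.mul_assoc, Matrix.mul_assoc _ E.P, h2,
      ← Matrix.mul_assoc, x.inv_mul, Matrix.one_mul]

theorem card_le (E : Emb ι m k) : Fintype.card m ≤ Fintype.card ι := by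
  have := LinearMap.finrank_le_finrank_of_injective (f := E.I.mulVecLin) fun a b e => by
    rw [← E.PI a, ← E.PI b]; exact congrArg (E.P *ᵥ ·) e
  rwa [Module.finrank_fintype_fun_eq_card, Module.finrank_fintype_fun_eq_card] at this

theorem IP (h : Fintype.card m = Fintype.card ι) : E.I * E.P = 1 :=
  (mul_eq_one_comm_of_equiv (Fintype.equivOfCardEq h)).1 E.h

theorem u0 (h : Fintype.card m = Fintype.card ι) (hu : E.P *ᵥ u = 0) : u = 0 := by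
  rw [← one_mulVec u, ← E.IP h, ← mulVec_mulVec, hu, mulVec_zero]

theorem θ0 (h : Fintype.card m = Fintype.card ι) (hθ : θ ᵥ* E.I = 0) : θ = 0 := by
  rw [← vecMul_one θ, ← E.IP h, ← vecMul_vecMul, hθ, zero_vecMul]

/-- adding a vector -/
def ext (h1 : E.P *ᵥ u = 0) (h2 : θ ᵥ* E.I = 0) (h3 : θ ⬝ᵥ u = 1) : Emb ι (Option m) k where
  I := of fun i o => o.elim (u i) (E.I i)
  P := of fun o => o.elim θ E.P
  h := by
    ext (_ | s) (_ | t)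
    · exact h3
    · exact congrFun h2 t
    · exact congrFun h1 s
    · exact (congrFun (congrFun E.h s) t).trans (by simp [one_apply])

theorem ext_I (h1 : E.P *ᵥ u = 0) (h2 : θ ᵥ* E.I = 0) (h3 : θ ⬝ᵥ u = 1) (a : Option m → k) :
    (E.ext h1 h2 h3).I *ᵥ a = E.I *ᵥ (fun i => a (some i)) + a none • u := by
  ext i; simp [ext, mulVec, dotProduct, Fintype.sum_option, add_comm, mul_comm]

theorem ext_P (h1 : E.P *ᵥ u = 0) (h2 : θ ᵥ* E.I = 0) (h3 : θ ⬝ᵥ u = 1) (a : Option m → k) :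
    a ᵥ* (E.ext h1 h2 h3).P = (fun i => a (some i)) ᵥ* E.P + a none • θ := by
  ext i; simp [ext, vecMul, dotProduct, Fintype.sum_option, add_comm]; rfl

theorem one_dim (hc : Fintype.card m + 1 = Fintype.card ι) (h1 : E.P *ᵥ u = 0) (h2 : θ ᵥ* E.I = 0) (h3 : θ ⬝ᵥ u = 1) :
    (E.P *ᵥ v = 0 → v = (θ ⬝ᵥ v) • u) ∧ (φ ᵥ* E.I = 0 → φ = (φ ⬝ᵥ u) • θ) := by
  have hc' : Fintype.card (Option m) = Fintype.card ι := by rwa [Fintype.card_option]
  refine ⟨fun h => sub_eq_zero.1 ((E.ext h1 h2 h3).u0 hc' ?_), fun h => sub_eq_zero.1 ((E.ext h1 h2 h3).θ0 hc' ?_)⟩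
  · ext (_ | s)
    · change θ ⬝ᵥ _ = 0; simp [h3]
    · change (E.P *ᵥ _) s = 0; simp [mulVec_sub, mulVec_smul, h, h1]
  · ext (_ | s)
    · change _ ⬝ᵥ u = 0; simp [h3]
    · change (_ ᵥ* E.I) s = 0; simp [sub_vecMul, smul_vecMul, h, h2]

theorem P_sub (v : ι → k) : E.P *ᵥ (v - E.I *ᵥ E.P *ᵥ v) = 0 := by rw [mulVec_sub, PI, sub_self]

theorem sub_I (φ : ι → k) : (φ - (φ ᵥ* E.I) ᵥ* E.P) ᵥ* E.I = 0 := by rw [sub_vecMul, PI', sub_self]

theorem dot_u (α : m → k) (h : E.P *ᵥ u = 0) : (α ᵥ* E.P) ⬝ᵥ u = 0 := by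
  rw [← dotProduct_mulVec, h, dotProduct_zero]

theorem θ_dot (a : m → k) (h : θ ᵥ* E.I = 0) : θ ⬝ᵥ E.I *ᵥ a = 0 := by rw [dotProduct_mulVec, h, zero_dotProduct]

theorem dual (h1 : E.P *ᵥ u = 0) (hu : u ≠ 0) : ∃ θ, θ ᵥ* E.I = 0 ∧ θ ⬝ᵥ u = 1 := by
  obtain ⟨ψ, h⟩ := exists_dot hu
  exact ⟨_, E.sub_I ψ, by rw [sub_dotProduct, E.dot_u _ h1, sub_zero, h]⟩

theorem exists_u (h : Fintype.card m < Fintype.card ι) : ∃ u, E.P *ᵥ u = 0 ∧ u ≠ 0 := by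
  by_contra hc
  push Not at hc
  refine h.not_ge (Emb.card_le ⟨E.P, E.I, ?_⟩)
  ext i j
  have := congrFun (sub_eq_zero.1 (hc _ (E.P_sub (Pi.single j 1)))) i
  rw [mulVec_mulVec, mulVec_single_one] at this
  simpa [one_apply, Pi.single_apply] using this.symm

/-- change of basis -/
def cg (B : GL m k) : Emb ι m k where
  I := E.I * B.val
  P := (B⁻¹).val * E.P
  h := by rw [Matrix.mul_assoc, ← Matrix.mul_assoc E.P, E.h, Matrix.one_mul, B.inv_mul]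

/-- conjugation -/
def cj (g : GL ι k) : Emb ι m k where
  I := g.val * E.I
  P := E.P * (g⁻¹).val
  h := by rw [Matrix.mul_assoc, ← Matrix.mul_assoc _ g.val, g.inv_mul, Matrix.one_mul, E.h]

theorem cj_j (g : GL ι k) (x : GL m k) : (E.cj g).j x = g * E.j x * g⁻¹ := Units.ext (by
  rw [Units.val_mul, Units.val_mul, j_val, j_val, mul_add, add_mul, mul_one, g.mul_inv]
  simp only [cj, Matrix.mul_assoc])

theorem cj_comap {g : GL ι k} (hg : g ∈ G) : G.comap (E.cj g).j = G.comap E.j := by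
  ext x
  rw [Subgroup.mem_comap, Subgroup.mem_comap, cj_j, Subgroup.mul_mem_cancel_right _ (inv_mem hg),
    Subgroup.mul_mem_cancel_left _ hg]

/-- composition -/
def comp {n : Type} [Fintype n] [DecidableEq n] (E' : Emb m n k) : Emb ι n k where
  I := E.I * E'.I
  P := E'.P * E.P
  h := by rw [Matrix.mul_assoc, ← Matrix.mul_assoc E.P, E.h, Matrix.one_mul, E'.h]

/-- a reflection in coordinates -/
structure St (G : Subgroup (GL ι k)) (a α : m → k) (u θ : ι → k) : Prop where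
  rk : Rk 1 G (E.I *ᵥ a + u) (α ᵥ* E.P + θ)
  hu : E.P *ᵥ u = 0
  hθ : θ ᵥ* E.I = 0

variable {E}

theorem St.of (h : Rk 1 G v φ) : E.St G (E.P *ᵥ v) (φ ᵥ* E.I) (v - E.I *ᵥ E.P *ᵥ v) (φ - (φ ᵥ* E.I) ᵥ* E.P) :=
  ⟨by simpa using h, E.P_sub v, E.sub_I φ⟩

theorem St.zero : E.St G a α 0 0 ↔ Rk 1 (G.comap E.j) a α :=
  ⟨fun h => E.rk1.2 (by simpa using h.rk), fun h => ⟨by simpa using E.rk1.1 h, by simp, by simp⟩⟩

theorem pair (h1 : θ ᵥ* E.I = 0) (h2 : E.P *ᵥ u = 0) : (α ᵥ* E.P + θ) ⬝ᵥ (E.I *ᵥ a + u) = α ⬝ᵥ a + θ ⬝ᵥ u := by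
  rw [add_dotProduct, dotProduct_add, dotProduct_add, dot, E.dot_u _ h2, E.θ_dot _ h1, add_zero, zero_add]

theorem St.two (h : E.St G a α u θ) : α ⬝ᵥ a + θ ⬝ᵥ u = 2 := by rw [← pair h.hθ h.hu, h.rk.two]

theorem St.conj (h : E.St G a α u θ) {x : GL m k} (hx : x ∈ G.comap E.j) :
    E.St G (x.val *ᵥ a) (α ᵥ* (x⁻¹).val) u θ :=
  ⟨(h.rk.conj hx).of_eq (E.j_mulVec x a h.hu).symm (by rw [← map_inv, E.vecMul_j _ _ h.hθ]), h.hu, h.hθ⟩

theorem St.smul (h : E.St G a α u θ) {c : k} (hc : c ≠ 0) : E.St G (c • a) (c⁻¹ • α) (c • u) (c⁻¹ • θ) :=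
  ⟨(h.rk.smul hc).of_eq (by rw [mulVec_smul, smul_add]) (by rw [smul_vecMul, smul_add]),
    by rw [mulVec_smul, h.hu, smul_zero], by rw [smul_vecMul, h.hθ, smul_zero]⟩

theorem St.refl (h : E.St G a α u θ) (h' : E.St G b β w ψ) {c d : k} (hc : c = α ⬝ᵥ b + θ ⬝ᵥ w)
    (hd : d = β ⬝ᵥ a + ψ ⬝ᵥ u) : E.St G (b - c • a) (β - d • α) (w - c • u) (ψ - d • θ) :=
  ⟨(h.rk.refl1 h'.rk).of_eq (by rw [pair h.hθ h'.hu, ← hc, mulVec_sub, mulVec_smul]; module)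
    (by rw [pair h'.hθ h.hu, ← hd, sub_vecMul, smul_vecMul]; module),
    by rw [mulVec_sub, mulVec_smul, h.hu, h'.hu, smul_zero, sub_zero],
    by rw [sub_vecMul, smul_vecMul, h.hθ, h'.hθ, smul_zero, sub_zero]⟩

theorem St.of_eq (h : E.St G a α u θ) (e1 : b = a) (e2 : β = α) (e3 : w = u) (e4 : ψ = θ) : E.St G b β w ψ :=
  e1 ▸ e2 ▸ e3 ▸ e4 ▸ h

theorem St.ne_v (h : E.St G a α u θ) (h0 : a ≠ 0 ∨ u ≠ 0) : E.I *ᵥ a + u ≠ 0 := fun e => by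
  have h1 : a = 0 := by simpa [mulVec_add, E.h, h.hu] using congrArg (E.P *ᵥ ·) e
  exact h0.elim (· h1) fun h2 => h2 (by simpa [h1] using e)

theorem St.ne_φ (h : E.St G a α u θ) (h0 : α ≠ 0 ∨ θ ≠ 0) : α ᵥ* E.P + θ ≠ 0 := fun e => by
  have h1 : α = 0 := by simpa [add_vecMul, E.h, h.hθ] using congrArg (· ᵥ* E.I) e
  exact h0.elim (· h1) fun h2 => h2 (by simpa [h1] using e)

end Emb

theorem exists_emb (y ξ : m → ι → k) (h : (Matrix.of fun i j => ξ i ⬝ᵥ y j).det ≠ 0) : ∃ (E : Emb ι m k) (α : m → m → k),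
    (∀ i, y i = E.I *ᵥ Pi.single i 1) ∧ (∀ i, ξ i = α i ᵥ* E.P) ∧ ∀ i j, α i j = ξ i ⬝ᵥ y j := by
  have e : (Matrix.of ξ) * (Matrix.of y)ᵀ = Matrix.of fun i j => ξ i ⬝ᵥ y j := rfl
  refine ⟨⟨(Matrix.of y)ᵀ, (Matrix.of fun i j => ξ i ⬝ᵥ y j)⁻¹ * Matrix.of ξ, by
    rw [Matrix.mul_assoc, e, nonsing_inv_mul _ (Ne.isUnit h)]⟩, fun i j => ξ i ⬝ᵥ y j, fun i => ?_, fun i => ?_,
    fun _ _ => rfl⟩
  · rw [mulVec_single_one]; rfl
  · change _ = (Matrix.of (fun i j => ξ i ⬝ᵥ y j)).row i ᵥ* ((Matrix.of fun i j => ξ i ⬝ᵥ y j)⁻¹ * Matrix.of ξ)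
    rw [← single_one_vecMul, vecMul_vecMul, ← Matrix.mul_assoc, mul_nonsing_inv _ (Ne.isUnit h), Matrix.one_mul,
      single_one_vecMul]; rfl

/-- reflections with nonzero centre and axis -/
def RD (G : Subgroup (GL ι k)) (v φ : ι → k) : Prop := Rk 1 G v φ ∧ v ≠ 0 ∧ φ ≠ 0

variable {G : Subgroup (GL ι k)} {v φ : ι → k}

theorem RD.conj (h : RD G v φ) (g : GL ι k) (hg : g ∈ G) : RD G (g.val *ᵥ v) (φ ᵥ* (g⁻¹).val) :=
  ⟨h.1.conj hg, fun e => h.2.1 (by rw [← inv_mulVec_mulVec g v, e, mulVec_zero]),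
    fun e => h.2.2 (by rw [← vecMul_inv_vecMul g φ, e, zero_vecMul])⟩

theorem QS.rd (hι : 2 ≤ Fintype.card ι) (h : QS G) (d : RD G v φ) : Cl 1 G (RD G) :=
  h.cl hι (one_mul 1) (fun _ _ a => a.1) (fun _ _ a => a.conj) d d.2.1 d.2.2

theorem Cl.out {D : (ι → k) → (ι → k) → Prop} (h : Cl 1 G D) (E : Emb ι m k) [Nonempty m]
    (hc : Fintype.card m < Fintype.card ι) : ∃ a α u θ, E.St G a α u θ ∧ α ≠ 0 ∧ u ≠ 0 := by
  by_contra hn
  push Not at hn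
  rcases h.irr (LinearMap.range E.I.mulVecLin) (fun v φ d w ⟨b, hb⟩ => by
    by_cases e : φ ᵥ* E.I = 0
    · rw [← hb, mulVecLin_apply, E.θ_dot _ e, zero_smul]; exact zero_mem _
    · exact Submodule.smul_mem _ _ ⟨_, (sub_eq_zero.1 (hn _ _ _ _ (Emb.St.of (h.rk d)) e)).symm⟩) with e | e
  · exact E.I_ne (a := 1) one_ne_zero ((Submodule.eq_bot_iff _).1 e _ ⟨1, rfl⟩)
  · obtain ⟨u, h1, h2⟩ := E.exists_u hc
    obtain ⟨b, rfl⟩ := e.ge (Submodule.mem_top (x := u))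
    exact h2 (by rw [mulVecLin_apply, E.PI] at h1; simp [h1])

theorem E2.nt (h : E2 G) (h2 : (2 : k) ≠ 0) : NT G := fun v φ a => by
  by_contra hn
  push Not at hn
  rcases h a (by rw [two_smul]; exact a.add_right a : Rk (-1) G v ((2 : k) • φ)) hn.1 hn.2 with e | e
  · exact h2 e
  · exact one_ne_zero (α := k) (by linear_combination e)

theorem NT.e2 (h : NT G) : E2 G := fun _ _ _ a _ b c => ((h a).elim b c).elim

end H12.D5
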