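/-
Five-dimensional matrix groups, part 3: consequences of Dickson's theorem.
-/
import Cfsg.Agent.H12.D5b
import Cfsg.Agent.H27.Dickson

set_option autoImplicit false
set_option linter.unusedSectionVars false

namespace H12.D5
open Matrix Cfsg.Geo H27.Asch H27

variable {F : Type*} [Field F] [Fintype F] {H : Subgroup (GL (Fin 2) F)}

local notation "vv" => vecMulVec

theorem sc_pow_card {ι : Type} [Fintype ι] [DecidableEq ι] (c : Fˣ) : sc ι c ^ (Fintype.card F - 1) = 1 := by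
  rw [← map_pow, Units.ext (u := c ^ _) (v := 1) (by simpa using FiniteField.pow_card_sub_one_eq_one _ c.ne_zero),
    map_one]

theorem pow_card_pred {G : Type*} [Group G] (p : ℕ) [CharP F p] {x : G} (h : x ^ p = 1) :
    x ^ (Fintype.card F - 1) = x⁻¹ := by
  obtain ⟨n, -, hn⟩ := FiniteField.card F p
  rw [eq_inv_iff_mul_eq_one, ← pow_succ, Nat.sub_add_cancel Fintype.card_pos, hn, ← Nat.succ_pred_eq_of_pos n.pos,
    pow_succ', pow_mul, h, one_pow]

theorem pg_lift (p : ℕ) [CharP F p] {x : GL (Fin 2) F} (h : pgm x ∈ H.map pgm) (hx : x ^ p = 1) : x ∈ H := by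
  obtain ⟨y, hy, e⟩ := h
  obtain ⟨c, c0, hc⟩ := (pg_mk_eq_mk_iff x y).1 e.symm
  have : y = sc _ (Units.mk0 c c0) * x := Units.ext (by ext i j; simpa [sc_val] using hc i j)
  have h2 := pow_mem hy (Fintype.card F - 1)
  rwa [this, Commute.mul_pow (scalars_comm (sc_mem _) x), sc_pow_card, one_mul, pow_card_pred (F := F) p hx,
    inv_mem_iff] at h2

theorem add_pow_char {G : Type*} [Group G] (p : ℕ) [CharP F p] {f : F → G} (h : ∀ s t, f (s + t) = f s * f t) (t : F) :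
    f t ^ p = 1 := by
  have h0 : f 0 = 1 := mul_eq_left.1 (by rw [← h 0 0, add_zero])
  have : ∀ n : ℕ, f t ^ n = f (n * t) := fun n => by
    induction n with
    | zero => simp [h0]
    | succ n ih => rw [pow_succ, ih, ← h]; congr 1; push_cast; ring
  rw [this, CharP.cast_eq_zero, zero_mul, h0]

theorem a5_pow {Q : Type*} [Group Q] (e : Q ≃* alternatingGroup (Fin 5)) (x : Q) :
    x ^ 2 = 1 ∨ x ^ 3 = 1 ∨ x ^ 5 = 1 := by
  have b : ∀ x : Equiv.Perm (Fin 5), Equiv.Perm.sign x = 1 → x ^ 2 = 1 ∨ x ^ 3 = 1 ∨ x ^ 5 = 1 := by decide +kernel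
  simp only [← e.map_eq_one_iff, map_pow, Subtype.ext_iff]; exact b _ (e x).2

theorem card_small {Q : Type*} [Group Q] (h : Nonempty (Q ≃* alternatingGroup (Fin 4)) ∨
    Nonempty (Q ≃* Equiv.Perm (Fin 4)) ∨ Nonempty (Q ≃* alternatingGroup (Fin 5))) :
    12 ∣ Nat.card Q ∧ ∀ x : Q, x ^ 3 = 1 ∨ x ^ 4 = 1 ∨ x ^ 5 = 1 := by
  have a : ∀ x : Equiv.Perm (Fin 4), x ^ 3 = 1 ∨ x ^ 4 = 1 := by decide +kernel
  rcases h with ⟨⟨e⟩⟩ | ⟨⟨e⟩⟩ | ⟨⟨e⟩⟩ <;> refine ⟨?_, fun x => ?_⟩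
  · rw [Nat.card_congr e.toEquiv, nat_card_alternatingGroup]; simp [Nat.factorial]
  · simp only [← e.map_eq_one_iff, map_pow, Subtype.ext_iff]; exact (a _).imp_right .inl
  · rw [Nat.card_congr e.toEquiv, Nat.card_perm]; simp [Nat.factorial]
  · simp only [← e.map_eq_one_iff, map_pow]; exact (a _).imp_right .inl
  · rw [Nat.card_congr e.toEquiv, nat_card_alternatingGroup]; simp [Nat.factorial]
  · exact (a5_pow e x).elim (fun h => .inr (.inl (by rw [show 4 = 2 * 2 from rfl, pow_mul, h, one_pow])))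
      (.imp_right .inr)

theorem dw (p : ℕ) [Fact p.Prime] [CharP F p] (H : Subgroup (GL (Fin 2) F)) :
    IsCyclic (H.map pgm) ∨ (∃ v : Fin 2 → F, v ≠ 0 ∧ ∀ g ∈ H,
      (g 0 0 * v 0 + g 0 1 * v 1) * v 1 = (g 1 0 * v 0 + g 1 1 * v 1) * v 0) ∨
    (∃ c : H.map pgm, (Subgroup.zpowers c).index = 2 ∧ ∀ g, g ∉ Subgroup.zpowers c → g * g = 1) ∨
    (12 ∣ Nat.card (H.map pgm) ∧ (∀ x : H.map pgm, x ^ 3 = 1 ∨ x ^ 4 = 1 ∨ x ^ 5 = 1) ∧
      (¬ p ∣ Nat.card (H.map pgm) ∨ p = 3 ∧ ∀ x : H.map pgm, x ^ 2 = 1 ∨ x ^ 3 = 1 ∨ x ^ 5 = 1)) ∨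
    ∃ (g : GL (Fin 2) F) (K : Subfield F), 3 ≤ Nat.card K ∧ ∀ t ∈ K, g * upT t * g⁻¹ ∈ H ∧ g * loT t * g⁻¹ ∈ H := by
  rcases dickson_hom p (H.map pgm).subtype Subtype.val_injective with
    h | ⟨-, x, h⟩ | ⟨c, -, h⟩ | h | h | ⟨c, K, h1, -, h, -⟩
  · exact .inl h.1
  · induction x using Projectivization.ind with | h v hv =>
    exact .inr (.inl ⟨v, hv, fun g hg => (mk_smul_eq_iff g v v hv hv).1 (h ⟨_, g, hg, rfl⟩)⟩)
  · exact .inr (.inr (.inl ⟨c, h⟩))
  · exact .inr (.inr (.inr (.inl ⟨(card_small h.2).1, (card_small h.2).2, .inl h.1⟩)))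
  · exact .inr (.inr (.inr (.inl ⟨(card_small (.inr (.inr h.2))).1, (card_small (.inr (.inr h.2))).2,
      .inr ⟨h.1, a5_pow h.2.some⟩⟩)))
  obtain ⟨g, rfl⟩ := ProjGenLinGroup.mk_surjective c
  have key : ∀ x : GL (Fin 2) F, x ^ p = 1 → pgm x ∈ pslOf K → g * x * g⁻¹ ∈ H := fun x h1 h2 => by
    obtain ⟨y, hy⟩ := h _ h2
    exact pg_lift p (by rw [map_mul, map_mul, map_inv, ← hy]; exact y.2) (by rw [conj_pow, h1]; simp)
  refine .inr (.inr (.inr (.inr ⟨g, K, h1, fun t ht => ⟨key _ (add_pow_char p upT_add t) ?_,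
    key _ (add_pow_char p loT_add t) ?_⟩⟩))) <;> refine mem_pslOf_iff.2 ⟨_, rfl, fun i j => ?_, by simp [upT, loT]⟩ <;>
    fin_cases i <;> fin_cases j <;> simp [upT, loT, ht]

theorem gl_det (g : GL (Fin 2) F) : g.val.det = g 0 0 * g 1 1 - g 0 1 * g 1 0 := det_fin_two _

theorem gl_tr (g : GL (Fin 2) F) : g.val.trace = g 0 0 + g 1 1 := trace_fin_two _

theorem neg_mem_of_four (h2 : (2 : F) ≠ 0) (hd : ∀ x ∈ H, x.val.det ^ 2 = 1) (h : 4 ∣ Nat.card H) : -1 ∈ H := by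
  let f : H →* Fˣ := GeneralLinearGroup.det.comp H.subtype
  have h1 : Nat.card f.range ∣ 2 := by
    refine (Subgroup.card_dvd_of_le (H := f.range) (K := Subgroup.zpowers (-1)) ?_).trans ?_
    · rintro _ ⟨x, rfl⟩
      rcases sq_eq_one_iff.1 (hd x x.2) with e | e
      · rw [(Units.ext e : f x = 1)]; exact one_mem _
      · rw [(Units.ext e : f x = -1)]; exact Subgroup.mem_zpowers _
    · rw [Nat.card_zpowers]; exact orderOf_dvd_of_pow_eq_one (by simp)
  rw [← f.ker.card_mul_index, Subgroup.index_ker] at h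
  obtain ⟨x, hx⟩ := exists_prime_orderOf_dvd_card' (G := f.ker) 2
    (Nat.dvd_of_mul_dvd_mul_right two_pos (h.trans (mul_dvd_mul_left _ h1)))
  have e1 := congrArg Units.val x.2
  have e2 := congrArg (fun y : f.ker => y.1.1) (hx ▸ pow_orderOf_eq_one x)
  have e3 : x.1.1 ≠ 1 := fun e => by simp [show x = 1 from Subtype.ext (Subtype.ext e)] at hx
  obtain ⟨⟨g, hg⟩, hg'⟩ := x
  change g.val.det = 1 at e1
  change g ^ 2 = 1 at e2
  have e4 := fun i j => congrArg (fun y : GL (Fin 2) F => y i j) e2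
  have := e4 0 0; have := e4 0 1; have := e4 1 0; have := e4 1 1
  simp only [sq, gl_mul_apply, gl_det, Units.val_one, one_apply, Fin.reduceEq, reduceIte] at *
  convert hg using 1
  by_cases e : g 0 0 = 1
  · exact absurd (gl_ext e (by simp; grind) (by simp; grind) (by simp; grind)) e3
  · exact (gl_ext (by simp; grind) (by simp; grind) (by simp; grind) (by simp; grind)).symm

theorem neg_mem_three (h2 : (2 : F) ≠ 0) (hd : ∀ x ∈ H, x.val.det ^ 2 = 1) {ρ : Fin 3 → GL (Fin 2) F} (h1 : ∀ i, ρ i ∈ H)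
    (h3 : ∀ i, ρ i * ρ i = 1) (h4 : ∀ i, (ρ i).val.det = -1) (h5 : (ρ 0 * ρ 1 * ρ 2).val.trace ≠ 0) : -1 ∈ H := by
  obtain ⟨p, hc⟩ := CharP.exists F
  haveI := Fact.mk (CharP.char_is_prime F p)
  by_contra hn
  have n4 : ¬ 4 ∣ Nat.card (H.map pgm) := fun h => hn (neg_mem_of_four h2 hd (h.trans (H.card_map_dvd _)))
  let r : Fin 3 → H.map pgm := fun i => ⟨_, ρ i, h1 i, rfl⟩
  have r2 : ∀ i, r i * r i = 1 := fun i => Subtype.ext (by change pgm _ * pgm _ = 1; rw [← map_mul, h3, map_one])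
  have dg : (ρ 0 * ρ 1 * ρ 2).val.det = -1 := by simp [h4]
  have gH : ρ 0 * ρ 1 * ρ 2 ∈ H := mul_mem (mul_mem (h1 0) (h1 1)) (h1 2)
  have key : r 0 * r 1 * r 2 * (r 0 * r 1 * r 2) ≠ 1 := fun e => by
    have : pgm (ρ 0 * ρ 1 * ρ 2 * (ρ 0 * ρ 1 * ρ 2)) = 1 := by simpa using congrArg Subtype.val e
    generalize ρ 0 * ρ 1 * ρ 2 = g at *
    rw [pg_mk_eq_one_iff] at this
    refine hn (by
      convert mul_mem gH gH using 1
      simp only [gl_mul_apply, gl_det, gl_tr] at this dg h5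
      refine gl_ext ?_ ?_ ?_ ?_ <;> simp [gl_mul_apply] <;> grind)
  rcases dw p H with h | ⟨v, v0, h⟩ | ⟨c, h, h'⟩ | h | ⟨g, K, -, h⟩
  · letI := h.commGroup
    exact key (by rw [mul_mul_mul_comm, mul_mul_mul_comm (r 0), r2, r2, r2]; simp)
  · have ev : ∀ g ∈ H, ∃ c : F, g.val *ᵥ v = c • v := fun g hg => by
      have := (pmk_eq_iff (g.val *ᵥ v) v (fun e => v0 (by rw [← inv_mulVec_mulVec g v, e, mulVec_zero])) v0).2
        (by simpa [mulVec, dotProduct] using h g hg)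
      rw [Projectivization.mk_eq_mk_iff'] at this
      exact this.imp fun _ => Eq.symm
    choose c hc using fun i => ev _ (h1 i)
    have c2 : ∀ i, c i * c i = 1 := fun i => smul_left_injective F v0 (by
      simpa [← mulVec_mulVec, hc, mulVec_smul, smul_smul] using congrArg (fun g : GL (Fin 2) F => g.val *ᵥ v) (h3 i))
    have e : (ρ 0 * ρ 1 * ρ 2).val *ᵥ v = (c 0 * c 1 * c 2) • v := by
      simp only [Units.val_mul, ← mulVec_mulVec, hc, mulVec_smul, smul_smul]; ring_nf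
    have e2 : (c 0 * c 1 * c 2) ^ 2 = 1 := by rw [mul_pow, mul_pow, sq, sq, sq, c2, c2, c2]; simp
    generalize ρ 0 * ρ 1 * ρ 2 = g at *
    generalize c 0 * c 1 * c 2 = d at *
    have e0 := congrFun e 0
    have e1 := congrFun e 1
    simp only [mulVec, dotProduct, Fin.sum_univ_two, gl_det, gl_tr, Pi.smul_apply, smul_eq_mul] at e0 e1 dg h5
    exact v0 (funext fun i => by fin_cases i <;> simp <;> grind)
  · have n : ∀ i, r i ∉ Subgroup.zpowers c := fun i e => n4 (by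
      rw [← (Subgroup.zpowers c).card_mul_index, h]
      refine mul_dvd_mul_right (a := 2) ((orderOf_eq_prime (by rw [sq, r2]) fun e => ?_).symm.dvd.trans
        (Subgroup.orderOf_dvd_natCard _ e)) 2
      have a := (pg_mk_eq_one_iff (ρ i)).1 (congrArg Subtype.val e)
      have b := congrArg (fun y : GL (Fin 2) F => y 0 0) (h3 i)
      have d := h4 i
      simp only [gl_mul_apply, gl_det, Units.val_one, one_apply_eq] at b d
      grind)
    exact key (h' _ fun e => n 2 (((Subgroup.mul_mem_iff_of_index_two h).1 e).1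
      ((Subgroup.mul_mem_iff_of_index_two h).2 (iff_of_false (n 0) (n 1)))))
  · exact n4 ((by norm_num : 4 ∣ 12).trans h.1)
  · have := mul_mem (mul_mem (h 1 (one_mem _)).1 (h (-1) (neg_mem (one_mem _))).2) (h 1 (one_mem _)).1
    refine hn (by
      convert mul_mem this this using 1
      rw [conj_mul, conj_mul, conj_mul, show upT (1 : F) * loT (-1) * upT 1 * (upT 1 * loT (-1) * upT 1) = -1 from
        gl_ext (by simp [gl_mul_apply, upT, loT]) (by simp [gl_mul_apply, upT, loT]) (by simp [gl_mul_apply, upT, loT])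
          (by simp [gl_mul_apply, upT, loT])]
      simp)

/-- admissible eigenvalues -/
def Zt (ζ : F) : Prop := ζ ^ 2 ≠ 1 ∧ ((ζ ^ 3 ≠ 1 ∧ ζ ^ 4 ≠ 1 ∧ ζ ^ 5 ≠ 1) ∨ (2 : F) = 0 ∨ (3 : F) = 0 ∧ ζ ^ 2 = -1)

theorem hom_two (hE : E2 H) {ζ α γ : F} (hζ : Zt ζ) {d r : GL (Fin 2) F} (hd : d ∈ H) (hr : r ∈ H)
    (e1 : d.val = !![ζ, 0; 0, 1]) (e2 : r.val = !![1 - α, -γ; -α, 1 - γ]) (h1 : α + γ = 2) (h2 : α ≠ 0) (h3 : γ ≠ 0) :
    α = 1 := by
  obtain ⟨p, hc⟩ := CharP.exists F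
  haveI := Fact.mk (CharP.char_is_prime F p)
  obtain rfl : γ = 2 - α := by linear_combination h1
  let D : H.map pgm := ⟨_, d, hd, rfl⟩
  let R : H.map pgm := ⟨_, r, hr, rfl⟩
  have z1 : ζ ≠ 1 := fun e => hζ.1 (by rw [e, one_pow])
  have z0 : ζ ≠ 0 := fun e => by simpa [e1, e] using (GeneralLinearGroup.det d).ne_zero
  have Dn : ∀ n, D ^ n = 1 → ζ ^ n = 1 := fun n e => by
    have a := upper_pow d (by simp [e1]) n
    have b := (pg_mk_eq_one_iff (d ^ n)).1 (by simpa using congrArg Subtype.val e)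
    simpa [a.2.1, a.2.2.1, e1] using b.2.2
  have nc : D * R ≠ R * D := fun e => by
    obtain ⟨c, -, h⟩ := (pg_mk_eq_mk_iff (d * r) (r * d)).1 (by simpa using congrArg Subtype.val e)
    have a := h 0 1
    have b := h 1 0
    simp [gl_mul_apply, e1, e2] at a b
    exact hζ.1 (by grind)
  rcases dw p H with h | ⟨v, v0, h⟩ | ⟨c, h, h'⟩ | h | ⟨g, K, hK, h⟩
  · letI := h.commGroup
    exact absurd (mul_comm D R) nc
  · have a := h d hd
    have b := h r hr
    simp [e1, e2] at a b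
    exact absurd (funext fun i => by fin_cases i <;> simp <;> grind) v0
  · have a : D ∈ Subgroup.zpowers c := by_contra fun e => hζ.1 (Dn 2 (by rw [sq, h' _ e]))
    have b : R ∉ Subgroup.zpowers c := fun e => nc (congrArg Subtype.val (mul_comm' (⟨D, a⟩ : Subgroup.zpowers c) ⟨R, e⟩))
    have := ((pg_mk_eq_one_iff (d * r * (d * r))).1 (by
      simpa using congrArg Subtype.val (h' _ (mt (Subgroup.mul_mem_cancel_left _ a).1 b)))).1
    simp [gl_mul_apply, e1, e2] at this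
    grind
  · have R2 : orderOf R = 2 := orderOf_eq_prime (Subtype.ext (by
      change pgm r ^ 2 = 1
      rw [← map_pow, pg_mk_eq_one_iff]; simp [sq, gl_mul_apply, e2]; grind)) fun e => nc (by rw [e]; simp)
    have pq : ∀ q : ℕ, q.Prime → (q : F) = 0 → p = q := fun q hq e =>
      (Nat.prime_dvd_prime_iff_eq Fact.out hq).1 ((CharP.cast_eq_zero_iff F p q).1 e)
    rcases hζ.2 with a | a | a
    · exact ((h.2.1 D).elim (a.1 <| Dn _ ·) fun e => e.elim (a.2.1 <| Dn _ ·) (a.2.2 <| Dn _ ·)).elim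
    · obtain rfl := pq 2 Nat.prime_two a
      exact (h.2.2.elim (· ((by norm_num : 2 ∣ 12).trans h.1)) (by simp)).elim
    · obtain rfl := pq 3 Nat.prime_three a.1
      exact (((h.2.2.resolve_left (· ((by norm_num : 3 ∣ 12).trans h.1))).2 D).elim (hζ.1 <| Dn _ ·) fun e =>
        hζ.1 (by have := e.imp (Dn _) (Dn _); grind)).elim
  · obtain ⟨t, t0, t1⟩ : ∃ t : K, t ≠ 0 ∧ t ≠ 1 := by
      by_contra hn
      push Not at hn
      have := Nat.card_le_card_of_surjective (![0, 1] : Fin 2 → K) fun t => by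
        by_cases e : t = 0
        exacts [⟨0, e.symm⟩, ⟨1, (hn t e).symm⟩]
      simp at this; omega
    have key : ∀ s ∈ K, Rk (-1) H (g.val *ᵥ ![1, 0]) (s • (![0, -1] ᵥ* (g⁻¹).val)) := fun s hs => by
      rw [← smul_vecMul]
      exact tv_mk (by rw [dot_conj]; simp) (h s hs).1 (conj_ro (by ext i j; fin_cases i <;> fin_cases j <;> simp [upT]) g)
    have := hE (by simpa using key 1 (one_mem _)) (key t t.2)
      (fun e => by simpa [e] using congrFun (inv_mulVec_mulVec g ![1, 0]) 0)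
      (fun e => by have := vecMul_inv_vecMul g ![0, -1]; rw [e] at this; simpa using congrFun this 1)
    exact (this.elim (t0 <| Subtype.ext ·) (t1 <| Subtype.ext ·)).elim

end H12.D5
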