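/-
Five-dimensional matrix groups, part 4: degenerate triangles, homologies.
-/
import Cfsg.Agent.H12.D5c

set_option autoImplicit false
set_option linter.unusedSectionVars false

namespace H12.D5
open Matrix Cfsg.Geo H27.Asch H27

variable {ι m : Type} [Fintype ι] [DecidableEq ι] [Fintype m] [DecidableEq m] {F : Type*} [Field F] [Fintype F]
  {G : Subgroup (GL ι F)} {u θ v φ v₁ v₂ v₃ φ₁ φ₂ φ₃ : ι → F}

local notation "vv" => vecMulVec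

/-- the triangle invariant -/
abbrev tg (v₁ φ₁ v₂ φ₂ v₃ φ₃ : ι → F) : F := φ₁ ⬝ᵥ v₂ * φ₂ ⬝ᵥ v₃ * φ₃ ⬝ᵥ v₁

/-- the pair invariant -/
abbrev pa (v₁ φ₁ v₂ φ₂ : ι → F) : F := φ₁ ⬝ᵥ v₂ * φ₂ ⬝ᵥ v₁

/-- linear dependence -/
def D3 (v₁ v₂ v₃ : ι → F) : Prop := ∀ φ₁ φ₂ φ₃ : ι → F, tg v₁ φ₁ v₂ φ₂ v₃ φ₃ + tg v₁ φ₁ v₃ φ₃ v₂ φ₂ +
  φ₁ ⬝ᵥ v₁ * φ₂ ⬝ᵥ v₂ * φ₃ ⬝ᵥ v₃ = φ₁ ⬝ᵥ v₁ * pa v₂ φ₂ v₃ φ₃ + φ₂ ⬝ᵥ v₂ * pa v₁ φ₁ v₃ φ₃ + φ₃ ⬝ᵥ v₃ * pa v₁ φ₁ v₂ φ₂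

theorem D3.rot (h : D3 v₁ v₂ v₃) : D3 v₂ v₃ v₁ := fun a b c => by linear_combination h c a b

theorem d3_of {a b : F} (h : v₃ = a • v₁ + b • v₂) : D3 v₁ v₂ v₃ := fun _ _ _ => by
  simp only [tg, pa, h, dotProduct_add, dotProduct_smul, smul_eq_mul]; ring

/-- reflections in a parabolic subgroup containing a central symmetry -/
structure Bl (G : Subgroup (GL ι F)) (h : GL ι F) (u θ v φ : ι → F) (l m : F) : Prop where
  rk : Rk 1 G v φ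
  hu : φ ⬝ᵥ u = 0
  hθ : θ ⬝ᵥ v = 0
  hv : h.val *ᵥ v = l • u - v
  hφ : φ ᵥ* (h⁻¹).val = m • θ - φ

section
variable {h : GL ι F} {l m l₁ l₂ l₃ m₁ m₂ m₃ : F}

theorem Bl.refl (a : Bl G h u θ v₁ φ₁ l₁ m₁) (b : Bl G h u θ v₂ φ₂ l₂ m₂) :
    Bl G h u θ (v₂ - (φ₁ ⬝ᵥ v₂) • v₁) (φ₂ - (φ₂ ⬝ᵥ v₁) • φ₁) (l₂ - φ₁ ⬝ᵥ v₂ * l₁) (m₂ - φ₂ ⬝ᵥ v₁ * m₁) :=
  ⟨a.rk.refl1 b.rk, by simp [a.hu, b.hu], by simp [a.hθ, b.hθ], by rw [mulVec_sub, mulVec_smul, a.hv, b.hv]; module,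
    by rw [sub_vecMul, smul_vecMul, a.hφ, b.hφ]; module⟩

theorem Bl.ex (hh : h ∈ G) (e : θ ⬝ᵥ u = 0) (a : Bl G h u θ v φ l m) :
    ∃ x ∈ G, x.val = 1 + vv u (l • φ) + vv (-m • v) θ + (-(l * m)) • vv u θ := by
  obtain ⟨x, hx, f1⟩ := a.rk.2
  obtain ⟨y, hy, f2⟩ := (a.rk.conj hh).2
  refine ⟨_, mul_mem hx hy, ?_⟩
  have e5 : φ ⬝ᵥ (l • u - v) = -2 := by simp [a.hu, a.rk.two]
  simp only [Units.val_mul, f1, f2, a.hv, a.hφ, sub_mul, mul_sub, one_mul, mul_one, vv_mul, e5]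
  simp only [sub_vecMulVec, vecMulVec_sub, smul_vecMulVec, vecMulVec_smul]
  module

theorem Bl.lm (hN : NT G) (h2 : (2 : F) ≠ 0) (hh : h ∈ G) (e : θ ⬝ᵥ u = 0) (a : Bl G h u θ v φ l m) :
    l • u = 0 ↔ m • θ = 0 := by
  obtain ⟨x, hx, f⟩ := a.ex hh e
  refine ⟨fun h0 => (hN (tv_mk (v := v) (by simp [a.hθ]) hx ?_)).resolve_left (a.rk.ne h2).1, fun h0 =>
    neg_eq_zero.1 ((hN (tv_mk (φ := φ) (v := -(l • u)) (by simp [a.hu]) hx ?_)).resolve_right (a.rk.ne h2).2)⟩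
  · rw [f, vecMulVec_smul, ← smul_vecMulVec, h0, neg_smul (l * m), mul_comm, mul_smul, ← smul_vecMulVec, h0]
    simp [sub_eq_add_neg]
  · rw [f, smul_vecMulVec, ← vecMulVec_smul (-m), neg_smul m, neg_smul (l * m), mul_smul, ← vecMulVec_smul m, h0]
    simp

theorem Bl.rel (hN : NT G) (hh : h ∈ G) (e : θ ⬝ᵥ u = 0) (u0 : u ≠ 0) (θ0 : θ ≠ 0) (a : Bl G h u θ v₁ φ₁ l₁ m₁)
    (b : Bl G h u θ v₂ φ₂ l₂ m₂) : l₂ * m₁ * φ₂ ⬝ᵥ v₁ = l₁ * m₂ * φ₁ ⬝ᵥ v₂ := by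
  obtain ⟨x, hx, f⟩ := a.ex hh e
  obtain ⟨y, hy, g⟩ := b.ex hh e
  have := (smul_eq_zero.1 ((hN (heis hx hy f g (by simp [a.hu]) (by simp [b.hu]) e (by simp [a.hθ])
    (by simp [b.hθ]))).resolve_left u0)).resolve_right θ0
  simp only [smul_dotProduct, dotProduct_smul, smul_eq_mul] at this
  linear_combination -this

theorem Bl.zero (hN : NT G) (h2 : (2 : F) ≠ 0) (hh : h ∈ G) (e : θ ⬝ᵥ u = 0) (a : Bl G h u θ v₁ φ₁ l₁ m₁)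
    (b : Bl G h u θ v₂ φ₂ l₂ m₂) (c : Bl G h u θ v₃ φ₃ l₃ m₃) (hr : tg v₁ φ₁ v₂ φ₂ v₃ φ₃ ≠ tg v₁ φ₁ v₃ φ₃ v₂ φ₂) :
    l₁ • u = 0 ∧ m₁ • θ = 0 := by
  rw [← a.lm hN h2 hh e, and_self]
  by_contra h0
  have h1 := mt (a.lm hN h2 hh e).2 h0
  rw [smul_eq_zero, not_or] at h0 h1
  have R := fun {v₁ φ₁ l₁ m₁ v₂ φ₂ l₂ m₂} (a : Bl G h u θ v₁ φ₁ l₁ m₁) (b : Bl G h u θ v₂ φ₂ l₂ m₂) =>
    Bl.rel hN hh e h0.2 h1.2 a b
  have r1 := R a b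
  have r2 := R a c
  have r3 := R b c
  have r4 := R (a.refl b) c
  have r5 := R b (a.refl c)
  have r6 := R (a.refl b) (a.refl c)
  simp only [dotProduct_sub, sub_dotProduct, dotProduct_smul, smul_dotProduct, smul_eq_mul, a.rk.two] at r4 r5 r6
  refine hr (mul_left_cancel₀ (mul_ne_zero (mul_ne_zero h0.1 h1.1) (mul_ne_zero h0.1 h1.1)) ?_)
  simp only [tg]
  grind

end

/-- the image of a parabolic subgroup in a Levi factor -/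
def levi (E : Emb ι m F) (G : Subgroup (GL ι F)) (u θ : ι → F) : Subgroup (GL m F) where
  carrier := {x | x.val.det ^ 2 = 1 ∧ ∃ g ∈ G, g.val *ᵥ u = u ∧ θ ᵥ* (g⁻¹).val = θ ∧
    (∀ b, ∃ l : F, g.val *ᵥ E.I *ᵥ b = E.I *ᵥ x.val *ᵥ b + l • u) ∧
      ∀ β, ∃ l : F, (β ᵥ* E.P) ᵥ* (g⁻¹).val = (β ᵥ* (x⁻¹).val) ᵥ* E.P + l • θ}
  one_mem' := ⟨by simp, 1, one_mem _, by simp, by simp, fun b => ⟨0, by simp⟩, fun b => ⟨0, by simp⟩⟩
  mul_mem' := by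
    rintro x y ⟨d, g, hg, a1, a2, a3, a4⟩ ⟨d', g', hg', b1, b2, b3, b4⟩
    refine ⟨by rw [Units.val_mul, det_mul, mul_pow, d, d', one_mul], _, mul_mem hg hg',
      by rw [Units.val_mul, ← mulVec_mulVec, b1, a1],
      by rw [_root_.mul_inv_rev, Units.val_mul, ← vecMul_vecMul, b2, a2], fun b => ?_, fun β => ?_⟩
    · obtain ⟨l, e⟩ := b3 b
      obtain ⟨l', e'⟩ := a3 (y.val *ᵥ b)
      exact ⟨l' + l, by rw [Units.val_mul, ← mulVec_mulVec, e, mulVec_add, e', mulVec_smul, a1, Units.val_mul,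
        ← mulVec_mulVec b, add_smul, add_assoc]⟩
    · obtain ⟨l, e⟩ := b4 β
      obtain ⟨l', e'⟩ := a4 (β ᵥ* (y⁻¹).val)
      exact ⟨l' + l, by rw [_root_.mul_inv_rev, Units.val_mul, ← vecMul_vecMul, e, add_vecMul, e', smul_vecMul, a2,
        _root_.mul_inv_rev, Units.val_mul, ← vecMul_vecMul β, add_smul, add_assoc]⟩
  inv_mem' := by
    rintro x ⟨d, g, hg, a1, a2, a3, a4⟩
    have b1 : (g⁻¹).val *ᵥ u = u := by simpa [a1] using inv_mulVec_mulVec g u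
    have b2 : θ ᵥ* g.val = θ := by have := vecMul_inv_vecMul g θ; rwa [a2] at this
    refine ⟨by rw [coe_units_inv, det_nonsing_inv, Ring.inverse_eq_inv', inv_pow, d, inv_one], _, inv_mem hg, b1, b2,
      fun b => ?_, fun β => ?_⟩
    · obtain ⟨l, e⟩ := a3 ((x⁻¹).val *ᵥ b)
      have := inv_mulVec_mulVec g (E.I *ᵥ (x⁻¹).val *ᵥ b)
      rw [e, mulVec_inv_mulVec, mulVec_add, mulVec_smul, b1] at this
      exact ⟨-l, by rw [← this]; simp⟩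
    · obtain ⟨l, e⟩ := a4 (β ᵥ* x.val)
      have := vecMul_inv_vecMul g ((β ᵥ* x.val) ᵥ* E.P)
      rw [e, vecMul_vecMul_inv, add_vecMul, smul_vecMul, b2] at this
      exact ⟨-l, by rw [inv_inv, inv_inv, ← this]; simp⟩

theorem det_ro {a α : m → F} : (1 - vv a α).det = 1 - α ⬝ᵥ a := by
  rw [sub_eq_add_neg, ← neg_vecMulVec, vecMulVec_eq Unit, det_one_add_replicateCol_mul_replicateRow, dotProduct_neg,
    sub_eq_add_neg]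

theorem ro_sq {a α : m → F} (h : α ⬝ᵥ a = 2) {x : GL m F} (e : x.val = 1 - vv a α) : x * x = 1 :=
  Units.ext (by simpa [e] using ro_mul 1 (one_mul 1) (h.trans one_add_one_eq_two.symm))

theorem mem_levi {E : Emb ι m F} (h1 : E.P *ᵥ u = 0) (h2 : θ ᵥ* E.I = 0) (h3 : θ ⬝ᵥ u = 0) {a α : m → F} {c d : F}
    (h : Rk 1 G (E.I *ᵥ a + c • u) (α ᵥ* E.P + d • θ)) :
    ∃ x ∈ levi E G u θ, x.val = 1 - vv a α ∧ x * x = 1 ∧ x.val.det = -1 := by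
  have h4 : α ⬝ᵥ a = 2 := by simpa [E.dot, E.dot_u _ h1, E.θ_dot _ h2, h3] using h.two
  have h5 : α ⬝ᵥ a = 1 + 1 := h4.trans one_add_one_eq_two.symm
  obtain ⟨x, hx⟩ := exists_ro (one_mul 1) h5
  obtain ⟨g, hg, e⟩ := h.2
  have dx : x.val.det = -1 := by rw [hx, det_ro, h4]; norm_num
  refine ⟨x, ⟨by simp [dx], g, hg, ?_, ?_, fun b => ⟨-(α ⬝ᵥ b * c), ?_⟩, fun β => ⟨-(β ⬝ᵥ a * d), ?_⟩⟩, hx,
    ro_sq h4 hx, dx⟩
  · simp [e, ro_mulVec, E.dot_u _ h1, h3]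
  · simp [-coe_units_inv, ro_inv (one_mul 1) h.1 e, vecMul_ro, E.θ_dot _ h2, h3]
  · rw [e, hx, ro_mulVec, ro_mulVec, add_dotProduct, E.dot, smul_dotProduct, E.θ_dot _ h2, mulVec_sub, mulVec_smul]
    module
  · rw [ro_inv (one_mul 1) h.1 e, ro_inv (one_mul 1) h5 hx, vecMul_ro, vecMul_ro, dotProduct_add, E.dot,
      dotProduct_smul, E.dot_u _ h1, sub_vecMul, smul_vecMul, one_smul, one_smul]
    module

theorem deg_aux (hN : NT G) (h2 : (2 : F) ≠ 0) (a : Rk 1 G v₁ φ₁) (b : Rk 1 G v₂ φ₂) (c : Rk 1 G v₃ φ₃)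
    (hr : tg v₁ φ₁ v₂ φ₂ v₃ φ₃ ≠ tg v₁ φ₁ v₃ φ₃ v₂ φ₂) (hd : tg v₁ φ₁ v₂ φ₂ v₃ φ₃ + tg v₁ φ₁ v₃ φ₃ v₂ φ₂ + 8 =
      2 * (pa v₂ φ₂ v₃ φ₃ + pa v₁ φ₁ v₃ φ₃ + pa v₁ φ₁ v₂ φ₂)) (h4 : pa v₁ φ₁ v₂ φ₂ ≠ 4) :
    D3 v₁ v₂ v₃ ∧ D3 φ₁ φ₂ φ₃ := by
  obtain ⟨E, α, e1, e2, e3⟩ := exists_emb ![v₁, v₂] ![φ₁, φ₂] (by
    simp only [det_fin_two, of_apply, cons_val_zero, cons_val_one, a.two, b.two]
    exact fun e => h4 (by linear_combination -e))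
  obtain ⟨x, β, u, θ, S, rfl, rfl⟩ : ∃ x β u θ, E.St G x β u θ ∧ v₃ = E.I *ᵥ x + u ∧ φ₃ = β ᵥ* E.P + θ :=
    ⟨_, _, _, _, .of c, by simp, by simp⟩
  obtain rfl : v₁ = _ := e1 0
  obtain rfl : v₂ = _ := e1 1
  obtain rfl : φ₁ = _ := e2 0
  obtain rfl : φ₂ = _ := e2 1
  have a2 := a.two
  have b2 := b.two
  have s2 := S.two
  simp only [tg, pa, dotProduct_add, add_dotProduct, E.dot, E.dot_u _ S.hu, E.θ_dot _ S.hθ, add_zero] at hr hd h4 a2 b2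
  simp only [dotProduct, Fin.sum_univ_two, Pi.single_apply, Fin.reduceEq, reduceIte, mul_one, mul_zero, add_zero,
    zero_add] at hr hd h4 a2 b2
  have e : θ ⬝ᵥ u = 0 := by
    rw [show β ⬝ᵥ x = _ from Fin.sum_univ_two _] at s2
    grind
  obtain ⟨ρ₁, r1, f1, g1⟩ := mem_levi (G := G) S.hu S.hθ e (c := 0) (d := 0) (by simpa only [zero_smul, add_zero] using a)
  obtain ⟨ρ₂, r2, f2, g2⟩ := mem_levi (G := G) S.hu S.hθ e (c := 0) (d := 0) (by simpa only [zero_smul, add_zero] using b)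
  obtain ⟨ρ₃, r3, f3, g3⟩ := mem_levi S.hu S.hθ e (c := 1) (d := 1) (by simpa using S.rk)
  obtain ⟨-, h, hh, h5, h6, h7, h8⟩ := neg_mem_three (H := levi E G u θ) h2 (fun _ hx => hx.1) (ρ := ![ρ₁, ρ₂, ρ₃])
    (fun i => by fin_cases i <;> assumption) (fun i => by fin_cases i; exacts [g1.1, g2.1, g3.1])
    (fun i => by fin_cases i; exacts [g1.2, g2.2, g3.2]) (by
      rw [e, add_zero, show β ⬝ᵥ x = _ from Fin.sum_univ_two _] at s2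
      simp [f1, f2, f3, trace_fin_two, mul_apply, vecMulVec_apply]
      grind)
  have key : ∀ {y γ} {c : F}, Rk 1 G (E.I *ᵥ y + c • u) (γ ᵥ* E.P + c • θ) →
      ∃ l m, Bl G h u θ (E.I *ᵥ y + c • u) (γ ᵥ* E.P + c • θ) l m := fun {y γ c} r => by
    obtain ⟨l, hl⟩ := h7 y
    obtain ⟨m, hm⟩ := h8 γ
    refine ⟨l + 2 * c, m + 2 * c, r, by simp [E.dot_u _ S.hu, e], by simp [E.θ_dot _ S.hθ, e], ?_, ?_⟩
    · rw [mulVec_add, hl, mulVec_smul, h5, Units.val_neg, neg_mulVec, mulVec_neg, Units.val_one, one_mulVec]; module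
    · rw [add_vecMul, hm, smul_vecMul, h6, inv_neg_one, Units.val_neg, vecMul_neg, neg_vecMul, Units.val_one,
        vecMul_one]; module
  obtain ⟨l₁, m₁, A⟩ := key (c := 0) (by simpa only [zero_smul, add_zero] using a)
  obtain ⟨l₂, m₂, B⟩ := key (c := 0) (by simpa only [zero_smul, add_zero] using b)
  obtain ⟨l₃, m₃, C⟩ := key (c := 1) (by simpa using S.rk)
  simp only [zero_smul, add_zero, one_smul] at A B C
  have n : tg (E.I *ᵥ Pi.single 0 1) (α 0 ᵥ* E.P) (E.I *ᵥ Pi.single 1 1) (α 1 ᵥ* E.P) (E.I *ᵥ x + u) (β ᵥ* E.P + θ) ≠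
      tg (E.I *ᵥ Pi.single 0 1) (α 0 ᵥ* E.P) (E.I *ᵥ x + u) (β ᵥ* E.P + θ) (E.I *ᵥ Pi.single 1 1) (α 1 ᵥ* E.P) := by
    simp only [tg, dotProduct_add, add_dotProduct, E.dot, E.dot_u _ S.hu, E.θ_dot _ S.hθ, add_zero]
    simpa [dotProduct] using hr
  have z1 := A.zero hN h2 hh e B C n
  have z2 := B.zero hN h2 hh e C A fun e => n (by linear_combination e)
  have z3 := C.zero hN h2 hh e A B fun e => n (by linear_combination e)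
  have i1 : E.I *ᵥ x = x 0 • E.I *ᵥ Pi.single 0 1 + x 1 • E.I *ᵥ Pi.single 1 1 := by
    rw [← mulVec_smul, ← mulVec_smul, ← mulVec_add]; congr 1; ext i; fin_cases i <;> simp
  obtain ⟨c₁, c₂, i2⟩ : ∃ c₁ c₂ : F, β = c₁ • α 0 + c₂ • α 1 := by
    have : 4 - α 0 1 * α 1 0 ≠ 0 := sub_ne_zero.2 (Ne.symm h4)
    refine ⟨(2 * β 0 - α 1 0 * β 1) / (4 - α 0 1 * α 1 0), (2 * β 1 - α 0 1 * β 0) / (4 - α 0 1 * α 1 0), ?_⟩
    ext i; fin_cases i <;> simp [a2, b2] <;> grind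
  have u0 : (2 : F) • u = 0 := by
    have := C.hv
    rw [z3.1, mulVec_add, h5, i1, mulVec_add, mulVec_smul, mulVec_smul, A.hv, B.hv, z1.1, z2.1] at this
    linear_combination (norm := module) this
  have θ0 : (2 : F) • θ = 0 := by
    have := C.hφ
    rw [z3.2, add_vecMul, h6, i2, add_vecMul, add_vecMul, smul_vecMul, smul_vecMul, smul_vecMul, smul_vecMul, A.hφ,
      B.hφ, z1.2, z2.2] at this
    linear_combination (norm := module) this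
  rw [(smul_eq_zero.1 u0).resolve_left h2, (smul_eq_zero.1 θ0).resolve_left h2, add_zero, add_zero]
  exact ⟨d3_of i1, d3_of (by rw [i2, add_vecMul, smul_vecMul, smul_vecMul])⟩

/-- a degenerate non-real triangle lies in a line -/
theorem deg (hN : NT G) (h2 : (2 : F) ≠ 0) (a : Rk 1 G v₁ φ₁) (b : Rk 1 G v₂ φ₂) (c : Rk 1 G v₃ φ₃)
    (hr : tg v₁ φ₁ v₂ φ₂ v₃ φ₃ ≠ tg v₁ φ₁ v₃ φ₃ v₂ φ₂) (hd : tg v₁ φ₁ v₂ φ₂ v₃ φ₃ + tg v₁ φ₁ v₃ φ₃ v₂ φ₂ + 8 =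
      2 * (pa v₂ φ₂ v₃ φ₃ + pa v₁ φ₁ v₃ φ₃ + pa v₁ φ₁ v₂ φ₂)) : D3 v₁ v₂ v₃ ∧ D3 φ₁ φ₂ φ₃ := by
  by_cases h1 : pa v₁ φ₁ v₂ φ₂ = 4
  swap
  · exact deg_aux hN h2 a b c hr hd h1
  by_cases h3 : pa v₂ φ₂ v₃ φ₃ = 4
  swap
  · exact (deg_aux hN h2 b c a (fun e => hr (by linear_combination e)) (by linear_combination hd) h3).imp
      (·.rot.rot) (·.rot.rot)
  refine (deg_aux hN h2 c a b (fun e => hr (by linear_combination e)) (by linear_combination hd) fun h4 => hr ?_).imp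
    .rot .rot
  refine sub_eq_zero.1 (pow_eq_zero_iff two_ne_zero |>.1 ?_)
  simp only [tg, pa] at *
  grind

/-! ### homologies -/

/-- `x` permutes the reflections -/
def Pm (X : Subgroup (GL m F)) (x : GL m F) : Prop := ∀ ⦃a α⦄, Rk 1 X a α → Rk 1 X (x.val *ᵥ a) (α ᵥ* (x⁻¹).val)

namespace Emb
variable {E : Emb ι m F} {a α : m → F}

theorem St.sc (h : E.St G a α u θ) {c : Fˣ} (hc : E.j (sc m c) ∈ G) : E.St G (c.val • a) (c.val⁻¹ • α) u θ :=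
  (h.conj hc).of_eq (by rw [sc_val, smul_mulVec, one_mulVec])
    (by rw [← map_inv, sc_val, vecMul_smul, vecMul_one, Units.val_inv_eq_inv_val]) rfl rfl

theorem St.tan (hN : NT G) (h2 : (2 : F) ≠ 0) {c : F} (c0 : c ≠ 0) (c1 : c ^ 2 ≠ 1) (h : E.St G a α u θ)
    (h3 : E.St G (c • a) (c⁻¹ • α) u θ) (h4 : E.St G (c ^ 2 • a) ((c ^ 2)⁻¹ • α) u θ) :
    (θ ⬝ᵥ u = 0 → u = 0 ∧ θ = 0) ∧ (α ⬝ᵥ a = 0 → a = 0 ∧ α = 0) := by
  refine ⟨fun e => hN.tan h2 (inv_ne_zero c0) (by simpa using c1) h.rk ?_ ?_ (E.dot_u _ h.hu) (E.θ_dot _ h.hθ) e,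
    fun e => ?_⟩
  · simpa [smul_smul, c0] using (h3.smul (inv_ne_zero c0)).rk
  · simpa [smul_smul, c0] using (h4.smul (inv_ne_zero (pow_ne_zero 2 c0))).rk
  · have := hN.tan h2 (y := u) (ξ := θ) (u := E.I *ᵥ a) (θ := α ᵥ* E.P) c0 c1 (by simpa [add_comm] using h.rk)
      (by simpa [add_comm, mulVec_smul, smul_vecMul] using h3.rk)
      (by simpa [add_comm, mulVec_smul, smul_vecMul] using h4.rk) (E.θ_dot _ h.hθ) (E.dot_u _ h.hu) (by rw [E.dot, e])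
    exact ⟨by_contra fun e => E.I_ne e this.1, by_contra fun e => E.P_ne e this.2⟩

theorem St.tan' (hN : NT G) (h2 : (2 : F) ≠ 0) {c : Fˣ} (c1 : c.val ^ 2 ≠ 1) (h : E.St G a α u θ)
    (hc : E.j (H27.Asch.sc m c) ∈ G) : (θ ⬝ᵥ u = 0 → u = 0 ∧ θ = 0) ∧ (α ⬝ᵥ a = 0 → a = 0 ∧ α = 0) :=
  h.tan hN h2 c.ne_zero c1 (h.sc hc) (by simpa [smul_smul, sq] using (h.sc hc).sc hc)

theorem comm_j (E : Emb ι m F) {z : GL ι F} (h1 : z.val * E.I = E.I) (h2 : E.P * z.val = E.P) (x : GL m F) :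
    Commute (E.j x) z := Units.ext (by
  rw [Units.val_mul, Units.val_mul, j_val, add_mul, mul_add, ← Matrix.mul_assoc, ← Matrix.mul_assoc, h1,
    Matrix.mul_assoc _ E.P, h2, one_mul, mul_one])

theorem e2_ext (E : Emb ι m F) (hE : E2 G) {g : GL ι F} {x : GL m F} (h1 : g.val * E.I = E.I * x.val)
    (h2 : E.P * g.val = x.val * E.P) (hg : g ∈ G) (g1 : g ^ (Fintype.card F - 1) = 1)
    (x1 : x ^ (Fintype.card F - 1) = 1) : ∃ H : Subgroup (GL m F), E2 H ∧ x ∈ H ∧ G.comap E.j ≤ H := by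
  obtain ⟨p, hp⟩ := CharP.exists F
  have jI : ∀ y, (E.j y).val * E.I = E.I * y.val := fun y => by
    rw [j_val, Matrix.add_mul, Matrix.mul_assoc, E.h, Matrix.mul_sub]; simp
  have Pj : ∀ y, E.P * (E.j y).val = y.val * E.P := fun y => by
    rw [j_val, Matrix.mul_add, ← Matrix.mul_assoc, ← Matrix.mul_assoc, E.h, Matrix.one_mul, Matrix.sub_mul]; simp
  have hc := E.comm_j (z := E.j x⁻¹ * g) (by rw [Units.val_mul, Matrix.mul_assoc, h1, ← Matrix.mul_assoc, jI,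
    Matrix.mul_assoc, x.inv_mul, Matrix.mul_one]) (by rw [Units.val_mul, ← Matrix.mul_assoc, Pj, Matrix.mul_assoc, h2,
      ← Matrix.mul_assoc, x.inv_mul, Matrix.one_mul])
  have e : E.j x * (E.j x⁻¹ * g) = g := by simp
  generalize E.j x⁻¹ * g = z at hc e
  have z1 : z ^ (Fintype.card F - 1) = 1 := by rwa [← e, (hc x).mul_pow, ← map_pow, x1, map_one, one_mul] at g1
  let H : Subgroup (GL m F) :=
    { carrier := {y | ∃ n : ℤ, E.j y * z ^ n ∈ G}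
      one_mem' := ⟨0, by simp⟩
      mul_mem' := fun {a b} ⟨n, ha⟩ ⟨n', hb⟩ => ⟨n + n', by
        rw [map_mul, _root_.zpow_add, ((hc b).zpow_right n).mul_mul_mul_comm]; exact mul_mem ha hb⟩
      inv_mem' := fun {a} ⟨n, ha⟩ => ⟨-n, by
        rw [map_inv, _root_.zpow_neg, ← _root_.mul_inv_rev, ← ((hc a).zpow_right n).eq]; exact inv_mem ha⟩ }
  have key : ∀ {a α}, Rk (-1) H a α → Rk (-1) (G.comap E.j) a α := fun {a α} ⟨h3, y, ⟨n, hy⟩, h4⟩ => by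
    refine ⟨h3, y, ?_, h4⟩
    have := pow_mem hy (Fintype.card F - 1)
    rwa [((hc y).zpow_right n).mul_pow, ← zpow_natCast (z ^ n), ← _root_.zpow_mul, mul_comm n, _root_.zpow_mul,
      zpow_natCast, z1, _root_.one_zpow, mul_one, ← map_pow, pow_card_pred (F := F) p, map_inv, inv_mem_iff] at this
    have : ∀ n : ℕ, (y ^ n).val = 1 - (n : F) • vv a α := fun n => by
      induction n with
      | zero => simp
      | succ n ih =>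
        simp only [pow_succ, Units.val_mul, ih, h4, sub_mul, mul_sub, smul_mul_assoc, vv_mul, h3, one_mul, mul_one]
        push_cast; module
    exact Units.ext (by simp [this])
  exact ⟨H, fun _ _ _ a b => E.e2 hE (key a) (key b), ⟨1, by rwa [zpow_one, e]⟩, fun y hy => ⟨0, by simpa using hy⟩⟩

theorem St.homol (hE : E2 G) {ζ : Fˣ} (hζ : Zt ζ.val) (hz : E.j (H27.Asch.sc m ζ) ∈ G) (h : E.St G a α u θ)
    (h1 : α ⬝ᵥ a ≠ 0) (h2 : θ ⬝ᵥ u ≠ 0) : α ⬝ᵥ a = 1 ∧ θ ⬝ᵥ u = 1 ∧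
      ∃ x : GL m F, x.val = 1 - vv a ((1 - ζ.val⁻¹) • α) ∧ Pm (G.comap E.j) x := by
  let z := E.j (H27.Asch.sc m ζ)
  have z1 : ∀ b w, E.P *ᵥ w = 0 → z.val *ᵥ (E.I *ᵥ b + w) = ζ.val • E.I *ᵥ b + w := fun b w e => by
    rw [E.j_mulVec _ _ e, sc_val, smul_mulVec, one_mulVec, mulVec_smul]
  have z2 : ∀ β ψ, ψ ᵥ* E.I = 0 → (β ᵥ* E.P + ψ) ᵥ* z.val = ζ.val • β ᵥ* E.P + ψ := fun b w e => by
    rw [E.vecMul_j _ _ e, sc_val, vecMul_smul, vecMul_one, smul_vecMul]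
  let E' : Emb ι (Fin 2) F := ⟨(Matrix.of ![E.I *ᵥ a, u])ᵀ, Matrix.of ![(α ⬝ᵥ a)⁻¹ • α ᵥ* E.P, (θ ⬝ᵥ u)⁻¹ • θ], by
    ext i j
    change ![(α ⬝ᵥ a)⁻¹ • α ᵥ* E.P, (θ ⬝ᵥ u)⁻¹ • θ] i ⬝ᵥ ![E.I *ᵥ a, u] j = _
    fin_cases i <;> fin_cases j <;> simp [-dotProduct_mulVec, E.dot, E.dot_u _ h.hu, E.θ_dot _ h.hθ, h1, h2]⟩
  have i1 : ∀ b, E'.I *ᵥ b = E.I *ᵥ (b 0 • a) + b 1 • u := fun b => by
    ext i; simp [E', mulVec_transpose, vecMul, dotProduct, mulVec_smul]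
  have i2 : ∀ b, b ᵥ* E'.P = ((b 0 * (α ⬝ᵥ a)⁻¹) • α) ᵥ* E.P + (b 1 * (θ ⬝ᵥ u)⁻¹) • θ := fun b => by
    ext i; simp [E', smul_vecMul, mul_assoc, vecMul_eq_sum (M := Matrix.of _)]; rfl
  obtain ⟨H, e1, e2, e3⟩ := E'.e2_ext hE (g := z) (x := gl2 ζ 0 0 1 (by simp)) (ext_iff_mulVec.2 fun b => by
      rw [← mulVec_mulVec, ← mulVec_mulVec, i1, i1, z1 _ _ (by simp [mulVec_smul, h.hu])]
      simp [mulVec_smul, gl2, mulVec, dotProduct, mul_smul]) (ext_iff_vecMul.2 fun b => by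
      rw [← vecMul_vecMul, ← vecMul_vecMul, i2, i2, z2 _ _ (by simp [smul_vecMul, h.hθ])]
      simp [smul_vecMul, gl2, vecMul, dotProduct, smul_smul, mul_assoc, mul_left_comm]) hz
    (by rw [← map_pow, sc_pow_card, map_one]) (by
      have := upper_pow (gl2 ζ.val 0 0 1 (by simp)) rfl (Fintype.card F - 1)
      refine gl_ext ?_ ?_ this.1 ?_
      · simp [this.2.1, FiniteField.pow_card_sub_one_eq_one]
      · generalize Fintype.card F - 1 = n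
        induction n with
        | zero => simp
        | succ n ih => simpa [pow_succ, gl_mul_apply] using ih
      · simp [this.2.2.1])
  obtain ⟨-, r, hr, e4⟩ := (E'.rk1 (G := G) (a := ![1, 1]) (α := ![α ⬝ᵥ a, θ ⬝ᵥ u])).2 (by simpa [i1, i2, h1, h2] using h.rk)
  have a1 := hom_two e1 hζ e2 (e3 hr) rfl (by rw [e4]; ext i j; fin_cases i <;> fin_cases j <;> simp) h.two h1 h2
  have a2 : θ ⬝ᵥ u = 1 := by linear_combination h.two - a1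
  obtain ⟨g, hg, e5⟩ := h.rk.2
  have e6 := ro_inv (one_mul 1) h.rk.1 e5
  have c1 : (1 - vv a ((1 - ζ.val⁻¹) • α)) * (1 - vv a ((1 - ζ.val) • α)) = 1 := by
    simp only [sub_mul, mul_sub, one_mul, mul_one, vv_mul, vecMulVec_smul, smul_mul_assoc, mul_smul_comm, a1]
    match_scalars <;> field_simp <;> ring
  let x : GL m F := ⟨_, _, c1, mul_eq_one_comm.1 c1⟩
  refine ⟨a1, a2, x, rfl, fun b β => E.norm (g := z⁻¹ * (g * z * g⁻¹)) (mul_mem (inv_mem hz)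
    (mul_mem (mul_mem hg hz) (inv_mem hg))) (ext_iff_mulVec.2 fun b => ?_) (ext_iff_vecMul.2 fun b => ?_)⟩
  · rw [← mulVec_mulVec, ← mulVec_mulVec, Units.val_mul, ← mulVec_mulVec, ← inv_mulVec_mulVec z (E.I *ᵥ x.val *ᵥ b)]
    refine congrArg _ ?_
    have := z1 (b - (α ⬝ᵥ b) • a) (-((α ⬝ᵥ b) • u)) (by simp [mulVec_neg, mulVec_smul, h.hu])
    have e7 := z1 (x.val *ᵥ b) 0 (by simp)
    rw [add_zero, add_zero] at e7
    rw [e7, Units.val_mul, Units.val_mul, ← mulVec_mulVec, ← mulVec_mulVec, e6, one_smul, ro_mulVec, add_dotProduct,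
      E.dot, E.θ_dot _ h.hθ, add_zero, smul_add, ← sub_sub, ← mulVec_smul, ← mulVec_sub, sub_eq_add_neg, this, e5,
      ro_mulVec, ← mulVec_smul, pair h.hθ (by simp [mulVec_neg, mulVec_smul, h.hu])]
    simp only [x, ro_mulVec, mulVec_sub, mulVec_smul, smul_dotProduct, dotProduct_smul, dotProduct_sub, dotProduct_neg,
      a1, a2, smul_eq_mul]
    match_scalars <;> field_simp <;> ring
  · rw [← vecMul_vecMul, ← vecMul_vecMul, Units.val_mul, ← vecMul_vecMul, vecMul_inv_of ζ.ne_zero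
      (by simpa using z2 b 0 (by simp)), smul_vecMul]
    rw [inv_smul_eq_iff₀ ζ.ne_zero]
    have := z2 (b - (b ⬝ᵥ a) • α) (-((b ⬝ᵥ a) • θ)) (by simp [neg_vecMul, smul_vecMul, h.hθ])
    rw [Units.val_mul, Units.val_mul, ← vecMul_vecMul, ← vecMul_vecMul, e5, vecMul_ro, dotProduct_add,
      E.dot, E.dot_u _ h.hu, add_zero, smul_add, ← sub_sub, ← smul_vecMul, ← sub_vecMul, sub_eq_add_neg, this, e6,
      one_smul, vecMul_ro, ← smul_vecMul, pair (by simp [neg_vecMul, smul_vecMul, h.hθ]) h.hu]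
    simp only [x, vecMul_ro, sub_vecMul, smul_vecMul, smul_dotProduct, sub_dotProduct, neg_dotProduct,
      a1, a2, smul_eq_mul]
    match_scalars <;> field_simp <;> ring

end Emb

end H12.D5
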