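/-
Five-dimensional matrix groups, part 5: reflection groups in the plane.
-/
import Cfsg.Agent.H12.D5d

set_option autoImplicit false
set_option linter.unusedSectionVars false

namespace H12.D5
open Matrix Cfsg.Geo H27.Asch H27
open scoped commutatorElement

variable {ι m : Type} [Fintype ι] [DecidableEq ι] [Fintype m] [DecidableEq m] {F : Type*} [Field F] [Fintype F]

local notation "vv" => vecMulVec

theorem simp_of {L M : Subgroup (GL ι F)} (h : IsSimpleGroup (L ⧸ (scalars ι F).subgroupOf L)) (hn : Nm L M) :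
    L ⊓ M ≤ scalars ι F ∨ L ≤ M ⊔ scalars ι F := by
  haveI := scalars_normal (ι := ι) (F := F)
  haveI : (M.subgroupOf L).Normal := ⟨fun x hx g => hn g g.2 x hx⟩
  rcases (Subgroup.Normal.map this (QuotientGroup.mk' ((scalars ι F).subgroupOf L))
    (QuotientGroup.mk'_surjective _)).eq_bot_or_eq_top with e | e
  · exact .inl fun x hx => (QuotientGroup.eq_one_iff (⟨x, hx.1⟩ : L)).1 ((Subgroup.map_eq_bot_iff _).1 e hx.2)
  · refine .inr fun x hx => ?_
    obtain ⟨y, hy, e'⟩ := e.ge (Subgroup.mem_top (QuotientGroup.mk' _ (⟨x, hx⟩ : L)))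
    simpa using mul_mem (Subgroup.mem_sup_left (show y.1 ∈ M from hy))
      (Subgroup.mem_sup_right (show (y⁻¹ * ⟨x, hx⟩).1 ∈ scalars ι F from
        (QuotientGroup.eq (s := (scalars ι F).subgroupOf L)).1 e'))

/-- the elements permuting the reflections -/
def PmS (X : Subgroup (GL m F)) : Subgroup (GL m F) where
  carrier := {x | Pm X x}
  one_mem' a α h := by simpa using h
  mul_mem' {x y} hx hy a α h := by simpa [← mulVec_mulVec, ← vecMul_vecMul, -coe_units_inv] using hx (hy h)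
  inv_mem' {x} hx := by
    have : ∀ n : ℕ, Pm X (x ^ n) := fun n => by
      induction n with
      | zero => exact fun a α h => by simpa using h
      | succ n ih => exact fun a α h => by simpa [pow_succ, ← mulVec_mulVec, ← vecMul_vecMul, -coe_units_inv] using ih (hx h)
    obtain ⟨n, hn⟩ := (Submonoid.mem_powers_iff _ _).1 (mem_powers_iff_mem_zpowers.2 (inv_mem (Subgroup.mem_zpowers x)))
    exact hn ▸ this n

variable {X : Subgroup (GL m F)} {v φ : m → F}

theorem le_PmS : X ≤ PmS X := fun _ hx _ _ h => h.conj hx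

theorem scalars_le_PmS : scalars m F ≤ PmS X := fun x hx a α h => by
  obtain ⟨c, rfl⟩ := exists_sc hx
  rw [← map_inv, sc_val, sc_val, smul_mulVec, one_mulVec, vecMul_smul, vecMul_one, Units.val_inv_eq_inv_val]
  exact h.smul c.ne_zero

theorem gen_le : gen (RD X) ≤ X := (Subgroup.closure_le _).2 fun _ ⟨v, φ, d, e⟩ => RS_le ⟨v, φ, d.1, e⟩

theorem nm_gen : Nm (PmS X) (gen (RD X)) := fun g hg x hx => by
  induction hx using Subgroup.closure_induction with
  | mem x hx =>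
    obtain ⟨v, φ, d, e⟩ := hx
    exact Subgroup.subset_closure ⟨_, _, ⟨hg d.1, (d.conj (G := X) 1 (one_mem _) |> fun _ =>
      (RD.conj (G := ⊤) ⟨d.1.mono le_top, d.2⟩ g trivial).2)⟩, conj_ro e g⟩
  | one => simp
  | mul x y _ _ a b => simpa [mul_assoc] using mul_mem a b
  | inv x _ a => simpa [mul_assoc] using inv_mem a

theorem gen_ind {p : GL m F → Prop} (h1 : p 1) (h2 : ∀ g v φ, RD X v φ → g.val = 1 - vv v φ → ∀ h, p h → p (g * h)) :
    ∀ h ∈ gen (RD X), p h :=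
  closure_ind (S := {g | ∃ v φ, RD X v φ ∧ g.val = 1 - vv v φ})
    (fun g ⟨v, φ, d, e⟩ => ⟨v, φ, d, by rw [inv_eq_of_mul_eq_one_right (ro_sq d.1.two e), e]⟩) h1
    fun g ⟨v, φ, d, e⟩ h _ => h2 g v φ d e h

theorem RD.mem_gen (d : RD X v φ) : ∃ g ∈ gen (RD X), g.val = 1 - vv v φ :=
  d.1.2.imp fun _ h => ⟨Subgroup.subset_closure ⟨v, φ, d, h.2⟩, h.2⟩

theorem comm_ro {a : Matrix m m F} (h : a * (1 - vv v φ) = (1 - vv v φ) * a) (hv : v ≠ 0) (hφ : φ ≠ 0) :
    ∃ c : F, a *ᵥ v = c • v ∧ φ ᵥ* a = c • φ := by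
  rw [mul_sub, sub_mul, mul_one, one_mul, sub_right_inj, mul_vecMulVec, vecMulVec_mul] at h
  obtain ⟨u, hu⟩ := exists_dot' hφ
  have e : a *ᵥ v = ((φ ᵥ* a) ⬝ᵥ u) • v := by simpa [vecMulVec_mulVec, hu] using congrArg (· *ᵥ u) h
  exact ⟨_, e, vv_right (v := v) (by rw [← h, vecMulVec_smul, ← smul_vecMulVec, ← e]) hv⟩

/-- reflections in a monomial group -/
def MT (a α : m → F) : Prop := (∃ i, ∀ j, j ≠ i → a j = 0 ∧ α j = 0) ∨
  ∃ i j, i ≠ j ∧ α i * a i = 1 ∧ α j * a j = 1 ∧ ∀ l, l ≠ i → l ≠ j → a l = 0 ∧ α l = 0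

/-- monomial groups -/
def Mono (X : Subgroup (GL m F)) : Prop := ∃ E : Emb m m F, ∀ ⦃v φ⦄, RD X v φ → MT (E.P *ᵥ v) (φ ᵥ* E.I)

/-- irreducible reflection groups -/
def IR (X : Subgroup (GL m F)) : Prop :=
  ∀ W : Submodule F (m → F), (∀ ⦃v φ⦄, RD X v φ → ∀ w ∈ W, (φ ⬝ᵥ w) • v ∈ W) → W = ⊥ ∨ W = ⊤

theorem IR.irr (h : IR X) : Irr (gen (RD X)) := fun W hW => h W fun v φ d w hw => by
  obtain ⟨g, hg, e⟩ := d.mem_gen
  simpa [e, ro_mulVec] using sub_mem hw (hW g hg w hw)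

section three
variable {X : Subgroup (GL (Fin 3) F)} {v φ : Fin 3 → F}

theorem mt_of {a α : Fin 3 → F} (h1 : α ⬝ᵥ a = 2) (h2 : a ≠ 0) (h3 : α ≠ 0)
    (h : ∀ i, ∃ j, ∀ l, l ≠ j → α i * a l = if l = i then 1 else 0) : MT a α := by
  by_cases e : ∀ i l, l ≠ i → α i * a l = 0
  · obtain ⟨i, hi⟩ := Function.ne_iff.1 h3
    obtain ⟨j, hj⟩ := Function.ne_iff.1 h2
    obtain rfl : j = i := by_contra fun n => mul_ne_zero hi hj (e i j n)
    exact .inl ⟨j, fun l n => ⟨(mul_eq_zero.1 (e j l n)).resolve_left hi, (mul_eq_zero.1 (e l j n.symm)).resolve_right hj⟩⟩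
  push Not at e
  obtain ⟨i, j, n, e⟩ := e
  obtain ⟨j', hj⟩ := h i
  obtain rfl : j = j' := by_contra fun n' => e (by rw [hj j n', if_neg n])
  have a1 : α i * a i = 1 := by rw [hj i n.symm, if_pos rfl]
  have a2 : ∀ l, l ≠ i → l ≠ j → a l = 0 ∧ α l = 0 := fun l n1 n2 => by
    have b1 : a l = 0 := (mul_eq_zero.1 (by rw [hj l n2, if_neg n1])).resolve_left (left_ne_zero_of_mul_eq_one a1)
    obtain ⟨s, hs⟩ := h l
    obtain rfl : l = s := by_contra fun n' => by simpa [b1] using hs l n'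
    exact ⟨b1, (mul_eq_zero.1 (by rw [hs i n1.symm, if_neg n1.symm])).resolve_right (right_ne_zero_of_mul_eq_one a1)⟩
  refine .inr ⟨i, j, n.symm, a1, ?_, a2⟩
  rw [dotProduct, Fintype.sum_eq_add i j n.symm fun l h => by rw [(a2 l h.1 h.2).1, mul_zero]] at h1
  linear_combination h1 - a1

theorem mono_of {t n : ℕ} {D : Fin t → Submodule F (Fin 3 → F)} (hD : IsMDecomposition n D)
    (h : gen (RD X) ≤ decompositionStabilizer D) : Mono X := by
  have h1 := card_eq_of_decomp hD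
  have h2 := hD.two_le
  obtain ⟨rfl, rfl⟩ : t = 3 ∧ n = 1 := by
    rw [Fintype.card_fin] at h1
    have : t ≤ 3 := Nat.le_of_dvd (by norm_num) ⟨n, h1⟩
    interval_cases t <;> omega
  choose e he1 he2 using fun i => finrank_eq_one_iff'.1 (hD.finrank_eq i)
  obtain ⟨P, hP⟩ := (isUnit_iff_exists_inv'.1 (mulVec_surjective_iff_isUnit (A := (Matrix.of fun i => (e i).1)ᵀ) |>.1
    fun w => by
      have : (⊤ : Submodule F _) ≤ LinearMap.range (Matrix.of fun i => (e i).1)ᵀ.mulVecLin :=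
        hD.iSup_eq_top ▸ iSup_le fun i x hx => by
          obtain ⟨c, hc⟩ := he2 i ⟨x, hx⟩
          exact ⟨Pi.single i c, by rw [mulVecLin_apply, mulVec_single]; simpa using congrArg Subtype.val hc⟩
      exact this trivial))
  let E : Emb (Fin 3) (Fin 3) F := ⟨_, P, hP⟩
  have hE : ∀ i, E.I *ᵥ Pi.single i 1 = e i := fun i => mulVec_single_one _ _
  refine ⟨E, fun v φ d => mt_of ?_ (fun n => d.2.1 (E.u0 rfl n)) (fun n => d.2.2 (E.θ0 rfl n)) fun i => ?_⟩
  · rw [← dotProduct_mulVec, mulVec_mulVec, E.IP rfl, one_mulVec, d.1.two]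
  obtain ⟨g, hg, e1⟩ := d.mem_gen
  obtain ⟨σ, hσ⟩ := h hg
  obtain ⟨c, hc⟩ := he2 (σ i) ⟨_, hσ i ▸ Submodule.mem_map_of_mem (e i).2⟩
  have := congrArg (fun x => E.P *ᵥ x.1) hc
  simp only [SetLike.val_smul, toLin'_apply, e1, ro_mulVec, ← hE, mulVec_sub, mulVec_smul, E.PI,
    dotProduct_mulVec φ] at this
  refine ⟨σ i, fun l n => ?_⟩
  have := congrFun this l
  simp [Pi.single_apply, n] at this
  linear_combination this

theorem tr_ro {g : GL (Fin 3) F} (h : φ ⬝ᵥ v = 2) (e : g.val = 1 - vv v φ) : g.val.trace = 1 := by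
  rw [e, trace_sub, tr_vv, h]; simp; norm_num

theorem mono_of_comm (hI : IR X) (d : RD X v φ) {K : Subalgebra F (Matrix (Fin 3) (Fin 3) F)}
    (hK : Inv (gen (RD X)) K) (hc : Comm K) (h : K ≠ ⊥) : Mono X := by
  rcases linear_comm hI.irr hK hc h with ⟨t, n, D, h1, h2⟩ | ⟨r, K, h1, h2, h3⟩
  · exact mono_of h1 h2
  obtain ⟨g, hg, e⟩ := d.mem_gen
  refine absurd (h2.finrank_eq.symm.trans ?_) h1.one_lt.ne'
  rw [show K = ⊥ from eq_bot_iff.2 fun a ha => ?_, Subalgebra.finrank_bot]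
  have := cA_eq_iff.1 (by_contra fun n => one_ne_zero ((tr_ro d.1.two e).symm.trans
    (trace_eq_zero_of_field h2 (h3 hg) ha n)))
  obtain ⟨c, hc, -⟩ := comm_ro (e ▸ this.symm) d.2.1 d.2.2
  refine Algebra.mem_bot.2 ⟨c, by_contra fun n => d.2.1 ?_⟩
  obtain ⟨b, hb, e⟩ := h2.inv _ (sub_mem (K.algebraMap_mem c) ha) (sub_ne_zero.2 n)
  rw [← one_mulVec v, ← mul_eq_one_comm.1 e, ← mulVec_mulVec, sub_mulVec, hc, Algebra.algebraMap_eq_smul_one]
  simp [smul_mulVec]

theorem eg_cm {r : ℕ} {R : Subgroup (GL (Fin 3) F)} (E : EData r R) {x y : GL (Fin 3) F} (hx : x ∈ R) (hy : y ∈ R) :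
    ∃ c : F, c ^ 3 = 1 ∧ x.val * y.val = c • (y.val * x.val) := by
  obtain ⟨c, h, -⟩ := E.exists_comm hx hy
  have e : x.val * y.val = c.val • (y.val * x.val) := by
    rw [← smul_one_mul, ← sc_val, ← h, ← Units.val_mul, ← Units.val_mul, ← Units.val_mul]
    simp [commutatorElement_def]
  refine ⟨c, mul_right_cancel₀ (mul_ne_zero (GeneralLinearGroup.det y).ne_zero (GeneralLinearGroup.det x).ne_zero) ?_, e⟩
  have := congrArg det e
  simp only [det_smul, det_mul, Fintype.card_fin] at this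
  rw [one_mul]; exact this.symm.trans (mul_comm _ _)

theorem eg_inv {r : ℕ} {R : Subgroup (GL (Fin 3) F)} (E : EData r R) (d : RD X v φ) {ρ : GL (Fin 3) F}
    (e : ρ.val = 1 - vv v φ) (hn : ∀ x ∈ R, ρ * x * ρ⁻¹ ∈ R) {y : GL (Fin 3) F} (hy : y ∈ R) :
    y * (ρ * y * ρ⁻¹) ∈ scalars (Fin 3) F := by
  have r2 := ro_sq d.1.two e
  have ri : ρ⁻¹ = ρ := inv_eq_of_mul_eq_one_right r2
  have hs := mul_mem hy (hn y hy)
  have e1 : ρ * (y * (ρ * y * ρ⁻¹)) * ρ * y⁻¹ = y⁻¹ * (y * (ρ * y * ρ⁻¹)) := by simp [ri, mul_assoc, r2]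
  generalize y * (ρ * y * ρ⁻¹) = s at *
  obtain ⟨c, c3, hc⟩ := eg_cm E (inv_mem hy) hs
  have e2 : ρ.val * s.val * ρ.val = c • s.val := by
    have := congrArg (fun x => (x * y).val) e1
    simp only [inv_mul_cancel_right, Units.val_mul (_ * s) y, Units.val_mul _ s, hc] at this
    simpa [-coe_units_inv, mul_assoc] using this
  have r3 : ρ.val * ρ.val = 1 := congrArg Units.val r2
  have c2 : c * c = 1 := smul_left_injective F s.ne_zero (by
    have : ρ.val * (ρ.val * s.val * ρ.val) * ρ.val = s.val := by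
      rw [← mul_assoc, ← mul_assoc, r3, one_mul, mul_assoc, r3, mul_one]
    rwa [e2, mul_smul_comm, smul_mul_assoc, e2, smul_smul, eq_comm, ← one_smul F s.val, smul_smul, mul_one,
      eq_comm] at this)
  obtain rfl : c = 1 := by linear_combination c3 - c * c2
  obtain ⟨l, l1, l2⟩ := comm_ro (a := s.val) (by
    rw [← e, ← one_mul (s.val * _), ← r3, mul_assoc, ← mul_assoc _ s.val, e2, one_smul]) d.2.1 d.2.2
  have l0 : l ≠ 0 := fun n => d.2.1 (by rw [← inv_mulVec_mulVec s v, l1, n, zero_smul, mulVec_zero])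
  refine mem_scalars_of_comm E.top fun g hg => ?_
  obtain ⟨c, -, hc⟩ := eg_cm E hs hg
  by_cases c1 : c = 1
  · exact Units.ext (by simpa [c1] using hc)
  have e3 : s.val *ᵥ g.val *ᵥ v = (c * l) • g.val *ᵥ v := by
    rw [mulVec_mulVec, hc, smul_mulVec, ← mulVec_mulVec, l1, mulVec_smul, smul_smul]
  have e4 : φ ⬝ᵥ g.val *ᵥ v = 0 := by
    have := congrArg (φ ⬝ᵥ ·) e3
    simp only [dotProduct_mulVec φ s.val, l2, smul_dotProduct, dotProduct_smul, smul_eq_mul] at this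
    exact mul_left_cancel₀ (mul_ne_zero (sub_ne_zero.2 c1) l0) (by linear_combination -this)
  have e5 := conj_ro e g
  have g0 := (RD.conj (G := ⊤) ⟨d.1.mono le_top, d.2⟩ g trivial).2
  obtain ⟨z, hz⟩ := mem_scalars.1 (by_contra fun n => one_ne_zero (α := F) (by
    have := E.trace_eq_zero (mul_mem (hn g hg) (inv_mem hg)) n
    rw [ri, mul_assoc, mul_assoc, ← mul_assoc g, Units.val_mul, e, e5, mul_sub, sub_mul, sub_mul, vv_mul, e4] at this
    simp only [zero_smul, one_mul, mul_one, sub_zero, trace_sub, tr_vv, dot_conj, d.1.two, trace_one,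
      Fintype.card_fin] at this
    linear_combination -this))
  rw [ri, mul_assoc, mul_assoc, ← mul_assoc g, Units.val_mul] at hz
  have z3 := congrArg det hz
  have z1 := congrArg (· *ᵥ g.val *ᵥ v) hz
  simp only [← mulVec_mulVec, e, e5, ro_mulVec, dot_conj, d.1.two, smul_mulVec, one_mulVec, det_mul, det_ro,
    det_smul, det_one, Fintype.card_fin, dotProduct_sub, dotProduct_smul, e4, smul_zero, sub_zero, zero_smul] at z1 z3
  obtain rfl : z = -1 := smul_left_injective F g0.1 (by linear_combination (norm := module) -z1)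
  have h2 : (-1 : F) = 1 := by linear_combination -z3
  rw [h2, one_smul, ← r3, Units.mul_right_inj, e5, e, sub_right_inj] at hz
  obtain ⟨b, b0, hb, -⟩ := vv_prop hz.symm d.2.1 d.2.2
  rw [hb, mulVec_smul, l1, smul_smul, smul_smul] at e3
  exact absurd (mul_right_cancel₀ (mul_ne_zero l0 b0) (by
    linear_combination -smul_left_injective F d.2.1 e3)) c1

theorem plane1 (hI : IR X) (d : RD X v φ) : Mono X ∨ ∃ L, Core (PmS X) L ∧ L ≤ gen (RD X) := by
  have hY : gen (RD X) ≤ PmS X := gen_le.trans le_PmS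
  by_cases hc : ∀ K, Inv (PmS X) K → Comm K → StAll (PmS X) K → K = ⊥
  swap
  · push Not at hc
    obtain ⟨K, h1, h2, -, h3⟩ := hc
    exact .inl (mono_of_comm hI d (fun g hg => h1 g (hY hg)) h2 h3)
  rcases CPrim.cases (by simp) ⟨hI.irr.mono hY, hc⟩ with ⟨k, n, _, _, h⟩ | ⟨r, R, E, -⟩ | ⟨k, t, _, _, h⟩ | ⟨L, h⟩
  · have := h.card
    have := h.hk
    have := h.hm
    simp at *; nlinarith
  · obtain ⟨y, hy, h⟩ : ∃ y ∈ R, y ∉ scalars (Fin 3) F := by
      by_contra! n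
      exact not_irr_of_le_scalars (by simp) n (irr_of_alg E.top)
    refine .inl (mono_of_comm hI d (K := alg (Subgroup.zpowers y)) (gen_ind (fun b hb => by rwa [cA_one])
      fun g v φ d e h ih b hb => ?_) (comm_alg fun a ha b hb => congrArg Subtype.val
        (mul_comm' (⟨a, ha⟩ : Subgroup.zpowers y) ⟨b, hb⟩)) fun e =>
          h (alg_eq_bot_iff.1 e (Subgroup.mem_zpowers y)))
    obtain ⟨g', hg, e'⟩ := d.mem_gen
    obtain rfl : g' = g := Units.ext (e'.trans e.symm)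
    obtain ⟨c, hc⟩ := exists_sc (eg_inv E.toEData d e (E.nm _ (hY hg)) hy)
    rw [cA_mul]
    refine (alg_le (B := (alg (Subgroup.zpowers y)).comap (cA g').toAlgHom)).2 ?_ (ih b hb)
    rintro _ ⟨n, rfl⟩
    change (g' * y ^ n * g'⁻¹).val ∈ alg (Subgroup.zpowers y)
    rw [← conj_zpow, eq_inv_mul_of_mul_eq hc, Commute.mul_zpow (scalars_comm (sc_mem c) _).symm, ← map_zpow,
      Units.val_mul, sc_val, mul_smul_comm, mul_one]
    exact Subalgebra.smul_mem _ (mem_alg (zpow_mem (inv_mem (Subgroup.mem_zpowers y)) n)) _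
  · have := h.toTW.card
    have := Nat.pow_le_pow_left h.hk t
    have := Nat.pow_le_pow_right two_pos h.ht
    simp at *; omega
  refine .inr ⟨L, h, le_of_perfect h.perfect ((simp_of h.simple (nm_gen.mono h.le)).resolve_left fun e => ?_)⟩
  obtain ⟨g, hg, e'⟩ := d.mem_gen
  refine not_scalar (by simp) e' d.2.1 d.2.2 (mem_scalars_of_comm h.top (h.perfect ▸ comm_of_perfect hZ fun y hy =>
    e (Subgroup.mem_inf.2 ⟨L.mul_mem (h.normal g (hY hg) y hy) (L.inv_mem hy), ?_⟩)))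
  rw [commutatorElement_def, mul_assoc, mul_assoc, ← mul_assoc y]
  exact (gen _).mul_mem hg (nm_gen y (h.le hy) _ (inv_mem hg))

end three

end H12.D5
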