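import Cfsg.Agent.H12.RQ1
import Cfsg.Agent.H12.ReflClass
import Cfsg.Agent.H12.PermPart

/-!
# Reflection classes relative to a non-degenerate subspace
-/

set_option autoImplicit false
set_option maxHeartbeats 400000

namespace H12

open Module H11 QuadraticMap

variable {F : Type*} [Field F] {V : Type*} [AddCommGroup V] [Module F V]
  {Q : QuadraticForm F V} {X : Subgroup (V ≃ₗ[F] V)}

local notation "𝓒" => CForm.ofQuad Q

theorem eq_one_of_card_two [Fintype F] (h : Fintype.card F = 2) {x : F} (hx : x ≠ 0) : x = 1 := by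
  have := FiniteField.pow_card_sub_one_eq_one x hx
  rwa [h, pow_one] at this

theorem exists_ne_ne [Fintype F] (h : Fintype.card F ≠ 2) (c : F) : ∃ t : F, t ≠ 0 ∧ t ≠ c := by
  have := Fintype.one_lt_card (α := F)
  obtain ⟨t, ht⟩ := exists_not_mem_list [0, c] (by simp; omega)
  simp only [List.mem_cons, List.not_mem_nil, or_false, not_or, ← ne_eq] at ht
  exact ⟨t, ht⟩

/-- A conic over a field with at least four elements has points off a line. -/
theorem exists_conic [Fintype F] (h2 : (2 : F) ≠ 0) (h : 4 ≤ Fintype.card F) {a b c : F}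
    (ha : a ≠ 0) (hb : b ≠ 0) (hc : c ≠ 0) : ∃ x y : F, x ≠ 0 ∧ x * x * a + y * y * b = c := by
  obtain ⟨x, y, e⟩ := exists_sq_add_sq h2 ha hb c
  by_cases hx : x = 0
  swap
  · exact ⟨x, y, hx, e⟩
  rw [hx, zero_mul, zero_mul, zero_add] at e
  have hy : y ≠ 0 := by rintro rfl; exact hc (by simpa using e.symm)
  obtain ⟨m, hm0, hm⟩ : ∃ m : F, m ≠ 0 ∧ m * m * a + b ≠ 0 := by
    by_cases h1 : ∃ r : F, r * r * a + b = 0
    · obtain ⟨r, hr⟩ := h1
      obtain ⟨t, ht⟩ := exists_not_mem_list [0, r, -r] (by simp; omega)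
      simp only [List.mem_cons, List.not_mem_nil, or_false, not_or, ← ne_eq] at ht
      refine ⟨t, ht.1, fun e => ?_⟩
      have : (t - r) * (t + r) * a = 0 := by linear_combination e - hr
      exact mul_ne_zero (mul_ne_zero (sub_ne_zero.2 ht.2.1)
        (fun e => ht.2.2 (eq_neg_of_add_eq_zero_left e))) ha this
    · exact ⟨1, one_ne_zero, fun e => h1 ⟨1, e⟩⟩
  refine ⟨m * (-2 * b * y / (m * m * a + b)), y + -2 * b * y / (m * m * a + b),
    mul_ne_zero hm0 (div_ne_zero (mul_ne_zero (mul_ne_zero (neg_ne_zero.2 h2) hb) hy) hm), ?_⟩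
  rw [← e]
  generalize hD : m * m * a + b = D at hm
  field_simp
  rw [← hD]; ring

theorem not_mem_span_add {x u : V} (hx : Q x ≠ 0) (hu : Q u = 0) (hu0 : u ≠ 0) :
    x + u ∉ Submodule.span F {x} := by
  intro h
  obtain ⟨c, hc⟩ := Submodule.mem_span_singleton.1 h
  obtain rfl : u = (c - 1) • x := by rw [sub_smul, hc]; simp
  rw [Q_smul, mul_eq_zero, or_iff_left hx, mul_self_eq_zero] at hu
  exact hu0 (by rw [hu, zero_smul])

variable [FiniteDimensional F V]

/-- A product of two reflections stabilising `S`. -/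
theorem exists_ns_of_stab (hQ : QNondeg Q) {S : Submodule F V} (hS : (𝓒).NondegOn S) {x y : V}
    (hx : Q x ≠ 0) (hy : Q y ≠ 0) (hxy : y ∉ Submodule.span F {x}) (h1 : x ∉ S)
    (h2 : x ∉ (𝓒).perp S) (h : ∀ v ∈ S, (refl Q x * refl Q y).1 v ∈ S) :
    ∃ c : F, y + c • x ∈ S ∧ Q (y + c • x) ≠ 0 := by
  have e : ∀ v, (refl Q x * refl Q y).1 v = v - (((Q y)⁻¹ * polar Q y v) • y +
      ((Q x)⁻¹ * polar Q x ((refl Q y).1 v)) • x) := fun v => by
    rw [orth_mul_apply, refl_apply x, refl_apply y v]; abel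
  have k : ∀ v ∈ S, ((Q y)⁻¹ * polar Q y v) • y + ((Q x)⁻¹ * polar Q x ((refl Q y).1 v)) • x ∈ S :=
    fun v hv => by have := sub_mem hv (h v hv); rwa [e, sub_sub_cancel] at this
  obtain ⟨v₀, hv₀, h3⟩ : ∃ v ∈ S, polar Q y v ≠ 0 := by
    by_contra hc
    push Not at hc
    refine h2 ((𝓒).mem_perp'.2 fun v hv => ?_)
    by_contra h3
    have := k v hv
    rw [refl_apply_of_orth (hc v hv), hc v hv, mul_zero, zero_smul, zero_add] at this
    exact h1 ((S.smul_mem_iff (mul_ne_zero (inv_ne_zero hx) h3)).1 this)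
  obtain ⟨c, hc⟩ : ∃ c : F, y + c • x ∈ S := ⟨_, by
    have := S.smul_mem ((Q y)⁻¹ * polar Q y v₀)⁻¹ (k v₀ hv₀)
    rwa [smul_add, smul_smul, inv_mul_cancel₀ (mul_ne_zero (inv_ne_zero hy) h3), one_smul,
      smul_smul] at this⟩
  refine ⟨c, hc, fun h0 => ?_⟩
  have h4 : y + c • x ≠ 0 := fun e => hxy (by
    rw [eq_neg_of_add_eq_zero_left e]
    exact neg_mem (Submodule.smul_mem _ _ (Submodule.mem_span_singleton_self x)))
  obtain ⟨v, hv, h5, h6⟩ := exists_mem_not_mem_two (Y := S)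
    (S := (𝓒).perp (Submodule.span F {y})) (S' := (𝓒).perp (Submodule.span F {y + c • x}))
    (fun h => h3 ((𝓒).mem_perp_singleton.1 (h hv₀)))
    (fun h => h4 (hS _ hc fun z hz => (𝓒).mem_perp_singleton.1 (h hz)))
  rw [CForm.mem_perp_singleton] at h5 h6
  have h7 := sub_mem (k v hv) (S.smul_mem ((Q y)⁻¹ * polar Q y v) hc)
  rw [show ∀ f g : F, f • y + g • x - f • (y + c • x) = (g - f * c) • x from
    fun f g => by module] at h7
  have h8 : (Q x)⁻¹ * polar Q x ((refl Q y).1 v) = (Q y)⁻¹ * polar Q y v * c := by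
    by_contra h8
    exact h1 ((S.smul_mem_iff (sub_ne_zero.2 h8)).1 h7)
  have h9 := orth_Q (refl Q x * refl Q y) v
  rw [e, h8, ← smul_smul _ c, ← smul_add, Q_sub, Q_smul, h0, polar_smul_right, polar_comm Q v] at h9
  exact mul_ne_zero (mul_ne_zero (inv_ne_zero hy) h5) h6 (by
    rw [smul_eq_mul] at h9; rw [CForm.ofQuad_B, CForm.ofQuad_B]; linear_combination -h9)

variable [Fintype F]

variable (Q) in
/-- The subspace is large enough for its reflection classes to be connected. -/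
structure Big (S : Submodule F V) : Prop where
  nondeg : (CForm.ofQuad Q).NondegOn S
  dim : 4 ≤ finrank F S ∨ (3 ≤ finrank F S ∧ (2 : F) ≠ 0 ∧ 5 ≤ Fintype.card F)
  two : Fintype.card F = 2 → 5 ≤ finrank F S ∨ ∀ u ∈ S, ∀ v ∈ S, Q u = 0 → Q v = 0 →
    polar Q u v = 0 → u = 0 ∨ v = 0 ∨ u = v

omit [FiniteDimensional F V] in
theorem Big.three {S : Submodule F V} (h : Big Q S) : 3 ≤ finrank F S := by
  rcases h.dim with h | h <;> omega

theorem Big.le_of_split (hQ : QNondeg Q) {S Z : Submodule F V} (hb : Big Q S)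
    (hZ : (𝓒).NondegOn Z) {a : V} (ha : a ∈ S) (haZ : a ∈ Z) (ha0 : Q a ≠ 0)
    (h : ∀ b ∈ S, Q b = Q a → b ∈ Z ∨ b ∈ (𝓒).perp Z) : S ≤ Z := by
  have hS := hb.nondeg
  have h3 := hb.three
  have ha1 : a ≠ 0 := by rintro rfl; exact ha0 (map_zero Q)
  have d1 := finrank_span_singleton_le (F := F) a
  by_cases h2 : (2 : F) = 0
  · refine (irr_quad hQ hS (by omega)).le_of_norm hQ hS ha ha1 fun b hbS e => ?_
    replace e : Q b = Q a := e
    by_contra hbZ
    have hb' := (h b hbS e).resolve_left hbZ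
    have h4 : polar Q a b = 0 := (𝓒).mem_perp.1 hb' a haZ
    by_cases hq : Fintype.card F = 2
    · have k : ∀ c ∈ S, polar Q a c ≠ 0 → polar Q b c ≠ 0 → Q c = 0 := by
        intro c hc h5 h6
        by_contra h7
        rcases h c hc (by rw [eq_one_of_card_two hq h7, eq_one_of_card_two hq ha0]) with h8 | h8
        · exact h6 ((𝓒).mem_perp'.1 hb' c h8)
        · exact h5 ((𝓒).mem_perp.1 h8 a haZ)
      obtain ⟨c, hc, h5, h6⟩ := exists_mem_not_mem_two (Y := S)
        (S := (𝓒).perp (Submodule.span F {a})) (S' := (𝓒).perp (Submodule.span F {b}))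
        (fun h => ha1 (hS _ ha fun z hz => (𝓒).mem_perp_singleton.1 (h hz)))
        (fun h => hbZ (by
          rw [hS _ hbS fun z hz => (𝓒).mem_perp_singleton.1 (h hz)]; exact zero_mem _))
      rw [CForm.mem_perp_singleton, CForm.ofQuad_B] at h5 h6
      have h7 := k c hc h5 h6
      have h8 : Q (a + b) = 0 := by rw [Q_add, e, h4]; linear_combination Q a * h2
      have h9 : a + b ≠ 0 := fun e => hbZ (by
        rw [eq_neg_of_add_eq_zero_right e]; exact neg_mem haZ)
      have h10 : polar Q a (a + b) = 0 := by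
        rw [polar_add_right, polar_self', h2, h4]; simp
      have h11 : polar Q c (a + b) = 0 := by
        rw [polar_add_right, polar_comm Q c, polar_comm Q c, eq_one_of_card_two hq h5,
          eq_one_of_card_two hq h6]
        linear_combination h2
      rcases hb.two hq with h12 | h12
      · have hU := (nondegOn_pair_of_det (Q := Q) (u := a) (w := c) (by
          rw [h7]; simpa using h5)).1
        have hS' := hQ.nondegOn_inf hS hU
          (Submodule.span_le.2 (by rintro _ (rfl | rfl); exacts [ha, hc]))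
        have d2 := hQ.finrank_inf_perp S (Submodule.span F {a, c})
        have d3 := finrank_span_pair_le (F := F) a c
        have m1 : a + b ∈ S ⊓ (𝓒).perp (Submodule.span F {a, c}) :=
          ⟨add_mem ha hbS, (𝓒).mem_perp_pair.2 ⟨h10, h11⟩⟩
        obtain ⟨f, hf, h13⟩ := exists_hypPair_sub hQ hS' m1 h9 h8
        obtain ⟨y, hy, h14, h15, -⟩ := exists_ns_perp_hyp hQ hS' (by omega) m1 hf h13
        obtain ⟨h16, h17⟩ := (𝓒).mem_perp_pair.1 hy.2
        rw [CForm.ofQuad_B] at h16 h17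
        rw [polar_add_left, h16, zero_add] at h15
        refine h14 ?_
        have := k (c + y) (add_mem hc hy.1) (by rwa [polar_add_right, h16, add_zero])
          (by rwa [polar_add_right, h15, add_zero])
        rwa [Q_add, h7, h17, zero_add, add_zero] at this
      · rcases h12 c hc _ (add_mem ha hbS) h7 h8 h11 with e | e | e
        · exact h5 (by rw [e, polar_zero_right])
        · exact h9 e
        · exact h5 (by rw [e, h10])
    · obtain ⟨t, ht0, ht⟩ := exists_ne_ne hq (-1 : F)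
      have h5 : 1 + t ≠ 0 := fun e => ht (eq_neg_of_add_eq_zero_right e)
      rcases h ((1 + t)⁻¹ • (a + t • b)) (S.smul_mem _ (add_mem ha (S.smul_mem _ hbS))) (by
        rw [Q_smul, Q_add, Q_smul, polar_smul_right, h4, e, smul_zero]
        field_simp
        linear_combination (-t * Q a) * h2) with h6 | h6
      · rw [Z.smul_mem_iff (inv_ne_zero h5), Z.add_mem_iff_right haZ, Z.smul_mem_iff ht0] at h6
        exact hbZ h6
      · rw [Submodule.smul_mem_iff _ (inv_ne_zero h5),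
          Submodule.add_mem_iff_left _ (Submodule.smul_mem _ _ hb')] at h6
        exact ha1 (hZ.eq_zero haZ h6)
  · have h4 : polar Q a a ≠ 0 := by rw [polar_self']; exact mul_ne_zero h2 ha0
    have hT := nondegOn_inf_perp_singleton (C := 𝓒) hS ha h4
    have d2 := hQ.finrank_inf_perp S (Submodule.span F {a})
    have k : ∀ α : F, α ≠ 0 → ∀ y ∈ S ⊓ (𝓒).perp (Submodule.span F {a}),
        Q y = Q a * (1 - α * α) → y ∈ Z := by
      intro α hα y hy e
      have h5 : polar Q a y = 0 := (𝓒).mem_perp_singleton.1 hy.2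
      rcases h (α • a + y) (add_mem (S.smul_mem _ ha) hy.1) (by
        rw [Q_add, Q_smul, polar_smul_left, h5, e]; simp; ring) with h6 | h6
      · exact (Z.add_mem_iff_right (Z.smul_mem _ haZ)).1 h6
      · have := (𝓒).mem_perp.1 h6 a haZ
        rw [CForm.ofQuad_B, polar_add_right, polar_smul_right, h5, add_zero] at this
        exact absurd this (mul_ne_zero hα h4)
    have h5 : S ⊓ (𝓒).perp (Submodule.span F {a}) ≤ Z := by
      rcases hb.dim with h5 | ⟨-, -, h5⟩
      · obtain ⟨e, he, he0, he1⟩ := iso3_quad Q (S ⊓ (𝓒).perp (Submodule.span F {a})) (by omega)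
        exact le_of_singular_mem hT he he0 he1 Z.toAddSubgroup fun x hx h0 =>
          k 1 one_ne_zero x hx (by rw [h0]; ring)
      · obtain ⟨α, hα0, hα⟩ := exists_mul_self_ne_one (F := F) (by omega)
        have h6 := mul_ne_zero ha0 (sub_ne_zero.2 hα.symm)
        obtain ⟨y, hy, e⟩ := exists_Q_eq_of_nondegOn hQ hT (by omega) h6
        exact (irr_quad hQ hT (by omega)).le_of_norm hQ hT hy
          (by rintro rfl; exact h6 (e.symm.trans (map_zero Q))) fun b hb e' =>
            k α hα0 b hb (e'.trans e)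
    intro x hx
    obtain ⟨y, hy, c, rfl⟩ := CForm.exists_decomp 𝓒 (p := a) (u := a) h4 x
    exact add_mem (h5 ⟨by simpa using sub_mem hx (S.smul_mem c ha), hy⟩) (Z.smul_mem _ haZ)

/-- Every hyperplane of a large subspace contains two reflections in the same class. -/
theorem Big.exists_pair (hQ : QNondeg Q) {S : Submodule F V} (hb : Big Q S) (a : V) :
    ∃ x ∈ S, ∃ y ∈ S, Q x ≠ 0 ∧ Q y ≠ 0 ∧ polar Q a x = 0 ∧ polar Q a y = 0 ∧
      y ∉ Submodule.span F {x} ∧ IsSquare (Q x * Q y) := by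
  have hS := hb.nondeg
  have h3 := hb.three
  obtain ⟨s, hs, r, hr, rfl⟩ := hQ.exists_add hS a
  suffices ∃ x ∈ S, ∃ y ∈ S, Q x ≠ 0 ∧ Q y ≠ 0 ∧ polar Q s x = 0 ∧ polar Q s y = 0 ∧
      y ∉ Submodule.span F {x} ∧ IsSquare (Q x * Q y) by
    obtain ⟨x, hx, y, hy, h1, h2, h4, h5, h6⟩ := this
    exact ⟨x, hx, y, hy, h1, h2, by
      rw [polar_add_left, h4, show polar Q r x = 0 from (𝓒).mem_perp'.1 hr x hx, add_zero], by
      rw [polar_add_left, h5, show polar Q r y = 0 from (𝓒).mem_perp'.1 hr y hy, add_zero], h6⟩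
  have k : ∀ x ∈ S, ∀ u ∈ S, Q x ≠ 0 → Q u = 0 → u ≠ 0 → polar Q u x = 0 → polar Q s x = 0 →
      polar Q s u = 0 → ∃ x ∈ S, ∃ y ∈ S, Q x ≠ 0 ∧ Q y ≠ 0 ∧ polar Q s x = 0 ∧ polar Q s y = 0 ∧
      y ∉ Submodule.span F {x} ∧ IsSquare (Q x * Q y) := by
    intro x hx u hu h1 h2 h4 h5 h6 h7
    have e : Q (x + u) = Q x := by rw [Q_add, h2, polar_comm, h5]; simp
    exact ⟨x, hx, x + u, add_mem hx hu, h1, e.trans_ne h1, h6, by
      rw [polar_add_right, h6, h7, add_zero], not_mem_span_add h1 h2 h4, ⟨Q x, by rw [e]⟩⟩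
  have d1 := finrank_span_singleton_le (F := F) s
  have d2 := hQ.finrank_inf_perp S (Submodule.span F {s})
  by_cases h0 : Q s = 0
  · obtain ⟨u, hu, hu0, hu1, e⟩ : ∃ u ∈ S, u ≠ 0 ∧ Q u = 0 ∧ (s = 0 ∨ s = u) := by
      by_cases h : s = 0
      · obtain ⟨u, hu, hu0, hu1⟩ := iso3_quad Q S h3
        exact ⟨u, hu, hu0, hu1, Or.inl h⟩
      · exact ⟨s, hs, h, h0, Or.inr rfl⟩
    obtain ⟨f, hf, h1⟩ := exists_hypPair_sub hQ hS hu hu0 hu1
    obtain ⟨x, hx, h2, h4, -⟩ := exists_ns_perp_hyp hQ hS h3 hu hf h1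
    refine k x hx u hu h2 hu1 hu0 h4 ?_ ?_ <;> rcases e with rfl | rfl
    exacts [polar_zero_left _ _, h4, polar_zero_left _ _, by rw [polar_self', hu1, mul_zero]]
  by_cases h2 : (2 : F) = 0
  · obtain ⟨u, hu, hu0, hu1⟩ := iso3_quad Q (S ⊓ (𝓒).perp (Submodule.span F {s})) (by
      have := hb.dim.resolve_right fun h => h.2.1 h2
      omega)
    have h4 : polar Q s u = 0 := (𝓒).mem_perp_singleton.1 hu.2
    exact k s hs u hu.1 h0 hu1 hu0 (by rwa [polar_comm]) (by rw [polar_self', h2, zero_mul]) h4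
  have h4 : polar Q s s ≠ 0 := by rw [polar_self']; exact mul_ne_zero h2 h0
  have hT := nondegOn_inf_perp_singleton (C := 𝓒) hS hs h4
  rcases hb.dim with h5 | ⟨-, -, h5⟩
  · obtain ⟨u, hu, hu0, hu1⟩ := iso3_quad Q (S ⊓ (𝓒).perp (Submodule.span F {s})) (by omega)
    obtain ⟨f, hf, h1⟩ := exists_hypPair_sub hQ hT hu hu0 hu1
    obtain ⟨x, hx, h6, h7, -⟩ := exists_ns_perp_hyp hQ hT (by omega) hu hf h1
    exact k x hx.1 u hu.1 h6 hu1 hu0 h7 ((𝓒).mem_perp_singleton.1 hx.2)
      ((𝓒).mem_perp_singleton.1 hu.2)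
  obtain ⟨x, hx, hx0⟩ := exists_nonsingular hT (by intro e; rw [e, finrank_bot] at d2; omega)
  obtain ⟨w, hw, hw0, h6⟩ := exists_orth_nonsingular hQ h2 hT (by omega) hx hx0
  have n : ∀ x w : V, Q x ≠ 0 → Q w ≠ 0 → polar Q x w = 0 → ∀ s t : F, t ≠ 0 →
      s • x + t • w ∉ Submodule.span F {x} := by
    intro x w hx0 hw0 h6 s t ht h
    rw [Submodule.add_mem_iff_right _ (Submodule.smul_mem _ _ (Submodule.mem_span_singleton_self x)),
      Submodule.smul_mem_iff _ ht] at h
    obtain ⟨c, rfl⟩ := Submodule.mem_span_singleton.1 h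
    rw [polar_smul_right, polar_self', smul_eq_mul, mul_eq_zero,
      or_iff_left (mul_ne_zero h2 hx0)] at h6
    exact hw0 (by rw [h6, zero_smul, map_zero])
  obtain ⟨s', t, hs', e⟩ := exists_conic h2 (by omega) hw0 hx0 hx0
  have m : ∀ z ∈ S ⊓ (𝓒).perp (Submodule.span F {s}), polar Q s z = 0 :=
    fun z hz => (𝓒).mem_perp_singleton.1 hz.2
  have e' : Q (t • x + s' • w) = Q x := by
    rw [Q_add, Q_smul, Q_smul, polar_smul_left, polar_smul_right, h6]
    linear_combination e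
  have hy := add_mem (Submodule.smul_mem _ t hx) (Submodule.smul_mem _ s' hw)
  exact ⟨x, hx.1, _, hy.1, hx0, e'.trans_ne hx0, m _ hx, m _ hy, n x w hx0 hw0 h6 t s' hs',
    ⟨Q x, by rw [e']⟩⟩

end H12
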