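import Cfsg.Agent.H12.ExA
import Cfsg.Agent.H12.DecSL
import Cfsg.Agent.H12.RQ2

/-!
# Extension-field subgroups of symplectic groups are maximal
-/

set_option autoImplicit false
set_option maxHeartbeats 400000

namespace H12

open Module H11 H13.KL

section
variable {F : Type*} [Field F] {V : Type*} [AddCommGroup V] [Module F V]
  {C : CForm (altType F) V} {X : Subgroup (V ≃ₗ[F] V)}

theorem le_of_tv_trans [Fintype F] [FiniteDimensional F V] (hC : C.Nondeg) {c : F} (hc : c ≠ 0)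
    (h : ∀ p, p ≠ 0 → Rq C X p 0 c) : C.isom ≤ X := by
  have k : ∀ p (s : F), Rq C X p 0 (c * (s * s)) := fun p s => by
    by_cases e : s • p = 0
    · obtain ⟨g, hg, eg⟩ := rho_zero (C := C) (X := X) (v := p)
      rcases smul_eq_zero.1 e with rfl | rfl
      exacts [by simpa using rho_zero, ⟨1, one_mem _, by simp⟩]
    · exact (h _ e).smul_zero
  refine le_of_tvAll hC fun p a => ?_
  obtain ⟨s, t, e⟩ : ∃ s t : F, s * s + t * t = a / c := by
    by_cases h2 : (2 : F) = 0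
    · obtain ⟨s, hs⟩ := FiniteField.isSquare_of_char_two (F := F) (by
        have : CharP F 2 := CharTwo.of_one_ne_zero_of_two_eq_zero one_ne_zero h2
        exact ringChar.eq F 2) (a / c)
      exact ⟨s, 0, by rw [hs]; ring⟩
    · simpa using exists_sq_add_sq h2 one_ne_zero one_ne_zero (a / c)
  convert (k p s).mul (k p t) (alt_B_self p) (by simp) (by simp) using 1
  · simp
  · simp [← mul_add, e, mul_div_cancel₀ _ hc]

variable (C X) in
/-- `X` contains the product of the transvections with centres `p` and `p'`. -/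
def TT (p p' : V) : Prop := ∃ t ∈ C.isom, ∃ t' ∈ C.isom, (∀ x, t x = x + C.B p x • p) ∧
  (∀ x, t' x = x + C.B p' x • p') ∧ t * t'⁻¹ ∈ X

theorem TT.symm {p p' : V} (h : TT C X p p') : TT C X p' p := by
  obtain ⟨t, a, t', b, c, d, e⟩ := h
  exact ⟨t', b, t, a, d, c, by simpa using inv_mem e⟩

theorem TT.trans {p p' p'' : V} (h : TT C X p p') (h' : TT C X p' p'') : TT C X p p'' := by
  obtain ⟨t, a, t', b, c, d, e⟩ := h
  obtain ⟨s, -, s', b', c', d', e'⟩ := h'
  obtain rfl : s = t' := LinearEquiv.ext fun x => by rw [c', d]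
  exact ⟨t, a, s', b', c, d', by simpa [mul_assoc] using mul_mem e e'⟩

theorem TT.conj {p p' : V} (h : TT C X p p') {k : V ≃ₗ[F] V} (hk : k ∈ X) (hX : X ≤ C.isom) :
    TT C X (k p) (k p') := by
  obtain ⟨t, a, t', b, c, d, e⟩ := h
  have key : ∀ {t : V ≃ₗ[F] V} {p : V}, (∀ x, t x = x + C.B p x • p) →
      ∀ x, (k * t * k⁻¹) x = x + C.B (k p) x • k p := fun h x => by
    obtain ⟨x, rfl⟩ := k.surjective x
    simp [inv_apply_apply, h, CForm.isom_B (hX hk)]
  have m := fun {t} (a : t ∈ C.isom) => mul_mem (mul_mem (hX hk) a) (inv_mem (hX hk))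
  exact ⟨_, m a, _, m b, key c, key d, by
    simpa [mul_assoc] using mul_mem (mul_mem hk e) (inv_mem hk)⟩

theorem exists_tv_alt [FiniteDimensional F V] (hC : C.Nondeg) (p : V) :
    ∃ t ∈ C.isom, ∀ x, t x = x + C.B p x • p := by
  obtain ⟨k, hk, e⟩ := hC.exists_isom (LinearMap.id + (C.B p).smulRight p) ⟨fun x y => by
    simp [alt_B_self, alt_symm p x, alt_sigma]; ring, fun a => by rw [alt_N, alt_N]⟩
  exact ⟨k, hk, fun x => by simp [e]⟩

theorem tt_self [FiniteDimensional F V] (hC : C.Nondeg) (p : V) : TT C X p p :=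
  let ⟨t, a, b⟩ := exists_tv_alt hC p; ⟨t, a, t, a, b, b, by simp⟩

theorem Rq.tt [FiniteDimensional F V] (hC : C.Nondeg) (h2 : (2 : F) = 0) {w x : V}
    (h0 : C.B w x = 0) (h : Rq C X w x 1) : TT C X (x + w) x := by
  obtain ⟨t, a, b⟩ := exists_tv_alt hC (x + w)
  obtain ⟨t', a', b'⟩ := exists_tv_alt hC x
  obtain ⟨g, hg, e⟩ := h
  refine ⟨t, a, t', a', b, b', ?_⟩
  convert hg
  rw [mul_inv_eq_iff_eq_mul]
  ext y
  have h3 : CharP F 2 := CharTwo.of_one_ne_zero_of_two_eq_zero one_ne_zero h2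
  simp only [LinearEquiv.mul_apply, b, b', e, C.B_add_left, alt_B_smul_left]
  simp only [map_add, map_smul, h0, alt_B_self, alt_symm x y, alt_sigma, smul_eq_mul]
  match_scalars <;> ring_nf <;> reduce_mod_char!

theorem le_of_tt [Fintype F] [FiniteDimensional F V] (hC : C.Nondeg) (hq : Fintype.card F = 2)
    (hd : 6 ≤ finrank F V) (h : ∀ p p', p ≠ 0 → p' ≠ 0 → TT C X p p') : C.isom ≤ X := by
  have h3 : CharP F 2 := CharTwo.of_one_ne_zero_of_two_eq_zero one_ne_zero (f2_two hq)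
  refine le_of_tv_trans hC one_ne_zero fun a ha => ?_
  obtain ⟨b, b1, b2, -⟩ := (iso3_alt C).exists_perpL hC [a] [a] (by simp; omega)
  obtain ⟨c, c1, c2⟩ := exists_mem_not_mem (H := spanL F [a, b]) (W := C.perp (spanL F [a, b])) (by
    have := hC.finrank_add_finrank_perp (spanL F [a, b])
    have := finrank_span_list_le (F := F) [a, b]
    simp only [List.length_cons, List.length_nil] at this
    omega)
  replace b1 := b1 a (by simp)
  rw [mem_perp_spanL] at c1
  have c3 := c1 a (by simp)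
  have c4 := c1 b (by simp)
  have k : ∀ p p', p ≠ 0 → p' ≠ 0 → C.B p p' = 0 →
      ∃ g ∈ X, ∀ x, g x = x + C.B p x • p + C.B p' x • p' := fun p p' e e' e0 => by
    obtain ⟨t, -, t', -, r, s, u⟩ := h p p' e e'
    refine ⟨_, u, fun x => ?_⟩
    obtain ⟨x, rfl⟩ := t'.surjective x
    rw [LinearEquiv.mul_apply, inv_apply_apply]
    simp only [r, s, map_add, map_smul, e0, alt_B_self, smul_eq_mul]
    match_scalars <;> ring_nf <;> reduce_mod_char!
  have nb : ∀ r : F, r • a + b ≠ 0 := fun r e => b2 (by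
    rw [eq_neg_of_add_eq_zero_right e]; exact neg_mem (Submodule.smul_mem _ _ (mem_spanL (by simp))))
  have nc : ∀ r s : F, r • a + s • b + c ≠ 0 := fun r s e => c2 (by
    rw [eq_neg_of_add_eq_zero_right e]; exact neg_mem (mem_spanL_pair.2 ⟨r, s, rfl⟩))
  obtain ⟨g₁, m₁, e₁⟩ := k b c (by simpa using nb 0) (by simpa using nc 0 0) c4
  obtain ⟨g₂, m₂, e₂⟩ := k (a + b) (a + c) (by simpa using nb 1) (by simpa using nc 1 0)
    (by simp [alt_B_self, alt_symm a b, *])
  obtain ⟨g₃, m₃, e₃⟩ := k (b + c) (a + b + c) (by simpa using nc 0 1) (by simpa using nc 1 1)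
    (by simp [alt_B_self, alt_symm a b, alt_symm a c, alt_symm b c, *])
  refine ⟨g₁ * g₂ * g₃, mul_mem (mul_mem m₁ m₂) m₃, fun x => ?_⟩
  simp only [LinearEquiv.mul_apply, e₁, e₂, e₃, C.B_add_left]
  simp only [map_add, map_smul, alt_B_self,
    alt_symm a b, alt_symm a c, alt_symm b c, b1, c3, c4, map_zero, smul_eq_mul]
  match_scalars <;> ring_nf <;> reduce_mod_char!

end

theorem Rq.smul_left {F : Type*} [Field F] {T : FormType F} {V : Type*} [AddCommGroup V]
    [Module F V] {C : CForm T V} {X : Subgroup (V ≃ₗ[F] V)} {v y : V} {a c : F}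
    (h : Rq C X (c • v) y a) : Rq C X v (T.σ c • y) (a * (c * T.σ c)) := by
  obtain ⟨g, hg, e⟩ := h
  refine ⟨g, hg, fun x => ?_⟩
  rw [e, C.B_smul_left, C.B_smul_right, map_mul, T.σσ]
  module

variable {F E V : Type*} [Field F] [Field E] [Algebra F E] [AddCommGroup V] [Module F V]
  [Module E V] [IsScalarTower F E V] {C : CForm (altType F) V} {D : CForm (altType E) V}
  {l : Dual F E} {X : Subgroup (V ≃ₗ[F] V)} {g : V ≃ₗ[F] V} {z : V}

variable (C D l X) in
/-- An overgroup of the symplectic group over an extension field. -/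
structure ES : Prop where
  ne : l ≠ 0
  eq : ∀ x y, C.B x y = l (D.B x y)
  nd : D.Nondeg
  le : X ≤ C.isom
  res : ∀ g ∈ D.isom, res F E V g ∈ X

namespace ES

variable (h : ES C D l X)
include h

theorem ndC : C.Nondeg := fun x hx => h.nd x fun y => eq_zero_of_dual h.ne fun k => by
  simpa [h.eq] using hx (k • y)

theorem ts {x y : V} (hx : x ∈ eL F E z) (hy : y ∈ eL F E z) : C.B x y = 0 := by
  obtain ⟨a, rfl⟩ := mem_eL.1 hx
  obtain ⟨b, rfl⟩ := mem_eL.1 hy
  simp [h.eq, alt_B_self]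

variable [FiniteDimensional E V]

theorem rho {v y : V} (a : E) (e : D.B v y = 0) :
    ∃ t ∈ X, ∀ x, t x = x + D.B v x • y + (D.B y x + a * D.B v x) • v := by
  obtain ⟨k, hk, ek⟩ := h.nd.exists_isom (LinearMap.id + (D.B v).smulRight y +
    (D.B y + a • D.B v).smulRight v) ⟨fun x x' => by
      simp [alt_B_self, alt_symm v x, alt_symm y x, alt_symm v y, e, alt_sigma]; ring,
      fun a => by rw [alt_N, alt_N]⟩
  exact ⟨_, h.res k hk, fun x => by simp [ek]⟩

theorem exists_move {x : V} (hx : x ∉ eL F E z) (k : E) :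
    ∃ t ∈ X, (∀ y ∈ eL F E z, t y = y) ∧ t x = x + k • z := by
  by_cases e : D.B z x = 0
  · obtain ⟨y, a1, a2⟩ := h.nd.exists_perp_eq (W := Submodule.span E {z}) hx (-k)
    replace a1 := D.mem_perp_singleton.1 a1
    obtain ⟨t, t1, t2⟩ := h.rho 0 a1
    refine ⟨t, t1, fun w hw => ?_, by simp [t2, e, alt_symm x y, a2]⟩
    obtain ⟨c, rfl⟩ := mem_eL.1 hw
    simp [t2, alt_symm z y, a1, alt_B_self]
  · obtain ⟨t, t1, t2⟩ := h.rho (v := z) (y := 0) (k / D.B z x) (by simp)
    refine ⟨t, t1, fun y hy => ?_, by simp [t2, e]⟩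
    obtain ⟨c, rfl⟩ := mem_eL.1 hy
    simp [t2, alt_B_self]

variable [FiniteDimensional F V]

theorem codim_one (hr : (finrank F E).Prime) (hg : MaxPair X (eL F E z) g) {w : V} (hw : w ≠ 0)
    (hw1 : w ∈ eL F E z) (hw2 : g⁻¹ w ∈ eL F E z) {x x' : V} (hx : x ∉ eL F E z)
    (h1 : g⁻¹ x ∈ eL F E z) (h2 : g⁻¹ x' ∈ eL F E z) : ∃ c : F, x' - c • x ∈ eL F E z := by
  let Y := (eL F E z).map (g : V →ₗ[F] V)
  have hY : ¬ eL F E z ≤ Y := fun e => by
    obtain ⟨y, a1, a2⟩ := hg.inv.exists_not_mem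
    exact a2 (by simpa [inv_apply_apply] using mem_map_iff.1 (e a1))
  have key : ∀ (y : V) (a : E), D.B z y = 0 → ∀ u u', u ∉ eL F E z → u ∈ Y → u' ∈ Y →
      D.B z u • y + (D.B y u + a * D.B z u) • z ∈ Y →
      D.B z u' • y + (D.B y u' + a * D.B z u') • z ∈ Y := fun y a e u u' a1 a2 a3 a4 => by
    obtain ⟨t, t1, t2⟩ := h.rho a e
    have := (hg.stab t1 (fun v hv hv' => by
      obtain ⟨c, rfl⟩ := mem_eL.1 hv
      simpa [t2, alt_B_self, alt_symm z y, e] using hv') a1 (mem_map_iff.1 a2)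
      (by rw [t2, add_assoc]; exact mem_map_iff.1 (add_mem a2 a4)) _).1 (mem_map_iff.1 a3)
    simp only [LinearEquiv.mul_apply, apply_inv_apply] at this
    rw [t2, add_assoc] at this
    exact (Submodule.add_mem_iff_right _ a3).1 (mem_map_iff.2 this)
  have k2 : ∀ u u', u ∉ eL F E z → u ∈ Y → u' ∈ Y → D.B z u = 0 → D.B z u' = 0 := by
    intro u u' a1 a2 a3 a4
    by_contra a5
    refine hY fun y hy => ?_
    obtain ⟨k, rfl⟩ := mem_eL.1 hy
    simpa [a5] using key 0 (k / D.B z u') (by simp) u u' a1 a2 a3 (by simp [a4])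
  have hx1 : x ∈ Y := mem_map_iff.2 h1
  have hx2 : x' ∈ Y := mem_map_iff.2 h2
  by_cases e : D.B z x = 0
  · have e' := k2 x x' hx hx1 hx2 e
    by_cases h3 : x' ∈ Submodule.span E {z} ⊔ Submodule.span E {x}
    · obtain ⟨s, hs⟩ := mem_sup_span_singleton.1 h3
      obtain ⟨c, rfl⟩ := eL_le_of_mul hr hw hw1 (mem_map_iff.2 hw2) hY (s := s) fun k hk => by
        obtain ⟨y, a1, a2⟩ := h.nd.exists_perp_eq (W := Submodule.span E {z}) hx (-k)
        have a3 := D.mem_perp'.1 a1 _ hs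
        replace a1 := D.mem_perp_singleton.1 a1
        rw [map_sub, map_smul, alt_symm x y, a2, neg_neg, sub_eq_zero] at a3
        have := key y 0 a1 x x' hx hx1 hx2 (by simpa [e, alt_symm x y, a2])
        rwa [e', a3, zero_smul, zero_add, mul_zero, add_zero] at this
      exact ⟨c, by rwa [algebraMap_smul] at hs⟩
    · refine (hY fun y hy => ?_).elim
      obtain ⟨k, rfl⟩ := mem_eL.1 hy
      obtain ⟨y, a1, a2⟩ := h.nd.exists_perp_eq h3 (-k)
      rw [D.perp_sup] at a1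
      have a3 := D.mem_perp_singleton.1 a1.1
      have a4 := D.mem_perp_singleton.1 a1.2
      simpa [e', alt_symm x' y, a2] using key y 0 a3 x x' hx hx1 hx2 (by simp [e, alt_symm x y, a4])
  · obtain ⟨c, hc⟩ := eL_le_of_mul hr hw hw1 (mem_map_iff.2 hw2) hY (s := D.B z x' / D.B z x)
      fun k hk => by
        have := key 0 (k / D.B z x) (by simp) x x' hx hx1 hx2 (by simpa [e])
        rw [smul_zero, zero_add, map_zero, LinearMap.zero_apply, zero_add] at this
        convert this using 2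
        ring
    refine ⟨c, by_contra fun hn => e (k2 _ x hn (sub_mem hx2 (Y.smul_mem _ hx1)) hx1 ?_)⟩
    rw [← algebraMap_smul E, hc]
    simp [e]

theorem rq (hr : (finrank F E).Prime) (hg : MaxPair X (eL F E z) g) {w : V} (hw : w ≠ 0)
    (hw1 : w ∈ eL F E z) (hw2 : g⁻¹ w ∈ eL F E z) {x : V} (hx : x ∉ eL F E z)
    (h1 : g⁻¹ x ∈ eL F E z) (d : F) : Rq C X w (d • x) (-d) := by
  let Y := (eL F E z).map (g : V →ₗ[F] V)
  obtain ⟨k, rfl⟩ := mem_eL.1 hw1
  obtain ⟨t, t1, t2, t3⟩ := h.exists_move hx k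
  obtain ⟨φ, a1, a2⟩ := h.ndC.exists_perp_eq hx (-1)
  rw [← neg_eq_iff_eq_neg, ← alt_symm] at a2
  obtain ⟨s, hs⟩ := mem_eL.1 h1
  have a3 : D.B z (g⁻¹ φ) ≠ 0 := fun e => by
    rw [← CForm.isom_B (h.le (inv_mem hg.mem)), ← hs, alt_symm, h.eq, alt_B_smul_left, e] at a2
    simp at a2
  obtain ⟨b, b1, b2⟩ := h.rho (v := z) (y := 0) (-(algebraMap F E d * s) / D.B z (g⁻¹ φ)) (by simp)
  have := rq_of_comm h.ndC h.le (M := Y) (fun a ha b hb => by
      rw [← CForm.isom_B (h.le (inv_mem hg.mem))]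
      exact h.ts (mem_map_iff.1 ha) (mem_map_iff.1 hb)) t1
    (mul_mem (mul_mem hg.mem b1) (inv_mem hg.mem)) (φ := φ) (mem_map_iff.2 hw2) (fun y hy => by
      obtain ⟨c, hc⟩ := h.codim_one hr hg hw hw1 hw2 hx h1 (mem_map_iff.1 hy)
      have e1 := t2 _ hc
      have e2 := C.mem_perp'.1 a1 _ hc
      rw [map_sub, map_smul, sub_eq_iff_eq_add] at e1 e2
      rw [e1, e2, t3, a2]
      generalize k • z = w
      module) (fun y => mem_map_iff.2 (by
        simp [b2, apply_inv_apply, inv_apply_apply, smul_mem_eL]))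
  have e : (g * b * g⁻¹) φ - φ = -(d • x) := by
    simp only [LinearEquiv.mul_apply, b2, map_add, apply_inv_apply, div_mul_cancel₀ _ a3]
    simp [mul_smul, hs, apply_inv_apply]
  rw [e, map_neg, map_smul, a2] at this
  simpa [altType] using this

omit [FiniteDimensional F V] in
theorem trans {u v : V} (hu : u ≠ 0) (hv : v ≠ 0) : ∃ k ∈ X, ∀ s : E, k (s • u) = s • v := by
  obtain ⟨k, hk, e⟩ := h.nd.witt_one hu hv (by rw [alt_N, alt_N])
  exact ⟨_, h.res k hk, fun s => by simp [e]⟩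

theorem tt_all {p p' : V} (h0 : D.B p p' ≠ 0) (h1 : TT C X p p')
    (h2 : ∀ u, u ≠ 0 → ∀ s : E, s ≠ 0 → TT C X (s • u) u) (u u' : V) (hu : u ≠ 0) (hu' : u' ≠ 0) :
    TT C X u u' := by
  have li : ∀ {a b : V}, D.B a b ≠ 0 → LinearIndependent E ![a, b] := fun {a b} e =>
    (LinearIndependent.pair_iff' (by rintro rfl; simp at e)).2 fun c e' => by
      simp [← e', alt_B_self] at e
  have key : ∀ u u', D.B u u' ≠ 0 → TT C X u u' := fun u u' e => by
    obtain ⟨k, hk, e1, e2⟩ := h.nd.witt_two (v := u) (v' := (D.B p p' / D.B u u') • u') (li h0)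
      (li (by simp [e, h0])) (by rw [alt_N, alt_N]) (by rw [alt_N, alt_N]) (by simp [e])
    have := h1.conj (h.res k hk) h.le
    rw [res_apply, res_apply, e1, e2] at this
    exact this.trans (h2 u' (by rintro rfl; simp at e) _ (div_ne_zero h0 e))
  obtain ⟨y, -, a1, a2⟩ := h.nd.exists_perp_ne_ne (U := ⊥) hu hu'
  exact (key u y a1).trans (key u' y a2).symm

theorem le_of_not_mem [Fintype F] (hr : (finrank F E).Prime)
    (hq : Fintype.card F ≠ 2 ∨ 6 ≤ finrank F V) (hg : g ∈ X) (hg' : g ∉ semiStab F E V) :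
    C.isom ≤ X := by
  have : FiniteDimensional F E := FiniteDimensional.of_finrank_pos hr.pos
  have : Finite E := Module.finite_of_finite F
  have hm : 2 ≤ finrank E V := by
    obtain ⟨m, hm⟩ := alt_even h.nd
    by_contra hc
    have := (finrank_zero_iff (R := E) (M := V)).1 (by omega)
    exact hg' (mem_semiStab_of_linear fun _ _ => Subsingleton.elim _ _)
  obtain ⟨v, a, hva⟩ : ∃ (v : V) (a : E), g (a • v) ∉ eL F E (g v) := by
    by_contra hc
    push Not at hc
    exact hg' (semi_of_lines hm hc)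
  have hv : v ≠ 0 := by rintro rfl; simp at hva
  obtain ⟨A, A1, A2⟩ := h.trans hv (v := g v) (by simpa using hv)
  have A3 : A v = g v := by simpa using A2 1
  obtain ⟨k, hk, w, hw, w1, w2⟩ := exists_maxPair (L := eL F E v) (mul_mem (inv_mem A1) hg)
    (fun e => by
      obtain ⟨s, hs⟩ := mem_eL.1 ((e _).1 (smul_mem_eL a v))
      exact hva (mem_eL.2 ⟨s, by rw [← A2, hs, LinearEquiv.mul_apply, apply_inv_apply]⟩)) hv
    (self_mem_eL v) (by
      rw [mul_inv_rev, inv_inv, LinearEquiv.mul_apply, A3, inv_apply_apply]; exact self_mem_eL v)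
  obtain ⟨x, x1, x2⟩ := hk.exists_not_mem
  by_cases h2 : Fintype.card F = 2
  swap
  · obtain ⟨d, d0, d1⟩ := H12.exists_ne_ne h2 (1 : F)
    have a1 := (h.rq hr hk (smul_ne_zero d0 hw) (Submodule.smul_mem _ _ w1)
      (by rw [map_smul]; exact Submodule.smul_mem _ _ w2) x2 x1 1).smul_left
    have a2 : C.B w (d • x) = 0 := by
      rw [map_smul, ← CForm.isom_B (h.le (inv_mem hk.mem)), h.ts w2 x1, smul_zero]
    rw [one_smul, alt_sigma] at a1
    have a3 := (h.rq hr hk hw w1 w2 x2 x1 d).div a1 (alt_B_self w) a2 a2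
    rw [sub_self] at a3
    refine le_of_tv_trans h.ndC (c := d * (d - 1)) (mul_ne_zero d0 (sub_ne_zero.2 d1)) fun p hp => ?_
    obtain ⟨B, B1, B2⟩ := h.trans hw hp
    convert a3.conj B1 (h.le B1) using 1
    · simpa using (B2 1).symm
    · simp
    · simp; ring
  have t1 : ∀ y y', k⁻¹ y ∈ eL F E v → k⁻¹ y' ∈ eL F E v → y ∉ eL F E v → y' ∉ eL F E v →
      TT C X y y' := fun y y' a1 a2 a3 a4 => by
    obtain ⟨c, hc⟩ := h.codim_one hr hk hw w1 w2 a4 a2 a1
    rcases f2_cases h2 c with rfl | rfl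
    · exact absurd (by simpa using hc) a3
    rw [one_smul] at hc
    by_cases e : y - y' = 0
    · rw [sub_eq_zero.1 e]; exact tt_self h.ndC _
    have a5 : k⁻¹ (y - y') ∈ eL F E v := by rw [map_sub]; exact sub_mem a1 a2
    have := h.rq hr hk e hc a5 a4 a2 1
    rw [one_smul, neg_eq_of_add_eq_zero_left (one_add_one_eq_two.trans (f2_two h2))] at this
    simpa using this.tt h.ndC (f2_two h2) (by
      rw [← CForm.isom_B (h.le (inv_mem hk.mem)), h.ts a5 a2])
  have t2 : ∀ u, u ≠ 0 → ∀ s : E, s ≠ 0 → TT C X (s • u) u := fun u hu s hs => by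
    let Y := (eL F E v).comap (k : V →ₗ[F] V)
    let σ : V →ₗ[F] V := (LinearMap.lsmul E V s).restrictScalars F
    obtain ⟨y, y1, y2⟩ := hk.inv.exists_not_mem
    have n1 : ¬ eL F E v ≤ Y := fun e => x2 (by simpa [Y, apply_inv_apply] using e x1)
    obtain ⟨b, b1, b2, b3⟩ := exists_mem_not_mem_two n1 (S' := Y.comap σ) fun e => n1 fun a ha => by
      simpa [σ, hs] using e (eL_smul s⁻¹ ha)
    have b0 : b ≠ 0 := ne_zero_of_not_mem b2
    obtain ⟨B, B1, B2⟩ := h.trans b0 hu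
    have := ((t1 (k (s • b)) (k b) (by rw [inv_apply_apply]; exact eL_smul s b1)
      (by rwa [inv_apply_apply]) b3 b2).conj (inv_mem hk.mem) h.le).conj B1 h.le
    rwa [inv_apply_apply, inv_apply_apply, B2, show B b = u by simpa using B2 1] at this
  have t3 : TT C X x w := by
    obtain ⟨s, hs⟩ := mem_eL.1 (eL_eq w2 (by simpa using hw) ▸ x1)
    have := (t2 (k⁻¹ w) (by simpa using hw) s (by
      rintro rfl; exact x2 (by rw [(k⁻¹).map_eq_zero_iff.1 (hs.symm.trans (zero_smul _ _))]; simp))).conj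
        hk.mem h.le
    rwa [hs, apply_inv_apply, apply_inv_apply] at this
  refine le_of_tt h.ndC h2 (hq.resolve_left (not_not.2 h2)) ?_
  by_cases e : D.B x w = 0
  swap
  · exact h.tt_all e t3 t2
  obtain ⟨y, y1, y2⟩ := h.nd.exists_perp_ne (W := Submodule.span E {w}) (x := x)
    (by rwa [← eL_eq w1 hw] at x2)
  replace y1 := D.mem_perp_singleton.1 y1
  obtain ⟨t, a1, a2⟩ := h.rho (v := y) (y := 0) 1 (by simp)
  have := t3.conj a1 h.le
  rw [show t w = w by simp [a2, alt_symm w y, y1]] at this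
  exact h.tt_all (p := x) (by simp [a2, alt_B_self, alt_symm x y, y2]) (t3.trans this.symm) t2

end ES

theorem isMaximalIn_ext_alt [Fintype F] [FiniteDimensional F V] [Nontrivial V] (hC : C.Nondeg)
    (hr : (finrank F E).Prime) (hq : Fintype.card F ≠ 2 ∨ 6 ≤ finrank F V)
    (hsa : ∀ (k : E) x y, C.B (k • x) y = C.B x (k • y)) (halt : ∀ (k : E) x, C.B (k • x) x = 0) :
    Cfsg.Geo.IsMaximalIn C.isom (semiStab F E V ⊓ C.isom) := by
  have : FiniteDimensional F E := FiniteDimensional.of_finrank_pos hr.pos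
  have : Module.Finite E V := Module.Finite.of_restrictScalars_finite F E V
  obtain ⟨l, hl⟩ := exists_dual_one (F := F) (one_ne_zero (α := E))
  have hl0 : l ≠ 0 := by rintro rfl; simp at hl
  obtain ⟨D, hD⟩ := exists_ext_bilin hl0 (C.B : V →ₗ[F] V →ₗ[F] F) hsa
  have hA : LinearMap.BilinForm.IsAlt D := fun x => eq_zero_of_dual hl0 fun k => by
    simpa using (hD (k • x) x).symm.trans (halt k x)
  refine isMaximalIn_of _ _ inf_le_right (fun e => ?_) fun M a1 a2 g a3 a4 =>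
    ES.le_of_not_mem (D := CForm.ofAlt D hA) ⟨hl0, hD, fun x hx => hC x fun y =>
      (hD x y).trans (by rw [show D x y = 0 from hx y, map_zero]), a2, fun k hk =>
      a1 ⟨res_mem_semiStab k, fun x y => (hD _ _).trans ((congrArg l (hk.1 x y)).trans (hD x y).symm),
        fun x => by rw [alt_N, alt_N]⟩⟩ hr hq a3 fun e => a4 ⟨e, a2 a3⟩
  obtain ⟨κ, hκ⟩ := exists_not_mem_range hr.two_le
  obtain ⟨p, hp⟩ := exists_ne (0 : V)
  obtain ⟨t, t1, t2⟩ := exists_tv_alt hC p
  obtain ⟨b, hb⟩ := (e t1).1.1 κ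
  obtain ⟨x, hx⟩ := hC.exists_eq hp 1
  have b1 := hb p
  rw [t2, t2, alt_B_self, ← hsa, halt, zero_smul, add_zero, add_zero] at b1
  have b2 := hb x
  rw [t2, t2, hx, one_smul, ← smul_left_injective E hp b1, smul_add, add_right_inj,
    ← algebraMap_smul E] at b2
  exact hκ _ (smul_left_injective E hp b2)

open Matrix Cfsg.Geo in
theorem isMaximalIn_field_alt {ι : Type} [Fintype ι] [DecidableEq ι] [Nonempty ι] {F : Type*}
    [Field F] [Fintype F] {r : ℕ} {K : Subalgebra F (Matrix ι ι F)} {C : CForm (altType F) (ι → F)}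
    (hC : C.Nondeg) {f : (ι → F) → (ι → F) → F} (hf : ∀ x y, C.B x y = f x y) (hr : r.Prime)
    (hK : IsFieldSubalgebra r K) (hq : Fintype.card F ≠ 2 ∨ 6 ≤ Fintype.card ι)
    (hsa : IsSelfAdjointFor f K) (halt : ∀ k ∈ K, ∀ v, f (k *ᵥ v) v = 0) :
    IsMaximalIn (C.isom.comap (glEquiv ι F : GL ι F →* _))
      (subalgebraNormalizer K ⊓ C.isom.comap (glEquiv ι F : GL ι F →* _)) := by
  letI := fieldOf hK; letI := modOf K; letI := towerOf K
  rw [subalgebraNormalizer_eq hK, ← Subgroup.comap_inf]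
  exact isMaximalIn_comap _ (isMaximalIn_ext_alt hC (hK.finrank_eq ▸ hr) (by simpa using hq)
    (fun k x y => by rw [hf, hf]; exact hsa k k.2 x y) fun k x => by rw [hf]; exact halt k k.2 x)

end H12
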