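import Cfsg.Agent.H12.EA5
import Cfsg.Agent.H12.ExSp
import Cfsg.Agent.H22.PGc

/-!
# Elements of prime order and field extension subgroups
-/

set_option autoImplicit false
set_option maxHeartbeats 400000

namespace H12.EA

open Module Submodule Polynomial H12 H12.CForm H22 H11 Matrix Pointwise H13.KL LinearMap

variable {F E V : Type*} [Field F] [Field E] [Algebra F E] [AddCommGroup V] [Module F V] [Module E V]
  [IsScalarTower F E V] {u u' : End F V} {T : FormType F} {T' : FormType E} {C : CForm T V} {D : CForm T' V}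
  {r : ℕ} {G H : Subgroup (V ≃ₗ[F] V)} {l : Dual F E}

theorem mk_aut [FiniteDimensional F E] {R : E → E → Prop} (h : ∀ a, ∃ b, R a b)
    (h1 : ∀ a b b', R a b → R a b' → b = b') (h2 : ∀ a b a' b', R a b → R a' b' → R (a + a') (b + b'))
    (h3 : ∀ a b a' b', R a b → R a' b' → R (a * a') (b * b'))
    (h4 : ∀ c, R (algebraMap F E c) (algebraMap F E c)) : ∃ σ : E ≃ₐ[F] E, ∀ a, R a (σ a) := by
  choose s hs using h
  have h5 := fun c => h1 _ _ _ (hs _) (h4 c)
  let σ : E →ₐ[F] E :=
    { toFun := s, map_one' := by simpa using h5 1, map_zero' := by simpa using h5 0, commutes' := h5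
      map_mul' := fun a b => h1 _ _ _ (hs _) (h3 _ _ _ _ (hs a) (hs b))
      map_add' := fun a b => h1 _ _ _ (hs _) (h2 _ _ _ _ (hs a) (hs b)) }
  exact ⟨.ofBijective σ σ.bijective, hs⟩

theorem exists_aut [FiniteDimensional F E] [Nontrivial V] {h : V ≃ₗ[F] V} (hh : h ∈ semiStab F E V) :
    ∃ σ : E ≃ₐ[F] E, ∀ a v, h (a • v) = σ a • h v := by
  obtain ⟨x, hx⟩ := exists_ne (0 : V)
  exact mk_aut (R := fun a b => ∀ v, h (a • v) = b • h v) hh.1
    (fun a b b' e e' => smul_left_injective E (h.map_ne_zero_iff.2 hx) ((e x).symm.trans (e' x)))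
    (fun a b a' b' e e' v => by rw [add_smul, map_add, e, e', add_smul])
    (fun a b a' b' e e' v => by rw [mul_smul, e, e', mul_smul]) fun c v => by simp

/-- The dimension of an eigenspace. -/
noncomputable abbrev ed (u : End F V) (c : F) : ℕ := kd u (X - Polynomial.C c)

theorem ed_eq (u : End F V) (c : F) : ed u c = finrank F (ker (u - algebraMap F _ c)) := by
  rw [ed, kd, map_sub, aeval_X, aeval_C]

theorem mem_eig {c : F} {x : V} : x ∈ ker (u - algebraMap F _ c) ↔ u x = c • x := by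
  simp [sub_eq_zero]

variable (F) in
/-- Restriction of scalars. -/
def resE : End E V →+* End F V where
  toFun g := g.restrictScalars F
  map_one' := rfl
  map_zero' := rfl
  map_mul' _ _ := rfl
  map_add' _ _ := rfl

theorem rk_res (φ : End E V) : finrank F (range (resE F φ)) = finrank F E * finrank E (range φ) :=
  (finrank_mul_finrank F E (range φ)).symm

variable [FiniteDimensional F V]

theorem weak {θ θ' : E} (hθ : θ' ≠ θ) (e : ∀ v, u (θ • v) = θ' • u v) {c : F} (hc : c ≠ 0) (θ0 : θ ≠ 0) :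
    2 * ed u c ≤ finrank F V := by
  let f : End F V := Algebra.lsmul F F V θ
  have h : Disjoint (ker (u - algebraMap F _ c)) ((ker (u - algebraMap F _ c)).map f) :=
    disjoint_def.2 fun _ a ⟨x, b, e'⟩ => by
      subst e'
      have := (e x).symm.trans (mem_eig.1 a)
      rw [mem_eig.1 b, smul_comm, ← sub_eq_zero, ← smul_sub, smul_eq_zero_iff_right hc] at this
      rw [(smul_eq_zero_iff_right (sub_ne_zero.2 hθ)).1 ((sub_smul _ _ _).trans this), map_zero]
  have := finrank_disj h ▸ Submodule.finrank_le _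
  rwa [← (equivMapOfInjective f (smul_right_injective V θ0) _).finrank_eq, ← two_mul, ← ed_eq] at this

theorem ed_rk (u : End F V) (c : F) : ed u c + finrank F (range (u - algebraMap F _ c)) = finrank F V := by
  rw [ed_eq, add_comm, finrank_range_add_finrank_ker]

theorem half {c : F} (h : u ^ 2 = algebraMap F _ (c ^ 2)) (h1 : 2 * ed u (-c) ≤ finrank F V)
    (h2 : 2 * ed u c ≤ finrank F V) : 2 * ed u c = finrank F V := by
  have a := ed_rk u (-c)
  have b : range (u - algebraMap F _ (-c)) ≤ ker (u - algebraMap F _ c) := by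
    rintro _ ⟨x, rfl⟩
    have := LinearMap.congr_fun h x
    simp only [sq, End.mul_apply, Module.algebraMap_end_apply] at this
    simp [this, smul_smul, add_comm]
  have := finrank_mono b
  rw [← ed_eq] at this
  omega

theorem sim_rk (h : Sim u u') (n : ℕ) : finrank F (range ((u - 1) ^ n)) = finrank F (range ((u' - 1) ^ n)) := by
  have := h.kd_eq ((X - 1) ^ n)
  have h1 := finrank_range_add_finrank_ker ((u - 1) ^ n)
  have h2 := finrank_range_add_finrank_ker ((u' - 1) ^ n)
  rw [kd, kd, map_pow, map_sub, aeval_X, map_one, map_pow, map_sub, aeval_X, map_one] at this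
  omega

theorem ed_neg (h2 : (2 : F) ≠ 0) (h : u ^ 2 = 1) : ed u (-1) = finrank F (range (u - 1)) := by
  rw [ed_eq, (le_antisymm (fun x hx => ⟨(-2 : F)⁻¹ • x, by
    simp only [map_smul, LinearMap.sub_apply, mem_eig.1 hx, End.one_apply]
    match_scalars; field_simp; ring⟩) fun x hx => mem_eig.2 (range_inv h x hx) : _ = range (u - 1))]

theorem ed_ts (hC : C.Nondeg) (hu : InI C u) {c : F} (h : T.σ c * c ≠ 1) : 2 * ed u c ≤ finrank F V := by
  have a : ker (u - algebraMap F _ c) ≤ C.perp (ker (u - algebraMap F _ c)) := fun y hy x hx => by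
    have := hu.1 x y
    rw [mem_eig.1 hx, mem_eig.1 hy, C.B_smul_left, C.B_smul_right, ← mul_assoc] at this
    exact (mul_eq_zero.1 (by linear_combination this : (T.σ c * c - 1) * C.B x y = 0)).resolve_left (sub_ne_zero.2 h)
  have := finrank_mono a
  have := hC.finrank_add_finrank_perp (ker (u - algebraMap F _ c))
  rw [ed_eq]; omega

theorem exists_negU (hC : C.Nondeg) (h2 : (2 : F) ≠ 0) {U : Submodule F V} (hU : C.NondegOn U) :
    ∃ g ∈ C.isom, (g : End F V) ^ 2 = 1 ∧ range ((g : End F V) - 1) = U := by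
  obtain ⟨g, -, -, a, b⟩ := exists_isom_scal hC hU 1 (fun _ h => h) (-1) (by simp)
  have c := fun x => mem_sup.1 ((hC.isCompl_perp hU).sup_eq_top.ge (mem_top (x := x)))
  refine ⟨g, g.2, LinearMap.ext fun x => ?_, le_antisymm ?_ fun x hx => ⟨(-2 : F)⁻¹ • x, ?_⟩⟩
  · obtain ⟨y, d, z, e, rfl⟩ := c x
    simp [sq, a y d, b z e]
  · rintro _ ⟨x, rfl⟩
    obtain ⟨y, d, z, e, rfl⟩ := c x
    simpa [a y d, b z e] using sub_mem (neg_mem d) d
  · simp only [map_smul, LinearMap.sub_apply, End.one_apply, LinearEquiv.coe_coe, a x hx, Units.val_neg, Units.val_one]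
    match_scalars; field_simp; ring

theorem exists_nd (hC : C.Nondeg) (H : ∀ P, C.NondegOn P → P ≠ ⊥ → ∃ v ∈ P, C.B v v ≠ 0) {s : ℕ}
    (hs : s ≤ finrank F V) : ∃ U, C.NondegOn U ∧ finrank F U = s := by
  induction s with
  | zero => exact ⟨⊥, nd_bot, finrank_bot _ _⟩
  | succ s ih =>
    obtain ⟨U, a, rfl⟩ := ih (by omega)
    obtain ⟨v, b, c⟩ := H _ (C.restrict_nondeg_iff.1 (hC.restrict_perp a)) fun e => by
      have := hC.finrank_add_finrank_perp U; rw [e, finrank_bot] at this; omega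
    have d := (span_singleton_le_iff_mem _ _).2 b
    exact ⟨_, nd_sup a (nondegOn_span_singleton c) d, by
      rw [finrank_disj (nd_disj a d), finrank_span_singleton (by rintro rfl; simp at c)]⟩

omit [FiniteDimensional F V] in
theorem prim_neg (h2 : (2 : F) ≠ 0) : IsPrimitiveRoot (-1 : F) 2 :=
  .mk_of_lt _ two_pos (by simp) fun l a b => by
    obtain rfl : l = 1 := by omega
    exact fun e => h2 (by linear_combination -e)

omit [FiniteDimensional F V] in
theorem exists_frob {ι : Type*} (e : V ≃ₗ[E] (ι → E)) (τ : E ≃ₐ[F] E) {α : ι → E} (hα : ∀ i, α i ≠ 0) :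
    ∃ φ ∈ semiStab F E V, (∀ a v, φ (a • v) = τ a • φ v) ∧ ∀ x i, e (φ x) i = α i * τ (e x i) := by
  let φ : V ≃ₗ[F] V := e.restrictScalars F ≪≫ₗ .piCongrRight (fun i => τ.toLinearEquiv ≪≫ₗ
    (LinearEquiv.smulOfNeZero E E (α i) (hα i)).restrictScalars F) ≪≫ₗ e.symm.restrictScalars F
  have a : ∀ x i, e (φ x) i = α i * τ (e x i) := fun x i => by simp [φ]
  have b : ∀ a v, φ (a • v) = τ a • φ v := fun c v => e.injective (funext fun i => by simp [a]; ring)
  exact ⟨φ, ⟨fun c => ⟨_, b c⟩, fun c => ⟨τ.symm c, by simp [b]⟩⟩, b, a⟩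

omit [FiniteDimensional F V] in
theorem idx_dvd (S : Subgroup (V ≃ₗ[E] V)) (h : ∀ g ∈ S, res F E V g ∈ G) :
    (semiStab F E V).relIndex G * Nat.card S ∣ Nat.card G := by
  rw [← relIndex_mul_card G (semiStab F E V), ← Subgroup.card_map_of_injective (f := res F E V) fun a b e =>
    LinearEquiv.ext (LinearEquiv.congr_fun e :)]
  exact mul_dvd_mul_left _ (Subgroup.card_dvd_of_le fun _ ⟨g, a, e⟩ => e ▸ ⟨res_mem_semiStab g, h g a⟩)

theorem prod_split (f : ℕ → ℕ) {k : ℕ} (hk : 0 < k) (m : ℕ) : ∏ j ∈ Finset.range (k * m), f (j + 1) =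
    (∏ j ∈ Finset.range (k * m) with ¬ k ∣ j + 1, f (j + 1)) * ∏ j ∈ Finset.range m, f (k * (j + 1)) := by
  rw [mul_comm (∏ j ∈ _ with _, _), ← Finset.prod_filter_mul_prod_filter_not _ fun j => k ∣ j + 1]
  congr 1
  symm
  refine Finset.prod_bij (fun j _ => k * (j + 1) - 1) (fun j a => ?_) (fun a _ b _ e => ?_) (fun j a => ?_)
    fun j _ => ?_
  · have : k * (j + 1) ≤ k * m := Nat.mul_le_mul_left k (Finset.mem_range.1 a)
    have : 0 < k * (j + 1) := by positivity
    simp only [Finset.mem_filter, Finset.mem_range]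
    exact ⟨by omega, by rw [Nat.sub_add_cancel this]; simp⟩
  · have : 0 < k * (a + 1) := by positivity
    have : 0 < k * (b + 1) := by positivity
    have := Nat.eq_of_mul_eq_mul_left hk (by omega : k * (a + 1) = k * (b + 1))
    omega
  · obtain ⟨a, s, b⟩ := Finset.mem_filter.1 a
    cases s with
    | zero => omega
    | succ s =>
      exact ⟨s, Finset.mem_range.2 (Nat.le_of_mul_le_mul_left (b ▸ Finset.mem_range.1 a) hk), by omega⟩
  · rw [Nat.sub_add_cancel (mul_pos hk j.succ_pos)]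

variable [Finite F]

theorem sim_inv (h2 : (2 : F) ≠ 0) (h : u ^ 2 = 1) (h' : u' ^ 2 = 1)
    (e : finrank F (range (u - 1)) = finrank F (range (u' - 1))) : Sim u u' :=
  sim_of_pow Nat.prime_two (prim_neg h2) one_ne_zero (by simpa) (by simpa) rfl fun l hl => by
    obtain rfl | rfl := sq_eq_one_iff.1 hl
    · have := ed_rk u 1; have := ed_rk u' 1; rw [map_one (algebraMap F _)] at *; unfold ed at *; omega
    · exact (ed_neg h2 h).trans (e.trans (ed_neg h2 h').symm)

theorem sim_neg (h2 : (2 : F) ≠ 0) (hσ : ∀ a, T.σ a = a) (hC : C.Nondeg) (hu : InI C u) (hu' : InI C u')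
    (h : u ^ 2 = algebraMap F _ (-1)) (h' : u' ^ 2 = algebraMap F _ (-1)) : Sim u u' :=
  sim_of_pow Nat.prime_two (prim_neg h2) (by simp) h h' rfl fun l hl => by
    have : ∀ {u : End F V}, InI C u → u ^ 2 = algebraMap F _ (-1) → 2 * ed u l = finrank F V := fun a b =>
      half (hl ▸ b) (ed_ts hC a fun e => h2 (by rw [hσ] at e; linear_combination hl - e))
        (ed_ts hC a fun e => h2 (by rw [hσ] at e; linear_combination hl - e))
    exact Nat.eq_of_mul_eq_mul_left two_pos ((this hu h).trans (this hu' h').symm)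

variable [Nontrivial V] (hk : (finrank F E).Prime) (hr : r.Prime)
include hk hr

theorem semi_cases {h : V ≃ₗ[F] V} (hh : h ∈ semiStab F E V) {z : F} (h1 : (h : End F V) ^ r = algebraMap F _ z) :
    (∃ g : End E V, resE F g = h) ∨
      r = finrank F E ∧ ∀ c, c ≠ 0 → 2 * ed (h : End F V) c ≤ finrank F V := by
  have : FiniteDimensional F E := .of_finrank_pos hk.pos
  have : Finite E := Module.finite_of_finite F
  have := Fact.mk hr
  obtain ⟨σ, e⟩ := exists_aut hh
  by_cases s : σ = 1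
  · subst s; exact .inl ⟨{ toFun := h, map_add' := h.map_add, map_smul' := e }, rfl⟩
  have a1 : ∀ (n : ℕ) a v, (h ^ n) (a • v) = (σ ^ n) a • (h ^ n) v := fun n => by
    induction n with
    | zero => simp
    | succ n ih => simp [pow_succ', ih, e]
  obtain ⟨x, hx⟩ := exists_ne (0 : V)
  have a2 : ∀ v, (h ^ r) v = z • v := LinearMap.congr_fun ((coe_pow' h r).trans h1)
  have a3 : σ ^ r = 1 := AlgEquiv.ext fun a => smul_left_injective E ((h ^ r).map_ne_zero_iff.2 hx)
    ((a1 r a x).symm.trans (by simp only [a2]; exact smul_comm _ _ _))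
  obtain ⟨θ, a4⟩ := not_forall.1 (mt AlgEquiv.ext s)
  exact .inr ⟨(Nat.prime_dvd_prime_iff_eq hr hk).1 (orderOf_eq_prime a3 s ▸ IsGalois.card_aut_eq_finrank F E ▸
    orderOf_dvd_natCard σ), fun c hc => weak a4 (e θ) hc (by rintro rfl; simp at a4)⟩

theorem der (hl : l ≠ 0) (hD : ∀ x y, C.B x y = l (D.B x y)) (hG : G ≤ C.isom)
    (H : ElP (InG G) r (Cj G (semiStab F E V))) (hu : InG G u) (h1 : u ^ r = 1) :
    (∃ g : End E V, (∀ x y, D.B (g x) (g y) = D.B x y) ∧ g ^ r = 1 ∧
      ∀ n, finrank F (range ((u - 1) ^ n)) = finrank F E * finrank E (range ((g - 1) ^ n))) ∨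
    r = finrank F E ∧ finrank F V ≤ 2 * finrank F (range (u - 1)) := by
  obtain ⟨g, a1, h, a2, a3⟩ := H.get (fun z ⟨g, a, b⟩ => ⟨1, one_mem _, g, mem_semiStab_of_linear fun c v => by
    simp [show ∀ x, g x = z • x from LinearMap.congr_fun b, smul_comm c],
    LinearMap.congr_fun b.symm⟩) hu (h1.trans (map_one _).symm)
  obtain ⟨h, a2, a3, a4⟩ := (cj_iff (let ⟨g, a, b⟩ := hu; b ▸ hG a)).1 ⟨g, hG a1, h, a2, a3⟩
  have a5 := (FSim.sim' a4).symm
  have a6 := a5.pow_eq (h1.trans (map_one _).symm)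
  obtain ⟨g, e⟩ | ⟨b1, b2⟩ := semi_cases hk hr a2 a6
  · have b : ∀ x, g x = h x := LinearMap.congr_fun e
    refine .inl ⟨g, fun x y => eq_of_dual hl fun k => ?_, restrictScalars_injective F ?_, fun n => ?_⟩
    · rw [← D.B_smul_right, ← D.B_smul_right, ← map_smul, ← hD, ← hD, b, b, a3.1]
    · exact (map_pow (resE F) g r).trans (e ▸ a6.trans (map_one _))
    · rw [sim_rk a5, ← rk_res, map_pow, map_sub, map_one, e]
  · have := ed_rk (h : End F V) 1
    have := b2 1 one_ne_zero
    have := sim_rk a5 1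
    rw [map_one, pow_one, pow_one] at *
    exact .inr ⟨b1, by omega⟩

end H12.EA
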