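import Cfsg.Agent.H12.EA9
import Cfsg.Agent.H25.El24

/-!
# Elements of prime order of linear groups and tensor product subgroups
-/

set_option autoImplicit false
set_option maxHeartbeats 400000

namespace H12.EA

open Module Submodule Polynomial H22 H25.El H13.KL LinearMap TensorProduct

universe u

variable {F : Type u} [Field F] {U W V : Type u} [AddCommGroup U] [Module F U] [AddCommGroup W] [Module F W]
  [AddCommGroup V] [Module F V] {u v : End F V} {r p a b n : ℕ}

local notation "𝕂" => AlgebraicClosure F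

variable (U W) in
/-- Similar to a tensor product of automorphisms. -/
def TS (u : End F V) : Prop :=
  ∃ (α : End F U) (β : End F W), IsUnit α ∧ IsUnit β ∧ Sim (TensorProduct.map α β) u

theorem TS.smul (u : End F V) (c : F) (hc : c ≠ 0) (h : TS U W (c • u)) : TS U W u := by
  obtain ⟨α, β, h1, h2, h3⟩ := h
  refine ⟨c⁻¹ • α, β, (Algebra.smul_def c⁻¹ α).symm ▸ ((IsUnit.mk0 _ (inv_ne_zero hc)).map _).mul h1, h2, ?_⟩
  simpa [smul_smul, hc, TensorProduct.map_smul_left] using sim_smul h3 c⁻¹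

theorem si_ts (e : Fin n ≃ Fin a × Fin b) (P : GL (Fin n) F) :
    (SI (Cfsg.Geo.tensorProductSubgroup a b e P) : End F V → Prop) = TS (Fin a → F) (Fin b → F) := by
  have k : ∀ g : GL (Fin n) F, Sim (trE (tenIso e P) g : End F _) (glE g) := fun g =>
    ⟨tenIso e P, fun x => trE_apply _ g x⟩
  rw [tensorProductSubgroup_eq]
  refine funext fun u => propext ⟨fun ⟨g, ⟨α, β, h1⟩, h2⟩ => ⟨α, β, (Module.End.isUnit_iff _).2 α.bijective,
    (Module.End.isUnit_iff _).2 β.bijective, Sim.trans (by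
      have := k g; rwa [show trE (tenIso e P) g = _ from h1] at this) h2⟩, fun ⟨α, β, h1, h2, h3⟩ => ?_⟩
  obtain ⟨g, hg⟩ := (trE (tenIso e P)).surjective (TensorProduct.congr
    (.ofBijective α ((Module.End.isUnit_iff _).1 h1)) (.ofBijective β ((Module.End.isUnit_iff _).1 h2)))
  exact ⟨g, ⟨_, _, hg⟩, (k g).symm.trans (hg ▸ h3)⟩

variable [FiniteDimensional F U] [FiniteDimensional F W] [FiniteDimensional F V]

theorem sim_rk' {X : Type u} [AddCommGroup X] [Module F X] {w : End F X} (h : Sim w u) (c : F) :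
    finrank F (range (w - algebraMap F _ c)) = finrank F (range (u - algebraMap F _ c)) := by
  obtain ⟨e, he⟩ := h
  rw [← LinearEquiv.finrank_map_eq e, ← range_comp, ← range_comp_of_range_eq_top _ e.range]
  exact congrArg (fun f => finrank F (range f)) (LinearMap.ext fun x => by simp [he])

theorem TS.cases [Nontrivial U] [Nontrivial W] (h : TS U W u) (h1 : u ^ r = 1) :
    (∃ β : End F W, β ^ r = 1 ∧ ∀ c, finrank F (range (u - algebraMap F _ c)) =
      finrank F U * finrank F (range (β - algebraMap F _ c))) ∨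
    finrank F W ≤ finrank F (V1 u) ∧ ∃ (α : End F U) (z : F), z ≠ 0 ∧ α ^ r = z • 1 ∧ ∀ c : F, α ≠ c • 1 := by
  obtain ⟨α, β, h2, h3, h4⟩ := h
  have a6 : TensorProduct.map α β ^ r = 1 := by simpa using sim_pow (z := 1) h4 (by simpa)
  have k2 : ∀ x w, (α ^ r) x ⊗ₜ[F] (β ^ r) w = x ⊗ₜ w := fun x w =>
    LinearMap.congr_fun ((TensorProduct.map_pow _ _ r).symm.trans a6) (x ⊗ₜ w)
  by_cases hα : ∃ c : F, α = c • 1
  · obtain ⟨c, rfl⟩ := hα
    obtain ⟨x, hx⟩ := exists_ne (0 : U)
    obtain ⟨φ, hφ⟩ := Module.Projective.exists_dual_eq_one F hx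
    refine .inl ⟨c • β, LinearMap.ext fun w => ?_, fun d => ?_⟩
    · simpa [_root_.smul_pow, hφ] using congrArg (cL W φ) (k2 x w)
    · rw [← sim_rk' h4, ← finrank_top F U, ← range_id, ← rk_map]
      exact congrArg (fun f => finrank F (range f)) (TensorProduct.ext' fun x y => by simp [tmul_sub, smul_tmul])
  obtain ⟨x, ψ, a1, a2⟩ := exists_indep (not_exists.1 hα)
  obtain ⟨w, hw⟩ := exists_ne (0 : W)
  obtain ⟨φ, hφ⟩ := Module.Projective.exists_dual_eq_one F hw
  have k4 := fun x => congrArg (cR U φ) (k2 x w)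
  simp only [cR_tmul, hφ, one_smul] at k4
  generalize φ _ = l at k4
  have l0 : l ≠ 0 := by rintro rfl; exact a2 (by rw [← k4 x]; simp)
  refine .inr ⟨?_, α, l⁻¹, inv_ne_zero l0, LinearMap.ext fun x => (eq_inv_smul_iff₀ l0).2 (k4 x), not_exists.1 hα⟩
  have := sim_rk' h4 1
  rw [map_one, map_one] at this
  let f := (TensorProduct.map α β - 1) ∘ₗ TensorProduct.mk F U W x
  rw [← this, ← finrank_range_of_inj (f := f) ((injective_iff_map_eq_zero _).2 fun y e =>
    ((Module.End.isUnit_iff _).1 h3).1 (by simpa [f, a1, a2] using congrArg (cL W ψ) e))]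
  exact finrank_mono (range_comp_le_range _ _)

variable [Finite F] [Fact r.Prime]

theorem ord_dvd_rk (hr : (r : F) ≠ 0) (h : u ^ r = 1) :
    orderOf (Nat.card F : ZMod r) ∣ finrank F (V1 u) := by
  obtain ⟨E, h1, h2⟩ := exists_ev_pow (K := 𝕂) (u := u) hr one_ne_zero (by simpa)
  obtain ⟨k, N, d⟩ := pf_fr h1.st (by simpa using h2)
  exact ⟨N, d.dim1 h1⟩

theorem ts_main [Fact p.Prime] [CharP F p] (hn : finrank F V = n) (hab : n = a * b) (ha : 2 ≤ a) (hlt : a < b)
    (hΩ : r ∣ Nat.card (GL (Fin n) F)) : Lhs (SLp F V) r (TS (Fin a → F) (Fin b → F)) ↔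
      r = 2 ∧ a = 2 ∧ Odd (Nat.card F) ∧ padicValNat 2 (Nat.card F - 1) ≤ padicValNat 2 n := by
  haveI : Nonempty (Fin a) := ⟨⟨0, by omega⟩⟩
  haveI : Nonempty (Fin b) := ⟨⟨0, by omega⟩⟩
  have n6 : 2 * 3 ≤ n := hab ▸ Nat.mul_le_mul ha (by omega)
  have hp : r.Prime := Fact.out
  refine ⟨fun H => ?_, fun ⟨r2, a2, o, l⟩ => ?_⟩
  · have k1 : ∀ u : End F V, u ^ r = 1 → finrank F (V1 u) = 1 → ¬ TS (Fin a → F) (Fin b → F) u := fun u c d e => by
      obtain ⟨β, -, f⟩ | ⟨f, -⟩ := e.cases c
      · have := f 1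
        rw [map_one, d, finrank_fin_fun] at this
        have := Nat.eq_one_of_mul_eq_one_right this.symm; omega
      · rw [d, finrank_fin_fun] at f; omega
    rcases eq_or_ne r p with rfl | e
    · obtain ⟨u, c, d, f⟩ := H.tv (by omega)
      exact (k1 u c d f).elim
    have hr : (r : F) ≠ 0 := cast_ne e
    by_cases h1 : r ∣ Nat.card F - 1
    · classical
      obtain ⟨z, z1, z2⟩ := exists_rootF h1
      have z0 := ne0 z1 one_ne_zero
      have z3 : algebraMap F 𝕂 z ≠ 1 := by simpa using z2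
      have k : ∀ x ∈ Multiset.replicate (n - 2) (1 : 𝕂) + {algebraMap F 𝕂 z, (algebraMap F 𝕂 z)⁻¹}, x ^ r = 1 := by
        simp +contextual [or_imp, Multiset.mem_replicate, ← map_pow, z1]
      obtain ⟨u, c, d, f⟩ := H.test TS.smul (fr_st h1 k) (by simp; omega) k (fun c =>
        (eq_or_ne 1 (algebraMap F _ c)).elim (fun e => ⟨_, by simp, e ▸ z3⟩)
          fun e => ⟨1, by simp [Multiset.mem_replicate]; omega, e⟩) (.inr (by simp [z0]))
      have c1 := c.cnt
      have c2 := dim01 u
      simp [z3.symm, Multiset.count_replicate_self, z2, eq_comm] at c1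
      obtain ⟨β, -, g⟩ | ⟨g, -⟩ := f.cases d
      swap
      · rw [finrank_fin_fun] at g; omega
      have g1 := g 1
      rw [map_one, finrank_fin_fun, show finrank F (V1 u) = 2 by omega] at g1
      obtain rfl : a = 2 := le_antisymm (Nat.le_of_dvd two_pos ⟨_, g1⟩) ha
      obtain rfl : r = 2 := by
        by_contra r2
        have z4 : z⁻¹ ≠ z := fun e' => z2 (by
          obtain ⟨m, hm⟩ := hp.odd_of_ne_two r2
          rwa [hm, pow_succ, pow_mul, pow_two, show z * z = 1 by nth_rw 1 [← e']; exact inv_mul_cancel₀ z0, one_pow,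
            one_mul] at z1)
        have c3 := c.kd_eq (f := X - C z) (X_sub_C_ne_zero z)
        have c4 := (u - algebraMap F _ z).finrank_range_add_finrank_ker
        have := g z
        simp [kd, Multiset.filter_singleton, sub_eq_zero, ← map_inv₀, z4] at c3
        rw [Multiset.filter_eq_nil.2 fun x hx => Multiset.eq_of_mem_replicate hx ▸ z3.symm, map_sub, aeval_X,
          aeval_C] at c3
        rw [finrank_fin_fun] at this
        simp only [Multiset.card_zero] at c3
        omega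
      have h2 : (2 : F) ≠ 0 := by simpa using hr
      refine ⟨rfl, rfl, Nat.odd_iff.2 (card_odd h2), by_contra fun l => ?_⟩
      obtain ⟨u, c, d, f⟩ := H.refl TS.smul hn (by omega) (not_le.1 l)
      exact k1 u c d f
    obtain ⟨ζ, a1, a2⟩ := exists_prim_root (castK 𝕂 hr)
    have c0 := ord_pos hr
    have c1 := ord_le hr hΩ
    obtain ⟨u, c, d, f⟩ := std_test hr TS.smul H (N := 1) (a := n - orderOf (Nat.card F : ZMod r)) rfl
      (mt ord_one_iff'.1 h1) (by omega) one_ne_zero a1 a2
    have c2 := (pf_std_fr hr a1 a2 _ _).dim1 c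
    exfalso
    obtain ⟨β, g1, g⟩ | ⟨g, α, z, z0, g1, g2⟩ := f.cases d
    · obtain ⟨s, hs⟩ := ord_dvd_rk hr g1
      have := g 1
      rw [map_one, map_one, c2, hs, mul_left_comm, finrank_fin_fun] at this
      have := Nat.eq_one_of_mul_eq_one_right (Nat.eq_of_mul_eq_mul_left c0 this).symm; omega
    obtain ⟨w, -, hw⟩ := exists_pow_of (r := r) dvd_rfl (pow_card_sub z0) (.inl h1)
    have w0 := ne0 hw z0
    have := Nat.le_of_dvd (Nat.pos_of_ne_zero fun e => g2 w (by
      rwa [finrank_eq_zero, range_eq_bot, sub_eq_zero, inv_smul_eq_iff₀ w0] at e))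
      (ord_dvd_rk (u := w⁻¹ • α) hr (by rw [_root_.smul_pow, g1, inv_pow, hw, inv_smul_smul₀ z0]))
    have := (V1 (w⁻¹ • α)).finrank_le
    rw [finrank_fin_fun] at *
    omega
  subst r2 a2
  have h2 : (2 : F) ≠ 0 := by
    haveI := Fintype.ofFinite F
    exact odd_card_iff.1 (Nat.card_eq_fintype_card (α := F) ▸ o)
  have hd : finrank F ((Fin 2 → F) ⊗[F] (Fin b → F)) = finrank F V := by simp [hn, hab]
  refine lhs_two_odd 𝕂 h2 hn TS.smul (fun u c _ d => ?_) fun u z N z0 c d _ _ => ?_
  · obtain ⟨m, hm⟩ := (d l).two_dvd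
    obtain ⟨g, g1, g2⟩ := exists_rank (W := Fin b → F) (a := m) h2 (by
      have := (V1 u).finrank_le; rw [finrank_fin_fun]; omega)
    refine ⟨1, g, isUnit_one, unit_of_pow g1, sim_two (by
      rw [TensorProduct.map_pow, g1, one_pow, TensorProduct.map_one]) c hd ?_⟩
    have := rk_map (LinearMap.id : End F (Fin 2 → F)) (g - 1)
    rw [range_id, finrank_top, finrank_fin_fun, g2, ← hm] at this
    exact (congrArg (fun f => finrank F (range f)) (TensorProduct.ext' fun x y => by simp [tmul_sub])).trans this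
  · have e : Matrix.toLin' !![0, z; 1, 0] ^ 2 = algebraMap F _ z := by
      ext i j; fin_cases i <;> fin_cases j <;> simp [pow_two, Matrix.vecHead, Matrix.vecTail]
    refine ⟨Matrix.toLin' !![0, z; 1, 0], 1, (isUnit_pow_iff two_ne_zero).1 (e ▸ (IsUnit.mk0 z z0).map _), isUnit_one,
      sim_nl (r := 2) h2 z0 (by have := card_odd h2; omega) c d ?_ hd⟩
    rw [TensorProduct.map_pow, e, one_pow]
    exact TensorProduct.ext' fun x y => by simp [smul_tmul']

end H12.EA
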