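import Cfsg.Agent.H12.EA6

/-!
# Elements of prime order of symplectic groups and field extension subgroups
-/

set_option autoImplicit false
set_option maxHeartbeats 400000

namespace H12.EA

open Module Submodule Polynomial H12 H12.CForm H22 H11 Matrix Pointwise H13.KL LinearMap

variable {F E V : Type*} [Field F] [Field E] [Algebra F E] [AddCommGroup V] [Module F V] [Module E V]
  [IsScalarTower F E V] {u u' : End F V} {T' : FormType E} {C : CForm (altType F) V} {D : CForm T' V}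
  {r : ℕ} {G H : Subgroup (V ≃ₗ[F] V)} {l : Dual F E}

theorem alt_isom (h : ∀ x y, C.B (u x) (u y) = C.B x y) : InI C u :=
  ⟨h, fun _ => (alt_N C _).trans (alt_N C _).symm⟩

theorem res_alt (hD : ∀ x y, C.B x y = l (D.B x y)) (g : V ≃ₗ[E] V) (h : g ∈ D.isom) : res F E V g ∈ C.isom :=
  alt_isom (u := (res F E V g).toLinearMap) fun x y => (hD _ _).trans ((congrArg l (h.1 x y)).trans (hD x y).symm)

theorem nd_of_lift {T : FormType F} {C : CForm T V} (hC : C.Nondeg) (hD : ∀ x y, C.B x y = l (D.B x y)) :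
    D.Nondeg := fun x hx => hC x fun y => by rw [hD, hx, map_zero]

variable [FiniteDimensional F V] [Fintype F] (hC : C.Nondeg)
include hC

theorem cj_alt (h2 : (2 : F) ≠ 0) (hu : InI C u) {z : F} (hz : z ≠ 0) (h1 : u ^ 2 = algebraMap F _ z)
    {h : V ≃ₗ[F] V} (a : h ∈ H) (b : h ∈ C.isom) (s : Sim (h : End F V) u) : Cj C.isom H u :=
  (cj_iff hu).2 ⟨h, a, b, alt_fsim hC hC b hu s (separable_X_pow_sub_C (n := 2) z h2 hz).squarefree
    (by simp [s.symm.pow_eq h1])⟩

theorem ex_single (hr : r.Prime) (h0 : (r : F) ≠ 0) (h2 : r ≠ 2) {i c j : ℕ} (hi : i = orderOf (Fintype.card F : ZMod r))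
    (hc : c = if Even i then i else 2 * i) (h1 : i ∣ 2 * j) (j0 : 0 < j) (hj : 2 * j ≤ finrank F V) :
    ∃ u, InI C u ∧ u ^ r = 1 ∧ finrank F (range (u - 1)) = c ∧ 0 < c ∧ c ∣ 2 * j ∧ c ≤ r - 1 := by
  have := Fact.mk hr
  obtain ⟨δ, hD, rfl, i0, hδ⟩ := dl_id (hr := hr) (h0 := h0) hi h2 hc
  have a : ∀ n, i ∣ 2 * n → δ * i ∣ 2 * n := fun n e => by
    obtain ⟨rfl, -⟩ | ⟨rfl, b⟩ := hδ
    · rwa [one_mul]
    · exact mul_dvd_mul_left _ ((Nat.coprime_two_right.2 b).dvd_of_dvd_mul_left e)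
  have c0 := mul_pos hD.pos i0
  obtain ⟨u, e, d, c1, c2, c3, -, c5⟩ := exists_single (T := altType F) hr h0 hD
    (mx_alt hi h2 hC hD rfl) (Nat.div_pos ((Nat.le_of_dvd (by omega) (a j h1)).trans hj) c0)
  obtain ⟨s, hs⟩ := hr.odd_of_ne_two h2
  refine ⟨u, c1, c3, by rw [(rk_sType hr h0 hi c2).2, c5, mul_comm], c0, a j h1, ?_⟩
  rw [show r - 1 = 2 * s by omega]
  refine Nat.le_of_dvd (by have := hr.two_le; omega) (a s ?_)
  rw [hi, show 2 * s = r - 1 by omega]
  exact ZMod.orderOf_dvd_card_sub_one fun e => not_dvd_card hr h0 1 (by rwa [pow_one, ← ZMod.natCast_eq_zero_iff])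

variable (hk : (finrank F E).Prime) (hr : r.Prime) (hl : l ≠ 0) (hD : ∀ x y, C.B x y = l (D.B x y))
  (hE : ElP (InI C) r (Cj C.isom (semiStab F E V))) (hn : 2 < finrank F V)
include hk hr hl hD hE hn

theorem der_alt (hu : InI C u) (h1 : u ^ r = 1) : (∃ g : End E V, (∀ x y, D.B (g x) (g y) = D.B x y) ∧ g ^ r = 1 ∧
      finrank F (range (u - 1)) = finrank F E * finrank E (range (g - 1))) ∨
    r = finrank F E ∧ finrank F V ≤ 2 * finrank F (range (u - 1)) :=
  have := Module.nontrivial_of_finrank_pos (R := F) (M := V) (by omega)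
  (der hk hr hl hD le_rfl (inG_isom hC ▸ hE) (inG_isom hC ▸ hu) h1).imp_left fun ⟨g, a, b, c⟩ =>
    ⟨g, a, b, by have := c 1; rwa [pow_one, pow_one] at this⟩

theorem not_tr : (r : F) ≠ 0 := fun h0 => by
  have := Module.nontrivial_of_finrank_pos (R := F) (M := V) (by omega)
  obtain ⟨v, hv⟩ := exists_ne (0 : V)
  obtain ⟨w, hw⟩ := hC.exists_eq hv 1
  have a : range (Tr C v 1 - 1) = span F {v} := le_antisymm (by
    rintro _ ⟨x, rfl⟩; simp [tr_apply, mem_span_singleton]) ((span_singleton_le_iff_mem _ _).2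
      ⟨w, by simp [tr_apply, hw]⟩)
  obtain ⟨g, -, -, b⟩ | ⟨-, b⟩ := der_alt hC hk hr hl hD hE hn (u := Tr C v 1) (alt_isom fun x y => by
    simp [tr_apply, alt_self, alt_symm C v x, show ∀ a, (altType F).σ a = a from fun _ => rfl]; ring) (by simp [tr_pow0 (alt_self C v), h0, tr_zero]) <;>
  rw [a, finrank_span_singleton hv] at b
  · exact hk.ne_one (Nat.eq_one_of_mul_eq_one_right b.symm)
  · omega

omit hl hD hE hn

theorem ext_alt_main {d : ℕ} (hd : finrank F V = 2 * d) (d2 : 2 ≤ d)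
    (hsa : ∀ (k : E) x y, C.B (k • x) y = C.B x (k • y)) (halt : ∀ (k : E) x, C.B (k • x) x = 0)
    (hΩ : r ∣ (semiStab F E V).relIndex C.isom) : ElP (InI C) r (Cj C.isom (semiStab F E V)) ↔
      r = 2 ∧ d = 2 ∧ finrank F E = 2 ∧ Odd (Fintype.card F) := by
  have := Module.nontrivial_of_finrank_pos (R := F) (M := V) (by omega)
  have : FiniteDimensional F E := .of_finrank_pos hk.pos
  have : Finite E := Module.finite_of_finite F
  have := Fintype.ofFinite E
  have := Fact.mk hr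
  have : Module.Finite E V := .of_restrictScalars_finite F E V
  have hl := Algebra.trace_ne_zero F E
  obtain ⟨D, hD⟩ := exists_ext_bilin hl (C.B : V →ₗ[F] V →ₗ[F] F) hsa
  obtain ⟨D, hD⟩ : ∃ D : CForm (altType E) V, ∀ x y, C.B x y = Algebra.trace F E (D.B x y) :=
    ⟨.ofAlt D fun x => eq_zero_of_dual hl fun k => by simpa using (hD (k • x) x).symm.trans (halt k x), hD⟩
  have nD := nd_of_lift hC hD
  obtain ⟨m, hm⟩ := alt_even nD
  obtain rfl : d = finrank F E * m := by
    rw [← finrank_mul_finrank F E V, hm] at hd; linarith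
  refine ⟨fun H => ?_, fun ⟨a1, a2, a3, a4⟩ u b1 ⟨z, b2⟩ b3 => ?_⟩
  · have h0 := not_tr hC hk hr hl hD H (by omega)
    have K : ∀ u, InI C u → u ^ r = 1 → 2 * finrank F E ∣ finrank F (range (u - 1)) ∨
        r = finrank F E ∧ finrank F V ≤ 2 * finrank F (range (u - 1)) := fun u a b =>
      (der_alt hC hk hr hl hD H (by omega) a b).imp_left fun ⟨g, c1, c2, c3⟩ => by
        obtain ⟨s, hs⟩ := alt_even (D.restrict_nondeg_iff.2 (nd_rg nD (alt_isom c1) hr.ne_zero (by
          rwa [← map_natCast (algebraMap F E), _root_.map_ne_zero]) c2))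
        exact ⟨s, by rw [c3, hs]; ring⟩
    by_cases h2 : r = 2
    · subst h2
      obtain ⟨U, a1, a2⟩ := alt_nd hC (k := 1) (by omega)
      obtain ⟨g, b1, b2, rfl⟩ := exists_negU hC h0 a1
      have := hk.two_le
      obtain b | b := K g b1 b2
      · have := Nat.le_of_dvd (by omega) b; omega
      · exact ⟨rfl, by omega, b.1.symm, odd_card_of_two_ne_zero h0⟩
    have a := idx_dvd D.isom (res_alt hD)
    rw [card_isom_alt _ hC hd, card_isom_alt _ nD hm, prod_split (fun j => Fintype.card F ^ (2 * j) - 1) hk.pos,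
      Module.card_eq_pow_finrank (K := F) (V := E), ← mul_assoc, ← mul_assoc] at a
    simp only [← pow_mul, mul_left_comm (finrank F E) 2] at a
    rw [Nat.mul_dvd_mul_iff_right (prod_pos' Fintype.one_lt_card _ _ (by simp [hk.ne_zero]))] at a
    obtain ⟨j, b1, b2⟩ := (hr.prime.dvd_finsetProd_iff _).1 ((hr.dvd_mul.1 ((hΩ.mul_right _).trans a)).resolve_left
      (not_dvd_card hr h0 _))
    simp only [Finset.mem_filter, Finset.mem_range] at b1
    obtain ⟨u, c1, c2, c3, c4, c5, c6⟩ := ex_single hC hr h0 h2 rfl rfl (j := j + 1) (orderOf_dvd_of_pow_eq_one (by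
      rwa [← ZMod.natCast_eq_zero_iff, Nat.cast_sub (Nat.one_le_pow _ _ Fintype.card_pos), sub_eq_zero, Nat.cast_pow, Nat.cast_one] at b2))
      (by omega) (by omega)
    obtain b | b := K u c1 c2 <;> rw [c3] at b
    · exact (b1.2 (Nat.dvd_of_mul_dvd_mul_left two_pos (b.trans c5))).elim
    · have := Nat.le_mul_of_pos_right (finrank F E) (Nat.pos_of_ne_zero (by rintro rfl; omega) : 0 < m)
      omega
  subst a1
  have h2 := two_ne_zero_of_odd_card a4
  obtain rfl : m = 1 := by rw [a3] at a2; omega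
  obtain ⟨e, he⟩ := alt_iso_spForm nD hm
  obtain rfl | rfl := mul_self_eq_one_iff.1 (norm_of_isom hC (b2 ▸ isom_pow b1 2))
  · let τ := FiniteField.frobeniusAlgEquivOfAlgebraic F E
    have t1 : orderOf τ = 2 := a3 ▸ FiniteField.orderOf_frobeniusAlgEquivOfAlgebraic F E
    obtain ⟨φ, c1, c2, c3⟩ := exists_frob e τ (α := 1) (by simp)
    have c4 : (φ : End F V) ^ 2 = 1 := LinearMap.ext fun x => e.injective (funext fun i => by
      simpa [sq, c3] using AlgEquiv.congr_fun (t1 ▸ pow_orderOf_eq_one τ : τ ^ 2 = 1) (e x i))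
    obtain ⟨θ, c5⟩ := not_forall.1 (mt AlgEquiv.ext (mt orderOf_eq_one_iff.2 (t1 ▸ by simp) : τ ≠ 1))
    have c6 := fun c => weak (u := φ.toLinearMap) (θ := θ) c5 (c2 θ) (c := c)
    have θ0 : θ ≠ 0 := by rintro rfl; simp at c5
    have c7 := half (c := 1) (by simpa) (c6 _ (by simp) θ0) (c6 _ (by simp) θ0)
    rw [map_one] at b2
    refine cj_alt hC h2 b1 one_ne_zero (by simpa) c1 (alt_isom (u := φ.toLinearMap) fun x y => ?_) (sim_inv h2 c4 b2 ?_)
    · rw [hD x, ← Algebra.trace_eq_of_algEquiv τ, hD, ← he.1, ← he.1]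
      exact congrArg _ (by simp [spForm_B, J_form_apply, c3])
    have := ed_rk (φ : End F V) 1
    obtain ⟨s, hs⟩ := alt_even (C.restrict_nondeg_iff.2 (nd_rg hC b1 two_ne_zero h2 b2))
    have d1 : s ≠ 0 := by
      rintro rfl
      exact b3 1 (by simpa [range_eq_bot, sub_eq_zero] using hs)
    have d2 : s < 2 := lt_of_not_ge fun e => b3 (-1) (LinearMap.ext fun x => range_inv b2 x
      ((eq_top_of_finrank_eq (le_antisymm (Submodule.finrank_le _) (by omega))).ge mem_top))
    rw [map_one] at this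
    omega
  · obtain ⟨⟨J, c1⟩, c2⟩ := exists_isom_sim nD (Iso.symm ⟨e, he⟩) (alt_isom (u := toLin' (J (Fin 1) E))
      ((mem_symplecticGroup_iff _).1 (SymplecticGroup.J_mem _ _)))
    have c3 := c2.pow_eq (r := 2) (z := -1) (by rw [← toLin'_pow, sq, J_squared]; simp; rfl)
    exact cj_alt hC h2 b1 (by simp) b2 (res_mem_semiStab J) (res_alt hD J c1) (sim_neg h2 (fun _ => rfl) hC
      (res_alt hD J c1) b1 (LinearMap.ext fun x => by simpa [sq, res_apply] using LinearMap.congr_fun c3 x) b2)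

omit hk in
theorem ext_herm_main {d : ℕ} (hd : finrank F V = 2 * d) (d2 : 2 ≤ d) (h2 : (2 : F) ≠ 0) (hk : finrank F E = 2)
    (hac : ∀ k : E, ∃ k' : E, ∀ x y, C.B (k • x) y = C.B x (k' • y))
    (hns : ¬ ∀ (k : E) x y, C.B (k • x) y = C.B x (k • y))
    (hΩ : r ∣ (semiStab F E V).relIndex C.isom) : ElP (InI C) r (Cj C.isom (semiStab F E V)) ↔ r = 2 := by
  have := Module.nontrivial_of_finrank_pos (R := F) (M := V) (by omega)
  have : FiniteDimensional F E := .of_finrank_pos (by omega)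
  have : Finite E := Module.finite_of_finite F
  have := Fintype.ofFinite E
  have := Fact.mk hr
  have : Module.Finite E V := .of_restrictScalars_finite F E V
  have hE : Fintype.card E = Fintype.card F ^ 2 := hk ▸ Module.card_eq_pow_finrank
  have hm : finrank E V = d := by rw [← finrank_mul_finrank F E V, hk] at hd; omega
  let τ := FiniteField.frobeniusAlgEquivOfAlgebraic F E
  have t1 : ∀ a, τ a = frob hE a := fun _ => rfl
  obtain ⟨σ, hσ⟩ := mk_aut (F := F) (R := fun a b => ∀ x y, C.B (a • x) y = C.B x (b • y)) hac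
    (fun a b b' e e' => by
      obtain ⟨y, hy⟩ := exists_ne (0 : V)
      refine smul_left_injective E hy (sub_eq_zero.1 (hC _ fun x => C.B_swap_zero ?_))
      rw [map_sub, ← e, ← e', sub_self])
    (fun a b a' b' e e' x y => by simp [add_smul, e, e'])
    (fun a b a' b' e e' x y => by rw [mul_smul, e, e', smul_smul, mul_comm])
    fun c x y => by rw [algebraMap_smul, algebraMap_smul, alt_smul, C.B_smul_right]
  obtain rfl : σ = τ := by
    obtain ⟨⟨n, hn⟩, rfl⟩ := (FiniteField.bijective_frobeniusAlgEquivOfAlgebraic_pow F E).2 σ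
    obtain rfl | rfl : n = 0 ∨ n = 1 := by omega
    exacts [(hns hσ).elim, pow_one _]
  obtain ⟨δ, δ0, δ1⟩ := exists_trace_zero hE
  let l := Algebra.trace F E ∘ₗ LinearMap.mulLeft F δ
  have hl : l ≠ 0 := fun e => δ0 (eq_zero_of_dual (Algebra.trace_ne_zero F E) fun k => by
    simpa [l, mul_comm] using LinearMap.congr_fun e k)
  have l1 : ∀ a, l (frob hE a) = -l a := fun a => by
    simp only [l, LinearMap.comp_apply, mulLeft_apply]
    rw [← Algebra.trace_eq_of_algEquiv τ, map_mul, t1, t1, frob_frob, frob_apply, eq_neg_of_add_eq_zero_right δ1,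
      neg_mul, map_neg]
  choose ψ hψ using fun x => exists_comp_eq hl (C.B x)
  have key : ∀ k x y, l (k * ψ x y) = C.B x (k • y) := fun k x y => by rw [hψ, map_smul, smul_eq_mul]
  obtain ⟨D, hD⟩ : ∃ D : CForm (hermT hE) V, ∀ x y, C.B x y = l (D.B x y) :=
    ⟨.ofHerm _ (frob_ne_id hE) _
      { toFun := ψ
        map_add' x x' := LinearMap.ext fun y => eq_of_dual hl fun k => by simp [mul_add, key]
        map_smul' c x := LinearMap.ext fun y => eq_of_dual hl fun k => by
          rw [key, hσ, smul_smul, LinearMap.smul_apply, smul_eq_mul, ← mul_assoc, key, mul_comm, t1] }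
      ⟨fun x y => eq_of_dual hl fun k => by
        change l (k * frob hE (ψ x y)) = l (k * ψ y x)
        rw [key, alt_symm, hσ, ← key, ← l1, map_mul (frob hE), t1, frob_frob]⟩, hψ⟩
  have nD := nd_of_lift hC hD
  have h2' : (2 : E) ≠ 0 := by rwa [← map_ofNat (algebraMap F E), _root_.map_ne_zero]
  refine ⟨fun H => by_contra fun r2 => ?_, fun a1 u b1 ⟨z, b2⟩ _ => ?_⟩
  · have h0 := not_tr hC (hk ▸ Nat.prime_two) hr hl hD H (by omega)
    have h0' : (r : E) ≠ 0 := by rwa [← map_natCast (algebraMap F E), _root_.map_ne_zero]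
    have a := idx_dvd D.isom (res_alt hD)
    have q1 := Fintype.one_lt_card (α := F)
    rw [card_isom_alt _ hC hd, card_isom_herm _ nD hm, show ∏ i ∈ Finset.range d, (Fintype.card F ^ (2 * (i + 1)) - 1) =
      (∏ i ∈ Finset.range d, if Even i then Fintype.card F ^ (i + 1) - 1 else Fintype.card F ^ (i + 1) + 1) *
      ∏ i ∈ Finset.range d, if Even i then Fintype.card F ^ (i + 1) + 1 else Fintype.card F ^ (i + 1) - 1 from
      (Finset.prod_congr rfl fun i _ => by
        rw [mul_comm 2, pow_mul, ← one_pow 2, Nat.sq_sub_sq]; split_ifs <;> simp [mul_comm]).trans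
        Finset.prod_mul_distrib, ← mul_assoc, ← mul_assoc, Nat.mul_dvd_mul_iff_right (Finset.prod_pos fun i _ => by
          have : 1 < _ ^ (i + 1) := Nat.one_lt_pow i.succ_ne_zero q1; split_ifs <;> omega)] at a
    obtain ⟨j, b1, b2⟩ := (hr.prime.dvd_finsetProd_iff _).1 ((hr.dvd_mul.1 ((hΩ.mul_right _).trans a)).resolve_left
      (not_dvd_card hr h0 _))
    generalize hi : orderOf (Fintype.card F : ZMod r) = i
    obtain ⟨b3, b4⟩ : i ∣ 2 * (j + 1) ∧ i % 4 ≠ 2 := by
      split_ifs at b2 with h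
      · have : i ∣ j + 1 := hi ▸ orderOf_dvd_of_pow_eq_one (by
          rwa [← ZMod.natCast_eq_zero_iff, Nat.cast_sub (Nat.one_le_pow _ _ Fintype.card_pos), sub_eq_zero,
            Nat.cast_pow, Nat.cast_one] at b2)
        exact ⟨this.mul_left _, by have := Nat.odd_iff.1 (h.add_one.of_dvd_nat this); omega⟩
      · obtain ⟨c1, c2⟩ := ord_of_dvd r2 b2
        rw [hi] at c1 c2
        refine ⟨c1, fun e => c2 ?_⟩
        obtain ⟨s, rfl⟩ : 2 ∣ i := by omega
        exact (Nat.coprime_two_left.2 (Nat.odd_iff.2 (by omega))).mul_dvd_of_dvd_of_dvd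
          (Nat.not_even_iff_odd.1 h).add_one.two_dvd (Nat.dvd_of_mul_dvd_mul_left two_pos c1)
    obtain ⟨u, c1, c2, c3, c4, -⟩ := ex_single hC hr h0 r2 hi.symm rfl b3 (by omega)
      (by have := Finset.mem_range.1 b1; omega)
    obtain ⟨g, e1, e2, e3⟩ | e := der_alt hC (hk ▸ Nat.prime_two) hr hl hD H (by omega) c1 c2
    · obtain ⟨δ, hδ, -, i0, hb, ⟨-, _⟩ | ⟨rfl, -⟩⟩ := dl_herm (hr := hr) (h0 := h0') hE r2 hi.symm rfl rfl
      · omega
      obtain ⟨a, s, e4⟩ := exists_sType hr h0' e2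
      obtain ⟨t, ht⟩ := hδ.dvd ((mx_herm hb nD hδ rfl s).1 ⟨g, a, herm_isom e1, e4⟩).1
      rw [c3, (rk_sType hr h0' hb e4).2, ht, hk] at e3
      rw [e3] at c4
      obtain ⟨t, rfl⟩ := Nat.exists_eq_add_one.2 (Nat.pos_of_ne_zero (by rintro rfl; simp at c4) : 0 < t)
      split_ifs at e3 i0 with h
      · obtain ⟨s, rfl⟩ := h.two_dvd
        rw [Nat.mul_div_cancel_left _ two_pos] at e3 i0; nlinarith
      · nlinarith
    · exact r2 (e.1.trans hk)
  subst a1
  obtain rfl | rfl := mul_self_eq_one_iff.1 (norm_of_isom hC (b2 ▸ isom_pow b1 2))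
  · rw [map_one] at b2
    obtain ⟨s, hs⟩ := alt_even (C.restrict_nondeg_iff.2 (nd_rg hC b1 two_ne_zero h2 b2))
    obtain ⟨U, c1, c2⟩ := exists_nd nD (fun P a b => by
      simpa only [H11.herm_B_self] using herm_exists_nonisotropic (frob_ne_id hE) a b) (s := s)
      (by have := Submodule.finrank_le (range (u - 1)); omega)
    obtain ⟨g, c3, c4, rfl⟩ := exists_negU nD h2' c1
    refine cj_alt hC h2 b1 one_ne_zero (by simpa) (res_mem_semiStab g) (res_alt hD g c3) (sim_inv h2
      (u := resE F g.toLinearMap) (by rw [← map_pow, c4, map_one]) b2 ?_)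
    rw [hs, ← c2, ← hk, ← rk_res, map_sub, map_one]
  · obtain ⟨e, he⟩ := hermT_iso_hermC hE nD hm
    obtain ⟨w, hw⟩ := exists_norm_eq hE (c := -1) (by rw [← frob_apply hE, map_neg, map_one])
    obtain ⟨φ, c1, -, c3⟩ := exists_frob e τ (α := fun _ => w) fun _ => by rintro rfl; simp at hw
    rw [← frob_apply hE] at hw
    have c4 : φ ∈ C.isom := alt_isom (u := φ.toLinearMap) fun x y => by
      rw [hD x, ← neg_neg (l _), ← l1, ← map_neg, hD, ← he.1, ← he.1]
      simp only [hermC_B, ← frob_apply hE, LinearEquiv.coe_coe, c3, t1, map_mul, map_sum, ← Finset.sum_neg_distrib]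
      exact Finset.sum_congr rfl fun i _ => congrArg l (by linear_combination (frob hE (e y i) * frob hE (frob hE (e x i))) * hw)
    refine cj_alt hC h2 b1 (by simp) b2 c1 c4 (sim_neg h2 (fun _ => rfl) hC c4 b1
      (LinearMap.ext fun x => e.injective (funext fun i => ?_)) b2)
    simp only [sq, End.mul_apply, LinearEquiv.coe_coe, c3, t1, map_mul, frob_frob, ← mul_assoc, hw]
    simp

end H12.EA
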