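import Cfsg.Agent.H12.EA7
import Cfsg.Agent.H12.OmegaSum

/-!
# Elements of prime order of orthogonal groups and quadratic extension subgroups
-/

set_option autoImplicit false
set_option maxHeartbeats 400000

namespace H12.EA

open Module Submodule Polynomial H12 H12.CForm H22 H11 Matrix Pointwise H13.KL QuadraticMap
open LinearMap hiding polar

variable {F E V : Type*} [Field F] [Field E] [Algebra F E] [AddCommGroup V] [Module F V] [Module E V]
  [IsScalarTower F E V] {u u' : End F V} {Q : QuadraticForm F V} {R : QuadraticForm E V}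
  {r : ℕ} {G H : Subgroup (V ≃ₗ[F] V)}

theorem quad_isom {C : CForm (quadType F) V} (h2 : (2 : F) ≠ 0) (h : ∀ x y, C.B (u x) (u y) = C.B x y) : InI C u :=
  ⟨h, fun x => mul_left_cancel₀ h2 ((C.B_self _).symm.trans ((h x x).trans (C.B_self x)))⟩

theorem B_orth {C : CForm (quadType F) V} {ι : Type*} [Fintype ι] (b : Basis ι F V)
    (h : ∀ i j, i ≠ j → C.B (b i) (b j) = 0) (x y : V) :
    C.B x y = ∑ i, b.equivFun x i * b.equivFun y i * C.B (b i) (b i) := by
  conv_lhs => rw [← b.sum_equivFun x, ← b.sum_equivFun y]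
  simp only [map_sum, LinearMap.sum_apply, C.B_smul_left, C.B_smul_right]
  refine Finset.sum_congr rfl fun i _ => (Finset.sum_eq_single i (fun j _ e => by simp [h j i e]) (by simp)).trans ?_
  exact (mul_left_comm _ _ _).trans ((mul_left_comm _ _ _).trans (mul_assoc _ _ _).symm)

section
variable [FiniteDimensional F V] [Finite F] (hQ : QNondeg Q) (h2 : (2 : F) ≠ 0)
include hQ h2

theorem map_inv_eq {ι : Type*} [Fintype ι] {b : ι → V} (hb : ∀ i, Q (b i) ≠ 0)
    (ho : ∀ i j, i ≠ j → polar Q (b i) (b j) = 0) {t : orth Q} (h : (t.1 : End F V) ^ 2 = 1)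
    (e : range ((t.1 : End F V) - 1) = span F (Set.range b)) {A : Type*} [CommMonoid A] (θ : orth Q →* A) :
    θ t = ∏ i, θ (refl Q (b i)) :=
  map_negOn h2 b hb ho t (fun i => by simpa using range_inv h _ (e ▸ subset_span ⟨i, rfl⟩)) (fun x hx => by
    simpa [sub_eq_zero] using (perp_rg hQ t.2).le fun y hy => (e ▸ span_le (p := ker ((ofQuad Q).B.flip x)).2 (by
      rintro _ ⟨i, rfl⟩; exact hx i)) hy) θ

theorem inv_fsim {s t : orth Q} (hs : (s.1 : End F V) ^ 2 = 1) (ht : (t.1 : End F V) ^ 2 = 1)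
    (e : finrank F (range ((s.1 : End F V) - 1)) = finrank F (range ((t.1 : End F V) - 1)))
    (e' : spinor Q s = spinor Q t) : FSim (ofQuad Q) (s.1 : End F V) (ofQuad Q) t.1 := by
  have a : ∀ {s : orth Q} {U}, range ((s.1 : End F V) - 1) = U → (s.1 : End F V) ^ 2 = 1 → ∀ {n}, finrank F U = n + 1 →
      ∃ b : Basis (Fin (n + 1)) F U, qsign (((ofQuad Q).restrict _).gram b).det =
        qsign ((2 : F) ^ (n + 1)) * spinor Q s := fun {s U} hU hs n e => by
    obtain ⟨b, b1, b2, b3⟩ := exists_orth_basis h2 ((restrict_nondeg_iff _).2 (hU ▸ nd_rg hQ s.2 two_ne_zero h2 hs :))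
      one_ne_zero e
    have hb : ∀ i, Q (b i) ≠ 0 := fun i => by
      by_cases h : i = Fin.last _
      exacts [h ▸ b3, (b2 i h).trans_ne one_ne_zero]
    refine ⟨b, ?_⟩
    rw [det_gram_of_orth b1, map_inv_eq hQ h2 hb b1 hs (hU.trans (U.map_subtype_top.symm.trans (by
      rw [← b.span_eq, Submodule.map_span, ← Set.range_comp]; rfl))), Fintype.card_fin]
    simp only [spinor_refl hQ (notExc_of_two_ne_zero h2) (hb _)]
    rw [← qsign_prod _ _ fun i _ => hb i]
    exact qsign_mul (by simpa) (Finset.prod_ne_zero_iff.2 fun i _ => hb i)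
  refine fsim_split hQ hQ s.2 t.2 .refl (sim_inv h2 hs ht e) (ε := 1) (by simp [quadType]) ?_ fun n1 n2 _ => ?_
  · rw [map_one]; exact (isCompl_fix two_ne_zero h2 hs).disjoint.symm
  have o : ∀ u : End F V, range (u - 1) = range (u - algebraMap F _ 1) := fun _ => by rw [map_one]
  obtain ⟨g, hg⟩ : ((ofQuad Q).restrict (range ((s.1 : End F V) - algebraMap F _ 1))).Iso
      ((ofQuad Q).restrict (range ((t.1 : End F V) - algebraMap F _ 1))) := by
    rw [o, o] at e
    cases hn : finrank F (range ((t.1 : End F V) - algebraMap F _ 1)) with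
    | zero => exact iso_of_finrank_zero (e.trans hn) hn
    | succ n =>
      obtain ⟨b, hb⟩ := a (o _) hs (e.trans hn)
      obtain ⟨b', hb'⟩ := a (o _) ht hn
      exact quad_iso_of_disc h2 n1 n2 e b b' (by rw [hb, hb', e'])
  refine ⟨g, hg, fun x => Subtype.ext (Eq.trans ?_ (range_inv ht _ ((o _).ge (g x).2)).symm)⟩
  rw [← Submodule.coe_smul, ← map_smul]
  exact congrArg _ (congrArg _ (Subtype.ext (range_inv hs _ ((o _).ge x.2))))

theorem cj_omega {h t k : orth Q} (a : h.1 ∈ H) (e : FSim (ofQuad Q) (h.1 : End F V) (ofQuad Q) t.1) {w : V}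
    (hw : Q w ≠ 0) (b : (refl Q w * h * refl Q w).1 ∈ H) (c : k.1 ∈ H) (c1 : dickson Q k = 1)
    (c2 : spinor Q k = -1) : Cj (OmegaV Q) H t.1 := by
  have hne : NotExc F V := notExc_of_two_ne_zero h2
  obtain ⟨g, e⟩ := isConj_iff.1 (isConj_of_fsim e)
  obtain ⟨g, h, a, e, d⟩ : ∃ g h : orth Q, h.1 ∈ H ∧ g * h * g⁻¹ = t ∧ dickson Q g = 1 := by
    obtain d | d := Int.units_eq_one_or (dickson Q g)
    · exact ⟨g, h, a, e, d⟩
    · exact ⟨g * refl Q w, _, b, by simp [← e, mul_assoc, refl_inv, ← mul_assoc (refl Q w) (refl Q w), refl_mul_self],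
        by simp [d, dickson_refl hQ hne hw]⟩
  obtain ⟨g, h, a, rfl, d⟩ : ∃ g h : orth Q, h.1 ∈ H ∧ g * h * g⁻¹ = t ∧ g ∈ commutator _ := by
    obtain d' | d' := Int.units_eq_one_or (spinor Q g)
    · exact ⟨g, h, a, e, (mem_commutator_iff hQ hne _).2 ⟨d, d'⟩⟩
    · exact ⟨g * k, k⁻¹ * h * k, mul_mem (mul_mem (inv_mem c) a) c, by simp [← e, mul_assoc],
        (mem_commutator_iff hQ hne _).2 (by simp [*])⟩
  exact ⟨g, mem_OmegaV.2 d, h, a, fun x => by simp⟩

theorem card_omega (c : 2 ≤ finrank F V) : Nat.card (OmegaV Q) * 4 = Nat.card (orth Q) := by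
  rw [← index_commutator_odd hQ h2 c, OmegaV, Subgroup.card_map_of_injective Subtype.val_injective,
    Subgroup.card_mul_index]

omit hQ h2 in
theorem card_orth_odd {F V : Type*} [Field F] [AddCommGroup V] [Module F V] [FiniteDimensional F V] [Fintype F]
    {C : CForm (quadType F) V} (hC : C.Nondeg) (h2 : (2 : F) ≠ 0) {m : ℕ} (hd : finrank F V = 2 * m + 1) :
    (Nat.card C.isom : ℤ) = 2 * Fintype.card F ^ (m ^ 2) *
      ∏ i ∈ Finset.range m, ((Fintype.card F : ℤ) ^ (2 * (i + 1)) - 1) := by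
  obtain ⟨c, a, e⟩ := quad_iso_qOdd h2 hC hd
  obtain ⟨e, he⟩ := quad_iso_iff.1 e
  refine card_isom_quad_odd m hC hd ((Nat.card_congr (e.toEquiv.subtypeEquiv fun v => ?_)).trans
    (card_quadFormOdd_zero m))
  rw [← he]; simp [a, ← coe_qOdd]

end

variable (hR : ∀ x, Q x = Algebra.trace F E (R x))

/-- Restriction of scalars for orthogonal groups. -/
def resO : orth R →* orth Q := ((res F E V).comp (orth R).subtype).codRestrict _ fun g =>
  mem_orth.2 fun x => by rw [hR, hR]; exact congrArg _ (orth_Q g x)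

include hR

theorem polar_tr (x y : V) : polar Q x y = Algebra.trace F E (polar R x y) := by simp [QuadraticMap.polar, hR]

variable [FiniteDimensional F V] [Fintype F] [Fintype E] (h2 : (2 : F) ≠ 0) (hk : finrank F E = 2)
include h2 hk

theorem res_refl {v : V} (hv : R v ≠ 0) {a b : E} (ha : Q (a • v) ≠ 0) (hb : Q (b • v) ≠ 0)
    (h : polar Q (a • v) (b • v) = 0) : resO hR (refl R v) = refl Q (a • v) * refl Q (b • v) := by
  have h2' : (2 : E) ≠ 0 := by rwa [← map_ofNat (algebraMap F E), _root_.map_ne_zero]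
  refine orth_ext fun x => ?_
  obtain ⟨c, hc⟩ := (mem_span_range_iff_exists_fun F).1 ((span_eq_top_of_orth
    (Q := Q.comp ((toSpanSingleton E V v).restrictScalars F)) h2 ![a, b] (by simpa using ⟨ha, hb⟩)
    (by simpa [QuadraticMap.polar, add_smul, add_comm (b • v), sub_right_comm _ (Q (b • v))] using h) (by simp [hk])).ge (mem_top (x := polar R v x / (2 * R v))))
  obtain ⟨y, rfl, hy⟩ : ∃ y, x = y + (∑ i, c i • ![a, b] i) • v ∧ polar R v y = 0 :=
    ⟨x - _, (sub_add_cancel _ _).symm, by simp [polar_self', hc]; field_simp; ring⟩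
  have e : ∀ a : E, polar Q (a • v) y = 0 := fun a => by simp [polar_tr hR, hy]
  change (refl R v).1 _ = _
  rw [map_add, map_smul, refl_apply_of_orth hy, refl_apply_self hv]
  simp [add_smul, refl_apply_of_orth (e _), refl_apply_self ha, refl_apply_self hb, refl_apply_of_orth h,
    refl_apply_of_orth ((polar_comm _ _ _).trans h), orth_mul_apply, add_comm]

omit hk in
theorem ex_a (hl : Algebra.trace F E ≠ 0) {v : V} (hv : R v ≠ 0) : ∃ a : E, Q (a • v) ≠ 0 := by
  have h2' : (2 : E) ≠ 0 := by rwa [← map_ofNat (algebraMap F E), _root_.map_ne_zero]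
  by_contra! H
  refine mul_ne_zero h2' hv (eq_zero_of_dual hl fun k => ?_)
  rw [← polar_self', ← smul_eq_mul, ← polar_smul_left, ← polar_tr hR, QuadraticMap.polar, H]
  simpa [add_smul] using sub_eq_zero.2 ((H (k + 1)).trans (H 1).symm)

omit hR in
theorem half_card : Fintype.card E / 2 = (Fintype.card F + 1) * (Fintype.card F / 2) ∧
    Fintype.card F = 2 * (Fintype.card F / 2) + 1 := by
  obtain ⟨n, hn⟩ := odd_card_iff.2 h2
  rw [Module.card_eq_pow_finrank (K := F) (V := E), hk, hn, show (2 * n + 1) ^ 2 = 2 * ((2 * n + 1 + 1) * n) + 1 by ring,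
    Nat.mul_add_div two_pos, Nat.mul_add_div two_pos]
  simp

theorem spinor_res (hQ : QNondeg Q) {v : V} (hv : R v ≠ 0) :
    dickson Q (resO hR (refl R v)) = 1 ∧ spinor Q (resO hR (refl R v)) = -qsign (R v) := by
  have : FiniteDimensional F E := .of_finrank_pos (by omega)
  have h2' : (2 : E) ≠ 0 := by rwa [← map_ofNat (algebraMap F E), _root_.map_ne_zero]
  have hE : Fintype.card E = Fintype.card F ^ 2 := hk ▸ Module.card_eq_pow_finrank
  have hne : NotExc F V := notExc_of_two_ne_zero h2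
  have tr : ∀ x, algebraMap F E (Algebra.trace F E x) = x + frob hE x := fun x => by
    simp [FiniteField.algebraMap_trace_eq_sum_pow, hk, Finset.sum_range_succ]
  obtain ⟨a, ha⟩ := ex_a hR h2 (Algebra.trace_ne_zero F E) hv
  obtain ⟨θ, θ0, θ1⟩ := exists_trace_zero hE
  have a0 : a ≠ 0 := by rintro rfl; simp at ha
  have μ0 : a * a * R v ≠ 0 := by simp [a0, hv]
  have θ2 : frob hE θ = -θ := eq_neg_of_add_eq_zero_right θ1
  have e : algebraMap F E (Q ((θ / (a * R v)) • v)) * ((a * a * R v) * frob hE (a * a * R v)) =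
      θ ^ 2 * algebraMap F E (Q (a • v)) := by
    have := (frob hE).injective.ne μ0
    simp only [hR, tr, Q_smul, map_mul, map_div₀, θ2, map_zero, mul_ne_zero_iff] at this ⊢
    obtain ⟨⟨_, -⟩, _⟩ := this
    field_simp; ring
  have hb : Q ((θ / (a * R v)) • v) ≠ 0 := fun e' => by simp [e', θ0, ha] at e
  rw [res_refl hR h2 hk hv ha hb (FaithfulSMul.algebraMap_injective F E (by
    rw [polar_tr hR, polar_smul_left, polar_smul_right, polar_self', smul_eq_mul, smul_eq_mul,
      show a * (θ / (a * R v) * (2 * R v)) = 2 * θ by field_simp, tr, map_mul, θ2, map_ofNat]; simp)),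
    map_mul, map_mul, dickson_refl hQ hne ha, dickson_refl hQ hne hb, spinor_refl hQ hne ha, spinor_refl hQ hne hb,
    ← qsign_mul ha hb, show qsign (R v) = qsign (a * a * R v) by
      rw [qsign_mul (mul_ne_zero a0 a0) hv, qsign_mul_self, one_mul]]
  refine ⟨by simp, ?_⟩
  have w0 := mul_ne_zero ha hb
  obtain ⟨c1, c2⟩ := half_card h2 hk
  have e2 : algebraMap F E ((Q (a • v) * Q ((θ / (a * R v)) • v)) ^ (Fintype.card F / 2)) *
      (a * a * R v) ^ (Fintype.card E / 2) = -1 := by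
    rw [c1, pow_mul, pow_succ', ← frob_apply hE, map_pow, ← mul_pow, map_mul, mul_assoc, e, mul_left_comm, ← pow_two,
      mul_pow, ← pow_mul, ← pow_mul, ← map_pow, show 2 * (Fintype.card F / 2) = Fintype.card F - 1 by omega,
      FiniteField.pow_card_sub_one_eq_one _ ha, map_one, mul_one]
    exact mul_left_cancel₀ θ0 (by rw [← pow_succ', Nat.sub_add_cancel Fintype.card_pos, ← frob_apply hE, θ2]; simp)
  have f1 := ringChar_ne_two_iff.2 h2
  have f2 := ringChar_ne_two_iff.2 h2'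
  by_cases s : IsSquare (a * a * R v)
  · rw [qsign_eq_one.2 s, qsign_eq_neg_one, FiniteField.isSquare_iff f1 w0]
    intro e3
    rw [e3, (FiniteField.isSquare_iff f2 μ0).1 s, map_one] at e2
    exact h2' (by linear_combination e2)
  · rw [qsign_eq_neg_one.2 s, neg_neg, qsign_eq_one, FiniteField.isSquare_iff f1 w0]
    rw [(FiniteField.pow_dichotomy f2 μ0).resolve_left (mt (FiniteField.isSquare_iff f2 μ0).2 s)] at e2
    exact FaithfulSMul.algebraMap_injective F E (by rw [map_one]; linear_combination -e2)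

theorem type_eq (hQ : QNondeg Q) {m : ℕ} (hm : finrank E V = 2 * (m + 1)) :
    (ofQuad R).HasTS (m + 1) ↔ (ofQuad Q).HasTS (2 * m + 1 + 1) := by
  classical
  have : FiniteDimensional F E := .of_finrank_pos (by omega)
  have : Module.Finite E V := .of_restrictScalars_finite F E V
  have : Finite V := Module.finite_of_finite F
  have nR : QNondeg R := nd_of_lift hQ (polar_tr hR)
  have a := cnt_one hQ (m := 2 * m + 1) (by rw [← finrank_mul_finrank F E V, hk, hm]; ring)
  have b : ∀ c : {c : E // Algebra.trace F E c = 1}, cnt (ofQuad R) c.1 = cnt (ofQuad (c.1⁻¹ • R)) 1 := fun ⟨c, hc⟩ =>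
    Nat.card_congr (Equiv.subtypeEquivRight fun v => by
      simp [inv_mul_eq_one₀ (by rintro rfl; simp at hc : c ≠ 0), eq_comm])
  have c : cnt (ofQuad Q) 1 = ∑ c : {c : E // Algebra.trace F E c = 1}, cnt (ofQuad R) c.1 := by
    unfold cnt
    rw [← Nat.card_sigma]
    exact Nat.card_congr ⟨fun v => ⟨⟨R v, (hR _).symm.trans v.2⟩, v, rfl⟩, fun v => ⟨v.2.1,
      (hR _).trans (v.2.2 ▸ v.1.2 :)⟩, fun _ => rfl, fun ⟨⟨_, _⟩, _, rfl⟩ => rfl⟩
  have d : Fintype.card {c : E // Algebra.trace F E c = 1} = Fintype.card F := by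
    have s := Algebra.trace_surjective F E
    have := finrank_range_add_finrank_ker (Algebra.trace F E)
    rw [range_eq_top.2 s, finrank_top, finrank_self, hk] at this
    rw [← Nat.card_eq_fintype_card, ← pow_one (Fintype.card F), ← (by omega : finrank F (ker (Algebra.trace F E)) = 1),
      ← H11.card_module]
    exact card_fiber_addMonoidHom (Algebra.trace F E).toAddMonoidHom (s 1)
  rw [c, Nat.cast_sum, Finset.sum_congr rfl fun c _ => (congrArg _ (b c)).trans ((cnt_one (qNondeg_smul nR (inv_ne_zero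
    (by rintro e; simpa [e] using c.2))) hm).trans (by rw [hasTS_smul_iff (inv_ne_zero (by rintro e; simpa [e] using c.2))])),
    Finset.sum_const, Finset.card_univ, d, Module.card_eq_pow_finrank (K := F) (V := E), hk, nsmul_eq_mul, Nat.cast_pow,
    ← pow_mul, ← pow_mul, ← mul_assoc, ← pow_succ', mul_right_inj' (by positivity), mul_add, sub_right_inj] at a
  split_ifs at a <;> simp_all

theorem not_elp_quad (hQ : QNondeg Q) {d : ℕ} (hd : finrank F V = 2 * d) (d2 : 2 ≤ d) (hr : r.Prime) (r2 : r ≠ 2)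
    (hΩ : r ∣ (semiStab F E V).relIndex (OmegaV Q)) : ¬ ElP (InG (OmegaV Q)) r (Cj (OmegaV Q) (semiStab F E V)) := by
  classical
  intro H
  have := Module.nontrivial_of_finrank_pos (R := F) (M := V) (by omega)
  have : FiniteDimensional F E := .of_finrank_pos (by omega)
  have := Fact.mk hr
  have : Module.Finite E V := .of_restrictScalars_finite F E V
  have h2' : (2 : E) ≠ 0 := by rwa [← map_ofNat (algebraMap F E), _root_.map_ne_zero]
  have hm : finrank E V = d := by rw [← finrank_mul_finrank F E V, hk] at hd; omega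
  have hE : Fintype.card E = Fintype.card F ^ 2 := hk ▸ Module.card_eq_pow_finrank
  have hne : NotExc F V := notExc_of_two_ne_zero h2
  have nR : QNondeg R := nd_of_lift hQ (polar_tr hR)
  have K := fun u a b => (der (u := u) (C := ofQuad Q) (D := ofQuad R) (hk ▸ Nat.prime_two) hr
    (Algebra.trace_ne_zero F E) (polar_tr hR) OmegaV_le H a b).resolve_right fun e => r2 (e.1.trans hk)
  by_cases h0 : (r : F) = 0
  · obtain ⟨v, v0, v1⟩ := exists_singular Q (by omega)
    obtain ⟨w, w0, w1⟩ := exists_nonsingular_perp hQ (U := span F {v}) (by rw [finrank_span_singleton v0]; omega)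
    have w2 : polar Q v w = 0 := w0 v (mem_span_singleton_self v)
    have a : ∀ n : ℕ, eich Q v w ^ n = eich Q v ((n : F) • w) := fun n => by
      induction n with
      | zero => simp [eich_zero_right]
      | succ n ih => rw [pow_succ, ih, ← eich_add v1 (by simp [w2]) w2, Nat.cast_succ, add_smul, one_smul]
    obtain ⟨g, -, -, b⟩ := K _ ⟨_, eich_mem_OmegaV hQ hne v1 w2, rfl⟩ ((coe_pow' _ r).symm.trans
      (congrArg (fun g : orth Q => g.1.toLinearMap) ((a r).trans (by simp [h0, eich_zero_right]) : eich Q v w ^ r = 1)))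
    have c : ∀ x, (((eich Q v w).1.toLinearMap - 1) ^ 2 : End F V) x = (-(2 * Q w) * polar Q v x) • v := fun x => by
      simp [pow_two, eich_apply v1 w2, polar_self', v1, w2, polar_comm Q w v]; module
    obtain ⟨x, hx⟩ := hQ.exists_eq v0 (-(2 * Q w))⁻¹
    have := b 2
    rw [(le_antisymm (by rintro _ ⟨x, rfl⟩; exact c x ▸ smul_mem _ _ (mem_span_singleton_self v))
      ((span_singleton_le_iff_mem _ _).2 ⟨x, by rw [c, show polar Q v x = _ from hx, mul_inv_cancel₀ (by simp [h2, w1]),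
        one_smul]⟩) : range (_ ^ 2 : End F V) = span F {v}), finrank_span_singleton v0, hk] at this
    omega
  have h0' : (r : E) ≠ 0 := by rwa [← map_natCast (algebraMap F E), _root_.map_ne_zero]
  have a := mul_dvd_mul_right (idx_dvd (OmegaV R) (G := OmegaV Q) fun _ ⟨g, a, e⟩ =>
    e ▸ mem_OmegaV.2 (map_mem_commutator (resO hR) a)) 4
  obtain ⟨m, rfl⟩ := Nat.exists_eq_add_one.2 (by omega : 0 < d)
  rw [mul_assoc, card_omega nR h2' (by omega), card_omega hQ h2 (by omega), ← Int.natCast_dvd_natCast, Nat.cast_mul, card_orth hQ hd] at a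
  replace a := (mul_dvd_mul_right (Int.natCast_dvd_natCast.2 hΩ) _).trans a
  generalize hi : orderOf (Fintype.card F : ZMod r) = i
  have q1 := Fintype.one_lt_card (α := F)
  have a1 : ∀ k : ℕ, (r : ℤ) ∣ (∏ j ∈ Finset.range (2 * k) with ¬ 2 ∣ j + 1, (Fintype.card F ^ (2 * (j + 1)) - 1) : ℕ) →
      ∃ j, Odd j ∧ j ≤ 2 * k ∧ i ∣ 2 * j := fun k e => by
    obtain ⟨j, b1, b2⟩ := (hr.prime.dvd_finsetProd_iff _).1 (Int.natCast_dvd_natCast.1 e)
    simp only [Finset.mem_filter, Finset.mem_range] at b1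
    exact ⟨j + 1, Nat.odd_iff.2 (by omega), b1.1, hi ▸ orderOf_dvd_of_pow_eq_one (by
      rwa [← ZMod.natCast_eq_zero_iff, Nat.cast_sub (Nat.one_le_pow _ _ Fintype.card_pos), sub_eq_zero, Nat.cast_pow,
        Nat.cast_one] at b2)⟩
  have a2 : ∀ k : ℕ, ∏ j ∈ Finset.range (2 * k), ((Fintype.card F : ℤ) ^ (2 * (j + 1)) - 1) =
      (∏ j ∈ Finset.range (2 * k) with ¬ 2 ∣ j + 1, (Fintype.card F ^ (2 * (j + 1)) - 1) : ℕ) *
      ∏ j ∈ Finset.range k, ((Fintype.card E : ℤ) ^ (2 * (j + 1)) - 1) := fun k => by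
    rw [← cast_prod_pow_sub_one, ← cast_prod_pow_sub_one, prod_split (fun j => Fintype.card F ^ (2 * j) - 1) two_pos,
      Nat.cast_mul, hE]
    simp only [← pow_mul]
  have a3 : ∀ k : ℕ, ∏ j ∈ Finset.range k, ((Fintype.card E : ℤ) ^ (2 * (j + 1)) - 1) ≠ 0 := fun k =>
    Finset.prod_ne_zero_iff.2 fun i _ => (sub_pos.2 (one_lt_pow₀ (by exact_mod_cast Fintype.one_lt_card) (by omega))).ne'
  have p := Nat.prime_iff_prime_int.1 hr
  have a4 : ∀ n, ¬ (r : ℤ) ∣ 2 * Fintype.card F ^ n := fun n e => (p.dvd_mul.1 e).elim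
    (fun e => r2 ((Nat.prime_dvd_prime_iff_eq hr Nat.prime_two).1 (by exact_mod_cast e)))
    fun e => not_dvd_card hr h0 n (by exact_mod_cast e)
  obtain ⟨j, b1, b2, b3, b4⟩ : ∃ j, Odd j ∧ j ≤ m + 1 ∧ i ∣ 2 * j ∧
      (j = m + 1 → ((ofQuad Q).HasTS (m + 1) ↔ i ∣ m + 1)) := by
    obtain ⟨k, rfl | rfl⟩ := m.even_or_odd'
    · rw [card_orth_odd nR h2' hm, a2, ← mul_assoc (r : ℤ), ← mul_assoc _ (Nat.cast _), mul_dvd_mul_iff_right (a3 k)] at a
      obtain e | e := p.dvd_mul.1 ((dvd_mul_right _ _).trans a)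
      · have e := (ZMod.intCast_zmod_eq_zero_iff_dvd _ _).2 ((p.dvd_mul.1 e).resolve_left (a4 _))
        push_cast at e
        refine ⟨_, ⟨k, rfl⟩, le_rfl, ?_⟩
        split_ifs at e with h
        · have : i ∣ 2 * k + 1 := hi ▸ orderOf_dvd_of_pow_eq_one (sub_eq_zero.1 e)
          exact ⟨this.mul_left _, fun _ => iff_of_true h this⟩
        · obtain ⟨c1, c2⟩ := (pow_eq_neg_one_iff hr r2 _).1 (sub_eq_zero.1 e)
          exact ⟨hi ▸ c1, fun _ => iff_of_false h (hi ▸ c2)⟩
      · obtain ⟨j, c1, c2, c3⟩ := a1 k e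
        exact ⟨j, c1, by omega, c3, by omega⟩
    · rw [card_orth nR (m := k) (by omega), if_congr (type_eq hR h2 hk hQ (by omega)) rfl rfl, Finset.prod_range_succ, a2,
        hE] at a
      generalize hε : (if (ofQuad Q).HasTS (2 * k + 1 + 1) then 1 else -1 : ℤ) = ε at a
      have e0 : (Fintype.card F : ℤ) ^ (2 * k + 1 + 1) - ε ≠ 0 := fun e => by
        have := one_lt_pow₀ (by exact_mod_cast q1 : (1 : ℤ) < Fintype.card F) (n := 2 * k + 1 + 1) (by omega)
        split_ifs at hε <;> omega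
      obtain ⟨s, a⟩ := a
      have a1 := a1 k
      generalize ((∏ j ∈ Finset.range (2 * k) with ¬ 2 ∣ j + 1, _ : ℕ) : ℤ) = A at a a1
      obtain e | e := p.dvd_mul.1 ((p.dvd_mul.1 (⟨2 * (Fintype.card F ^ 2) ^ ((k + 1) * k) * s,
        mul_right_cancel₀ (mul_ne_zero e0 (a3 k)) (by rw [hE]; push_cast at a ⊢; linear_combination a)⟩ :
        (r : ℤ) ∣ _ * (A * (Fintype.card F ^ (2 * (2 * k + 1)) - 1)))).resolve_left (a4 ((2 * k + 1 + 1) * (2 * k + 1))))
      · obtain ⟨j, c1, c2, c3⟩ := a1 e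
        exact ⟨j, c1, by omega, c3, by omega⟩
      · have e := (ZMod.intCast_zmod_eq_zero_iff_dvd _ _).2 e
        push_cast at e
        exact ⟨_, ⟨k, rfl⟩, by omega, hi ▸ orderOf_dvd_of_pow_eq_one (sub_eq_zero.1 e), by omega⟩
  obtain ⟨δ, hD, -, i0, hδ⟩ := dl_id (hr := hr) (h0 := h0) hi.symm r2 rfl
  have b5 : δ * i ∣ 2 * j := by
    obtain ⟨rfl, -⟩ | ⟨rfl, b⟩ := hδ
    · rwa [one_mul]
    · exact mul_dvd_mul_left _ ((Nat.coprime_two_right.2 b).dvd_of_dvd_mul_left b3)
  have c0 := mul_pos hD.pos i0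
  have b6 := Nat.le_of_dvd (by have := b1.pos; omega) b5
  obtain ⟨u, e, s, c1, c2, c3, -, c5⟩ := exists_single (T := quadType F) hr h0 hD
    (mx_even hi.symm r2 hQ hd hD rfl Iff.rfl) (by
      split_ifs with h
      · obtain ⟨t, ht⟩ := Nat.dvd_of_mod_eq_zero h.1
        rw [ht, Nat.mul_div_cancel_left _ c0, Nat.sub_pos_iff_lt]
        by_contra e
        have := Nat.mul_le_mul_left (δ * i) (not_lt.1 e)
        exact h.2 (b4 (by omega))
      · exact Nat.div_pos (by omega) c0)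
  obtain ⟨g, d1, rfl⟩ := inO_of_odd hQ hne (hr.odd_of_ne_two r2) c1 c3
  obtain ⟨g', e1, e2, e3⟩ := K _ ⟨_, mem_OmegaV.2 d1, rfl⟩ c3
  obtain ⟨δ', hD', -, -, hδ'⟩ := dl_id (F := E) (hr := hr) (h0 := h0') rfl r2 rfl
  obtain ⟨a', s', e4⟩ := exists_sType hr h0' e2
  have e5 := e3 1
  rw [pow_one, pow_one, (rk_sType hr h0 hi.symm c2).2, (rk_sType hr h0' rfl e4).2, c5, hk, mul_comm] at e5
  obtain ⟨t, ht⟩ := hD'.dvd (e4.inv_of hr h0' (toSQ nR) e1)
  refine Nat.not_even_iff_odd.2 b1 (even_iff_two_dvd.2 (Dvd.dvd.trans ?_ (Nat.dvd_of_mul_dvd_mul_left two_pos (e5 ▸ b5))))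
  obtain ⟨-, e⟩ | ⟨rfl, -⟩ := hδ'
  · exact e.two_dvd.mul_right _
  · exact ht ▸ (dvd_mul_right _ _).mul_left _

theorem elp_quad (hQ : QNondeg Q) (hd : 4 ≤ finrank F V) : ElP (InG (OmegaV Q)) 2 (Cj (OmegaV Q) (semiStab F E V)) := by
  rintro _ ⟨_, ⟨t, ht, rfl⟩, rfl⟩ ⟨z, b2⟩ b3
  change (t.1 : End F V) ^ 2 = _ at b2
  have := not_subsingleton_iff_nontrivial.1 fun (_ : Subsingleton V) => b3 1 (Subsingleton.elim _ _)
  have : FiniteDimensional F E := .of_finrank_pos (by omega)
  have : Module.Finite E V := .of_restrictScalars_finite F E V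
  have h2' : (2 : E) ≠ 0 := by rwa [← map_ofNat (algebraMap F E), _root_.map_ne_zero]
  have hm : finrank F V = 2 * finrank E V := by rw [← finrank_mul_finrank F E V, hk]
  have hne : NotExc F V := notExc_of_two_ne_zero h2
  have nR : QNondeg R := nd_of_lift hQ (polar_tr hR)
  obtain ⟨ρ, ρ0, ρ1⟩ := exists_nonsquare' h2'
  have rs : ∀ g, (resO hR g).1 ∈ semiStab F E V := fun g => res_mem_semiStab g.1
  have sp := fun v (a : R v ≠ 0) => spinor_res hR h2 hk hQ a
  obtain ⟨t1, t2⟩ := (mem_commutator_iff hQ hne _).1 ht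
  have K : ∀ h : orth Q, h.1 ∈ semiStab F E V → FSim (ofQuad Q) (h.1 : End F V) (ofQuad Q) t.1 →
      ∀ w, Q w ≠ 0 → (refl Q w * h * refl Q w).1 ∈ semiStab F E V → Cj (OmegaV Q) (semiStab F E V) t.1 :=
    fun h a b w c d => by
      obtain ⟨v, hv⟩ := exists_Q_eq nR (by omega) one_ne_zero
      obtain ⟨e1, e2⟩ := sp v (hv ▸ one_ne_zero)
      exact cj_omega hQ h2 a b c d (rs _) e1 (by rw [e2, hv, qsign_one])
  obtain rfl | rfl := mul_self_eq_one_iff.1 (norm_of_isom hQ (b2 ▸ isom_pow t.2 2))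
  · rw [map_one] at b2
    obtain ⟨s, hs⟩ := even_iff_exists_two_mul.1 ((neg_one_pow_eq_one_iff_even fun e => h2 (by linear_combination -e)).1
      ((det_inv hQ t.2 h2 b2).symm.trans ((dickson_eq_one_iff hQ h2 t).1 t1)))
    have d1 : s ≠ 0 := by
      rintro rfl
      exact b3 1 (by simpa [range_eq_bot, sub_eq_zero] using hs)
    have d2 : s < finrank E V := lt_of_not_ge fun e => b3 (-1) (LinearMap.ext fun x => range_inv b2 x
      ((eq_top_of_finrank_eq (le_antisymm (Submodule.finrank_le _) (by omega))).ge mem_top))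
    obtain ⟨v, v1, v2, -⟩ := exists_orth_family h2' nR ρ0 s d2
    have v3 : ∀ i : Fin s, R (v i.castSucc) = ρ := fun i => v2 _ (Fin.castSucc_ne_last i)
    have v4 : ∀ i j : Fin s, i ≠ j → polar R (v i.castSucc) (v j.castSucc) = 0 := fun i j e => v1 _ _ (by simpa)
    have v5 : ((ofQuad R).gram fun i : Fin s => v i.castSucc).det ≠ 0 := by
      rw [det_gram_of_orth v4]; simp [v3, h2', ρ0]
    obtain ⟨g, g1, g2, g3⟩ := exists_negU nR h2' (nondegOn_span_of_det_gram v5)
    have g4 : ((resO hR ⟨g, g1⟩).1 : End F V) ^ 2 = 1 := (map_pow (resE F) g.toLinearMap 2).symm.trans (by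
      rw [g2, map_one])
    have g5 : finrank F (range (((resO hR ⟨g, g1⟩).1 : End F V) - 1)) = 2 * s :=
      by have := rk_res (F := F) (g.toLinearMap - 1)
         rwa [g3, finrank_span_eq_card (linearIndependent_of_det_gram v5), hk, Fintype.card_fin, map_sub, map_one] at this
    obtain ⟨w, w1, w2⟩ := exists_nonsingular (nd_rg hQ (resO hR ⟨g, g1⟩).2 two_ne_zero h2 g4) fun e => by
      rw [e, finrank_bot] at g5; omega
    refine K _ (rs ⟨g, g1⟩) (inv_fsim hQ h2 g4 b2 (g5.trans hs.symm) ?_) w w2 ?_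
    · exact (map_inv_eq nR h2' (fun i => v3 i ▸ ρ0) v4 (t := ⟨g, g1⟩) g2 g3 ((spinor Q).comp (resO hR))).trans
        (by simp [(sp _ (v3 _ ▸ ρ0 :)).2, v3, qsign_eq_neg_one.2 ρ1, t2])
    · have := refl_conj (resO hR ⟨g, g1⟩) w
      rw [show (resO hR ⟨g, g1⟩).1 w = _ from range_inv g4 w w1, refl_smul (by simp), mul_inv_eq_iff_eq_mul] at this
      rw [mul_assoc, this, ← mul_assoc, refl_mul_self, one_mul]
      exact rs _
  have hE : Fintype.card E = Fintype.card F ^ 2 := hk ▸ Module.card_eq_pow_finrank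
  obtain ⟨n, hn⟩ := Nat.exists_eq_add_one.2 (by have := finrank_pos (R := F) (M := V); omega : 0 < finrank E V)
  obtain ⟨b, b4, b5, b6⟩ := exists_orth_basis h2' nR ρ0 hn
  have hb : ∀ i, R (b i) ≠ 0 := fun i => by
    by_cases h : i = Fin.last _
    exacts [h ▸ b6, (b5 i h).trans_ne ρ0]
  have b7 : ∀ i, ¬ IsSquare (R (b i)) := fun i => by
    by_cases h : i = Fin.last _
    swap; · exact fun e => ρ1 ((show R _ = ρ from b5 i h) ▸ e)
    have e := map_negOne b hb b4 b.span_eq ((spinor Q).comp (resO hR))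
    simp only [MonoidHom.comp_apply] at e
    rw [Fin.prod_univ_castSucc, Finset.prod_eq_one fun j _ => (sp _ (hb _)).2.trans (by
      rw [show R _ = ρ from b5 _ (Fin.castSucc_ne_last j), qsign_eq_neg_one.2 ρ1, neg_neg]), one_mul,
      (sp _ (hb _)).2, show resO hR (negOne R) = t * t from
        orth_ext fun x => show -x = _ by simpa [pow_two] using (LinearMap.congr_fun b2 x).symm, map_mul, t2] at e
    rw [h, ← qsign_eq_neg_one, ← neg_eq_iff_eq_neg, ← e, mul_one]
  obtain ⟨c1, c2⟩ := half_card h2 hk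
  let τ := FiniteField.frobeniusAlgEquivOfAlgebraic F E
  have t3 : ∀ a, τ a = frob hE a := fun _ => rfl
  obtain ⟨φ, d1, d2, d3⟩ := exists_frob b.equivFun τ (α := fun i => R (b i) ^ (Fintype.card F / 2))
    fun i => pow_ne_zero _ (hb i)
  have d4 : φ ∈ orth Q := quad_isom (u := φ.toLinearMap) h2 fun x y => by
    refine (polar_tr hR _ _).trans (Eq.trans ?_ ((Algebra.trace_eq_of_algEquiv τ _).trans (polar_tr hR x y).symm))
    refine congrArg _ ((B_orth b b4 _ _).trans (Eq.trans ?_ (congrArg τ (B_orth b b4 x y).symm)))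
    simp only [LinearEquiv.coe_coe, d3, map_sum, map_mul, ofQuad_B, polar_self', map_ofNat]
    refine Finset.sum_congr rfl fun i _ => ?_
    rw [t3 (R _), frob_apply]
    nth_rw 3 [c2]
    ring
  have d5 : ∀ x, φ (φ x) = -x := fun x => b.equivFun.injective (funext fun i => by
    rw [d3, d3, map_mul, t3, t3, t3, frob_frob, frob_apply, ← mul_assoc, ← pow_succ', ← pow_mul, mul_comm _ (_ + 1), ← c1,
      (FiniteField.pow_dichotomy (ringChar_ne_two_iff.2 h2') (hb i)).resolve_left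
        (mt (FiniteField.isSquare_iff (ringChar_ne_two_iff.2 h2') (hb i)).2 (b7 i))]
    simp)
  have d6 : Function.Injective (φ.toLinearMap * φ.toLinearMap - 1 : End F V) :=
    (injective_iff_map_eq_zero _).2 fun x hx => by
      simpa [d5, ← neg_add', ← two_smul F, h2] using hx
  obtain ⟨a, ha⟩ := ex_a hR h2 (Algebra.trace_ne_zero F E) (hb 0)
  have d7 : φ (a • b 0) = (τ a * R (b 0) ^ (Fintype.card F / 2)) • b 0 := b.equivFun.injective (funext fun i => by
    rw [d3]; by_cases h : 0 = i <;> simp [Finsupp.single_apply, h, mul_comm])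
  have d8 := orth_polar ⟨φ, d4⟩ (a • b 0) (φ (a • b 0))
  have d9 := refl_conj ⟨φ, d4⟩ (a • b 0)
  simp only [d5, polar_neg_right] at d8
  rw [polar_comm] at d8
  refine K ⟨φ, d4⟩ d1 (fsim_of_sim hQ hQ d4 t.2 (sim_neg h2 (fun _ => rfl) hQ d4 t.2
    (LinearMap.ext fun x => by simp [pow_two, d5]) b2) (.inr d6) (.inr (.inr ⟨rfl, d6⟩))) _ ha ?_
  rw [mul_assoc, mul_inv_eq_iff_eq_mul.1 d9, ← mul_assoc, d7, ← res_refl hR h2 hk (hb 0) ha
    (d7 ▸ (orth_Q ⟨φ, d4⟩ _).trans_ne ha) (d7 ▸ mul_left_cancel₀ h2 (by linear_combination -d8))]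
  exact mul_mem (rs _) d1

omit hR [Fintype E] in
theorem ext_quad_main (hQ : QNondeg Q) {d : ℕ} (hd : finrank F V = 2 * d) (d2 : 2 ≤ d) (hr : r.Prime)
    (hsa : ∀ (k : E) x y, polar Q (k • x) y = polar Q x (k • y)) (hΩ : r ∣ (semiStab F E V).relIndex (OmegaV Q)) :
    ElP (InG (OmegaV Q)) r (Cj (OmegaV Q) (semiStab F E V)) ↔ r = 2 := by
  have : FiniteDimensional F E := .of_finrank_pos (by omega)
  have : Finite E := Module.finite_of_finite F
  have := Fintype.ofFinite E
  have h2' : (2 : E) ≠ 0 := by rwa [← map_ofNat (algebraMap F E), _root_.map_ne_zero]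
  obtain ⟨D, hD⟩ := exists_ext_bilin (Algebra.trace_ne_zero F E) (polarBilin Q) hsa
  have hR : ∀ x, Q x = Algebra.trace F E (((2 : E)⁻¹ • LinearMap.BilinMap.toQuadraticMap D) x) :=
    fun x => mul_left_cancel₀ h2 (by
      rw [← polar_self', ← smul_eq_mul, ← map_smul, ← algebraMap_smul E, map_ofNat]
      simpa [h2'] using hD x x)
  exact ⟨fun H => by_contra fun e => not_elp_quad hR h2 hk hQ hd d2 hr e hΩ H,
    fun e => e ▸ elp_quad hR h2 hk hQ (by omega)⟩

end H12.EA
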