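import Cfsg.Agent.H12.RatZ

/-!
# Subfield subgroups of `Sp`, `SU`, `Ω` in small dimension
-/

set_option autoImplicit false
set_option maxHeartbeats 400000

namespace H12

open Module H11 Submodule QuadraticMap Cfsg.Geo

theorem alt_isom_le_SLV {F V : Type*} [Field F] [AddCommGroup V] [Module F V]
    [FiniteDimensional F V] {C : CForm (altType F) V} (hC : C.Nondeg) : C.isom ≤ SLV F V :=
  fun g hg => (Subgroup.closure_le (K := (SLV F V).comap C.isom.subtype)).2 (by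
    rintro _ ⟨u, hu, c, hc, rfl⟩; exact det_tv hu hc)
    ((closure_tvSet_alt hC).symm ▸ Subgroup.mem_top (⟨g, hg⟩ : C.isom))

theorem eq_one_of_cen_OmegaV {F V : Type*} [Field F] [AddCommGroup V] [Module F V]
    [FiniteDimensional F V] [Finite F] {Q : QuadraticForm F V} (hQ : QNondeg Q) (hne : NotExc F V)
    {s : V ≃ₗ[F] V} (hs : s ∈ OmegaV Q) {u : V} (hu : s ∈ cen (span F {u})) : s = 1 := by
  have h1 : ∀ x, polar Q u x = 0 → s x = x := fun x hx =>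
    hQ.cen_fix (OmegaV_le hs) hu ((CForm.ofQuad Q).mem_perp_singleton.2 hx)
  by_contra h0
  obtain ⟨y, hy⟩ := not_forall.1 (not_mem_cen_bot h0)
  obtain ⟨c, hc⟩ := mem_span_singleton.1 (hu y)
  have h2 : polar Q u y ≠ 0 := fun e => hy (by simp [h1 y e])
  have h3 : c ≠ 0 := by rintro rfl; exact hy (by simp [← hc])
  have h4 := mem_orth.1 (OmegaV_le hs) y
  rw [eq_add_of_sub_eq' hc.symm, Q_add, Q_smul, polar_smul_right, polar_comm, smul_eq_mul] at h4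
  have h5 : c * Q u + polar Q u y = 0 := mul_left_cancel₀ h3 (by linear_combination h4)
  have h6 : Q u ≠ 0 := fun e => h2 (by simpa [e] using h5)
  have h7 : (⟨s, OmegaV_le hs⟩ : orth Q) = refl Q u := orth_ext fun x => by
    have := h1 (x - (polar Q u x / polar Q u y) • y) (by simp [h2])
    rw [map_sub, map_smul, sub_eq_iff_eq_add, eq_add_of_sub_eq' hc.symm,
      show c = -polar Q u y / Q u by field_simp; linear_combination h5] at this
    rw [refl_apply, this]; match_scalars <;> field_simp <;> ring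
  have := ((mem_commutator_iff hQ hne _).1 (mem_OmegaV.1 (show (⟨s, OmegaV_le hs⟩ : orth Q).1 ∈ _
    from hs))).1
  rw [h7, dickson_refl hQ hne h6] at this
  exact absurd this (by decide)

variable {K F : Type*} [Field K] [Field F] [Algebra K F] {V₀ V : Type*} [AddCommGroup V₀]
  [Module K V₀] [AddCommGroup V] [Module F V] [Module K V] [IsScalarTower K F V]
  {ι : V₀ →ₗ[K] V} {G X : Subgroup (V ≃ₗ[F] V)}

local notation "𝔣" => algebraMap K F

theorem Rat.B_ext (h : Rat F ι) {T : FormType F} {C : CForm T V} {k : V ≃ₗ[F] V}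
    (e : ∀ x y, C.B (k (ι x)) (k (ι y)) = C.B (ι x) (ι y)) (x y : V) :
    C.B (k x) (k y) = C.B x y := by
  have h1 : ∀ x y, C.B (k (ι x)) (k y) = C.B (ι x) y := fun x y => sub_eq_zero.1
    (h.map_eq_zero (φ := C.B (k (ι x)) ∘ₗ (k : V →ₗ[F] V) - C.B (ι x)) (fun y => by simp [e]) y)
  exact sub_eq_zero.1 (h.map_eq_zero (φ := C.B (k x) ∘ₗ (k : V →ₗ[F] V) - C.B x)
    (fun y => by simp [C.symm (k (ι y)), C.symm (ι y), h1]) y)

theorem Rat.det_eq (h : Rat F ι) {k : V ≃ₗ[F] V} {g : V₀ ≃ₗ[K] V₀} (e : ∀ x, k (ι x) = ι (g x)) :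
    LinearMap.det (k : V →ₗ[F] V) = 𝔣 (LinearMap.det (g : V₀ →ₗ[K] V₀)) := by
  obtain ⟨n, b₀, b, hb⟩ := h
  rw [← LinearMap.det_toMatrix b, ← LinearMap.det_toMatrix b₀, RingHom.map_det]
  congr 1
  ext i j
  rw [RingHom.mapMatrix_apply, Matrix.map_apply, LinearMap.toMatrix_apply,
    LinearMap.toMatrix_apply, ← hb, LinearEquiv.coe_coe, e, LinearEquiv.coe_coe]
  conv => lhs; rw [← b₀.sum_repr (g (b₀ j))]
  simp only [map_sum, ι_smul (F := F), hb, map_smul b.repr]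
  simp [Finsupp.single_apply, Algebra.smul_def]

theorem Rat.nondeg₀ (h : Rat F ι) {T : FormType F} {T₀ : FormType K} {C : CForm T V}
    {C₀ : CForm T₀ V₀} (hC : C.Nondeg) (hB : ∀ x y, C.B (ι x) (ι y) = 𝔣 (C₀.B x y)) : C₀.Nondeg :=
  fun _ hx => by_contra fun h0 => h.ne_zero h0
    (hC _ (h.map_eq_zero fun y => by rw [hB, hx, map_zero]))

theorem Rat.rq_rat [Finite V₀] (h : Rat F ι) {T : FormType F} {T₀ : FormType K} {C : CForm T V}
    {C₀ : CForm T₀ V₀} (hB : ∀ x y, C.B (ι x) (ι y) = 𝔣 (C₀.B x y))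
    (hσ : ∀ k, T.σ (𝔣 k) = 𝔣 (T₀.σ k)) {v u : V₀} {k : K} (hr : Rq C X (ι v) (ι u) (𝔣 k)) :
    Rq C (ratStab F ι ⊓ X) (ι v) (ι u) (𝔣 k) :=
  let ⟨g, hg, e⟩ := hr
  ⟨g, ⟨h.mem_ratStab_one fun x => ⟨x + C₀.B v x • u - (T₀.σ (C₀.B x u) + k * C₀.B v x) • v, by
    rw [e, hB, hB, hσ, map_sub, map_add, ι_smul (F := F), ι_smul (F := F), map_add, map_mul]⟩,
    hg⟩, e⟩

variable [FiniteDimensional K V₀] [FiniteDimensional F V] [Finite F] [Finite V₀]
  (hR : Rat F ι) (hmax : MaxSub K F) (hne : ∃ α : F, ∀ k : K, α ≠ algebraMap K F k)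
include hR hmax hne

theorem isMaximalIn_rat_alt' (hd : 6 ≤ finrank K V₀) {C : CForm (altType F) V} (hC : C.Nondeg)
    {ζ : F} (hζ : ζ ≠ 0) (hr : ∀ x y, ∃ k, ζ * C.B (ι x) (ι y) = 𝔣 k) :
    IsMaximalIn C.isom (ratStab F ι ⊓ C.isom) := by
  obtain ⟨B₀, hB⟩ := exists_restrB (C.scale hζ) (σ₀ := RingHom.id K) (fun _ => rfl) hr
  have hG := (rootG_alt hC).scale hζ
  let C₀ := CForm.ofAlt B₀ fun x => (𝔣).injective (by
      rw [← hB, CForm.scale_B, alt_B_self, mul_zero, map_zero])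
  have h0 : C₀.Nondeg := hR.nondeg₀ hG.nd hB
  have h : RW ι (C.scale hζ) C₀ (ratStab F ι ⊓ C.isom) :=
    ⟨hR, hB, fun _ _ => alt_N _, fun _ _ => alt_N _, fun _ => rfl, hG.nd, hd,
      ix3_alt h0 (by omega), inf_le_right.trans hG.le, (spec_alt h0).mono (fun g hg => ⟨by
        obtain ⟨k, hk⟩ := hR.exists_extend g
        exact ⟨k, ⟨hR.mem_ratStab_one fun x => ⟨_, hk x⟩, fun x y => mul_left_cancel₀ hζ
          (hR.B_ext (C := C.scale hζ) (fun x y => by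
            rw [hk, hk, hB, hB]; exact congrArg _ (hg.1 x y)) x y),
          fun x => by rw [alt_N, alt_N]⟩, hk⟩, hg⟩) inf_le_right,
      fun v u _ _ e => by
        simpa using hR.rq_rat (C₀ := C₀) hB (fun _ => rfl) (k := 0) (by
          simpa using hG.rho _ _ (alt_N _) (alt_N _) (by rw [hB]; exact (map_eq_zero _).2 e))⟩
  have hT : ∀ v, Rq (C.scale hζ) (ratStab F ι ⊓ C.isom) (ι v) 0 1 := fun v => by
    simpa using hR.rq_rat (C₀ := C₀) hB (fun _ => rfl) (k := 1) (u := 0) (by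
      rw [map_zero, map_one]
      exact (rho_scale hζ).2 ⟨_, (tv C (alt_N (ι v)) (tvOk_alt (-ζ))).2,
        fun x => by simp [tv_apply, sub_eq_add_neg]⟩)
  refine h.isMaximalIn hG hmax hne (fun Y hY hle hA v hv h0 a _ _ => ?_)
    fun Y hY hle _ hQ => hY.le_of_point hQ one_ne_zero (fun v _ => (hT v).mono hle)
      fun _ u _ => alt_N u
  have key : ∀ α : F, Rq (C.scale hζ) Y (ι v) 0 (α * α) := fun α =>
    one_mul (α * α) ▸ hY.tv_of_sq hA (fun v _ => (hT v).mono hle) hv h0 α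
  by_cases h2 : ringChar F = 2
  · obtain ⟨α, rfl⟩ := FiniteField.isSquare_of_char_two h2 a
    exact key α
  · have := Ring.two_ne_zero h2
    convert (key ((a + 1) / 2)).div (key ((a - 1) / 2)) (by simp [CForm.scale_B, alt_B_self])
      (by simp) (by simp) using 1
    · simp
    · simp; field_simp; ring

theorem isMaximalIn_rat_quad' (hd : 7 ≤ finrank K V₀) {Q : QuadraticForm F V} (hQ : QNondeg Q)
    {ζ : F} (hζ : ζ ≠ 0) (hr : ∀ x, ∃ k, ζ * Q (ι x) = 𝔣 k) :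
    IsMaximalIn (OmegaV Q) (ratStab F ι ⊓ OmegaV Q) := by
  have := Finite.of_injective _ (𝔣).injective
  choose q hq using hr
  have h1 : ∀ x y, ζ * polar Q (ι x) (ι y) = 𝔣 (polar q x y) := fun x y => by
    simp [polar, ← hq, mul_sub]
  let Q₀ : QuadraticForm K V₀ := QuadraticMap.ofPolar q
    (fun a x => (𝔣).injective (by
      rw [← hq, ι_smul (F := F), QuadraticMap.map_smul, smul_eq_mul, smul_eq_mul, map_mul, map_mul,
        ← hq]; ring))
    (fun x x' y => (𝔣).injective (by simp [← h1, mul_add]))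
    fun a x y => (𝔣).injective (by
      rw [← h1, ι_smul (F := F), polar_smul_left, smul_eq_mul, smul_eq_mul, map_mul, ← h1]; ring)
  have hd' := hR.finrank_eq
  have hne' : NotExc F V := Or.inr (by omega)
  have hG := (rootG_quad hQ (by omega)).scale hζ
  replace hq : ∀ x, ζ * Q (ι x) = 𝔣 (Q₀ x) := hq
  replace h1 : ∀ x y, ζ * polar Q (ι x) (ι y) = 𝔣 (polar Q₀ x y) := h1
  clear_value Q₀
  have h2 : ∀ x, Q₀ x = 0 → Q (ι x) = 0 := fun x e => (mul_eq_zero.1 ((hq x).trans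
    ((map_eq_zero _).2 e))).resolve_left hζ
  have h0 : QNondeg Q₀ := hR.nondeg₀ (C₀ := CForm.ofQuad Q₀) hG.nd h1
  have h : RW ι ((CForm.ofQuad Q).scale hζ) (CForm.ofQuad Q₀) (ratStab F ι ⊓ OmegaV Q) :=
    ⟨hR, h1, h2, fun x e => (map_eq_zero 𝔣).1 ((hq x).symm.trans (mul_eq_zero_of_right _ e)),
      fun _ => rfl, hG.nd, by omega, (iso3_quad _).ix3 h0 hd, inf_le_right.trans hG.le,
      (spec_quad h0 (Or.inr (by omega))).mono (le_inf (by
        rintro _ ⟨g, hg, rfl⟩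
        rw [← eichGroup_eq_commutator h0 (Or.inr (by omega)) (by omega)
          (exists_singular Q₀ (by omega))] at hg
        refine (Subgroup.closure_le (K := (ratG ι (ratStab F ι ⊓ OmegaV Q)).comap
          (orth Q₀).subtype)).2 ?_ hg
        rintro _ ⟨u, w, hu, hw, rfl⟩
        have a1 : polar Q (ι u) (ζ • ι w) = 0 := by
          rw [polar_smul_right, smul_eq_mul, h1, hw, map_zero]
        have a2 : ∀ x, (eich Q (ι u) (ζ • ι w)).1 (ι x) = ι ((eich Q₀ u w).1 x) := fun x => by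
          rw [eich_apply (h2 u hu) a1, eich_apply hu hw]
          simp only [map_sub, map_add, ι_smul (F := F), map_mul, ← h1, ← hq, Q_smul,
            polar_smul_left, smul_eq_mul]
          module
        exact ⟨_, ⟨hR.mem_ratStab_one fun x => ⟨_, a2 x⟩, eich_mem_OmegaV hQ hne' (h2 u hu) a1⟩,
          a2⟩) OmegaV_le) inf_le_right, fun v u a b e => by
      simpa using hR.rq_rat (C₀ := CForm.ofQuad Q₀) h1 (fun _ => rfl) (k := 0) (by
        simpa using hG.rho _ _ (h2 v a) (h2 u b) ((h1 v u).trans ((map_eq_zero _).2 e)))⟩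
  refine h.isMaximalIn hG hmax hne (fun Y hY hle hA v hv h0 a _ e => ?_)
    fun Y hY _ hle hQ' => hY.le_of_line hQ' (fun u _ s hs => eq_one_of_cen_OmegaV hQ hne' (hle hs))
      (fun _ => rfl) (fun x y => congrArg (ζ * ·) (polar_comm Q y x)) hd fun h2 => ?_
  · change ζ⁻¹ * (a * (1 * ζ / ζ)) = 0 at e
    obtain rfl : a = 0 := by simpa [hζ] using e
    exact rho_zero
  · have h3 : (2 : K) = 0 := (𝔣).injective (by rw [map_ofNat, h2, map_zero])
    refine ⟨fun x => by rw [CForm.ofQuad_B, polar_self', h3, zero_mul], one_ne_zero, fun k => ?_⟩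
    obtain ⟨c, rfl⟩ := FiniteField.isSquare_of_char_two
      (ringChar.eq_iff.2 (CharTwo.of_one_ne_zero_of_two_eq_zero one_ne_zero h3)) k
    exact ⟨c, rfl⟩

variable {σ : F →+* F} {hσ2 : ∀ a, σ (σ a) = a} {C : CForm (hermType σ hσ2) V}
  (hσ : σ ≠ RingHom.id F) (hC : C.Nondeg)
include hσ hC

theorem isMaximalIn_rat_herm_aux' (hd : 6 ≤ finrank K V₀) {ζ : F} (hζ : ζ ≠ 0) {T₀ : FormType K}
    {C₀ : CForm T₀ V₀} (hB : ∀ x y, ζ * C.B (ι x) (ι y) = 𝔣 (C₀.B x y))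
    (hN : ∀ x, C₀.N x = 0 ↔ C.N (ι x) = 0) (hσ' : ∀ k, σ (𝔣 k) = 𝔣 (T₀.σ k)) (hi : Ix3 C₀)
    {G₀ : Subgroup (V₀ ≃ₗ[K] V₀)} (hG₀ : Spec C₀ G₀) (hG₀' : G₀ ≤ SLV K V₀)
    (hT : ∀ Y, RW ι (C.scale hζ) C₀ Y → ratStab F ι ⊓ (C.isom ⊓ SLV F V) ≤ Y →
      Y ≤ C.isom ⊓ SLV F V → RatQ ι (C.scale hζ) C₀ Y → Y ≤ ratStab F ι) :
    IsMaximalIn (C.isom ⊓ SLV F V) (ratStab F ι ⊓ (C.isom ⊓ SLV F V)) := by
  have hG := (rootG_herm hσ (exists_norm_of_finite hσ2 hσ) hC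
    (by rw [← hR.finrank_eq]; omega)).scale hζ
  have h : RW ι (C.scale hζ) C₀ (ratStab F ι ⊓ (C.isom ⊓ SLV F V)) :=
    ⟨hR, hB, fun x => (hN x).1, fun x => (hN x).2, hσ', hG.nd, hd, hi, inf_le_right.trans hG.le,
      hG₀.mono (fun g hg => ⟨by
        obtain ⟨k, hk⟩ := hR.exists_extend g
        exact ⟨k, ⟨hR.mem_ratStab_one fun x => ⟨_, hk x⟩, herm_mem_isom fun x y =>
          mul_left_cancel₀ hζ (hR.B_ext (C := C.scale hζ) (fun x y => by
            rw [hk, hk, CForm.scale_B, CForm.scale_B, hB, hB, CForm.isom_B (hG₀.le hg)]) x y),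
          mem_SLV.2 (by rw [hR.det_eq hk, mem_SLV.1 (hG₀' hg), map_one])⟩, hk⟩, hG₀.le hg⟩)
        inf_le_right, fun v u a b e => by
      simpa using hR.rq_rat (C := C.scale hζ) (C₀ := C₀) hB hσ' (k := 0) (by
        simpa using hG.rho _ _ ((hN v).1 a) ((hN u).1 b) ((hB v u).trans ((map_eq_zero _).2 e)))⟩
  refine h.isMaximalIn hG hmax hne (fun Y hY hle hA v hv h0 a e _ => ?_) hT
  obtain ⟨θ, hθ⟩ := exists_trace_eq hσ hσ2 (map_one σ)
  have := (map_ne_zero σ).2 hζ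
  convert hY.tv_of_comm hA hv h0 (ζ / σ ζ * a * θ) using 1
  change a * (1 * ζ / σ ζ) + σ a = 0 at e
  change _ = σ (1 * ζ / σ ζ) * _ - σ _
  simp only [map_mul, map_div₀, hσ2, one_mul, eq_neg_of_add_eq_zero_right e]
  field_simp
  linear_combination -a * hθ

theorem isMaximalIn_rat_herm' (hd : 6 ≤ finrank K V₀) {σ₀ : K →+* K}
    (hσ' : ∀ k, σ (𝔣 k) = 𝔣 (σ₀ k)) (hσ₀ : σ₀ ≠ RingHom.id K)
    (hr : ∀ x y, ∃ k, C.B (ι x) (ι y) = 𝔣 k) :
    IsMaximalIn (C.isom ⊓ SLV F V) (ratStab F ι ⊓ (C.isom ⊓ SLV F V)) := by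
  have := Finite.of_injective _ (𝔣).injective
  obtain ⟨B₀, hB⟩ := exists_restrB C hσ' hr
  have h2 : ∀ k, σ₀ (σ₀ k) = k := fun k => (𝔣).injective (by rw [← hσ', ← hσ', hσ2])
  obtain ⟨k₀, h3, h4⟩ := exists_trace_zero' (hσ2 := h2) hσ₀
  let C₀ := CForm.ofHerm σ₀ hσ₀ h2 B₀
    ⟨fun x y => (𝔣).injective (by rw [← hσ', ← hB, ← hB, ← herm_symm])⟩
  have h0 : C₀.Nondeg := hR.nondeg₀ hC hB
  have hB' : ∀ x y, 1 * C.B (ι x) (ι y) = 𝔣 (C₀.B x y) := fun x y => (one_mul _).trans (hB x y)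
  have hN := exists_norm_of_finite h2 hσ₀
  refine isMaximalIn_rat_herm_aux' hR hmax hne hσ hC hd one_ne_zero (C₀ := C₀) hB' (fun x => by
      rw [← herm_B_self (ι x), hB, map_eq_zero]; rfl) hσ' (ix3_herm hN h0 hd) (spec_herm hσ₀ hN h0)
    inf_le_right fun Y hY hle _ hQ => hY.le_of_point hQ ((map_ne_zero 𝔣).2 h3) (fun v hv => ?_)
      fun _ u e => e
  obtain ⟨g, hg, e⟩ := tr_of_tv (C := C) (hY.hN v hv) (tvOk_herm.2 (show -𝔣 k₀ + σ (-𝔣 k₀) = 0 by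
    rw [map_neg, hσ', ← neg_add, ← map_add, h4]; simp))
  simpa using (hR.rq_rat (C := C.scale one_ne_zero) (C₀ := C₀) hB' hσ' (k := k₀) (u := 0) (by
    rw [map_zero]
    exact (rho_scale one_ne_zero).2 ⟨g, hg, fun x => by simp [e, sub_eq_add_neg]⟩)).mono hle

theorem isMaximalIn_rat_herm_alt' (hd : 6 ≤ finrank K V₀) (hK : ∀ k, σ (𝔣 k) = 𝔣 k) {ζ : F}
    (hζ : ζ ≠ 0) (hr : ∀ x y, ∃ k, ζ * C.B (ι x) (ι y) = 𝔣 k) (h0 : ∀ x, C.B (ι x) (ι x) = 0) :
    IsMaximalIn (C.isom ⊓ SLV F V) (ratStab F ι ⊓ (C.isom ⊓ SLV F V)) := by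
  obtain ⟨B₀, hB⟩ := exists_restrB (C.scale hζ) (σ₀ := RingHom.id K) hK hr
  let C₀ := CForm.ofAlt B₀ fun x =>
    (𝔣).injective (by rw [← hB, CForm.scale_B, h0, mul_zero, map_zero])
  have h1 : C₀.Nondeg := hR.nondeg₀ (C := C.scale hζ)
    (fun x hx => hC x fun y => (mul_eq_zero.1 (hx y)).resolve_left hζ) hB
  refine isMaximalIn_rat_herm_aux' hR hmax hne hσ hC hd hζ (C₀ := C₀) hB
    (fun x => by rw [← herm_B_self, h0, alt_N]; simp) hK (ix3_alt h1 (by omega)) (spec_alt h1)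
    (alt_isom_le_SLV h1) fun Y hY hle _ hQ => hY.le_of_point hQ one_ne_zero (fun v hv => ?_)
      fun _ u _ => alt_N u
  obtain ⟨a, b, hab⟩ : ∃ a b, C₀.B a b = 1 :=
    let ⟨x, _, hx⟩ := hY.sing; ⟨x, h1.exists_eq hx 1⟩
  have h2 : ζ + σ ζ = 0 := by
    have a1 : ζ * C.B (ι a) (ι b) = 1 := (hB a b).trans (by rw [← map_one 𝔣, ← hab]; rfl)
    have a2 : ζ * C.B (ι b) (ι a) = -1 := (hB b a).trans (by
      rw [← map_one 𝔣, ← map_neg, ← hab, ← alt_symm]; rfl)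
    have a3 := congrArg σ a1
    rw [map_mul, ← herm_symm, map_one] at a3
    linear_combination σ ζ * a2 - ζ * a3
  obtain ⟨g, hg, e⟩ := tr_of_tv (C := C) (hY.hN v hv) (tvOk_herm.2 (show -ζ + σ (-ζ) = 0 by
    rw [map_neg, ← neg_add, h2, neg_zero]))
  simpa using (hR.rq_rat (C := C.scale hζ) (C₀ := C₀) hB hK (k := 1) (u := 0) (by
    rw [map_zero, map_one]
    exact (rho_scale hζ).2 ⟨g, hg, fun x => by simp [e, sub_eq_add_neg]⟩)).mono hle

end H12
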