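import Cfsg.Agent.H12.Ten7
import Cfsg.Agent.H12.USp
import Cfsg.Agent.H12.NondegMax

/-!
# Tensor products of forms: orthogonal times symplectic
-/

set_option autoImplicit false
set_option maxHeartbeats 400000

namespace H12

open Module H11 Submodule TensorProduct H13.KL QuadraticMap

variable {F : Type*} [Field F] {U W : Type*} [AddCommGroup U] [Module F U] [AddCommGroup W]
  [Module F W] {T₁ : FormType F} {C : CForm (altType F) (U ⊗[F] W)} {C₁ : CForm T₁ U}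
  {C₂ : CForm (altType F) W} {X : Subgroup ((U ⊗[F] W) ≃ₗ[F] (U ⊗[F] W))}
  {w y : W} {A D : End F U}

variable (C₂ X) in
/-- The endomorphisms attached to the centre of the unipotent radical. -/
def zI (w : W) : Submodule F (End F U) where
  carrier := {S | ∀ c : F, ∃ t ∈ X, ∀ x, t x = x + (c • S (cB U C₂ w x)) ⊗ₜ w}
  zero_mem' _ := ⟨1, one_mem _, fun x => by simp⟩
  add_mem' a b c :=
    let ⟨t, a1, a2⟩ := a c; let ⟨t', b1, b2⟩ := b c
    ⟨t * t', mul_mem a1 b1, fun x => by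
      simp [a2, b2, H12.alt_B_self, add_tmul]; abel⟩
  smul_mem' d _ a c := let ⟨t, a1, a2⟩ := a (c * d); ⟨t, a1, fun x => by simp [a2, mul_smul]⟩

variable [FiniteDimensional F U] [FiniteDimensional F W]

namespace TX

variable (h : TX C C₁ C₂ X C₂.isom)
include h

theorem comm_zI (hA : A ∈ qI C₂ X (H12.alt_N w)) (hD : D ∈ qI C₂ X (H12.alt_N w)) :
    D * h.nd₁.adj A + A * h.nd₁.adj D ∈ zI C₂ X w := fun c => by
  by_cases hw : w = 0
  · exact ⟨1, one_mem _, fun x => by simp [hw]⟩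
  obtain ⟨y, e⟩ := h.tsp (H12.alt_N w) hw
  obtain ⟨-, y', -, -, a1, a2⟩ := e.exists_dual h.nd₂
  have b0 := H12.alt_B_self (C := C₂) w
  obtain ⟨q, b1, b2⟩ := hA y e.hB
  obtain ⟨q', b3, b4⟩ := hD ((-c) • y') (by simp [a1])
  have c1 := fun x => QW.inv_apply b2 b0 (by simp [e.symm.hB]) (x := x)
  have c2 := fun x => QW.inv_apply b4 b0 (by simp [C₂.B_swap_zero a1]) (x := x)
  have c3 := fun {t} => h.cB_inv (D := h.nd₁.adj A) (t := t) b1 (by rwa [h.nd₁.adj_adj])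
  have c4 := fun {t} => h.cB_inv (D := h.nd₁.adj D) (t := t) b3 (by rwa [h.nd₁.adj_adj])
  refine ⟨q' * q * q'⁻¹ * q⁻¹, mul_mem (mul_mem (mul_mem b3 b1) (inv_mem b3)) (inv_mem b1),
    fun x => ?_⟩
  have d1 := c1 (x := q'⁻¹ x - x) (by rw [map_sub, c4 b0]; simp [C₂.B_swap_zero a1])
  have d2 := c2 (x := q⁻¹ x - x) (by rw [map_sub, c3 b0]; simp [e.symm.hB])
  simp only [map_sub, LinearMap.neg_apply, LinearMap.comp_apply, c4 e.hB,
    c3 (show C₂.B w ((-c) • y') = 0 by simp [a1]), add_sub_cancel_left] at d1 d2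
  have d3 : q'⁻¹ (q⁻¹ x) = q⁻¹ (q'⁻¹ x) +
      (c • (D * h.nd₁.adj A + A * h.nd₁.adj D) (cB U C₂ w x)) ⊗ₜ w := by
    simp only [map_smul, H12.alt_B_smul_left, a2, H12.alt_symm y y', alt_sigma, map_add,
      smul_eq_mul, sub_tmul, neg_tmul, add_tmul, ← smul_tmul', smul_add, End.mul_apply,
      LinearMap.add_apply] at d1 d2 ⊢
    linear_combination (norm := module) d2 - d1
  simp only [LinearEquiv.mul_apply, d3, map_add, apply_inv_apply]
  rw [b2 _ (by simp [b0]), map_add, b4 _ (by simp [b0]), b4 _ (by simp [b0])]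
  simp [e.symm.hB, C₂.B_swap_zero a1]

theorem qs_of_qI (hs : ∀ w ≠ 0, ∀ A ∈ qI C₂ X (H12.alt_N w), ∃ c : F, ∀ u, A u = c • u) :
    QS C₂ X := fun w y Φ e hq h0 => by
  refine hs w e.ne (Φ ∘ₗ (TensorProduct.mk F U W).flip y) fun y' hy' => ?_
  by_cases b : y' ∈ span F {w}
  · obtain ⟨c, rfl⟩ := mem_span_singleton.1 b
    exact qw_zero.congr fun x hx => by simp [cB_smul, hx]
  obtain ⟨β, b1, b2, rfl⟩ := h.nd₂.witt_step (span F {w}) e.nm b (fun x hx => by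
    obtain ⟨c, rfl⟩ := mem_span_singleton.1 hx
    simp [hy', e.hB]) (by rw [H12.alt_N, H12.alt_N])
  have b3 := b2 w (mem_span_singleton_self w)
  obtain ⟨k, c1, -, c2⟩ := h.exists_tv e.hc (a := -1) (by simp [altType])
  have c3 := (h.comm e.hv hq h0 c1 (by simp [c2, e.symm.hB])).congr
    (Φ' := (Φ ∘ₗ (TensorProduct.mk F U W).flip y) ∘ₗ cB U C₂ y) fun x _ => by simp [c2]
  refine (h.comp c3 (h.hX _ (inv_mem b1)) fun u => by
    rw [rH_tmul, ← b3, inv_apply_apply, b3]).congr fun x _ => ?_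
  have := cB_congr (α := (1 : U ≃ₗ[F] U)) b1 y (rH F U W β⁻¹ x)
  rw [show TensorProduct.congr 1 β = rH F U W β from rfl, map_inv, apply_inv_apply] at this
  simp only [LinearMap.comp_apply, this, map_inv]
  rfl

variable (h2 : (2 : F) ≠ 0) (hs : ∀ x y, C₁.B y x = C₁.B x y) (hK : MA C₁ C₁.isom)
  (hK' : ∀ α ∈ C₁.isom, lH F U W α ∈ X)
include h2 hs hK hK'

theorem zI_of_qI (hA : A ∈ qI C₂ X (H12.alt_N w)) (hn : ¬ ∃ c : F, ∀ u, A u = c • u) :
    ∃ S ∈ zI C₂ X w, ¬ ∃ c : F, ∀ u, S u = c • u := by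
  obtain ⟨e, a1, a2⟩ := hK.ex
  obtain ⟨f, hf⟩ := h.nd₁.exists_eq a1 1
  have hc : ∀ g ∈ C₁.isom, ∀ A ∈ qI C₂ X (H12.alt_N w), cj g A ∈ qI C₂ X (H12.alt_N w) :=
    fun g hg A hA => h.conj_qI _ hA (β := 1) (one_mem _) (hK' g hg) _
  obtain ⟨D, b1, b2, b3⟩ := exists_w1 _ (h.one_mem_qI _) hc a2 (fun A => hK.fix e A a1 a2) hA hn
  have key : ∀ S : End F U, S e = 0 → S ≠ 0 → ¬ ∃ c : F, ∀ u, S u = c • u := fun S c1 c2 ⟨c, c3⟩ =>
    c2 (LinearMap.ext fun u => by simp [c3, show c = 0 by simpa [c1, a1] using (c3 e).symm])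
  have h1 : h.nd₁.adj 1 = 1 := LinearMap.ext fun x => h.nd₁.ext fun y => by simp [h.nd₁.B_adj]
  by_cases c1 : h.nd₁.adj D + D = 0
  swap
  · exact ⟨_, by simpa [h1] using h.comm_zI b1 (h.one_mem_qI _),
      key _ (by simp [b3.h1, (b3.adj h.nd₁).h1]) c1⟩
  have c2 := eq_neg_of_add_eq_zero_left c1
  have c3 : D f ∉ span F {e} := fun c => by
    obtain ⟨d, rfl⟩ := b3.eq_smul h.nd₁ hf c (by rw [c2]; exact neg_mem c)
    have := h.nd₁.B_adj (d • (C₁.B e).smulRight e) f f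
    rw [c2] at this
    simp [hf, h.σ₁, alt_sigma, hs e f] at this
    exact b2 (by simp [mul_left_cancel₀ h2 (show 2 * d = 2 * 0 by linear_combination -this)])
  obtain ⟨g, d1, d2, d3⟩ := hK.move e _ a2 a1 (b3.h3 f) c3
  have d4 : h.nd₁.adj (cj g D) = -cj g D := LinearMap.ext fun x => h.nd₁.ext fun y => by
    rw [h.nd₁.B_adj, cj_apply, ← apply_inv_apply g x, CForm.isom_B d1, ← h.nd₁.B_adj, c2,
      ← CForm.isom_B d1, apply_inv_apply]
    simp
  have d5 : g⁻¹ e = e := by rw [← d2, inv_apply_apply, d2]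
  refine ⟨_, h.comm_zI b1 (hc g d1 D b1), key _ (by simp [c2, d4, b3.h1, d5]) fun c => d3 ?_⟩
  obtain ⟨d, hd⟩ := b3.apply hf (g⁻¹ f)
  have d6 : cj g D f = g (D f) + d • e := by
    rw [cj_apply, hd, ← CForm.isom_B d1, d2, apply_inv_apply, hf]; simp [d2]
  have := congrArg (fun S => C₁.B f (S f)) c
  simp only [LinearMap.add_apply, End.mul_apply, map_add] at this
  rw [← h.nd₁.B_adj (cj g D), ← h.nd₁.B_adj D, c2, d4] at this
  simp [d6, b3.h3, hs e (D f), hs (g (D f)) (D f)] at this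
  exact mul_left_cancel₀ h2 (by linear_combination this)

omit [FiniteDimensional F W] in
theorem pi_mem_zI (hr : ∀ e y, C₁.N e = 0 → C₁.B e y = 0 → ∃ a, Rq C₁ C₁.isom e y a)
    (hA : A ∈ zI C₂ X w) (hn : ¬ ∃ c : F, ∀ u, A u = c • u) (hw : w ≠ 0) {e : U}
    (a1 : e ≠ 0) (a2 : C₁.N e = 0) : (C₁.B e).smulRight e ∈ zI C₂ X w := by
  obtain ⟨f, hf⟩ := h.nd₁.exists_eq a1 1
  have hc : ∀ g ∈ C₁.isom, ∀ A ∈ zI C₂ X w, cj g A ∈ zI C₂ X w := fun g hg A hA c => by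
    obtain ⟨t, b1, b2⟩ := hA c
    refine ⟨_ * t * _⁻¹, mul_mem (mul_mem (hK' g hg) b1) (inv_mem (hK' g hg)), fun x => ?_⟩
    obtain ⟨x, rfl⟩ := (lH F U W g).surjective x
    rw [LinearEquiv.mul_apply, LinearEquiv.mul_apply, inv_apply_apply, b2, map_add, lH_tmul,
      show cB U C₂ w (lH F U W g x) = g (cB U C₂ w x) from cB_congr (one_mem _) w x]
    simp [inv_apply_apply]
  obtain ⟨D, b1, b2, b3⟩ := exists_w1 (zI C₂ X w) (fun c =>
    let ⟨t, c1, _, c2⟩ := h.exists_tv (H12.alt_N w) (a := -c) (by simp [altType])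
    ⟨t, c1, by simpa using c2⟩) hc a2 (fun A => hK.fix e A a1 a2) hA hn
  have key : ∀ D ∈ zI C₂ X w, h.nd₁.adj D = D := fun D hD =>
    LinearMap.ext fun x => h.nd₁.ext fun y => by
      obtain ⟨t, c1, c2⟩ := hD 1
      obtain ⟨r, hr⟩ := h.nd₂.exists_eq hw 1
      have := CForm.isom_B (h.le c1) (x ⊗ₜ r) (y ⊗ₜ r)
      simp [c2, hr, h.hB, H12.alt_B_self, H12.alt_symm w r] at this
      rw [h.nd₁.B_adj]
      linear_combination -this
  suffices ∃ D ∈ zI C₂ X w, D ≠ 0 ∧ W1 C₁ e D ∧ D f ∈ span F {e} by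
    obtain ⟨D, c1, c2, c3, c4⟩ := this
    obtain ⟨c, rfl⟩ := c3.eq_smul h.nd₁ hf c4 (by rwa [key D c1])
    exact (smul_mem_iff _ fun e => c2 (by simp [e])).1 c1
  by_cases c1 : D f ∈ span F {e}
  · exact ⟨D, b1, b2, b3, c1⟩
  obtain ⟨y, c2, c3⟩ := h.nd₁.exists_perp_ne c1
  obtain ⟨a, g, c4, c5⟩ := hr e y a2 (C₁.mem_perp_singleton.1 c2)
  have d1 : g e = e := by simp [c5, C₁.B_self_of_zero a2, C₁.mem_perp_singleton.1 c2]
  have d2 : g⁻¹ e = e := by rw [← d1, inv_apply_apply, d1]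
  have d3 : ∀ x, C₁.B e (g⁻¹ x) = C₁.B e x := fun x => by
    rw [← CForm.isom_B c4, d1, apply_inv_apply]
  have d4 : g (D f) = D f - C₁.B (D f) y • e := by simp [c5, b3.h3, h.σ₁, alt_sigma]
  obtain ⟨d, hd⟩ := b3.apply hf (g⁻¹ f)
  have d5 := h.nd₁.B_adj D f (g⁻¹ f)
  rw [key D b1, hd, ← CForm.isom_B c4, apply_inv_apply, d4, d3, hf] at d5
  simp [hf, hs e f, hs f (D f), h.σ₁, alt_sigma] at d5
  have d6 : (cj g D - D) f = (-2 * C₁.B (D f) y) • e := by
    rw [LinearMap.sub_apply, cj_apply, hd, map_add, map_smul, map_smul, d4, d1, d3, hf,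
      show d = -C₁.B (D f) y by linear_combination -d5]
    module
  refine ⟨_, sub_mem (hc g c4 D b1) b1, fun c => by simp [c, a1, h2, c3] at d6,
    ⟨by simp [d2, b3.h1], fun z hz => sub_mem ?_ (b3.h2 z hz), fun z => ?_⟩,
    d6 ▸ smul_mem _ _ (mem_span_singleton_self e)⟩
  · obtain ⟨c, hc⟩ := mem_span_singleton.1 (b3.h2 (g⁻¹ z) (by rw [d3, hz]))
    exact mem_span_singleton.2 ⟨c, by rw [cj_apply, ← hc, map_smul, d1]⟩
  · rw [LinearMap.sub_apply, map_sub, b3.h3, cj_apply, ← d3, inv_apply_apply, b3.h3, sub_zero]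

theorem le_of_zI (hr : ∀ e y, C₁.N e = 0 → C₁.B e y = 0 → ∃ a, Rq C₁ C₁.isom e y a)
    (hA : A ∈ zI C₂ X w) (hn : ¬ ∃ c : F, ∀ u, A u = c • u) (hw : w ≠ 0) : C.isom ≤ X := by
  obtain ⟨e, a1, a2⟩ := hK.ex
  have h1 : ∀ e' w', e' ≠ 0 → C₁.N e' = 0 → w' ≠ 0 → ∃ g ∈ X, g (e ⊗ₜ w) = e' ⊗ₜ w' :=
    fun e' w' b1 b2 b3 => by
      obtain ⟨α, c1, rfl⟩ := h.nd₁.witt_one a1 b1 (b2.trans a2.symm)
      obtain ⟨β, c2, rfl⟩ := h.nd₂.witt_one hw b3 (by rw [H12.alt_N, H12.alt_N])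
      exact ⟨_, mul_mem (hK' α c1) (h.hX β c2), rfl⟩
  have h3 : TvAll X C (e ⊗ₜ w) := fun a =>
    let ⟨t, b1, b2⟩ := h.pi_mem_zI h2 hs hK hK' hr hA hn hw a1 a2 (-a)
    ⟨t, b1, fun x => by
      simp [b2, h.B_tmul, smul_smul, neg_tmul, smul_tmul', sub_eq_add_neg]⟩
  obtain ⟨f, -, f1, f2⟩ := h.nd₁.exists_partner (Z := ⊥) (x := e) (by simpa) a2
    (by simp [C₁.perp_bot])
  obtain ⟨w', hw'⟩ := h.nd₂.exists_eq hw 1
  have h4 : IsHypPair C (e ⊗ₜ w) (f ⊗ₜ w') :=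
    ⟨H12.alt_N _, H12.alt_N _, by rw [h.hB, f2, hw', mul_one]⟩
  obtain ⟨S, b1, b2, b3, b4⟩ := (enlarge_alt h.nd two_pos (.inl ⟨-1, by simp, fun e => h2
    (by linear_combination -e)⟩)).exists_max h.le h4.nondegOn h4.finrank_span.ge
    (subG_le_alt h.nd h4.nondegOn fun u hu c => by
      obtain ⟨a, b, rfl⟩ := mem_span_pair.1 hu
      obtain ⟨g, c1, c2⟩ := h1 f w' (by rintro rfl; simp at f2) f1 (by rintro rfl; simp at hw')
      have c3 := h3.conj c1 h.le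
      rw [c2] at c3
      have : TvAll X C (a • e ⊗ₜ w + b • f ⊗ₜ w') := by
        by_cases ha : a = 0
        · by_cases hb : b = 0
          · exact fun d => ⟨1, one_mem _, fun x => by simp [ha, hb]⟩
          refine TvAll.of_smul (c := b⁻¹) ?_ (inv_ne_zero hb)
          rwa [ha, zero_smul, zero_add, inv_smul_smul₀ hb]
        · refine TvAll.of_smul (c := a⁻¹) ?_ (inv_ne_zero ha)
          rw [smul_add, inv_smul_smul₀ ha, smul_smul]
          exact h3.add c3 h.le (C.B_swap_ne (by simp [h4.pair])) _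
      obtain ⟨k, c4, c5⟩ := this (-c)
      generalize a • e ⊗ₜ[F] w + b • f ⊗ₜ[F] w' = p at c5 ⊢
      exact ⟨k, c4, fun x => by simp [c5]⟩)
    fun r hr => by
      by_contra hc
      push Not at hc
      refine hr (h.nd.eq_zero' fun x => ?_)
      induction x with
      | zero => simp
      | add x y a b => simp [a, b]
      | tmul u y =>
        refine mem_of_singular_sub (C₁.nondegOn_top.2 h.nd₁) trivial a1 a2
          (LinearMap.ker (C.B r ∘ₗ (TensorProduct.mk F U W).flip y)).toAddSubgroup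
          (fun u _ hu => ?_) trivial |> C.B_swap_zero
        by_cases c : u = 0 ∨ y = 0
        · rcases c with rfl | rfl <;> simp
        obtain ⟨g, c1, c2⟩ := h1 u y (not_or.1 c).1 hu (not_or.1 c).2
        have := hc g c1 _ (mem_pair_left _ _)
        rw [c2] at this
        exact C.B_swap_zero this
  let Z : Submodule F U := ⨅ y, S.comap ((TensorProduct.mk F U W).flip y)
  have hZ : ∀ u, u ∈ Z ↔ ∀ y, u ⊗ₜ y ∈ S := fun u => by simp [Z]
  have h5 : ∀ u, C₁.N u = 0 → u ∈ Z ∨ ∀ y, u ⊗ₜ y ∈ C.perp S := fun u hu => by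
    by_contra hc
    rw [hZ, not_or] at hc
    obtain ⟨y, -, c1, c2⟩ := exists_mem_not_mem_two (Y := ⊤)
      (S := S.comap (TensorProduct.mk F U W u)) (S' := (C.perp S).comap (TensorProduct.mk F U W u))
      (fun e => hc.1 fun y => e mem_top) fun e => hc.2 fun y => e mem_top
    obtain ⟨g, c3, c4⟩ := h1 u y (by rintro rfl; simp at c1) hu (by rintro rfl; simp at c1)
    have := mem_map_of_mem (f := g.toLinearMap) (b1 (mem_pair_left _ _))
    rw [LinearEquiv.coe_coe, c4] at this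
    exact (b4 g c3).elim (fun e => c1 (e ▸ this)) fun e => c2 (e this)
  have h6 : e ∈ Z := (h5 e a2).resolve_right fun c =>
    tmul_ne_zero a1 hw (b2.eq_zero (b1 (mem_pair_left _ _)) (c w))
  have h7 : ⊤ ≤ Z := by
    by_contra hc
    obtain ⟨p, -, c1, c2, c3⟩ := exists_singular_not_mem_two (C₁.nondegOn_top.2 h.nd₁)
      ⟨e, trivial, a1, a2⟩ hc fun c => by
        simpa [f2] using C₁.mem_perp.1 (c (mem_top (x := f))) e h6
    refine c3 (C₁.mem_perp.2 fun u hu => ?_)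
    simpa [h.hB, hw'] using C.mem_perp.1 ((h5 p c1).resolve_left c2 w') _ ((hZ u).1 hu w)
  rwa [show S = ⊤ from eq_top_iff.2 fun x _ => by
    induction x with
    | zero => simp
    | tmul u y => exact (hZ u).1 (h7 mem_top) y
    | add x y a b => exact add_mem (a trivial) (b trivial), h.nd.subG_top le_rfl] at b3

end TX

section

variable {V V' : Type*} [AddCommGroup V] [Module F V] [AddCommGroup V'] [Module F V']
  {Q : QuadraticForm F V} {Q' : QuadraticForm F V'}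

theorem map_mem_OmegaV (φ : (V ≃ₗ[F] V) →* (V' ≃ₗ[F] V')) (h : ∀ g ∈ orth Q, φ g ∈ orth Q') :
    ∀ g ∈ OmegaV Q, φ g ∈ OmegaV Q' := by
  rintro _ ⟨g, hg, rfl⟩
  let ψ := (φ.comp (orth Q).subtype).codRestrict (orth Q') fun g => h g g.2
  have : (commutator (orth Q)).map ψ ≤ commutator (orth Q') := by
    rw [commutator_def, Subgroup.map_commutator]
    exact Subgroup.commutator_mono le_top le_top
  exact mem_OmegaV.2 (this ⟨g, hg, rfl⟩)

theorem quad_sing (h2 : (2 : F) ≠ 0) (w : V) (h : (CForm.ofQuad Q).B w w = 0) :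
    (CForm.ofQuad Q).N w = 0 := by simpa [h2] using (polar_self' Q w).symm.trans h

theorem exists_quad_sym {ι : Type} [Fintype ι] [DecidableEq ι] {f : (ι → F) → (ι → F) → F}
    (hf : Cfsg.Geo.IsSymmetricForm f) (h2 : (2 : F) ≠ 0) {c : F} (hc : c ≠ 0) :
    ∃ Q : QuadraticForm F (ι → F), QNondeg Q ∧ ∀ x y, polar Q x y = c * f x y := by
  have : ∀ x y, polar ((c / 2) • (bilinOf hf.bilinear).toQuadraticMap) x y = c * f x y :=
    fun x y => by
      rw [QuadraticMap.coeFn_smul, polar_smul, LinearMap.BilinMap.polar_toQuadraticMap]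
      change c / 2 * (f x y + f y x) = _
      rw [hf.symm y x]; field_simp; ring
  refine ⟨_, fun x hx => by_contra fun h0 => ?_, this⟩
  obtain ⟨y, hy⟩ := (hf.nondegenerate x h0).2
  exact mul_ne_zero hc hy ((this x y).symm.trans (hx y))

end

variable [Finite F] {Q₁ : QuadraticForm F U} {Q₂ : QuadraticForm F W}

theorem isMaximalIn_o_sp (hC : C.Nondeg) (h₁ : QNondeg Q₁) (h₂ : C₂.Nondeg) (h2 : (2 : F) ≠ 0)
    (hB : ∀ u w u' w', C.B (u ⊗ₜ w) (u' ⊗ₜ w') = polar Q₁ u u' * C₂.B w w')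
    (hU : 3 ≤ finrank F U) (hW : 4 ≤ finrank F W) (hd : finrank F U ≤ finrank F W)
    (hex : 4 ≤ finrank F U ∨ ∃ t : F, t ≠ 0 ∧ t * t ≠ 1) :
    Cfsg.Geo.IsMaximalIn C.isom (tenStab F U W ⊓ C.isom) := by
  have h : TF C (CForm.ofQuad Q₁) C₂ := ⟨hC, h₁, h₂, fun _ => rfl, fun _ => rfl,
    by simp [quadType, altType], by simp [altType], hB,
    fun _ _ _ _ _ _ => by rw [H12.alt_N, H12.alt_N], fun _ _ => H12.alt_N _, by omega⟩
  have hK := ma_quad h₁ h2 le_rfl OmegaV_le hU hex (.inr (.inr le_rfl))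
  have h' := h.tx_alt le_rfl hW fun β => h.congr_isom (one_mem _)
  refine isMaximalIn_of _ _ inf_le_right (fun e => h'.not_le (rootG_alt hC) hK.ex
    (e.trans inf_le_left)) fun X a1 a2 g a3 a4 => by_contra fun hc => a4 ⟨?_, a2 a3⟩
  have h'' := h'.mono a1 a2
  have hK' := fun α hα => a1 (x := lH F U W α) ⟨congr_mem _ _, h.congr_isom hα (one_mem _)⟩
  refine h''.le_of_two (h''.qs_of_qI fun w hw A hA => by_contra fun hn => ?_)
    (h.scS h2 (fun _ => rfl) (fun _ _ => polar_comm _ _ _) hd (by omega)) one_ne_zero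
    (by simp [altType]) (a₁ := -1) (by simp) (by simp [altType])
    (fun e => h2 (by linear_combination e)) a3
  obtain ⟨S, b1, b2⟩ := h''.zI_of_qI h2 (fun _ _ => polar_comm _ _ _) hK hK' hA hn
  exact hc (h''.le_of_zI h2 (fun _ _ => polar_comm _ _ _) hK hK' (fun e y b3 b4 =>
    ⟨_, (rq_eich h₁ (notExc_of_two_ne_zero h2) b3 b4).mono OmegaV_le⟩) b1 b2 hw)

theorem isMaximalIn_sp_o {C₁ : CForm (altType F) U} (hC : C.Nondeg) (h₁ : C₁.Nondeg)
    (h₂ : QNondeg Q₂) (h2 : (2 : F) ≠ 0)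
    (hB : ∀ u w u' w', C.B (u ⊗ₜ w) (u' ⊗ₜ w') = C₁.B u u' * polar Q₂ w w')
    (hU : 0 < finrank F U) (hW : 5 ≤ finrank F W) (hd : finrank F U < finrank F W) :
    Cfsg.Geo.IsMaximalIn C.isom (tenStab F U W ⊓ C.isom) := by
  have h : TF C C₁ (CForm.ofQuad Q₂) := ⟨hC, h₁, h₂, fun _ => rfl, fun _ => rfl,
    by simp [quadType, altType], by simp [quadType], hB,
    fun _ _ _ _ _ _ => by rw [H12.alt_N, H12.alt_N], quad_sing h2, hU⟩
  exact (h.tx_quad h2 le_rfl hW fun β hβ => h.congr_isom (one_mem _) (OmegaV_le hβ)).isMax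
    (rootG_alt hC) hW (ma_alt h₁ hU (.inr ⟨-1, by simp, fun e => h2 (by linear_combination -e)⟩))
    (fun α hα => h.congr_isom hα (one_mem _))
    (fun a _ _ => ⟨-a / 2, by simp [altType]; field_simp; ring⟩)
    fun X hX _ hS => hX.le_of_orth hS (fun a ha => by simpa [quadType, ← two_mul, h2] using ha)
      h2 hW hd

theorem isMaximalIn_o_o {Q : QuadraticForm F (U ⊗[F] W)} (hQ : QNondeg Q) (h₁ : QNondeg Q₁)
    (h₂ : QNondeg Q₂) (h2 : (2 : F) ≠ 0)
    (hB : ∀ u w u' w', polar Q (u ⊗ₜ w) (u' ⊗ₜ w') = polar Q₁ u u' * polar Q₂ w w')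
    (hU : 3 ≤ finrank F U) (hW : 5 ≤ finrank F W) (hd : finrank F U < finrank F W)
    (hex : 4 ≤ finrank F U ∨ ∃ t : F, t ≠ 0 ∧ t * t ≠ 1)
    (hm : 5 ≤ finrank F U ∨ ∀ e b, ¬ TSP (CForm.ofQuad Q₁) e b) :
    Cfsg.Geo.IsMaximalIn (OmegaV Q) (tenStab F U W ⊓ OmegaV Q) := by
  have h : TF (CForm.ofQuad Q) (CForm.ofQuad Q₁) (CForm.ofQuad Q₂) := ⟨hQ, h₁, h₂, fun _ => rfl,
    fun _ => rfl, by simp [quadType], by simp [quadType], hB, fun u w u' w' a b => by
      simp only [CForm.ofQuad_N] at a b ⊢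
      exact mul_left_cancel₀ h2 (by
        rw [← polar_self', ← polar_self', hB, hB, polar_self', polar_self', a, b, polar_self',
          polar_self']), quad_sing h2, by omega⟩
  exact (h.tx_quad h2 OmegaV_le hW (map_mem_OmegaV _ fun β => h.congr_isom (one_mem _))).isMax
    (rootG_quad hQ (by rw [finrank_tensorProduct]; exact hW.trans (Nat.le_mul_of_pos_left _ h.pos)))
    hW (ma_quad h₁ h2 OmegaV_le le_rfl hU hex (hm.imp id .inl))
    (map_mem_OmegaV _ fun α hα => h.congr_isom hα (one_mem _))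
    (fun a _ ha => ⟨0, by simpa [quadType] using ha⟩)
    fun X hX _ hS => hX.le_of_orth hS (fun a ha => by simpa [quadType, ← two_mul, h2] using ha)
      h2 hW hd

theorem not_tsp_of_lt {T : FormType F} {C₁ : CForm T U} (h₁ : C₁.Nondeg) (hU : finrank F U < 4)
    (e b : U) : ¬ TSP C₁ e b := fun h => by
  have := h₁.finrank_add_finrank_perp (span F {e, b})
  have := finrank_mono (show span F {e, b} ≤ C₁.perp (span F {e, b}) from
    fun x hx => C₁.mem_perp.2 fun l hl => h.ts.2 l hl x hx)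
  rw [h.finrank_eq] at *
  omega

end H12
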