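import Cfsg.Agent.H12.UStr

/-!
# Quadratic field subalgebras of matrix algebras
-/

set_option autoImplicit false
set_option maxHeartbeats 400000

namespace H12

open Module H11 Matrix Cfsg.Geo

variable {ι : Type} [Fintype ι] [DecidableEq ι] {F : Type*} [Field F]
  {K : Subalgebra F (Matrix ι ι F)}

theorem exists_coord_two [Nonempty ι] (hK : IsFieldSubalgebra 2 K) {k : Matrix ι ι F} (hk : k ∈ K)
    (hk' : ∀ a : F, k ≠ a • 1) {x : Matrix ι ι F} (hx : x ∈ K) : ∃ a b : F, x = a • 1 + b • k := by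
  have hli : LinearIndependent F ![(1 : K), ⟨k, hk⟩] := by
    rw [LinearIndependent.pair_iff' one_ne_zero]
    exact fun a e => hk' a (congrArg Subtype.val e).symm
  have := (hli.span_eq_top_of_card_eq_finrank' (by simp [hK.finrank_eq])).ge
    (Submodule.mem_top (x := ⟨x, hx⟩))
  rw [range_cons, range_cons, range_empty, Set.union_empty, Set.singleton_union,
    Submodule.mem_span_pair] at this
  obtain ⟨a, b, e⟩ := this
  exact ⟨a, b, (congrArg Subtype.val e).symm⟩

theorem qext_of_field [Nonempty ι] (hK : IsFieldSubalgebra 2 K) {k : Matrix ι ι F} (hk : k ∈ K)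
    (hk' : ∀ a : F, k ≠ a • 1) : ∃ t n : F, QExt (toLin' k) t n := by
  obtain ⟨c, d, e⟩ := exists_coord_two hK hk hk' (mul_mem hk hk)
  refine ⟨d, -c, fun v => by simp [e, add_mulVec, smul_mulVec, add_comm], fun a b h => ?_⟩
  by_contra hb
  obtain ⟨y, -, hy⟩ := hK.inv (a • 1 + b • k) (add_mem (K.smul_mem (one_mem K) a) (K.smul_mem hk b))
    fun e' => hk' (-(b⁻¹ * a)) (by
      have := congrArg (b⁻¹ • ·) e'
      simp only [smul_add, smul_smul, inv_mul_cancel₀ hb, one_smul, smul_zero] at this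
      rw [neg_smul, eq_neg_iff_add_eq_zero, add_comm, this])
  have h0 : ((a + b * d) • (1 : Matrix ι ι F) - b • k) * (a • 1 + b • k) = 0 := by
    simp only [sub_mul, mul_add, smul_mul_assoc, mul_smul_comm, one_mul, mul_one, e]
    linear_combination (norm := module) h • (1 : Matrix ι ι F)
  have h1 := congrArg (· * y) h0
  simp only [mul_assoc, hy, mul_one, zero_mul, sub_eq_zero] at h1
  exact hk' (b⁻¹ * (a + b * d)) (by rw [mul_smul, h1, smul_smul, inv_mul_cancel₀ hb, one_smul])

theorem exists_isNorm [Finite F] [Nonempty ι] (hK : IsFieldSubalgebra 2 K) {k : Matrix ι ι F}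
    (hk : k ∈ K) (hk' : ∀ a : F, k ≠ a • 1) : ∃ H, IsNorm (toLin' k) H ∧
      subalgebraNormalizer K = H.comap (glEquiv ι F : GL ι F →* _) := by
  letI := fieldOf hK; letI := modOf K
  have : Finite K := Subtype.finite
  refine ⟨_, fun g => ⟨fun h => ?_, fun ⟨a, b, h⟩ => mem_semiStab fun x => ?_⟩,
    subalgebraNormalizer_eq hK⟩
  · obtain ⟨x, hx⟩ := h.1 ⟨k, hk⟩
    obtain ⟨a, b, e⟩ := exists_coord_two hK hk hk' x.2
    refine ⟨a, b, fun v => (hx v).trans ?_⟩
    change x.1 *ᵥ _ = _
    simp [e, add_mulVec, smul_mulVec]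
  · obtain ⟨c, d, e⟩ := exists_coord_two hK hk hk' x.2
    refine ⟨⟨c • 1 + d • (a • 1 + b • k), add_mem (K.smul_mem (one_mem K) c)
      (K.smul_mem (add_mem (K.smul_mem (one_mem K) a) (K.smul_mem hk b)) d)⟩, fun v => ?_⟩
    change g (x.1 *ᵥ _) = (_ : Matrix ι ι F) *ᵥ _
    have := h v
    simp only [toLin'_apply] at this
    simp [e, add_mulVec, smul_mulVec, this]

theorem exists_unitary_gen [Nonempty ι] (hK : IsFieldSubalgebra 2 K) {T : FormType F}
    {C : CForm T (ι → F)} (hC : C.Nondeg) (hσ : ∀ a, T.σ a = a) {f : (ι → F) → (ι → F) → F}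
    (hf : ∀ x y, C.B x y = f x y) (hac : IsAdjointClosedFor f K) (hns : ¬ IsSelfAdjointFor f K) :
    ∃ k ∈ K, (∀ a : F, k ≠ a • 1) ∧ ∃ t n : F, QExt (toLin' k) t n ∧
      ∀ u v, C.B (toLin' k u) v = t * C.B u v - C.B u (toLin' k v) := by
  simp only [IsSelfAdjointFor, IsAdjointClosedFor, ← hf, not_forall] at hac hns
  obtain ⟨k, hk, u, v, hn⟩ := hns
  have hs : ∀ (c : F) x y, C.B (c • x) y = c * C.B x y := fun c x y => by
    rw [C.B_smul_left, hσ]
  have hk' : ∀ a : F, k ≠ a • 1 := by rintro a rfl; simp [smul_mulVec, hσ] at hn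
  obtain ⟨t, n, h⟩ := qext_of_field hK hk hk'
  obtain ⟨k', h1, h2⟩ := hac k hk
  obtain ⟨a, b, rfl⟩ := exists_coord_two hK hk hk' h1
  simp only [add_mulVec, smul_mulVec, one_mulVec, map_add, map_smul, smul_eq_mul] at h2
  have hq := h.sq
  simp only [toLin'_apply] at hq
  obtain ⟨w, hw⟩ := exists_ne (0 : ι → F)
  have h3 := h.ind (a := a * a - b * b * n - t * a + n) (b := 2 * a * b + b * b * t - t * b) hw
    (hC.eq_zero' fun x => by
      have e := h2 (k *ᵥ x) w
      rw [hq, C.B_sub_left, hs, hs, h2, h2 x (k *ᵥ w), hq] at e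
      simp only [toLin'_apply, map_add, map_smul, map_sub, smul_eq_mul] at e ⊢
      linear_combination -e)
  have h4 := h.ind (a := a + a * b) (b := b * b - 1) hw (hC.eq_zero' fun x => by
      have e := h2 w x
      rw [C.symm x, C.symm x w, C.symm (k *ᵥ x) w, h2] at e
      simp only [toLin'_apply, map_add, map_smul, smul_eq_mul, hσ] at e ⊢
      exact mul_left_cancel₀ T.ε_ne (by linear_combination -e))
  have hb : b = -1 ∧ a = t := by
    by_cases hb : b = 1
    · subst hb
      have ha : a ≠ 0 := by rintro rfl; simp [h2] at hn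
      have h5 : (2 : F) = 0 := mul_left_cancel₀ ha (by linear_combination h4.1)
      exact ⟨by linear_combination h5, mul_left_cancel₀ ha (by linear_combination h3.1)⟩
    · have hb' : b = -1 := (mul_self_eq_one_iff.1 (sub_eq_zero.1 h4.2)).resolve_left hb
      subst hb'
      have h5 : (2 : F) ≠ 0 := fun e => hb (by linear_combination -e)
      exact ⟨rfl, mul_left_cancel₀ h5 (by linear_combination -h3.2)⟩
  exact ⟨k, hk, hk', t, n, h, fun u v => by simp [h2, hb.1, hb.2, sub_eq_add_neg]⟩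

end H12
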