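import Cfsg.Agent.H12.USp2
import Cfsg.Agent.H12.UBridge
import Cfsg.Agent.H12.Parabolic
import Cfsg.Agent.H12.NondegMax
import Cfsg.Agent.H12.LagPair
import Cfsg.Agent.H12.RatLow
import Cfsg.Agent.H12.StabBridge
import Cfsg.Agent.H12.Char2
import Cfsg.Agent.H12.ExSp
import Cfsg.Agent.H12.Ten8
import Cfsg.Agent.H12.Classify

/-!
# Items of the lists of maximal subgroups of symplectic groups
-/

set_option autoImplicit false
set_option maxHeartbeats 400000

namespace H12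

open Module H11 Submodule QuadraticMap Cfsg.Geo Cfsg

theorem alt_not_le_glStab {F V : Type*} [Field F] [AddCommGroup V] [Module F V]
    [FiniteDimensional F V] {C : CForm (altType F) V} (hC : C.Nondeg) {W : Submodule F V}
    (h0 : W ≠ ⊥) (h1 : W ≠ ⊤) : ¬ C.isom ≤ glStab W := fun h => by
  obtain ⟨u, hu, hu0⟩ := exists_mem_ne_zero_of_ne_bot h0
  refine h1 (eq_top_iff.2 fun v _ => ?_)
  by_cases hv : v = 0
  · simp [hv]
  obtain ⟨g, hg, rfl⟩ := hC.witt_one hu0 hv (by rw [H12.alt_N, H12.alt_N])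
  exact (h hg u).1 hu

variable {F : Type*} [Field F] [Fintype F] {m : ℕ}

theorem spl_ts {W : Submodule F (Fin m ⊕ Fin m → F)} (hW0 : W ≠ ⊥)
    (hW : IsTotallySingularFor (sympForm m F) W) :
    IsMaximalIn (spGL m F) (subspaceStabilizer W ⊓ spGL m F) := by
  have hC := spForm_nondeg (ι := Fin m) (F := F)
  have hW' : (spForm (Fin m) F).TS W := ⟨fun _ _ => rfl, fun x hx y hy => by
    rw [spForm_B_eq]; exact hW x hx y hy⟩
  rw [spGL_eq, subspaceStabilizer_eq, ← Subgroup.comap_inf]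
  refine isMaximalIn_comap _ (isMaximalIn_of _ _ inf_le_right
    (fun h => alt_not_le_glStab hC hW0 (hW'.ne_top hC hW0)
      (h.trans inf_le_left)) fun M h1 h2 g hg hg' => ?_)
  exact (rootData_alt hC).le_of_parabolic hW' (alt_move hC hW') h1 hg (h2 hg)
    fun h => hg' ⟨h, h2 hg⟩

theorem spl_nondeg (hm : 3 ≤ m) {W : Submodule F (Fin m ⊕ Fin m → F)} (hW0 : W ≠ ⊥)
    (hW : IsNondegenerateOn (sympForm m F) W) (hdim : finrank F W < m) :
    IsMaximalIn (spGL m F) (subspaceStabilizer W ⊓ spGL m F) := by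
  have hC := spForm_nondeg (ι := Fin m) (F := F)
  have hd : finrank F (Fin m ⊕ Fin m → F) = m + m := by simp
  have hW' := nondegOn_of_geo _ (Or.inl (spForm_B_eq m)) hW
  have h1 := hC.finrank_add_finrank_perp W
  rw [spGL_eq, subspaceStabilizer_eq, ← Subgroup.comap_inf]
  exact isMaximalIn_comap _ ((enlarge_alt hC (d := 3) (by omega)
    (Or.inr le_rfl)).isMaximalIn_nondeg (spec_alt hC) (by omega) hW' hW0 (by omega) (by omega)
    (irr_alt W) (Or.inl (by omega)))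

theorem spl_dec (hm : 3 ≤ m) {t k : ℕ} {D : Fin t → Submodule F (Fin m ⊕ Fin m → F)}
    (hD : IsNondegenerateMDecomposition (sympForm m F) k D) (hex : 3 ≤ k ∨ 3 ≤ Fintype.card F) :
    IsMaximalIn (spGL m F) (decompositionStabilizer D ⊓ spGL m F) := by
  have hC := spForm_nondeg (ι := Fin m) (F := F)
  have hd : finrank F (Fin m ⊕ Fin m → F) = m + m := by simp
  have h1 := fun i => nondegOn_of_geo _ (Or.inl (spForm_B_eq m)) (hD.nondegenerate i)
  have h2 := hD.decomp.finrank_eq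
  have hD' := orthDec_of_geo _ (Or.inl (spForm_B_eq m)) hD fun i j =>
    alt_iso ((CForm.restrict_nondeg_iff _).2 (h1 i)) ((CForm.restrict_nondeg_iff _).2 (h1 j))
      (by rw [h2, h2])
  have h3 := hD.decomp.two_le
  have h4 := hD.decomp.pos
  haveI : Nontrivial (Fin t) := Fin.nontrivial_iff_two_le.2 h3
  obtain ⟨l, hl⟩ := alt_even ((CForm.restrict_nondeg_iff _).2 (h1 ⟨0, by omega⟩))
  rw [h2] at hl
  rw [spGL_eq, decompositionStabilizer_eq, ← Subgroup.comap_inf]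
  refine isMaximalIn_comap _ ((enlarge_alt hC h4 (hex.symm.imp_left fun h5 => ?_)).isMaximalIn_dec
    (spec_alt hC) (by omega) hD' (fun i => by rw [h2]; omega) fun i => (h2 i).ge)
  by_contra! h6
  classical
  have : (Finset.univ : Finset F) ⊆ {0, 1} := fun a _ => by
    by_cases ha : a = 0
    · simp [ha]
    · simp [h6 a ha]
  have := (Finset.card_le_card this).trans Finset.card_le_two
  rw [Finset.card_univ] at this
  omega

theorem spl_lag (hm : 5 ≤ m) (hodd : Odd (Fintype.card F))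
    {D : Fin 2 → Submodule F (Fin m ⊕ Fin m → F)} (hD : IsMDecomposition m D)
    (hts : ∀ i, IsTotallySingularFor (sympForm m F) (D i)) :
    IsMaximalIn (spGL m F) (decompositionStabilizer D ⊓ spGL m F) := by
  have hC := spForm_nondeg (ι := Fin m) (F := F)
  have hd : finrank F (Fin m ⊕ Fin m → F) = m + m := by simp
  obtain ⟨π, hπ⟩ := exists_isProj hD.indep hD.iSup_eq_top
  have h2 := odd_card_iff.1 hodd
  rw [spGL_eq, decompositionStabilizer_eq, ← Subgroup.comap_inf]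
  refine isMaximalIn_comap _ ((rhoData_alt hC).isMaximalIn_lagPair (fun c _ => ⟨c / 2, ?_⟩)
    (by omega) hπ (fun i => ⟨⟨fun _ _ => rfl, fun x hx y hy => ?_⟩, by rw [hD.finrank_eq]; omega⟩)
    fun s hs _ => ⟨1, one_mem _, by simpa⟩)
  · change c / 2 - -1 * (c / 2) = c
    field_simp; ring
  · rw [spForm_B_eq]; exact hts i x hx y hy

theorem spl_ext (hm : 3 ≤ m ∨ 0 < m ∧ Fintype.card F ≠ 2) {r : ℕ} (hr : r.Prime)
    {K : Subalgebra F (Matrix (Fin m ⊕ Fin m) (Fin m ⊕ Fin m) F)} (hK : IsFieldSubalgebra r K)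
    (hsa : IsSelfAdjointFor (sympForm m F) K)
    (halt : ∀ k ∈ K, ∀ v, sympForm m F (Matrix.mulVec k v) v = 0) :
    IsMaximalIn (spGL m F) (subalgebraNormalizer K ⊓ spGL m F) := by
  have : Nonempty (Fin m ⊕ Fin m) := ⟨.inl ⟨0, by omega⟩⟩
  rw [spGL_eq]
  exact isMaximalIn_field_alt spForm_nondeg (spForm_B_eq m) hr hK
    (hm.symm.imp (·.2) fun h => by simp; omega) hsa halt

theorem spl_uni (hm : 5 ≤ m) (hodd : Odd (Fintype.card F))
    {K : Subalgebra F (Matrix (Fin m ⊕ Fin m) (Fin m ⊕ Fin m) F)} (hK : IsFieldSubalgebra 2 K)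
    (hac : IsAdjointClosedFor (sympForm m F) K) (hnsa : ¬ IsSelfAdjointFor (sympForm m F) K) :
    IsMaximalIn (spGL m F) (subalgebraNormalizer K ⊓ spGL m F) := by
  have : Nonempty (Fin m ⊕ Fin m) := ⟨.inl ⟨0, by omega⟩⟩
  obtain ⟨k, hk, hk', t, s, h1, h2⟩ := exists_unitary_gen hK spForm_nondeg (fun _ => rfl)
    (spForm_B_eq m) hac hnsa
  obtain ⟨H, h3, h4⟩ := exists_isNorm hK hk hk'
  rw [spGL_eq, h4, ← Subgroup.comap_inf]
  exact isMaximalIn_comap _ (isMaximalIn_uspB spForm_nondeg (odd_card_iff.1 hodd)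
    (by simp; omega) h1 h2 h3)

theorem spl_ten (hodd : Odd (Fintype.card F)) {n₁ n₂ : ℕ}
    (hn : 0 < n₁ ∧ n₁ < n₂ ∧ 5 ≤ n₂ ∨
      3 ≤ n₂ ∧ 4 ≤ n₁ ∧ n₂ ≤ n₁ ∧ (4 ≤ n₂ ∨ 5 ≤ Fintype.card F))
    {e : (Fin m ⊕ Fin m) ≃ Fin n₁ × Fin n₂} {P : GL (Fin m ⊕ Fin m) F}
    {f₁ : (Fin n₁ → F) → (Fin n₁ → F) → F} {f₂ : (Fin n₂ → F) → (Fin n₂ → F) → F}
    (hf₁ : IsSymplecticForm f₁) (hf₂ : IsSymmetricForm f₂)
    (hT : IsTensorFormStructure id (sympForm m F) f₁ f₂ e P) :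
    IsMaximalIn (spGL m F) (tensorProductSubgroup n₁ n₂ e P ⊓ spGL m F) := by
  have h2 := odd_card_iff.1 hodd
  obtain ⟨c, hc, h⟩ := H13.KL.tf_bridge (fun _ _ => rfl) (H13.KL.formOfGram_bilin hf₁.bilinear)
    (H13.KL.formOfGram_bilin hf₂.bilinear) hT
  obtain ⟨C₁, d₁, e₁⟩ := exists_cform_alt hf₁
  obtain ⟨Q₂, d₂, e₂⟩ := exists_quad_sym hf₂ h2 hc
  have hC := fun {V : Type _} [AddCommGroup V] [Module F V] (θ : V ≃ₗ[F] _) =>
    H13.KL.comap_nondeg (spForm_nondeg (ι := Fin m) (F := F)) θ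
  rcases hn with ⟨h0, hd, h5⟩ | ⟨h3, h4, hd, hex⟩
  · rw [H13.KL.tensorProductSubgroup_eq, H13.KL.spGL_eq_trE (H13.KL.tenIso e P),
      ← Subgroup.comap_inf]
    refine isMaximalIn_comap _ (isMaximalIn_sp_o (hC _) d₁ d₂ h2 (fun u w u' w' => ?_)
      (by simpa) (by simpa) (by simpa))
    simp only [CForm.comap_B, spForm_B_eq, LinearEquiv.coe_coe, h, e₁, e₂]
    ring
  · rw [H13.KL.tensorProductSubgroup_eq', H13.KL.spGL_eq_trE ((TensorProduct.comm F _ _).trans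
      (H13.KL.tenIso e P)), ← Subgroup.comap_inf]
    refine isMaximalIn_comap _ (isMaximalIn_o_sp (hC _) d₂ d₁ h2 (fun u w u' w' => ?_)
      (by simpa) (by simpa) (by simpa)
      (hex.imp (by simp) fun h => exists_sq_ne_one_of_card (by omega)))
    simp only [CForm.comap_B, spForm_B_eq, LinearEquiv.coe_coe, LinearEquiv.trans_apply,
      TensorProduct.comm_tmul, h, e₁, e₂]
    ring

theorem spl_rat (hm : 3 ≤ m) {F₀ : Subfield F} {r : ℕ} {P : GL (Fin m ⊕ Fin m) F} {ζ : F}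
    (hr : r.Prime) (hcard : Fintype.card F = Nat.card F₀ ^ r) (hζ : ζ ≠ 0)
    (hP : IsFormRationalStructure (sympForm m F) F₀ ζ P) :
    IsMaximalIn (spGL m F) (subfieldSubgroup F₀ P ⊓ spGL m F) := by
  have hc : Nat.card F = Nat.card F₀ ^ r := by rwa [Nat.card_eq_fintype_card]
  rw [spGL_eq, subfieldSubgroup_eq, ← Subgroup.comap_inf]
  exact isMaximalIn_comap _ (isMaximalIn_rat_alt' (rat_ratMap F₀ P)
    (maxSub_subfield hr hc) (exists_not_mem_subfield hr hc) (by simp; omega)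
    spForm_nondeg hζ fun x y => ⟨⟨_, hP _ _ (fun i => (x i).2) fun i => (y i).2⟩, by
      rw [spForm_B_eq, ratMap_apply, ratMap_apply]; rfl⟩)

theorem spl_orth (hm : 4 ≤ m) (heven : ¬ Odd (Fintype.card F)) {Q : (Fin m ⊕ Fin m → F) → F}
    (hQ : IsNondegenerateQuadraticForm Q) (hpol : ∀ u v, polar Q u v = sympForm m F u v) :
    IsMaximalIn (spGL m F) (quadSimilarityGroup Q ⊓ spGL m F) := by
  obtain ⟨Q, rfl, hC⟩ := exists_quad hQ
  rw [spGL_eq, quadSimilarityGroup_eq, ← Subgroup.comap_inf]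
  exact isMaximalIn_comap _ (isMaximalIn_orth_sp hC
    (not_not.1 (mt odd_card_iff.2 heven)) (by simp; omega)
    fun x y => by rw [spForm_B_eq, hpol])

end H12
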