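import Cfsg.Agent.H12.EA8
import Cfsg.Agent.H12.SpList

/-!
# Elements of prime order of symplectic groups and tensor product subgroups
-/

set_option autoImplicit false
set_option maxHeartbeats 400000

namespace H12.EA

open Module Submodule Polynomial H12 H12.CForm H22 H11 Matrix Pointwise H13.KL LinearMap TensorProduct

variable {F U W V : Type*} [Field F] [AddCommGroup U] [Module F U] [AddCommGroup W] [Module F W]
  [AddCommGroup V] [Module F V] {r : ℕ} {G H : Subgroup (V ≃ₗ[F] V)}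

theorem elp_trE {ι : Type} [Fintype ι] [DecidableEq ι] (θ : V ≃ₗ[F] (ι → F)) :
    (∀ x ∈ G.comap (trE θ : GL ι F →* _), (∃ z : F, ((x ^ r : GL ι F) : Matrix ι ι F) = z • 1) →
    (∀ z : F, (x : Matrix ι ι F) ≠ z • 1) → ∃ g ∈ G.comap (trE θ : GL ι F →* _),
      g⁻¹ * x * g ∈ H.comap (trE θ : GL ι F →* _)) ↔ ElP (InG G) r (Cj G H) := by
  have s := (trE θ).surjective
  have k : ∀ (x : GL ι F) (z : F), (x : Matrix ι ι F) = z • 1 ↔ (trE θ x : End F V) = algebraMap F _ z := fun x z =>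
    ⟨fun e => LinearMap.ext fun v => θ.injective (by simp [trE_apply, e, smul_mulVec]), fun e =>
      ext_iff_mulVec.2 fun v => by
        obtain ⟨v, rfl⟩ := θ.surjective v
        simp [← trE_apply, smul_mulVec, show trE θ x v = z • v from LinearMap.congr_fun e v]⟩
  simp only [ne_eq, k, map_pow, coe_pow', Subgroup.mem_comap, map_mul, map_inv, MonoidHom.coe_coe]
  refine ⟨fun h _ ⟨g, a, e⟩ b c => ?_, fun h x a b c => ?_⟩
  · obtain ⟨x, rfl⟩ := s g
    obtain ⟨g, d, f⟩ := h x a (e ▸ b) (e ▸ c)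
    exact ⟨_, d, _, f, fun v => by simp [← e]⟩
  · obtain ⟨g, d, h, f, e⟩ := h _ ⟨_, a, rfl⟩ b c
    obtain ⟨g, rfl⟩ := s g
    exact ⟨g, d, by rwa [mul_assoc, show trE θ x * trE θ g = trE θ g * h from LinearEquiv.ext e, inv_mul_cancel_left]⟩

theorem exists_indep {β : End F W} (h : ∀ c : F, β ≠ c • 1) : ∃ (w : W) (φ : Dual F W), φ w = 0 ∧ φ (β w) ≠ 0 := by
  obtain ⟨w, hw⟩ := not_forall.1 (mt exists_eq_smul_id_of_forall_notLinearIndependent (not_exists.2 h))
  obtain ⟨φ, a, b⟩ := exists_le_ker_of_notMem (p := span F {w}) (v := β w) fun e => by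
    obtain ⟨c, e⟩ := mem_span_singleton.1 e
    simpa using (LinearIndependent.pair_iff.1 (not_not.1 hw) c (-1) (by simp [e])).2
  exact ⟨w, φ, b (mem_span_singleton_self w), a⟩

variable [FiniteDimensional F U] [FiniteDimensional F W] [FiniteDimensional F V]

theorem rk_map (f : End F U) (g : End F W) :
    finrank F (range (TensorProduct.map f g)) = finrank F (range f) * finrank F (range g) := by
  rw [TensorProduct.range_map, ← range_mapIncl,
    finrank_range_of_inj (Module.Flat.tensorProduct_mapIncl_injective_of_right _ _), finrank_tensorProduct]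

theorem rk_ten (hW : 2 < finrank F W) (α : U ≃ₗ[F] U) (β : W ≃ₗ[F] W) (hα : ∀ c : F, (α : End F U) ≠ c • 1)
    (hβ : ∀ c : F, (β : End F W) ≠ c • 1) :
    finrank F U < finrank F (range ((TensorProduct.map α β : End F (U ⊗[F] W)) - 1)) := by
  obtain ⟨x, ψ, a1, a2⟩ := exists_indep hα
  obtain ⟨w, φ, b1, b2⟩ := exists_indep hβ
  obtain ⟨y, hy⟩ : ∃ y, y ∉ span F {β w, w} := by
    by_contra! H
    have := H12.finrank_span_pair_le (F := F) (β w) w
    rw [eq_top_iff'.2 H, finrank_top] at this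
    omega
  obtain ⟨y, rfl⟩ := β.surjective y
  let f := ((TensorProduct.map α β : End F (U ⊗[F] W)) - 1) ∘ₗ (TensorProduct.mk F U W).flip w
  rw [← finrank_range_of_inj (f := f) ((injective_iff_map_eq_zero _).2 fun u e => by
    simpa [f, b1, show φ (β w) ≠ 0 from b2] using congrArg (cR U φ) e)]
  refine finrank_lt_finrank_of_lt (lt_of_le_of_ne (range_comp_le_range _ _) fun e => hy ?_)
  obtain ⟨u, e⟩ := e.ge ⟨x ⊗ₜ y, rfl⟩
  have := congrArg (cL W ψ) e
  simp only [f, LinearMap.comp_apply, LinearMap.sub_apply, flip_apply, mk_apply, map_tmul, End.one_apply, map_sub, cL_tmul,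
    a1, zero_smul, sub_zero, LinearEquiv.coe_coe] at this
  rw [← smul_mem_iff _ (show ψ (α x) ≠ 0 from a2), ← this]
  exact sub_mem (smul_mem _ _ (subset_span (by simp))) (smul_mem _ _ (subset_span (by simp)))

theorem exists_J [Finite F] {C : CForm (altType F) V} (hC : C.Nondeg) :
    ∃ J ∈ C.isom, (J : End F V) ^ 2 = algebraMap F _ (-1) := by
  obtain ⟨m, hm⟩ := alt_even hC
  obtain ⟨⟨J, c1⟩, c2⟩ := exists_isom_sim hC (alt_iso_spForm hC hm).symm (alt_isom (u := toLin' (J (Fin m) F))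
    ((mem_symplecticGroup_iff _).1 (SymplecticGroup.J_mem _ _)))
  exact ⟨J, c1, c2.pow_eq (by rw [← toLin'_pow, sq, J_squared]; simp; rfl)⟩

theorem c_dvd [Fintype F] {T : FormType F} {C : CForm T V} (hC : C.Nondeg) (hT : T.σ = RingHom.id F) (hr : r.Prime)
    (h0 : (r : F) ≠ 0) (h2 : r ≠ 2) {i c : ℕ} (hi : i = orderOf (Fintype.card F : ZMod r))
    (hc : c = if Even i then i else 2 * i) {u : End F V} (hu : InI C u) (h1 : u ^ r = 1) :
    c ∣ finrank F (range (u - 1)) := by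
  obtain ⟨δ, hD, rfl, -⟩ := dl_id (hr := hr) (h0 := h0) hi h2 hc
  obtain ⟨a, s, e⟩ := exists_sType hr h0 h1
  have := e.inv_of hr h0 (toSQ hC) hu.1
  rw [(rk_sType hr h0 hi e).2, mul_comm]
  obtain ⟨σ, _, _, _, _, _⟩ := T
  obtain rfl : σ = _ := hT
  exact mul_dvd_mul_left _ (hD.dvd this)

variable [Fintype F] {C : CForm (altType F) (U ⊗[F] W)} {C₁ : CForm (altType F) U} {C₂ : CForm (quadType F) W}
  (hC : C.Nondeg) (h₁ : C₁.Nondeg) (h₂ : C₂.Nondeg) (h2 : (2 : F) ≠ 0)
  (hB : ∀ u w u' w', C.B (u ⊗ₜ w) (u' ⊗ₜ w') = C₁.B u u' * C₂.B w w') (hU : 2 ≤ finrank F U) (hW : 2 < finrank F W)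
include hB

omit [FiniteDimensional F U] [FiniteDimensional F W] [Fintype F] in
theorem ten_isom {α : U ≃ₗ[F] U} {β : W ≃ₗ[F] W} (a : α ∈ C₁.isom) (b : β ∈ C₂.isom) :
    TensorProduct.congr α β ∈ C.isom := alt_isom (u := (TensorProduct.congr α β).toLinearMap) fun x y => by
  induction x using TensorProduct.induction_on <;> induction y using TensorProduct.induction_on <;> simp_all [a.1, b.1]

include hC h₁ h₂ h2 hU hW

theorem der_ten (H : ElP (InI C) r (Cj C.isom (tenStab F U W))) {u : End F (U ⊗[F] W)} (hu : InI C u) (h1 : u ^ r = 1) :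
    (∃ β, InI C₂ β ∧ β ^ r = 1 ∧ finrank F (range (u - 1)) = finrank F U * finrank F (range (β - 1))) ∨
    (∃ α, InI C₁ α ∧ α ^ r = 1 ∧ finrank F (range (u - 1)) = finrank F (range (α - 1)) * finrank F W) ∨
    finrank F U < finrank F (range (u - 1)) ∧ (Odd r → ∃ α, InI C₁ α ∧ α ^ r = 1 ∧ α ≠ 1) := by
  obtain ⟨_, ⟨α, β, rfl⟩, a3, a4⟩ := (cj_iff hu).1 (H.get (fun z a => (cj_iff a).2 (by
    have : Nontrivial (U ⊗[F] W) := Module.nontrivial_of_finrank_pos (R := F) (by rw [finrank_tensorProduct]; positivity)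
    have z0 := right_ne_zero_of_mul_eq_one (norm_of_isom hC a)
    have e : (TensorProduct.congr (.smulOfNeZero F U z z0) (1 : W ≃ₗ[F] W)).toLinearMap = algebraMap F (End F _) z :=
      TensorProduct.ext' fun x y => by simp [smul_tmul']
    exact ⟨_, ⟨_, _, rfl⟩, show InI C (LinearEquiv.toLinearMap _) from e ▸ a, .refl _ _, ⟨fun _ _ => rfl, fun _ => rfl⟩,
      LinearMap.congr_fun e⟩)) hu (h1.trans (map_one _).symm))
  have a5 := (FSim.sim' a4).symm
  have a6 : (TensorProduct.map α β : End F (U ⊗[F] W)) ^ r = 1 := (a5.pow_eq (h1.trans (map_one _).symm)).trans (map_one _)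
  have a7 := sim_rk a5 1
  rw [pow_one, pow_one] at a7
  have := Module.nontrivial_of_finrank_pos (R := F) (M := U) (by omega)
  have := Module.nontrivial_of_finrank_pos (R := F) (M := W) (by omega)
  obtain ⟨x, hx⟩ := exists_ne (0 : U)
  obtain ⟨y, hy⟩ := h₁.exists_eq hx 1
  obtain ⟨w, hw⟩ := exists_ne (0 : W)
  obtain ⟨z, hz⟩ := h₂.exists_eq hw 1
  have k1 : ∀ x w y z, C₁.B (α x) (α y) * C₂.B (β w) (β z) = C₁.B x y * C₂.B w z := fun x w y z => by
    rw [← hB, ← hB]; exact a3.1 (x ⊗ₜ w) (y ⊗ₜ z)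
  have k2 : ∀ x w, ((α : End F U) ^ r) x ⊗ₜ[F] ((β : End F W) ^ r) w = x ⊗ₜ w := fun x w =>
    LinearMap.congr_fun ((TensorProduct.map_pow _ _ r).symm.trans a6) (x ⊗ₜ w)
  have q1 : ∀ a, (altType F).σ a = a := fun _ => rfl
  have q2 : ∀ a, (quadType F).σ a = a := fun _ => rfl
  by_cases hα : ∃ c : F, (α : End F U) = c • 1
  · obtain ⟨c, e⟩ := hα
    have e' : ∀ x, α x = c • x := LinearMap.congr_fun e
    refine .inl ⟨c • β, quad_isom h2 fun w z => ?_, LinearMap.ext fun w => ?_, ?_⟩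
    · simpa [e', hy, q1, q2, mul_assoc] using k1 x w y z
    · simpa [e, _root_.smul_pow, hy] using congrArg (cL W (C₁.B x)) (k2 y w)
    · rw [a7, ← finrank_top F U, ← range_id, ← rk_map]
      exact congrArg (fun f => finrank F (range f)) (TensorProduct.ext' fun x y => by simp [tmul_sub, e', smul_tmul])
  by_cases hβ : ∃ c : F, (β : End F W) = c • 1
  · obtain ⟨c, e⟩ := hβ
    have e' : ∀ x, β x = c • x := LinearMap.congr_fun e
    refine .inr (.inl ⟨c • α, alt_isom fun x y => ?_, LinearMap.ext fun x => ?_, ?_⟩)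
    · simpa [e', hz, q1, q2, mul_assoc, mul_comm, mul_left_comm] using k1 x w y z
    · simpa [e, _root_.smul_pow, hz] using congrArg (cR U (C₂.B w)) (k2 x z)
    · rw [a7, ← finrank_top F W, ← range_id, ← rk_map]
      exact congrArg (fun f => finrank F (range f)) (TensorProduct.ext' fun x y => by simp [sub_tmul, e', smul_tmul])
  refine .inr (.inr ⟨a7 ▸ rk_ten hW α β (not_exists.1 hα) (not_exists.1 hβ), fun ⟨s, hs⟩ => ?_⟩)
  have k3 := fun x y => k1 x w y z
  have k4 := fun x => congrArg (cR U (C₂.B w)) (k2 x z)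
  simp only [cR_tmul, hz, mul_one, one_smul] at k3 k4
  generalize C₂.B (β w) (β z) = m at k3
  generalize C₂.B w _ = l at k4
  have k5 : ∀ n x y, C₁.B (((α : End F U) ^ n) x) (((α : End F U) ^ n) y) * m ^ n = C₁.B x y := fun n => by
    induction n with
    | zero => simp
    | succ n ih => intro x y; rw [pow_succ', pow_succ', ← mul_assoc]; exact (congrArg (· * _) (k3 _ _)).trans (ih x y)
  have k6 : m ^ r = l * l := by
    have := k5 r (l • x) (l • y)
    rwa [map_smul (_ ^ r : End F U), map_smul (_ ^ r : End F U), k4, k4, alt_smul, map_smul, hy, one_mul, smul_eq_mul,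
      mul_one] at this
  have m0 : m ≠ 0 := by rintro rfl; simpa [hy] using k3 x y
  have l0 : l ≠ 0 := by rintro rfl; simpa [hx.symm] using k4 x
  refine ⟨m • (α : End F U) ^ 2, alt_isom fun x y => ?_, LinearMap.ext fun x => ?_, fun e => hα ⟨l⁻¹ * m ^ s, ?_⟩⟩
  · rw [← k5 2 x y, LinearMap.smul_apply, LinearMap.smul_apply, alt_smul, map_smul, smul_eq_mul]; ring
  · rw [_root_.smul_pow, k6, ← pow_mul, mul_comm 2, pow_mul, pow_two, LinearMap.smul_apply, End.mul_apply, mul_smul,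
      k4, k4, End.one_apply]
  · refine LinearMap.ext fun x => ?_
    have := congrArg (· ^ s) e
    simp only [_root_.smul_pow, ← pow_mul, one_pow] at this
    refine (LinearMap.congr_fun this (α x)).symm.trans ?_
    rw [LinearMap.smul_apply, LinearMap.smul_apply, End.one_apply, ← k4 x, smul_smul, mul_right_comm, inv_mul_cancel₀ l0,
      one_mul, k4, hs, pow_succ]
    rfl

theorem ten_main (hr : r.Prime) (hΩ : r ∣ Nat.card C.isom) :
    ElP (InI C) r (Cj C.isom (tenStab F U W)) ↔ r = 2 ∧ finrank F U = 2 := by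
  have hn : finrank F (U ⊗[F] W) = finrank F U * finrank F W := finrank_tensorProduct
  have h6 : 2 * 3 ≤ finrank F (U ⊗[F] W) := hn ▸ Nat.mul_le_mul hU hW
  have := Module.nontrivial_of_finrank_pos (R := F) (M := U ⊗[F] W) (by omega)
  have := Fact.mk hr
  refine ⟨fun H => ?_, fun ⟨a1, a2⟩ u b1 ⟨z, b2⟩ _ => ?_⟩
  · have K := fun u => der_ten hC h₁ h₂ h2 hB hU hW H (u := u)
    by_cases h0 : (r : F) = 0
    · obtain ⟨v, hv⟩ := exists_ne (0 : U ⊗[F] W)
      obtain ⟨w, hw⟩ := hC.exists_eq hv 1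
      have a : range (Tr C v 1 - 1) = span F {v} := le_antisymm (by
        rintro _ ⟨x, rfl⟩; simp [tr_apply, mem_span_singleton]) ((span_singleton_le_iff_mem _ _).2
          ⟨w, by simp [tr_apply, hw]⟩)
      obtain ⟨g, -, -, b⟩ | ⟨g, -, -, b⟩ | ⟨b, -⟩ := K (Tr C v 1) (alt_isom fun x y => by
        simp [tr_apply, alt_self, alt_symm C v x, show ∀ a, (altType F).σ a = a from fun _ => rfl]; ring)
        (by simp [tr_pow0 (alt_self C v), h0, tr_zero]) <;> rw [a, finrank_span_singleton hv] at b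
      · have := Nat.eq_one_of_mul_eq_one_right b.symm; omega
      · have := Nat.eq_one_of_mul_eq_one_left b.symm; omega
      · omega
    by_cases r2 : r = 2
    · subst r2
      obtain ⟨X, a1, a2⟩ := alt_nd hC (k := 1) (by omega)
      obtain ⟨g, b1, b2, rfl⟩ := exists_negU hC h0 a1
      obtain ⟨g, -, -, b⟩ | ⟨g, -, -, b⟩ | ⟨b, -⟩ := K g b1 b2 <;> rw [a2] at b
      · exact ⟨rfl, le_antisymm (Nat.le_of_dvd two_pos ⟨_, b⟩) hU⟩
      · have := Nat.le_of_dvd two_pos (Dvd.intro_left _ b.symm); omega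
      · omega
    obtain ⟨d, hd⟩ := alt_even hC
    rw [card_isom_alt _ hC hd] at hΩ
    obtain ⟨j, b1, b2⟩ := (hr.prime.dvd_finsetProd_iff _).1 ((hr.dvd_mul.1 hΩ).resolve_left (not_dvd_card hr h0 _))
    obtain ⟨u, c1, c2, c3, c4, -⟩ := ex_single hC hr h0 r2 rfl rfl (j := j + 1) (orderOf_dvd_of_pow_eq_one (by
      rwa [← ZMod.natCast_eq_zero_iff, Nat.cast_sub (Nat.one_le_pow _ _ Fintype.card_pos), sub_eq_zero, Nat.cast_pow,
        Nat.cast_one] at b2)) (by omega) (by have := Finset.mem_range.1 b1; omega)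
    generalize hc : ite (Even (orderOf (Fintype.card F : ZMod r))) _ _ = c at c3 c4
    exfalso
    obtain ⟨g, e1, e2, e3⟩ | ⟨g, e1, e2, e3⟩ | ⟨e1, e2⟩ := K u c1 c2
    · obtain ⟨s, hs⟩ := c_dvd h₂ rfl hr h0 r2 rfl hc.symm e1 e2
      rw [c3, hs, mul_left_comm] at e3
      have := Nat.eq_one_of_mul_eq_one_right (Nat.eq_of_mul_eq_mul_left c4 (e3.symm.trans (mul_one c).symm)); omega
    · obtain ⟨s, hs⟩ := c_dvd h₁ rfl hr h0 r2 rfl hc.symm e1 e2
      rw [c3, hs, mul_assoc] at e3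
      have := Nat.eq_one_of_mul_eq_one_left (Nat.eq_of_mul_eq_mul_left c4 (e3.symm.trans (mul_one c).symm)); omega
    · obtain ⟨g, e3, e4, e5⟩ := e2 (hr.odd_of_ne_two r2)
      have := Nat.le_of_dvd (Nat.pos_of_ne_zero (by simpa [range_eq_bot, sub_eq_zero])) (c_dvd h₁ rfl hr h0 r2 rfl hc.symm e3 e4)
      have := Submodule.finrank_le (range (g - 1))
      omega
  subst a1
  obtain rfl | rfl := mul_self_eq_one_iff.1 (norm_of_isom hC (b2 ▸ isom_pow b1 2))
  · rw [map_one] at b2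
    obtain ⟨s, hs⟩ := alt_even (C.restrict_nondeg_iff.2 (nd_rg hC b1 two_ne_zero h2 b2))
    obtain ⟨X, c1, c2⟩ := exists_nd h₂ (fun P a b => by
      obtain ⟨Q, rfl⟩ := exists_eq_ofQuad C₂
      obtain ⟨v, c, d⟩ := exists_nonsingular a b
      exact ⟨v, c, by simp [polar_self', h2, d]⟩) (s := s)
      (by have := Submodule.finrank_le (range (u - 1)); rw [hn, a2] at this; omega)
    obtain ⟨g, c3, c4, rfl⟩ := exists_negU h₂ h2 c1
    refine cj_alt hC h2 b1 one_ne_zero (by simpa) ⟨1, g, rfl⟩ (ten_isom hB (one_mem _) c3) (sim_inv h2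
      (u := TensorProduct.map 1 g.toLinearMap) (by rw [TensorProduct.map_pow, c4, one_pow, TensorProduct.map_one]) b2 ?_)
    rw [hs, ← c2, ← a2, ← finrank_top F U, ← range_id, ← rk_map]
    exact congrArg (fun f => finrank F (range f)) (TensorProduct.ext' fun x y => by simp [tmul_sub])
  · obtain ⟨J, c1, c2⟩ := exists_J h₁
    have c3 := ten_isom hB c1 (one_mem _)
    exact cj_alt hC h2 b1 (by simp) b2 ⟨J, 1, rfl⟩ c3 (sim_neg h2 (fun _ => rfl) hC c3 b1
      (TensorProduct.ext' fun x y => by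
        simp [pow_two, show J (J x) = -x by simpa [pow_two] using LinearMap.congr_fun c2 x, neg_tmul]) b2)

end H12.EA
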