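import Cfsg.Agent.H12.USp
import Cfsg.Agent.H13.C3Lin3

/-!
# Extension-field structures on spaces with a form: generalities
-/

set_option autoImplicit false
set_option maxHeartbeats 400000

namespace H12

open Module H11 H13.KL

section
variable {F : Type*} [Field F] {T : FormType F} {V : Type*} [AddCommGroup V] [Module F V]
  {C : CForm T V} {X : Subgroup (V ≃ₗ[F] V)}

/-- The commutator of an element inducing a transvection on a totally isotropic subspace `M` with
an element of the centre of the unipotent radical of the stabiliser of `M`. -/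
theorem rq_of_comm (hC : C.Nondeg) (hX : X ≤ C.isom) {M : Submodule F V}
    (hM : ∀ x ∈ M, ∀ y ∈ M, C.B x y = 0) {h β : V ≃ₗ[F] V} (hh : h ∈ X) (hβ : β ∈ X) {φ w : V}
    (hw : w ∈ M) (e : ∀ x ∈ M, h x = x + C.B φ x • w) (hS : ∀ x, β x - x ∈ M) :
    Rq C X w (T.σ T.ε • (β φ - φ)) (-(T.σ T.ε * C.B φ (β φ - φ))) := by
  obtain ⟨S, eS⟩ : ∃ S : V →ₗ[F] V, ∀ x, β x = x + S x := ⟨β.toLinearMap - 1, fun x => by simp⟩
  simp only [eS, add_sub_cancel_left] at hS ⊢
  have h1 : ∀ x y, C.B (S x) y = -C.B x (S y) := fun x y => by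
    have := CForm.isom_B (hX hβ) x y
    rw [eS, eS, C.B_add_left, map_add, map_add, hM _ (hS x) _ (hS y)] at this
    linear_combination this
  have h2 : ∀ x, S (h⁻¹ x) = S x + (T.σ T.ε * C.B w x) • S φ := fun x => hC.ext' fun y => by
    have a1 := h1 y (h⁻¹ x)
    have a2 : T.σ (C.B φ (S y)) = -(T.σ T.ε * C.B y (S φ)) := by
      rw [← C.σ_B, h1, map_neg, neg_neg]
    rw [← CForm.isom_B (hX hh), apply_inv_apply, e _ (hS y), C.B_add_left, C.B_smul_left, h1,
      a2] at a1
    rw [map_add, map_smul, smul_eq_mul]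
    linear_combination a1
  have h3 : ∀ x ∈ M, S x = 0 := fun x hx => hC.eq_zero' fun y => by
    rw [← neg_neg (C.B y _), ← h1, hM _ (hS y) _ hx, neg_zero]
  have h4 : ∀ x, β⁻¹ x = x - S x := fun x => β.injective (by
    rw [apply_inv_apply, eS, map_sub, h3 _ (hS x)]; abel)
  refine ⟨h * β * h⁻¹ * β⁻¹, mul_mem (mul_mem (mul_mem hh hβ) (inv_mem hh)) (inv_mem hβ),
    fun x => ?_⟩
  have h5 : T.σ (C.B x (T.σ T.ε • S φ)) = -C.B φ (S x) := by
    rw [C.B_smul_right, map_mul, T.σσ, ← C.symm, h1]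
  simp only [LinearEquiv.mul_apply]
  rw [eS, map_add, apply_inv_apply, h2, h4, map_sub, h3 _ (hS x), map_sub, hM _ hw _ (hS x),
    e _ (add_mem (by simpa using hS x) (M.smul_mem _ (hS φ))), h5]
  simp only [sub_zero, map_add, map_smul, smul_eq_mul]
  module

end

variable {F E V : Type*} [Field F] [Field E] [Algebra F E] [AddCommGroup V] [Module F V]
  [Module E V] [IsScalarTower F E V]

theorem eq_zero_of_dual {l : Dual F E} (hl : l ≠ 0) {a : E} (h : ∀ k, l (k * a) = 0) : a = 0 := by
  by_contra ha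
  exact hl (LinearMap.ext fun k => by simpa [ha] using h (k * a⁻¹))

theorem eq_of_dual {l : Dual F E} (hl : l ≠ 0) {a b : E} (h : ∀ k, l (k * a) = l (k * b)) : a = b :=
  sub_eq_zero.1 (eq_zero_of_dual hl fun k => by rw [mul_sub, map_sub, h, sub_self])

theorem exists_ext_bilin [FiniteDimensional F V] [FiniteDimensional F E] {l : Dual F E} (hl : l ≠ 0)
    (B : V →ₗ[F] V →ₗ[F] F) (hsa : ∀ (k : E) x y, B (k • x) y = B x (k • y)) :
    ∃ D : V →ₗ[E] V →ₗ[E] E, ∀ x y, B x y = l (D x y) := by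
  choose ψ hψ using fun x => exists_comp_eq hl (B x)
  have key : ∀ k x y, l (k * ψ x y) = B x (k • y) := fun k x y => by rw [hψ, map_smul, smul_eq_mul]
  exact ⟨{ toFun := ψ
           map_add' x x' := LinearMap.ext fun y => eq_of_dual hl fun k => by
             simp [mul_add, key]
           map_smul' c x := LinearMap.ext fun y => eq_of_dual hl fun k => by
             simp [← mul_assoc, key, hsa, smul_smul, mul_comm] }, hψ⟩

end H12
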