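import Cfsg.Agent.H12.RQ2

/-!
# Overgroups of stabilisers of orthogonal decompositions with large members
-/

set_option autoImplicit false
set_option maxHeartbeats 400000

namespace H12

open Module H11 QuadraticMap

variable {F : Type*} [Field F] {V : Type*} [AddCommGroup V] [Module F V]
  {Q : QuadraticForm F V} {X : Subgroup (V ≃ₗ[F] V)} [FiniteDimensional F V] [Fintype F]

local notation "𝓒" => CForm.ofQuad Q

omit [Fintype F] in
theorem RR.ei_perp (hQ : QNondeg Q) (hne : NotExc F V) {S : Submodule F V}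
    (hSX : subG 𝓒 (OmegaV Q) S ≤ X) {s n u : V} (hs : s ∈ S) (hn : n ∈ (𝓒).perp S) (hu : u ∈ S)
    (hu0 : Q u = 0) (hus : polar Q u s = 0) (h : RR Q X (s + u + n) (s + n)) :
    Ei Q X ((Q (s + n))⁻¹ • u) n := by
  rw [add_right_comm] at h
  have h1 := h.ei hu0 (by
    rw [polar_add_right, hus, show polar Q u n = 0 from (𝓒).mem_perp.1 hn u hu, add_zero])
  simpa using h1.sub (ei_of_subG hQ hne hSX (S.smul_mem _ hu) hs h1.1
    (by rw [polar_smul_left, hus, smul_zero]))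

theorem RR.mem_eiSub (hQ : QNondeg Q) (hne : NotExc F V) {S : Submodule F V}
    (hS : (𝓒).NondegOn S) (hd : 4 ≤ finrank F S) (hSX : subG 𝓒 (OmegaV Q) S ≤ X) {s n a : V}
    (hs : s ∈ S) (hs0 : s ≠ 0) (hn : n ∈ (𝓒).perp S) (h : RR Q X (s + n) a)
    (ha : a ∈ S ∨ a ∈ (𝓒).perp S) (hc : Q s ≠ 0 ∨ Fintype.card F ≠ 2 ∨ 5 ≤ finrank F S) :
    n ∈ eiSub Q X S := by
  have d1 := finrank_span_singleton_le (F := F) s
  obtain ⟨u, hu, hu0, h1, h2, h3⟩ : ∃ u ∈ S, u ≠ 0 ∧ Q u = 0 ∧ polar Q u s = 0 ∧ s + u ≠ 0 := by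
    by_cases h0 : Q s = 0
    · rcases hc.resolve_left (not_not.2 h0) with hc | hc
      · obtain ⟨t, ht0, ht⟩ := exists_ne_ne hc (-1 : F)
        refine ⟨t • s, S.smul_mem _ hs, smul_ne_zero ht0 hs0, by rw [Q_smul, h0, mul_zero],
          by rw [polar_smul_left, polar_self', h0]; simp, ?_⟩
        rw [show s + t • s = (1 + t) • s by module]
        exact smul_ne_zero (fun e => ht (eq_neg_of_add_eq_zero_right e)) hs0
      · obtain ⟨u, hu, h1, h2, h3⟩ := (iso3_quad Q).sub_exists_perp hQ S (Submodule.span F {s})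
          (Submodule.span F {s}) (by omega)
        refine ⟨u, hu, by rintro rfl; exact h2 (zero_mem _), h3,
          (𝓒).B_swap_zero ((𝓒).mem_perp_singleton.1 h1), fun e => h2 ?_⟩
        rw [eq_neg_of_add_eq_zero_right e]
        exact neg_mem (Submodule.mem_span_singleton_self s)
    · have d2 := hQ.finrank_inf_perp S (Submodule.span F {s})
      obtain ⟨u, hu, hu0, h1⟩ := iso3_quad Q (S ⊓ (𝓒).perp (Submodule.span F {s})) (by omega)
      refine ⟨u, hu.1, hu0, h1, (𝓒).B_swap_zero ((𝓒).mem_perp_singleton.1 hu.2), fun e => h0 ?_⟩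
      rw [eq_neg_of_add_eq_zero_left e, QuadraticMap.map_neg]
      exact h1
  obtain ⟨k, hk, e⟩ := (spec_quad hQ hne).witt_sub_one hS hd hs (add_mem hs hu) hs0 h3
    (by rw [CForm.ofQuad_N, CForm.ofQuad_N, Q_add, h1, polar_comm, h2]; simp)
  have h4 := (h.map_subG hQ hSX ha hk).trans h.symm
  rw [map_add, e, hk.2.2 n hn] at h4
  exact mem_eiSub_of hQ hne hS hd hSX (S.smul_mem _ hu) (smul_ne_zero (inv_ne_zero h.1) hu0) hn
    (h4.ei_perp hQ hne hSX hs hn hu h1 h2)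

theorem RR.mem_RS_of_good (hQ : QNondeg Q) (h2 : (2 : F) ≠ 0) (hq : 4 ≤ Fintype.card F)
    {S : Submodule F V} (hS : (𝓒).NondegOn S) (hSX : subG 𝓒 (OmegaV Q) S ≤ X) {s n a : V}
    (hs : s ∈ S) (hs0 : s ≠ 0) (hn : n ∈ (𝓒).perp S) (h : RR Q X (s + n) a)
    (ha : a ∈ S ∨ a ∈ (𝓒).perp S) (hg : ∃ u ∈ S, u ≠ 0 ∧ Q u = 0 ∧ polar Q u s = 0) :
    ∃ u ∈ S, u ≠ 0 ∧ Q u = 0 ∧ n ∈ RS Q X u := by
  have hne : NotExc F V := notExc_of_two_ne_zero h2
  have o : ∀ y ∈ S, polar Q y n = 0 := (𝓒).mem_perp.1 hn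
  by_cases h0 : Q s = 0
  · refine ⟨s, hs, hs0, h0, (mem_RS h0).2 fun c => ?_⟩
    obtain ⟨f, hf, h1⟩ := exists_hypPair_sub hQ hS hs hs0 h0
    have hf0 : Q f = 0 := h1.right
    have hsf : polar Q s f = 1 := h1.pair
    have hn0 : Q n ≠ 0 := by have := h.1; rwa [Q_add, h0, o s hs, zero_add, add_zero] at this
    have k1 : ∀ d : F, d ≠ 0 → RR Q X ((d * d) • s + n) a := by
      intro d hd
      have e1 := Q_hyp' h0 hf0 hsf 1
      have e2 := Q_hyp' h0 hf0 hsf (d * d)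
      have h3 := rr_subG hQ (add_mem hs (S.smul_mem 1 hf)) (add_mem hs (S.smul_mem (d * d) hf))
        (e1.trans_ne one_ne_zero) (e2.trans_ne (mul_ne_zero hd hd)) ⟨d, by rw [e1, e2, one_mul]⟩
      have := h.map_subG hQ hSX ha h3.2.2
      rw [refl_hyp_mul h0 hf0 hsf one_ne_zero (mul_ne_zero hd hd), polar_add_right, polar_add_right,
        polar_comm Q f s, hsf, o f hf, o s hs, polar_self', h0] at this
      convert this using 1
      match_scalars <;> simp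
    obtain ⟨α, hα0, hα⟩ := exists_mul_self_ne_one (F := F) (by omega)
    have k2 : ∀ e : F, Ei Q X s ((e * e * ((α * α - 1) * (Q n)⁻¹)) • n) := by
      intro e
      by_cases he : e = 0
      · rw [he, zero_mul, zero_mul, zero_smul]; exact ei_zero_right h0
      have h3 := (k1 (α * e) (mul_ne_zero hα0 he)).trans (k1 e he).symm
      rw [show (α * e * (α * e)) • s = (e * e) • s + (e * e * (α * α - 1)) • s by module] at h3
      have h4 := h3.ei_perp hQ hne hSX (S.smul_mem _ hs) hn (S.smul_mem _ hs)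
        (by rw [Q_smul, h0, mul_zero])
        (by rw [polar_smul_left, polar_smul_right, polar_self', h0]; simp)
      rw [smul_smul, Q_add, Q_smul, h0, polar_smul_left, o s hs] at h4
      convert h4.smul_right h0 (o s hs) using 2
      simp; ring
    have h3 := mul_ne_zero (sub_ne_zero.2 hα) (inv_ne_zero hn0)
    obtain ⟨x, y, e⟩ := exists_sq_add_sq h2 h3 h3 c
    rw [← e, add_smul]
    exact (k2 x).add (k2 y)
  · obtain ⟨u, hu, hu0, h1, h3⟩ := hg
    refine ⟨u, hu, hu0, h1, (mem_RS h1).2 fun c => ?_⟩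
    have h4 : polar Q u ((Q (s + n) * c / (2 * Q s)) • s) = 0 := by
      rw [polar_smul_right, h3, smul_zero]
    have h5 := (h.map_subG hQ hSX ha (eich_mem_subG hQ hne hu (S.smul_mem _ hs) h1 h4)).trans h.symm
    rw [eich_apply h1 h4, polar_smul_left, polar_add_right, polar_add_right, h3, o u hu, o s hs,
      polar_self', add_zero, add_zero, smul_eq_mul, div_mul_cancel₀ _ (mul_ne_zero h2 h0),
      mul_zero, zero_smul, zero_smul, sub_zero, sub_zero, add_right_comm] at h5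
    have h6 := h5.ei_perp hQ hne hSX hs hn (S.smul_mem _ hu) (by rw [Q_smul, h1, mul_zero])
      (by rw [polar_smul_left, h3, smul_zero])
    rw [smul_smul, inv_mul_cancel_left₀ h.1] at h6
    exact h6.smul_right h1 (o u hu)

theorem exists_Q_eq_perp_ns (hQ : QNondeg Q) (h2 : (2 : F) ≠ 0) {S : Submodule F V}
    (hS : (𝓒).NondegOn S) (h3 : 3 ≤ finrank F S) {s : V} (hs : s ∈ S) (h0 : Q s ≠ 0) (c : F) :
    ∃ p ∈ S, polar Q s p = 0 ∧ Q p = c := by
  by_cases hc : c = 0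
  · exact ⟨0, zero_mem _, polar_zero_right _ _, by rw [hc, map_zero]⟩
  have d1 := finrank_span_singleton_le (F := F) s
  have d2 := hQ.finrank_inf_perp S (Submodule.span F {s})
  obtain ⟨p, hp, e⟩ := exists_Q_eq_of_nondegOn hQ (nondegOn_inf_perp_singleton (C := 𝓒) hS hs
    (by rw [CForm.ofQuad_B, polar_self']; exact mul_ne_zero h2 h0)) (by omega) hc
  exact ⟨p, hp.1, (𝓒).mem_perp_singleton.1 hp.2, e⟩

theorem RR.mem_RS_of_ne (hQ : QNondeg Q) (h2 : (2 : F) ≠ 0) (hq : 4 ≤ Fintype.card F)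
    {S : Submodule F V} (hS : (𝓒).NondegOn S) (h3 : 3 ≤ finrank F S)
    (hSX : subG 𝓒 (OmegaV Q) S ≤ X) {s n a : V}
    (hs : s ∈ S) (hs0 : s ≠ 0) (hn : n ∈ (𝓒).perp S) (h : RR Q X (s + n) a)
    (ha : a ∈ S ∨ a ∈ (𝓒).perp S) (hy : ∀ y ∈ S, Q y = Q (s + n) → RR Q X y a) (hν : Q n ≠ 0) :
    ∃ u ∈ S, u ≠ 0 ∧ Q u = 0 ∧ n ∈ RS Q X u := by
  by_cases hg : ∃ u ∈ S, u ≠ 0 ∧ Q u = 0 ∧ polar Q u s = 0
  · exact h.mem_RS_of_good hQ h2 hq hS hSX hs hs0 hn ha hg
  have o : ∀ y ∈ S, polar Q y n = 0 := (𝓒).mem_perp.1 hn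
  obtain ⟨u, hu, hu0, hu1⟩ := iso3_quad Q S h3
  obtain ⟨f, hf, h1⟩ := exists_hypPair_sub hQ hS hu hu0 hu1
  obtain ⟨w, hw, hw0, h4, -⟩ := exists_ns_perp_hyp hQ hS h3 hu hf h1
  have good : ∀ z ∈ S, z ≠ 0 → ∀ t : F, Q z = t * t * Q w →
      ∃ u ∈ S, u ≠ 0 ∧ Q u = 0 ∧ polar Q u z = 0 := by
    intro z hz hz0 t e
    by_cases ht : t = 0
    · have : Q z = 0 := by rw [e, ht]; simp
      exact ⟨z, hz, hz0, this, by rw [polar_self', this, mul_zero]⟩
    obtain ⟨g, hg, -, e'⟩ := hQ.witt_sub hS bot_le (S.smul_mem t hw) hz (by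
      simp only [Submodule.mem_bot]
      exact smul_ne_zero ht (by rintro rfl; exact hw0 (map_zero Q))) (by simpa) (by simp)
      (e.trans (Q_smul Q t w).symm)
    refine ⟨g u, (mem_glStab_iff_map.1 (subG_le_glStab hQ (Or.inr le_rfl) hg)).le ⟨u, hu, rfl⟩,
      by simpa, (CForm.isom_N hg.1 u).trans hu1, ?_⟩
    rw [← e']
    exact (CForm.isom_B hg.1 u _).trans (by rw [CForm.ofQuad_B, polar_smul_right, h4, smul_zero])
  have hσ : Q s ≠ 0 := fun e => hg (good s hs hs0 0 (by rw [e]; simp))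
  have eδ : Q (s + n) = Q s + Q n := by rw [Q_add, o s hs, add_zero]
  have hδ := h.1
  obtain ⟨β, t, hβ, e1, e2⟩ : ∃ β t : F, β ≠ 0 ∧ β * β * Q n + t * t * Q w = Q (s + n) ∧
      β * β * Q (s + n) ≠ 4 * Q s := by
    by_cases h5 : IsSquare (Q (s + n) * Q s)
    · have h6 : ¬ IsSquare (Q (s + n) * Q w) := fun h6 => by
        rw [isSquare_mul_iff hδ hσ] at h5
        rw [isSquare_mul_iff hδ hw0, h5, ← isSquare_mul_iff hσ hw0] at h6
        obtain ⟨r, hr⟩ := h6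
        exact hg (good s hs hs0 (r / Q w) (by field_simp; linear_combination hr))
      obtain ⟨t, β, ht, e⟩ := exists_conic h2 hq hw0 hν hδ
      refine ⟨β, t, ?_, by linear_combination e, fun e' => h6 ?_⟩
      · rintro rfl
        exact h6 ⟨t * Q w, by linear_combination (-Q w) * e⟩
      · have h7 : (2 - β * β) ^ 2 * Q (s + n) = 4 * (t * t * Q w) := by
          linear_combination (-4) * e - 4 * β * β * eδ + β * β * e'
        have h8 : 2 - β * β ≠ 0 := fun e => mul_ne_zero (mul_ne_zero h2 h2)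
          (mul_ne_zero (mul_ne_zero ht ht) hw0) (by rw [e] at h7; linear_combination -h7)
        generalize 2 - β * β = E at h7 h8
        exact ⟨2 * t * Q w / E, by field_simp; linear_combination h7⟩
    · obtain ⟨β, t, hβ, e⟩ := exists_conic h2 hq hν hw0 hδ
      exact ⟨β, t, hβ, e, fun e' => h5 ⟨2 * Q s / β, by field_simp; linear_combination e'⟩⟩
  obtain ⟨α, hα⟩ : ∃ α : F, α * (2 * Q s) = β * Q (s + n) :=
    ⟨_, div_mul_cancel₀ _ (mul_ne_zero h2 hσ)⟩
  obtain ⟨p, hp, h5, h6⟩ := exists_Q_eq_perp_ns hQ h2 hS h3 hs hσ (Q (s + n) - α * α * Q s)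
  have h7 : Q (α • s + p) = Q (s + n) := by
    rw [Q_add, Q_smul, polar_smul_left, h5, h6]; simp
  have h8 := (hy _ (add_mem (S.smul_mem α hs) hp) h7).refl_apply h
  have h9 : polar Q (s + n) (α • s + p) = β * Q (s + n) := by
    rw [polar_add_left, polar_comm Q n, o _ (add_mem (S.smul_mem α hs) hp), polar_add_right,
      polar_smul_right, h5, polar_self', smul_eq_mul, hα]; simp
  rw [H12.refl_apply, h9, mul_comm β, inv_mul_cancel_left₀ hδ,
    show α • s + p - β • (s + n) = ((α - β) • s + p) + (-β) • n by module] at h8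
  have hs' := add_mem (S.smul_mem (α - β) hs) hp
  have h10 : (α - β) • s + p ≠ 0 := fun e => e2 (by
    have e3 := congrArg (polar Q s) e
    rw [polar_add_right, polar_smul_right, h5, polar_self', polar_zero_right, add_zero,
      smul_eq_mul, mul_eq_zero, or_iff_left (mul_ne_zero h2 hσ)] at e3
    rw [e3, zero_smul, zero_add] at e
    rw [e, map_zero] at h6
    refine mul_left_cancel₀ hδ ?_
    linear_combination -(α * (2 * Q s) + β * Q (s + n)) * hα + 4 * Q s * h6)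
  obtain ⟨u, hu, hu0, hu1, h11⟩ := h8.mem_RS_of_good hQ h2 hq hS hSX hs' h10
    (Submodule.smul_mem _ _ hn) ha (good _ hs' h10 t (by
      rw [Q_add, Q_smul, polar_smul_left, h5, h6, smul_zero]
      linear_combination -e1 - β * hα - β * β * eδ))
  exact ⟨u, hu, hu0, hu1, (Submodule.smul_mem_iff _ (neg_ne_zero.2 hβ)).1 h11⟩

omit [FiniteDimensional F V] [Fintype F] in
theorem IsProj.finrank_eq [FiniteDimensional F V] {κ : Type*} [Fintype κ] {D : κ → Submodule F V} {π : κ → V →ₗ[F] V}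
    (h : IsProj D π) {k : ℕ} (hk : ∀ i, finrank F (D i) = k) :
    finrank F V = Fintype.card κ * k := by
  have := (LinearEquiv.ofBijective (LinearMap.pi fun i => (π i).codRestrict (D i) (h.mem i))
    ⟨(injective_iff_map_eq_zero _).2 fun x hx =>
      h.eq_zero fun i => congrArg Subtype.val (congrFun hx i), fun y => ⟨∑ j, (y j).1, by
        ext i
        change π i (∑ j, (y j).1) = y i
        rw [map_sum, Finset.sum_eq_single i (fun j _ hj => h.other i j hj.symm _ (y j).2)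
          (fun e => absurd (Finset.mem_univ _) e), h.self (y i).2]⟩⟩).finrank_eq
  rwa [Module.finrank_pi_fintype, Finset.sum_congr rfl fun i _ => hk i, Finset.sum_const,
    Finset.card_univ, smul_eq_mul] at this

section Fam

variable {κ : Type*} {D : κ → Submodule F V}

variable (Q X D) in
/-- The reflection classes of the members of `D` contain no new vectors. -/
structure NoNew : Prop where
  le : X ≤ orth Q
  nondeg : ∀ i, (CForm.ofQuad Q).NondegOn (D i)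
  orth : ∀ i j, i ≠ j → D j ≤ (CForm.ofQuad Q).perp (D i)
  rr : ∀ i j, ∀ a ∈ D i, ∀ b ∈ D j, Q a ≠ 0 → Q b ≠ 0 → IsSquare (Q a * Q b) → RR Q X a b
  mem : ∀ i, ∀ a ∈ D i, ∀ x, RR Q X x a → ∃ j, x ∈ D j

omit [FiniteDimensional F V] [Fintype F] in
theorem NoNew.map_mem (h : NoNew Q X D) {g : V ≃ₗ[F] V} (hg : g ∈ X) {l m i : κ} {a b : V}
    (ha : a ∈ D l) (ha0 : Q a ≠ 0) (hm : g a ∈ D m) (hb : b ∈ D i) (e : Q b = Q a) :
    ∃ j, g b ∈ D j :=
  h.mem m _ hm _ ((h.rr i l b hb a ha (e.trans_ne ha0) ha0 ⟨Q a, by rw [e]⟩).conj hg (h.le hg))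

theorem NoNew.map_le (hQ : QNondeg Q) (h : NoNew Q X D) {g : V ≃ₗ[F] V} (hg : g ∈ X) {l m i : κ}
    {a : V} (ha : a ∈ D l) (ha0 : Q a ≠ 0) (hm : g a ∈ D m) (hb : Big Q (D i)) :
    ∃ j, ∀ v ∈ D i, g v ∈ D j := by
  obtain ⟨b, hb1, e⟩ := exists_Q_eq_of_nondegOn hQ hb.nondeg (by have := hb.three; omega) ha0
  obtain ⟨j, hj⟩ := h.map_mem hg ha ha0 hm hb1 e
  have h1 := inv_mem (h.le hg)
  have := hb.le_of_split hQ ((h.nondeg j).map h1) hb1 ⟨_, hj, inv_apply_apply g b⟩ (e.trans_ne ha0)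
    fun c hc e' => by
      obtain ⟨j', hj'⟩ := h.map_mem hg ha ha0 hm hc (e'.trans e)
      by_cases h2 : j = j'
      · exact Or.inl ⟨_, h2 ▸ hj', inv_apply_apply g c⟩
      · rw [← CForm.map_perp h1]
        exact Or.inr ⟨_, h.orth _ _ h2 hj', inv_apply_apply g c⟩
  refine ⟨j, fun v hv => ?_⟩
  obtain ⟨w, hw, rfl⟩ := this hv
  exact (apply_inv_apply g w).symm ▸ hw

theorem NoNew.exists_map_le (hQ : QNondeg Q) (h : NoNew Q X D)
    (hbig : ∀ x, (∀ j, x ∉ D j) → ∃ l, Big Q (D l) ∧ x ∉ (𝓒).perp (D l)) {g : V ≃ₗ[F] V}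
    (hg : g ∈ X) {i : κ} (hb : Big Q (D i)) : ∃ j, ∀ v ∈ D i, g v ∈ D j := by
  have h3 := hb.three
  have hg' := h.le hg
  obtain ⟨a, ha, ha0⟩ := exists_nonsingular hb.nondeg (by
    intro e; rw [e, finrank_bot] at h3; omega)
  obtain ⟨x, hx, y, hy, hx0, hy0, h1, h2, h4, h5⟩ := hb.exists_pair hQ (g⁻¹ a)
  by_cases h6 : ∃ j, g x ∈ D j
  · obtain ⟨j, hj⟩ := h6
    exact h.map_le hQ hg hx hx0 hj hb
  push Not at h6
  obtain ⟨l, hl, h7⟩ := hbig _ h6
  have h8 := (h.rr i i x hx y hy hx0 hy0 h5).conj hg hg'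
  have k : ∀ z, polar Q (g⁻¹ a) z = 0 → polar Q (g z) a = 0 := fun z hz => by
    rw [← orth_polar ⟨g, hg'⟩, polar_comm] at hz
    exact (congrArg _ (apply_inv_apply g a).symm).trans hz
  have fix : ∀ v, polar Q (g x) v = 0 → polar Q (g y) v = 0 →
      (refl Q (g x) * refl Q (g y)).1 v = v := fun v e1 e2 => by
    rw [orth_mul_apply, refl_apply_of_orth e2, refl_apply_of_orth e1]
  obtain ⟨j, hj⟩ := h.map_le hQ h8.2.2 ha ha0 ((fix a (k x h1) (k y h2)).symm ▸ ha) hl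
  obtain rfl : l = j := by
    by_contra hlj
    have d1 := hQ.finrank_inf_perp (D l) (Submodule.span F {g x, g y})
    have d2 := finrank_span_pair_le (F := F) (g x) (g y)
    have d3 := hl.three
    obtain ⟨v, hv, hv0⟩ := Submodule.exists_mem_ne_zero_of_ne_bot
      (p := D l ⊓ (𝓒).perp (Submodule.span F {g x, g y}))
      (by intro e; rw [e, finrank_bot] at d1; omega)
    have h9 := hj v hv.1
    rw [fix v ((𝓒).mem_perp_pair.1 hv.2).1 ((𝓒).mem_perp_pair.1 hv.2).2] at h9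
    exact hv0 (hl.nondeg.eq_zero hv.1 (h.orth _ _ hlj h9))
  obtain ⟨c, h9, h10⟩ := exists_ns_of_stab hQ hl.nondeg h8.1 h8.2.1 (fun e => h4 (by
    obtain ⟨c, hc⟩ := Submodule.mem_span_singleton.1 e
    rw [← map_smul] at hc
    exact Submodule.mem_span_singleton.2 ⟨c, g.injective hc⟩)) (h6 l) h7 hj
  rw [← map_smul, ← map_add] at h9 h10
  exact h.map_le hQ hg (add_mem hy ((D i).smul_mem c hx))
    ((orth_Q ⟨g, hg'⟩ _).symm.trans_ne h10) h9 hb

variable [Finite κ]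

omit [Fintype F] [Finite κ] in
theorem OrthDec.rr (hD : OrthDec 𝓒 D) (hQ : QNondeg Q) (hX : decStab D ⊓ OmegaV Q ≤ X) (i j : κ)
    (a : V) (ha : a ∈ D i) (b : V) (hb : b ∈ D j) (ha0 : Q a ≠ 0) (hb0 : Q b ≠ 0)
    (h : IsSquare (Q a * Q b)) : RR Q X a b := by
  refine ⟨ha0, hb0, hX ⟨?_, (rr_of_isSquare hQ ha0 hb0 h).2.2⟩⟩
  have k : ∀ i, ∀ a ∈ D i, (refl Q a).1 ∈ decStab D := fun i a ha =>
    (hD.subG_le (G := (𝓒).isom) hQ i ((mem_subG le_rfl).2 ⟨(refl Q a).2, fun x hx =>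
      refl_apply_of_orth ((𝓒).mem_perp.1 hx a ha)⟩)).1
  exact mul_mem (k i a ha) (k j b hb)

/-- A root element crossing the decomposition generates everything. -/
theorem OrthDec.omega_le_of_RS (hD : OrthDec 𝓒 D) (hQ : QNondeg Q) (hne : NotExc F V)
    (h3 : ∀ i, 3 ≤ finrank F (D i)) (hX : decStab D ⊓ OmegaV Q ≤ X) {l : κ} {u r : V}
    (hu : u ∈ D l) (hu0 : u ≠ 0) (hu1 : Q u = 0) (hr : r ∈ (𝓒).perp (D l)) (hr0 : r ≠ 0)
    (h : r ∈ RS Q X u) : OmegaV Q ≤ X := by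
  have := Fintype.ofFinite κ
  have hs : ∀ i, subG 𝓒 (OmegaV Q) (D i) ≤ X := fun i => (hD.subG_le hQ i).trans hX
  obtain ⟨m, hm⟩ : ∃ m, r ∉ (𝓒).perp (D m) := by
    by_contra hc
    push Not at hc
    exact hr0 (hD.eq_zero hQ hc)
  have hml : m ≠ l := by rintro rfl; exact hm hr
  have h1 : D m ≤ RS Q X u := le_of_eich_inv hQ (hD.nondeg m) (h3 m) (fun v hv b hb e1 e2 w hw => by
    have hk := eich_mem_subG hQ hne hv hb e1 e2
    have := RS.conj hw (hs m hk) hk.2.1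
    rwa [hk.2.2 u (hD.orth _ _ hml hu)] at this) h hm
  have h2 : ∀ j, j ≠ l → D j ≤ RS Q X u := by
    intro j hj
    obtain ⟨k, hk, e1, e2⟩ := hD.exists_swap (spec_quad hQ hne) (fun i => by have := h3 i; omega) m j
    rw [← e1]
    rintro _ ⟨w, hw, rfl⟩
    have := RS.conj (h1 hw) (hX hk) (OmegaV_le hk.2)
    rwa [e2 l hml.symm hj.symm u hu] at this
  obtain ⟨π, hπ⟩ := hD.exists_isProj
  have h4 : Fu Q X ⊤ u := by
    intro w _ hw
    refine RS.ei ?_ hu1
    rw [← hπ.sum w]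
    refine Submodule.sum_mem _ fun j _ => ?_
    by_cases hj : j = l
    · subst hj
      exact (mem_RS hu1).2 fun c => ei_of_subG hQ hne (hs j) hu (Submodule.smul_mem _ _ (hπ.mem _ _))
        hu1 (by rw [polar_smul_right, show polar Q u (π j w) = 0 from (hD.B_proj hπ hu w).trans hw,
          smul_zero])
    · exact h2 j hj (hπ.mem _ _)
  obtain ⟨f, hf, h5⟩ := exists_hypPair_sub hQ (hD.nondeg l) hu hu0 hu1
  obtain ⟨b, hb, hb0, h6, h7, -⟩ := exists_ns_perp_hyp hQ (hD.nondeg l) (h3 l) hu hf h5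
  have hk := eich_mem_subG hQ hne hf hb h5.right h7
  refine h4.omega_le hQ hne ((h3 l).trans (Submodule.finrank_le _)) hu1 (hs l hk) hk.2.1 ?_
  rw [eich_apply h5.right h7]
  simp only [polar_add_right, polar_sub_right, polar_smul_right, polar_self', hu1, h6,
    polar_comm Q b u, polar_comm Q f u, show polar Q u f = 1 from h5.pair]
  simpa using hb0

theorem OrthDec.omega_le_of_rr (hD : OrthDec 𝓒 D) (hQ : QNondeg Q) (hne : NotExc F V)
    (hb : ∀ i, Big Q (D i)) (hX : decStab D ⊓ OmegaV Q ≤ X) {m : κ} {a x : V} (ha : a ∈ D m)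
    (h : RR Q X x a) (he : IsSquare (Q x * Q a)) (hx : ∀ j, x ∉ D j) : OmegaV Q ≤ X := by
  have := Fintype.ofFinite κ
  have hs : ∀ i, subG 𝓒 (OmegaV Q) (D i) ≤ X := fun i => (hD.subG_le hQ i).trans hX
  have h3 : ∀ i, 3 ≤ finrank F (D i) := fun i => (hb i).three
  obtain ⟨π, hπ⟩ := hD.exists_isProj
  have ha' : ∀ l, a ∈ D l ∨ a ∈ (𝓒).perp (D l) := fun l =>
    (eq_or_ne l m).imp (fun e : l = m => e ▸ ha) fun e => hD.orth _ _ e ha
  have hp : ∀ l x, x - π l x ∈ (𝓒).perp (D l) := fun l x => (𝓒).mem_perp.2 fun y hy => by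
    rw [map_sub, hD.B_proj hπ hy, sub_self]
  have hn : ∀ l x, x ∉ D l → x - π l x ≠ 0 := fun l x h e => h (sub_eq_zero.1 e ▸ hπ.mem l x)
  obtain ⟨l, hl⟩ : ∃ l, Q (π l x) ≠ 0 := by
    by_contra hc
    push Not at hc
    refine h.1 (quad_ts_iff.1 (CForm.ts_span (C := 𝓒) (s := Set.range fun l => π l x) ?_ ?_) x ?_)
    · rintro _ ⟨l, rfl⟩; exact hc l
    · rintro _ ⟨l, rfl⟩ _ ⟨j, rfl⟩
      by_cases e : l = j
      · subst e; exact (𝓒).B_self_of_zero (hc l)
      · exact hD.B_eq_zero e (hπ.mem _ _) (hπ.mem _ _)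
    · conv_rhs => rw [← hπ.sum x]
      exact Submodule.sum_mem _ fun l _ => Submodule.subset_span ⟨l, rfl⟩
  have hl0 : π l x ≠ 0 := fun e => hl (by rw [e, map_zero])
  rcases (hb l).dim with h4 | ⟨-, h2, h5⟩
  · have := RR.mem_eiSub hQ hne (hD.nondeg l) h4 (hs l) (hπ.mem l x) hl0 (hp l x)
      (by rwa [add_sub_cancel]) (ha' l) (Or.inl hl)
    obtain ⟨u, hu, hu0, hu1⟩ := iso3_quad Q (D l) (h3 l)
    exact hD.omega_le_of_RS hQ hne h3 hX hu hu0 hu1 (hp l x) (hn l x (hx l)) ((mem_RS hu1).2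
      fun c => (Submodule.smul_mem _ c this).2 u hu hu1)
  have hy : ∀ l, ∀ y ∈ D l, Q y = Q x → RR Q X y a := fun l y hy e =>
    hD.rr hQ hX l m y hy a ha (e.trans_ne h.1) h.2.1 (e ▸ he)
  have key : ∀ l z, RR Q X z a → Q z = Q x → π l z ≠ 0 → Q (π l z) ≠ Q x → OmegaV Q ≤ X := by
    intro l z h1 e h6 h7
    have h8 : Q (z - π l z) ≠ 0 := fun e' => h7 (by
      have := Q_add Q (π l z) (z - π l z)
      rw [add_sub_cancel, e', e,
        show polar Q _ _ = 0 from (𝓒).mem_perp.1 (hp l z) _ (hπ.mem l z)] at this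
      linear_combination -this)
    obtain ⟨u, hu, hu0, hu1, h9⟩ := RR.mem_RS_of_ne hQ h2 (by omega) (hD.nondeg l) (h3 l) (hs l)
      (hπ.mem l z) h6 (hp l z) (by rwa [add_sub_cancel]) (ha' l)
      (by rw [add_sub_cancel, e]; exact hy l) h8
    exact hD.omega_le_of_RS hQ hne h3 hX hu hu0 hu1 (hp l z)
      (fun e => h8 (by rw [e, map_zero])) h9
  by_cases e1 : Q (π l x) = Q x
  swap
  · exact key l x h rfl hl0 e1
  obtain ⟨j, hj, hj0⟩ : ∃ j, j ≠ l ∧ π j x ≠ 0 := by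
    by_contra hc
    push Not at hc
    exact hx l (hπ.mem_iff.2 hc)
  by_cases e2 : Q (π j x) = Q x
  swap
  · exact key j x h rfl hj0 e2
  obtain ⟨β, hβ0, hβ⟩ := exists_mul_self_ne_one (F := F) (by omega)
  obtain ⟨p, hp1, h6, h7⟩ := exists_Q_eq_perp_ns hQ h2 (hD.nondeg l) (h3 l) (hπ.mem l x) hl
    (Q x - β / 2 * (β / 2) * Q x)
  have hy1 := add_mem ((D l).smul_mem (β / 2) (hπ.mem l x)) hp1
  have h8 : Q ((β / 2) • π l x + p) = Q x := by
    rw [Q_add, Q_smul, polar_smul_left, h6, h7, e1]; simp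
  have h9 := (hy l _ hy1 h8).refl_apply h
  have h10 : π j ((refl Q x).1 ((β / 2) • π l x + p)) = (-β) • π j x := by
    rw [refl_apply, map_sub, hπ.other j l hj _ hy1, map_smul, polar_comm,
      ← show polar Q _ (π l x) = polar Q _ x from hD.B_proj hπ hy1 x, polar_add_left,
      polar_smul_left, polar_comm Q p, h6, polar_self', e1]
    rw [show (Q x)⁻¹ * ((β / 2) • (2 * Q x) + 0) = β by have := h.1; simp only [smul_eq_mul]; field_simp; ring]
    module
  refine key j _ h9 ((orth_Q _ _).trans h8) ?_ ?_ <;> rw [h10]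
  · exact smul_ne_zero (neg_ne_zero.2 hβ0) hj0
  · rw [Q_smul, e2, neg_mul_neg]
    exact fun e => hβ (mul_right_cancel₀ h.1 (e.trans (one_mul _).symm))

theorem RR.isSquare (hQ : QNondeg Q) (hne : NotExc F V) (hX : X ≤ OmegaV Q) {x y : V}
    (h : RR Q X x y) : IsSquare (Q x * Q y) := by
  have := ((mem_commutator_iff hQ hne _).1 (mem_OmegaV.1 (hX h.2.2))).2
  rwa [map_mul, spinor_refl hQ hne h.1, spinor_refl hQ hne h.2.1, ← qsign_mul h.1 h.2.1,
    qsign_eq_one] at this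

theorem OrthDec.isMaximalIn_big [Nontrivial κ] (hD : OrthDec 𝓒 D) (hQ : QNondeg Q)
    (hV : 5 ≤ finrank F V) (hb : ∀ i, Big Q (D i)) :
    Cfsg.Geo.IsMaximalIn (OmegaV Q) (decStab D ⊓ OmegaV Q) := by
  have hne : NotExc F V := Or.inr (by omega)
  refine isMaximalIn_of _ _ inf_le_right
    (fun e => (spec_quad hQ hne).not_le_decStab hV hD (e.trans inf_le_left))
    fun M h2 h3 g hg hg' => ?_
  by_contra hc
  have hN : NoNew Q M D := ⟨h3.trans OmegaV_le, hD.nondeg, hD.orth, hD.rr hQ h2, fun i a ha x h => by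
    by_contra hx
    push Not at hx
    exact hc (hD.omega_le_of_rr hQ hne hb h2 ha h (h.isSquare hQ hne h3) hx)⟩
  refine hg' ⟨mem_decStab_of_exists hD.injective fun i => ?_, h3 hg⟩
  obtain ⟨j, hj⟩ := hN.exists_map_le hQ (fun x hx => by
    by_contra h
    push Not at h
    exact hx i (hD.eq_zero hQ (fun l => h l (hb l)) ▸ zero_mem _)) hg (hb i)
  refine ⟨j, Submodule.eq_of_le_of_finrank_eq (Submodule.map_le_iff_le_comap.2 hj) ?_⟩
  rw [finrank_map_equiv, (hD.iso i j).finrank_eq]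

end Fam

end H12
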