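import Cfsg.Agent.H12.ExA
import Cfsg.Agent.H12.RQ3
import Cfsg.Agent.H12.Char2
import Cfsg.Agent.H12.DecSL

/-!
# Overgroups of the orthogonal group over an extension field: recognition of `Ω`
-/

set_option autoImplicit false
set_option maxHeartbeats 400000

namespace H12

open Module H11 H13.KL QuadraticMap

section
variable {F : Type*} [Field F] {V : Type*} [AddCommGroup V] [Module F V]
  {Q : QuadraticForm F V} {X : Subgroup (V ≃ₗ[F] V)}

theorem ei_of_eq {u w : V} (hu : Q u = 0) (hw : polar Q u w = 0) {g : V ≃ₗ[F] V} (hg : g ∈ X)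
    (e : ∀ x, g x = x + polar Q w x • u - polar Q u x • w - (Q w * polar Q u x) • u) :
    Ei Q X u w :=
  ⟨hu, hw, by rwa [show (eich Q u w).1 = g from LinearEquiv.ext fun x => by rw [e, eich_apply hu hw]]⟩

theorem exists_sing_ne_ne [FiniteDimensional F V] (hQ : QNondeg Q) {u v : V} (hu : u ≠ 0)
    (hv : v ≠ 0) (hu0 : Q u = 0) (h : polar Q u v = 0) :
    ∃ y, Q y = 0 ∧ polar Q u y ≠ 0 ∧ polar Q v y ≠ 0 := by
  obtain ⟨y, -, a1, a2⟩ := hQ.exists_perp_ne_ne (U := ⊥) hu hv
  rw [CForm.ofQuad_B] at a1 a2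
  refine ⟨y - (Q y / polar Q u y) • u, ?_, ?_, ?_⟩
  · rw [Q_sub, Q_smul, hu0, polar_smul_right, polar_comm Q y, smul_eq_mul, div_mul_cancel₀ _ a1]
    ring
  · simpa [polar_self', hu0] using a1
  · simpa [polar_comm Q v u, h] using a2

end

variable {F E V : Type*} [Field F] [Field E] [Algebra F E] [AddCommGroup V] [Module F V]
  [Module E V] [IsScalarTower F E V] {Q : QuadraticForm F V} {R : QuadraticForm E V}
  {l : Dual F E} {X : Subgroup (V ≃ₗ[F] V)} {g : V ≃ₗ[F] V} {z : V}

local notation "𝓒" => CForm.ofQuad Q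
local notation "𝓓" => CForm.ofQuad R

theorem exists_dual_pair (hl : l ≠ 0) {s : E} (hs : ∀ c, algebraMap F E c ≠ s) :
    ∃ d, l d = 0 ∧ l (s * d) = 1 := by
  by_contra hc
  push Not at hc
  obtain ⟨d₀, h0⟩ : ∃ d, l d = 1 := LinearMap.surjective hl 1
  refine hs (l (s * d₀)) (eq_of_dual hl fun d => ?_)
  by_contra h1
  refine hc ((l (s * (d - l d • d₀)))⁻¹ • (d - l d • d₀)) (by simp [h0]) ?_
  rw [mul_smul_comm, map_smul, smul_eq_mul, inv_mul_cancel₀]
  rw [mul_sub, map_sub, mul_smul_comm, map_smul, sub_ne_zero, mul_comm s d]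
  rw [mul_comm, ← Algebra.smul_def, map_smul] at h1
  simpa [mul_comm] using Ne.symm h1

theorem le_of_inv_F [Finite E] [FiniteDimensional E V] (hR : QNondeg R) (h2 : (2 : F) ≠ 0)
    {S : Submodule E V} (hS : (𝓓).NondegOn S) (h3 : 3 ≤ finrank E S) {W : Submodule F V}
    (hW : ∀ u ∈ S, ∀ b ∈ S, R u = 0 → polar R u b = 0 → ∀ r ∈ W, (eich R u b).1 r ∈ W) {y : V}
    (hy : y ∈ W) (hy' : y ∉ (𝓓).perp S) : ∀ x ∈ S, x ∈ W := by
  let W' : Submodule E V :=
    { carrier := {x | ∀ e : E, e • x ∈ W}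
      add_mem' := fun a b e => by rw [smul_add]; exact add_mem (a e) (b e)
      zero_mem' := fun e => by simp
      smul_mem' := fun c x a e => by rw [smul_smul]; exact a _ }
  obtain ⟨a, a1, a2, a3⟩ := exists_singular_not_mem hS (S := (𝓓).perp (Submodule.span E {y}))
    (by simpa using (iso3_quad R).exists_not_mem S ⊥ (by simpa using h3))
    (fun e => hy' ((𝓓).le_perp_comm.1 e (Submodule.mem_span_singleton_self y)))
  rw [CForm.mem_perp_singleton, CForm.ofQuad_B, polar_comm] at a3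
  obtain ⟨b, b1, b2⟩ := exists_mem_not_mem (H := Submodule.span E {a})
    (W := S ⊓ (𝓓).perp (Submodule.span E {a})) (by
      have := hR.finrank_inf_perp S (Submodule.span E {a})
      have := finrank_span_singleton_le (F := E) a
      omega)
  have b3 : polar R a b = 0 := (𝓓).mem_perp_singleton.1 b1.2
  have r1 : polar R b y • a - polar R a y • b ∈ W' := fun e => by
    have c := fun e : E => hW a a1 _ (S.smul_mem e b1.1) a2 (by simp [b3]) y hy
    convert W.smul_mem (2 : F)⁻¹ (sub_mem (c e) (c (-e))) using 1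
    rw [eq_inv_smul_iff₀ h2, eich_apply a2 (by simp [b3]), eich_apply a2 (by simp [b3]), Q_smul,
      Q_smul, polar_smul_left, polar_smul_left, two_smul, smul_eq_mul, smul_eq_mul]
    module
  have := le_of_eich_inv hR hS h3 (W := W') (fun u u1 b b1 u2 b2 r hr e => by
    rw [← map_smul]; exact hW u u1 b b1 u2 b2 _ (hr e)) r1 fun e => b2 (by
      have := sub_eq_zero.1 (hS.eq_zero (sub_mem (S.smul_mem _ a1) (S.smul_mem _ b1.1)) e)
      exact Submodule.mem_span_singleton.2 ⟨(polar R a y)⁻¹ * polar R b y, by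
        rw [mul_smul, this, inv_smul_smul₀ a3]⟩)
  exact fun x hx => by simpa using this hx 1

variable (Q R l X) in
/-- An overgroup of the orthogonal group over an extension field. -/
structure EO : Prop where
  ne : l ≠ 0
  eq : ∀ x, Q x = l (R x)
  nd : QNondeg R
  two : (2 : F) ≠ 0
  le : X ≤ orth Q
  res : ∀ g ∈ OmegaV R, res F E V g ∈ X
  dim : 4 ≤ finrank E V

namespace EO

variable (h : EO Q R l X)
include h

theorem pol (x y : V) : polar Q x y = l (polar R x y) := by simp [polar, h.eq]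

theorem twoE : (2 : E) ≠ 0 := by
  rw [← map_ofNat (algebraMap F E) 2]; exact (map_ne_zero _).2 h.two

theorem fd : FiniteDimensional E V := FiniteDimensional.of_finrank_pos (by have := h.dim; omega)

theorem ne' : NotExc E V := have := h.fd; notExc_of_two_ne_zero h.twoE

theorem perp_iff {x y : V} : polar R x y = 0 ↔ ∀ k : E, polar Q (k • x) y = 0 :=
  ⟨fun e k => by simp [h.pol, e], fun e => eq_zero_of_dual h.ne fun k => by
    simpa [h.pol] using e k⟩

theorem ndQ : QNondeg Q := fun x hx => h.nd x fun y => by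
  rw [CForm.ofQuad_B, polar_comm, h.perp_iff]
  exact fun k => by rw [polar_comm]; exact hx _

theorem sing (hz : R z = 0) {x : V} (hx : x ∈ eL F E z) : R x = 0 := by
  obtain ⟨a, rfl⟩ := mem_eL.1 hx
  rw [Q_smul, hz, mul_zero]

theorem ts (hz : R z = 0) {x y : V} (hx : x ∈ eL F E z) (hy : y ∈ eL F E z) : polar Q x y = 0 := by
  obtain ⟨a, rfl⟩ := mem_eL.1 hx
  obtain ⟨b, rfl⟩ := mem_eL.1 hy
  simp [h.pol, polar_self', hz]

theorem pol_map (hg : g ∈ X) (x y : V) : polar Q (g x) (g y) = polar Q x y :=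
  orth_polar ⟨g, h.le hg⟩ x y

theorem eich_mem {u w : V} (hu : R u = 0) (hw : polar R u w = 0) :
    H13.KL.res F E V (eich R u w).1 ∈ X :=
  have := h.fd; h.res _ (eich_mem_OmegaV h.nd h.ne' hu hw)

theorem rho {y : V} (hz : R z = 0) (hy : polar R z y = 0) : ∃ t ∈ X,
    (∀ v ∈ eL F E z, t v = v) ∧ (∀ x, polar R z x = 0 → t x = x + polar R y x • z) ∧
      ∀ x, t x = x + polar R y x • z - polar R z x • y - (R y * polar R z x) • z := by
  refine ⟨_, h.eich_mem hz hy, fun v hv => ?_, fun x hx => ?_, eich_apply hz hy⟩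
  · obtain ⟨a, rfl⟩ := mem_eL.1 hv
    simp [eich_apply hz hy, polar_self', hz, polar_comm R y, hy]
  · simp [eich_apply hz hy, hx]

theorem not_two_mul {s : E} (hs : ∀ c, algebraMap F E c ≠ s) (c : F) :
    algebraMap F E c ≠ 2 * s := fun e => hs (c / 2) (by
  rw [map_div₀, e, map_ofNat, mul_div_cancel_left₀ _ h.twoE])

variable [Finite E]

theorem trans {u v : V} (hu : u ≠ 0) (hv : v ≠ 0) (e : R v = R u) :
    ∃ k ∈ X, (∀ s : E, k (s • u) = s • v) ∧ ∀ x y, polar R (k x) (k y) = polar R x y := by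
  have := h.fd
  obtain ⟨k, hk, e⟩ := (spec_quad h.nd h.ne').witt_one h.dim hu hv e
  exact ⟨_, h.res k hk, fun s => by simp [e], orth_polar ⟨k, OmegaV_le hk⟩⟩

theorem perp_dim {u : V} (hu : R u ≠ 0) :
    (𝓓).NondegOn ((𝓓).perp (Submodule.span E {u})) ∧
      3 ≤ finrank E ((𝓓).perp (Submodule.span E {u})) := by
  have := h.fd
  have h1 := h.nd.finrank_add_finrank_perp (Submodule.span E {u})
  have := finrank_span_singleton_le (F := E) u
  have := h.dim
  exact ⟨h.nd.nondegOn_perp (nondegOn_singleton h.twoE hu), by omega⟩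

theorem mem_of_inv {u y : V} (hu : R u ≠ 0) {W : Submodule F V}
    (hW : ∀ t ∈ X, t u = u → ∀ r ∈ W, t r ∈ W) (hy : y ∈ W) (hy' : y ∉ eL F E u) {x : V}
    (hx : polar R u x = 0) : x ∈ W := by
  have := h.fd
  refine le_of_inv_F h.nd h.two (h.perp_dim hu).1 (h.perp_dim hu).2 (fun a a1 b b1 a2 b2 r hr =>
    hW _ (h.eich_mem a2 b2) ?_ r hr) hy (by rwa [h.nd.perp_perp]) x ((𝓓).mem_perp_singleton.2 hx)
  exact eich_apply_of_orth a2 b2 ((𝓓).B_swap_zero ((𝓓).mem_perp_singleton.1 a1))
    ((𝓓).B_swap_zero ((𝓓).mem_perp_singleton.1 b1))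

variable [Finite F] [FiniteDimensional F V]

theorem omega_le {w : V} {s : E} (hw : w ≠ 0) (hw0 : R w = 0) (hs : ∀ c, algebraMap F E c ≠ s)
    (h1 : Ei Q X w (s • w)) : OmegaV Q ≤ X := by
  have := h.fd
  have hd := h.dim
  have a1 : ∀ u, u ≠ 0 → R u = 0 → s • u ∈ RS Q X u := fun u hu hu0 e c => by
    have key : ∀ a : F, Ei Q X u ((a * a) • s • u) := fun a => by
      by_cases ha : a = 0
      · simpa [ha] using ei_zero_right e
      obtain ⟨k, k1, k2, -⟩ := h.trans hw (v := a • u) (smul_ne_zero ha hu) (by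
        rw [← algebraMap_smul E, Q_smul, hu0, hw0, mul_zero])
      have := h1.conj k1 (h.le k1)
      rw [k2, show k w = a • u by simpa using k2 1, smul_comm] at this
      rw [mul_smul]
      exact this.smul_right e (by simp [h.ts hu0 (self_mem_eL u) (smul_mem_eL s u)])
    obtain ⟨x, y, e⟩ := exists_sq_add_sq h.two one_ne_zero one_ne_zero c
    rw [← e, mul_one, mul_one, add_smul]
    exact (key x).add (key y)
  obtain ⟨d, d1, d2⟩ := exists_dual_pair h.ne hs
  have d0 : d ≠ 0 := by rintro rfl; simp at d2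
  obtain ⟨f, f1, f2⟩ := exists_hyp_partner h.nd hw hw0
  obtain ⟨p, p1, p2⟩ : ∃ p, R p = 0 ∧ polar R p w = d :=
    ⟨d • f, by rw [Q_smul, f1, mul_zero], by simp [polar_comm R f, f2]⟩
  have p0 : p ≠ 0 := by rintro rfl; simp [d0.symm] at p2
  obtain ⟨g1, g2, g3⟩ := RS.ei (a1 p p0 p1) (by simp [h.eq, p1])
  have a2 := RS.conj (a1 w hw hw0) g3 (h.le g3)
  have e0 : Q (s • p) = 0 := by simp [h.eq, Q_smul, p1]
  rw [eich_apply g1 g2, eich_apply g1 g2] at a2
  simp only [h.pol, polar_smul_left, polar_smul_right, p2, smul_eq_mul, d1, d2, e0, zero_mul,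
    zero_smul, one_smul, sub_zero] at a2
  have u1 : R (w + p) = d := by rw [Q_add, hw0, p1, polar_comm, p2]; ring
  have u2 : Q (w + p) = 0 := by rw [h.eq, u1, d1]
  have a3 : ∀ x, polar R (w + p) x = 0 → x ∈ RS Q X (w + p) := fun x hx =>
    h.mem_of_inv (u1 ▸ d0) (fun t t1 t2 r hr => by
      simpa only [t2] using RS.conj hr t1 (h.le t1)) a2 (fun e => by
        obtain ⟨c, hc⟩ := mem_eL.1 e
        have b1 := congrArg (polar R p) hc
        have b2 := congrArg (polar R w) hc
        rw [← algebraMap_smul E (l _)] at b1 b2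
        simp only [polar_add_right, polar_sub_right, polar_smul_right, polar_self', p1, hw0,
          polar_comm R w p, p2, smul_eq_mul] at b1 b2
        exact h.not_two_mul hs (l (s * (s * d))) (mul_right_cancel₀ d0 (by
          linear_combination b1 - b2))) hx
  generalize w + p = u at u1 u2 a3
  have u0 : u ≠ 0 := by rintro rfl; simp [d0.symm] at u1
  have a4 : Fu Q X ⊤ u := fun x _ hx => by
    obtain ⟨e, he⟩ : ∃ e : E, polar R u (x - e • u) = 0 :=
      ⟨polar R u x / (2 * d), by simp [polar_self', u1, h.twoE, d0]⟩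
    obtain ⟨n, n1, n2⟩ := exists_Q_eq_perp h.nd [u] (by simpa using hd) (d - e * e * d)
    replace n1 := n1 u (by simp)
    have q1 : R (e • u + n) = R u := by simp [Q_add, Q_smul, n1, n2, u1]
    obtain ⟨k, k1, k2, k3⟩ := h.trans u0 (v := e • u + n) (fun e => d0 (by
      rw [← u1, ← q1, e, map_zero])) q1
    replace k2 : k u = e • u + n := by simpa using k2 1
    obtain ⟨y, y1, y2⟩ : ∃ y ∈ (𝓓).perp (spanL E [u, n]), y ∉ spanL E [u, n] := by
      by_contra hc
      push Not at hc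
      have b1 := h.nd.finrank_add_finrank_perp (spanL E [u, n])
      have b2 := finrank_span_list_le (F := E) [u, n]
      have := Submodule.eq_of_le_of_finrank_le hc (by simp only [List.length] at b2; omega)
      have b3 := mem_perp_spanL.1 (this ▸ mem_spanL (x := u) (by simp)) u (by simp)
      rw [CForm.ofQuad_B, polar_self', u1] at b3
      exact mul_ne_zero h.twoE d0 b3
    obtain ⟨c₀, hc₀⟩ : ∃ c, l c = 1 := LinearMap.surjective h.ne 1
    obtain ⟨v, v1, v2⟩ := h.nd.exists_perp_eq y2 c₀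
    simp only [mem_perp_spanL, List.mem_cons, List.not_mem_nil, or_false, forall_eq_or_imp,
      forall_eq, CForm.ofQuad_B] at y1 v1 v2
    have b1 : y ∈ RS Q X (e • u + n) := by
      have := RS.conj (a3 (k⁻¹ y) (by rw [← k3, k2, apply_inv_apply]; simp [y1])) k1 (h.le k1)
      rwa [k2, apply_inv_apply] at this
    have b2 : polar Q (e • u + n) u = 0 := by
      rw [polar_comm, h.pol, ← hx, h.pol]
      simp only [polar_sub_right, polar_add_right, n1] at he ⊢
      rw [add_zero, sub_eq_zero.1 he]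
    have b3 : e • u + n ∈ RS Q X u := fun _ c => by
      have := (RS.ei b1 (by rw [h.eq, q1, ← h.eq, u2])).conj_ei (a3 v v1.1 u2 c) b2
        (by rw [h.pol, polar_comm, y1.1, map_zero])
      simpa [h.pol, v1, v2, hc₀] using this
    refine RS.ei ?_ u2
    convert add_mem (sub_mem b3 (a3 n n1)) (a3 _ he) using 1
    abel
  obtain ⟨c₀, hc₀⟩ : ∃ c, l c = 1 := LinearMap.surjective h.ne 1
  obtain ⟨n, n1, n2⟩ := exists_Q_eq_perp h.nd [u] (by simpa using hd)
    (d - c₀ / (2 * d) * (c₀ / (2 * d)) * d)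
  replace n1 := n1 u (by simp)
  have q1 : R ((c₀ / (2 * d)) • u + n) = R u := by simp [Q_add, Q_smul, n1, n2, u1]
  obtain ⟨k, k1, k2, -⟩ := h.trans u0 (fun e => d0 (by rw [← u1, ← q1, e, map_zero])) q1
  refine a4.omega_le h.ndQ (notExc_of_two_ne_zero h.two) ?_ u2 k1 (h.le k1) ?_
  · have := finrank_mul_finrank F E V
    have : 0 < finrank F E := finrank_pos
    nlinarith
  · rw [← one_smul E u, k2, h.pol]
    simp [polar_self', n1, u1, h.twoE, d0, hc₀]

end EO

end H12
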