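import Cfsg.Agent.H12.ExO1

/-!
# Extension-field subgroups of orthogonal groups are maximal
-/

set_option autoImplicit false
set_option maxHeartbeats 400000

namespace H12

open Module H11 H13.KL QuadraticMap

theorem maxPair_conj {F V : Type*} [Field F] [AddCommGroup V] [Module F V] [FiniteDimensional F V]
    {X : Subgroup (V ≃ₗ[F] V)} {L : Submodule F V} {g t : V ≃ₗ[F] V} (h : MaxPair X L g)
    (ht : t ∈ X) (hW : ∀ w ∈ L, g⁻¹ w ∈ L → g⁻¹ (t⁻¹ w) ∈ L) (hn : g⁻¹ * t * g ∉ glStab L) :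
    MaxPair X L (g⁻¹ * t * g) := by
  refine ⟨mul_mem (mul_mem (inv_mem h.mem) ht) h.mem, hn, fun k a b => (h.max k a b).trans ?_⟩
  rw [← LinearEquiv.finrank_map_eq g⁻¹]
  refine Submodule.finrank_mono ?_
  rintro _ ⟨w, hw, rfl⟩
  refine ⟨mem_map_iff.1 hw.2, mem_map_iff.2 ?_⟩
  rw [mul_inv_rev, mul_inv_rev, inv_inv]
  change g⁻¹ (t⁻¹ (g (g⁻¹ w))) ∈ L
  rw [apply_inv_apply]
  exact hW w hw.1 (mem_map_iff.1 hw.2)

variable {F E V : Type*} [Field F] [Field E] [Algebra F E] [AddCommGroup V] [Module F V]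
  [Module E V] [IsScalarTower F E V] {Q : QuadraticForm F V} {R : QuadraticForm E V}
  {l : Dual F E} {X : Subgroup (V ≃ₗ[F] V)} {g : V ≃ₗ[F] V} {z : V}

local notation "𝓒" => CForm.ofQuad Q
local notation "𝓓" => CForm.ofQuad R

namespace EO

variable (h : EO Q R l X) [Finite E] [Finite F] [FiniteDimensional F V]
include h

theorem eq_or_le (hr : 2 ≤ finrank F E) (hz : R z = 0) (hz0 : z ≠ 0)
    (ht : ∀ φ, ∀ w ∈ eL F E z, polar Q φ w = 0 →
      ∃ t ∈ X, ∀ v ∈ eL F E z, t v = v + polar Q φ v • w) {β : V ≃ₗ[F] V} (hβ : β ∈ X)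
    (hS : ∀ x, β x - x ∈ eL F E z) : β = 1 ∨ OmegaV Q ≤ X := by
  by_cases h0 : β = 1
  · exact Or.inl h0
  right
  obtain ⟨φ, hφ⟩ : ∃ φ, β φ - φ ≠ 0 := by
    by_contra! hc
    exact h0 (LinearEquiv.ext fun x => sub_eq_zero.1 (hc x))
  have sk : ∀ x y, polar Q (β x - x) y = -polar Q x (β y - y) := fun x y => by
    have a1 := h.pol_map hβ x y
    have a2 := h.ts hz (hS x) (hS y)
    simp only [polar_sub_left, polar_sub_right] at a2 ⊢
    linear_combination a1 - a2
  have fin : ∀ u ∈ eL F E z, ∀ w ∈ eL F E z, w ∉ Submodule.span F {u} → u ≠ 0 → Ei Q X u w →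
      OmegaV Q ≤ X := fun u u1 w w1 w2 u0 e => by
    obtain ⟨s, rfl⟩ := mem_eL.1 (eL_eq u1 u0 ▸ w1)
    exact h.omega_le u0 (h.sing hz u1) (fun c e => w2 (Submodule.mem_span_singleton.2
      ⟨c, by rw [← e, algebraMap_smul]⟩)) e
  have q0 : ∀ u ∈ eL F E z, Q u = 0 := fun u hu => by rw [h.eq, h.sing hz hu, map_zero]
  have a0 : polar Q φ (β φ - φ) = 0 := by
    have := sk φ φ
    rw [polar_comm, eq_neg_iff_add_eq_zero, ← two_mul] at this
    exact (mul_eq_zero.1 this).resolve_left h.two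
  obtain ⟨u, hu⟩ : ∃ u, u = β φ - φ := ⟨_, rfl⟩
  have u1 : u ∈ eL F E z := hu ▸ hS φ
  rw [← hu] at hφ a0
  by_cases hc : ∀ w ∈ eL F E z, polar Q φ w = 0 → w ∈ Submodule.span F {u}
  swap
  · push Not at hc
    obtain ⟨w, w1, w2, w3⟩ := hc
    obtain ⟨t, t1, t2⟩ := ht φ w w1 w2
    obtain ⟨k, k1, k2⟩ := rq_of_comm (C := 𝓒) h.ndQ h.le (M := eL F E z)
      (fun x a y b => h.ts hz a b) t1 hβ w1 t2 hS
    refine fin u u1 w w1 w3 hφ (ei_of_eq (q0 u u1) (h.ts hz u1 w1) k1 fun x => ?_)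
    rw [k2, ← hu, q0 w w1, CForm.ofQuad_B, CForm.ofQuad_B, CForm.ofQuad_B, a0]
    simp [quadType, polar_comm Q x]
  obtain ⟨κ, hκ⟩ := exists_not_mem_range hr
  have b1 : κ • u ∉ Submodule.span F {u} := fun e => by
    obtain ⟨c, e⟩ := Submodule.mem_span_singleton.1 e
    rw [← algebraMap_smul E] at e
    exact hκ c (smul_left_injective E hφ e)
  obtain ⟨w, w1, w2⟩ : ∃ w ∈ eL F E z, polar Q φ w = 1 :=
    ⟨(polar Q φ (κ • u))⁻¹ • κ • u, Submodule.smul_mem _ _ (eL_smul κ u1), by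
      rw [polar_smul_right, smul_eq_mul, inv_mul_cancel₀ fun e => b1 (hc _ (eL_smul κ u1) e)]⟩
  have key : ∀ x, ∃ c : F, c • u = β x - x - (polar Q w x • u - polar Q u x • w) := fun x =>
    Submodule.mem_span_singleton.1 (hc _ (sub_mem (hS x) (sub_mem (Submodule.smul_mem _ _ u1)
      (Submodule.smul_mem _ _ w1))) (by
        rw [polar_sub_right, ← neg_neg (polar Q φ (β x - x)), ← sk, ← hu]; simp [a0, w2]))
  choose c hc' using key
  obtain ⟨y, hy⟩ := h.ndQ.exists_eq hφ 1
  rw [CForm.ofQuad_B] at hy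
  have b2 : ∀ x, c x = -(c y * polar Q u x) := fun x => by
    have e1 := congrArg (polar Q · y) (hc' x)
    have e2 := congrArg (polar Q x) (hc' y)
    simp only [polar_smul_left, polar_smul_right, polar_sub_left _ (β x - x),
      polar_sub_right _ _ (β y - y), sk, polar_sub_left _ (_ • u), polar_sub_right _ _ (_ • u), hy,
      smul_eq_mul, polar_comm Q x u, polar_comm Q x w] at e1 e2
    linear_combination e1 + e2
  have b3 : c y = 0 := by
    have := b2 y
    rw [hy, mul_one, eq_neg_iff_add_eq_zero, ← two_mul] at this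
    exact (mul_eq_zero.1 this).resolve_left h.two
  refine fin u u1 w w1 (fun e => ?_) hφ (ei_of_eq (q0 u u1) (h.ts hz u1 w1) hβ fun x => ?_)
  · obtain ⟨a, rfl⟩ := Submodule.mem_span_singleton.1 e
    simp [a0] at w2
  · have := hc' x
    rw [b2, b3, zero_mul, neg_zero, zero_smul, eq_comm, sub_eq_zero, sub_eq_iff_eq_add] at this
    rw [this, q0 w w1]
    module

theorem le_of_tau (hr : 2 ≤ finrank F E) (hz : R z = 0) {φ w : V} (hw : w ∈ eL F E z)
    (hw0 : w ≠ 0) (h0 : polar Q φ w = 0) (hφ : polar R φ z ≠ 0)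
    (ht : ∀ w ∈ eL F E z, polar Q φ w = 0 → ∃ t ∈ X, ∀ v ∈ eL F E z, t v = v + polar Q φ v • w) :
    OmegaV Q ≤ X := by
  have := h.fd
  have hz0 : z ≠ 0 := by rintro rfl; simp at hφ
  have all : ∀ ψ, ∀ w ∈ eL F E z, polar Q ψ w = 0 →
      ∃ t ∈ X, ∀ v ∈ eL F E z, t v = v + polar Q ψ v • w := fun ψ w w1 w2 => by
    by_cases e : polar R ψ z = 0
    · refine ⟨1, one_mem _, fun v hv => ?_⟩
      obtain ⟨a, rfl⟩ := mem_eL.1 hv
      simp [h.pol, e]
    obtain ⟨c, c0, hc⟩ : ∃ c : E, c ≠ 0 ∧ polar R ψ z = c * polar R φ z :=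
      ⟨_, div_ne_zero e hφ, (div_mul_cancel₀ _ hφ).symm⟩
    have a1 : ∀ v ∈ eL F E z, polar Q φ (c • v) = polar Q ψ v := fun v hv => by
      obtain ⟨a, rfl⟩ := mem_eL.1 hv
      simp [h.pol, hc, mul_left_comm]
    obtain ⟨k, k1, k2, -⟩ := h.trans (smul_ne_zero c0 hz0) hz0 (by rw [Q_smul, hz, mul_zero])
    have a2 : ∀ v ∈ eL F E z, k (c • v) = v := fun v hv => by
      obtain ⟨a, rfl⟩ := mem_eL.1 hv
      rw [smul_comm, k2]
    obtain ⟨t, t1, t2⟩ := ht (c • w) (eL_smul c w1) (by rw [a1 w w1, w2])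
    refine ⟨k * t * k⁻¹, mul_mem (mul_mem k1 t1) (inv_mem k1), fun v hv => ?_⟩
    conv_lhs => rw [← a2 v hv]
    rw [LinearEquiv.mul_apply, LinearEquiv.mul_apply, inv_apply_apply, t2 _ (eL_smul c hv),
      map_add, a2 v hv, map_smul, a1 v hv, a2 w w1]
  obtain ⟨t, t1, t2⟩ := ht w hw h0
  have t3 : ∀ v ∈ eL F E z, t v ∈ eL F E z := fun v hv => by
    rw [t2 v hv]; exact add_mem hv (Submodule.smul_mem _ _ hw)
  have t4 : ∀ v ∈ eL F E z, t⁻¹ v ∈ eL F E z := fun v hv => by
    have a := sub_mem hv (Submodule.smul_mem _ (polar Q φ v) hw)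
    have := t2 _ a
    simp only [polar_sub_right, polar_smul_right, h0, smul_zero, sub_zero, sub_add_cancel] at this
    rwa [← this, inv_apply_apply]
  have pp : ∀ k ∈ X, (∀ v ∈ eL F E z, k⁻¹ v ∈ eL F E z) → ∀ x, polar R z x = 0 →
      polar R z (k x) = 0 := fun k k1 k2 x hx => h.perp_iff.2 fun a => by
    obtain ⟨b, hb⟩ := mem_eL.1 (k2 _ (smul_mem_eL a z))
    rw [← apply_inv_apply k (a • z), h.pol_map k1, ← hb, h.perp_iff.1 hx]
  have t5 := pp t t1 t4
  have t6 := pp t⁻¹ (inv_mem t1) t3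
  obtain ⟨f, -, hf⟩ := exists_hyp_partner h.nd hz0 hz
  by_contra hn
  have key : ∀ y, polar R z y = 0 → ∃ y', polar R z y' = 0 ∧
      ∀ x, polar R z x = 0 → t (polar R y x • z) = polar R y' (t x) • z := fun y hy => by
    obtain ⟨ρ, r0, r1, r2, r3⟩ := h.rho hz hy
    obtain ⟨a, a0, ea⟩ : ∃ a ∈ X, ∀ x, a x = t (ρ (t⁻¹ x)) :=
      ⟨t * ρ * t⁻¹, mul_mem (mul_mem t1 r0) (inv_mem t1), fun _ => rfl⟩
    have a1 : ∀ v ∈ eL F E z, a v = v := fun v hv => by rw [ea, r1 _ (t4 v hv), apply_inv_apply]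
    have a2 : ∀ x, polar R z x = 0 → a x = x + t (polar R y (t⁻¹ x) • z) := fun x hx => by
      rw [ea, r2 _ (t6 x hx), map_add, apply_inv_apply]
    have a3 : ∀ x, polar R z (a x - x) = 0 := fun x => by
      have := t5 (ρ (t⁻¹ x) - t⁻¹ x) (by simp [r3, polar_self', hz, hy])
      rwa [map_sub, apply_inv_apply, ← ea] at this
    refine ⟨f - a f, by simpa using congrArg Neg.neg (a3 f), fun x hx => ?_⟩
    obtain ⟨b, b0, b1, b2, b3⟩ := h.rho hz (t5 x hx)
    have b4 : ∀ v, polar R z (b v - v) = 0 := fun v => by simp [b3, polar_self', hz, t5 x hx]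
    have c1 : ∀ v, a (b v) - b (a v) =
        t (polar R y (t⁻¹ (b v - v)) • z) - polar R (t x) (a v - v) • z := fun v => by
      have e1 := a2 _ (b4 v)
      have e2 := b2 _ (a3 v)
      rw [map_sub] at e1 e2
      linear_combination (norm := abel) e1 - e2
    have := (h.eq_or_le hr hz hz0 all (β := a * b * (b * a)⁻¹) (mul_mem (mul_mem a0 b0)
      (inv_mem (mul_mem b0 a0))) fun v => by
        obtain ⟨v, rfl⟩ := (b * a).surjective v
        rw [LinearEquiv.mul_apply, inv_apply_apply]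
        exact c1 v ▸ sub_mem (t3 _ (smul_mem_eL _ z)) (smul_mem_eL _ z)).resolve_right hn
    rw [mul_inv_eq_one] at this
    have c2 := c1 f
    rw [← LinearEquiv.mul_apply, this, LinearEquiv.mul_apply, sub_self, eq_comm, sub_eq_zero] at c2
    obtain ⟨e, he⟩ := mem_eL.1 (t4 _ (smul_mem_eL (polar R (t x) f - R (t x)) z))
    rw [show b f - f = (polar R (t x) f - R (t x)) • z - t x by rw [b3, hf]; module, map_sub,
      inv_apply_apply, ← he, polar_sub_right, polar_smul_right, polar_comm R y z, hy, smul_zero,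
      zero_sub, neg_smul, map_neg, neg_eq_iff_eq_neg] at c2
    rw [c2, ← neg_smul, ← polar_neg_right, neg_sub, polar_comm]
  obtain ⟨y, y1, y2⟩ := exists_mem_not_mem (H := Submodule.span E {z})
    (W := (𝓓).perp (Submodule.span E {z})) (by
      have := h.nd.finrank_add_finrank_perp (Submodule.span E {z})
      have := finrank_span_singleton_le (F := E) z
      have := h.dim
      omega)
  obtain ⟨u, u1, u2⟩ := h.nd.exists_perp_eq y2 1
  rw [CForm.mem_perp_singleton, CForm.ofQuad_B] at y1 u1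
  rw [CForm.ofQuad_B] at u2
  obtain ⟨a, ha⟩ := exists_not_mem_range hr
  obtain ⟨y₁, p1, p2⟩ := key y y1
  obtain ⟨y₂, q1, q2⟩ := key (a • y) (by simp [y1])
  obtain ⟨c, hc⟩ : ∃ c : E, y₂ - c • y₁ ∈ Submodule.span E {z} := by
    rw [← mem_sup_span_singleton]
    by_contra e
    obtain ⟨x, x1, x2⟩ := h.nd.exists_perp_eq e 1
    rw [CForm.perp_sup] at x1
    have x3 : polar R z x = 0 := (𝓓).mem_perp_singleton.1 x1.1
    have x4 : polar R y₁ x = 0 := (𝓓).mem_perp_singleton.1 x1.2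
    have e1 := p2 _ (t6 x x3)
    have e2 := q2 _ (t6 x x3)
    rw [apply_inv_apply] at e1 e2
    rw [x4, zero_smul, t.map_eq_zero_iff, smul_eq_zero_iff_left hz0] at e1
    rw [polar_smul_left, e1, smul_zero, zero_smul, map_zero, show polar R y₂ x = 1 from x2,
      one_smul] at e2
    exact hz0 e2.symm
  have fin : ∀ v ∈ eL F E z, a • v + polar Q φ (a • v) • w = c • (v + polar Q φ v • w) := by
    intro v hv
    rw [← t2 v hv, ← t2 _ (eL_smul a hv)]
    obtain ⟨b, rfl⟩ := mem_eL.1 hv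
    obtain ⟨d, hd⟩ := Submodule.mem_span_singleton.1 hc
    have e1 := p2 (b • u) (by simp [u1])
    have e2 := q2 (b • u) (by simp [u1])
    rw [← sub_add_cancel y₂ (c • y₁), ← hd, polar_add_left, polar_smul_left _ d,
      t5 _ (by simp [u1])] at e2
    simp only [polar_smul_left, polar_smul_right, u2, smul_eq_mul, mul_one, mul_zero,
      zero_add] at e1 e2
    rw [e1, smul_smul, smul_smul, mul_comm a, e2]
  have c1 := fin w hw
  rw [h0, zero_smul, add_zero, ← algebraMap_smul E (polar _ _ _), ← add_smul] at c1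
  obtain rfl := smul_left_injective E hw0 c1
  obtain ⟨m, hm⟩ : ∃ m, m = polar Q φ (a • w) := ⟨_, rfl⟩
  rw [← hm] at fin
  by_cases e : m = 0
  · obtain ⟨c₀, hc₀⟩ : ∃ c, l c = 1 := LinearMap.surjective h.ne 1
    have := fin _ (smul_mem_eL (c₀ / polar R φ z) z)
    rw [e, map_zero, add_zero, smul_add, add_right_inj, h.pol _ (_ • z), polar_smul_right,
      smul_eq_mul, div_mul_cancel₀ _ hφ, hc₀, one_smul, ← algebraMap_smul E (polar _ _ _)] at this
    exact ha _ (smul_left_injective E hw0 this)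
  · have := fin (a • w) (eL_smul a hw)
    rw [← hm, ← algebraMap_smul E m, ← algebraMap_smul E (polar _ _ _), smul_smul, ← add_smul,
      ← add_smul, smul_smul] at this
    have e0 := (map_ne_zero (algebraMap F E)).2 e
    refine h.not_two_mul ha ((polar Q φ ((a * a) • w) - m * m) / m) ?_
    rw [map_div₀, div_eq_iff e0, map_sub, map_mul]
    linear_combination smul_left_injective E hw0 this

theorem stab (hg : MaxPair X (eL F E z) g) {t : V ≃ₗ[F] V} (ht : t ∈ X)
    (hL : ∀ v ∈ eL F E z, t v = v) {x x' : V} (hx : x ∉ eL F E z) (h1 : g⁻¹ x ∈ eL F E z)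
    (h2 : g⁻¹ (t x - x) ∈ eL F E z) (h3 : g⁻¹ x' ∈ eL F E z) : g⁻¹ (t x' - x') ∈ eL F E z := by
  have := (hg.stab ht (fun v hv hv' => by rwa [hL v hv]) hx h1
    (by simpa only [← map_add, sub_add_cancel] using add_mem h2 h1) _).1 h3
  rw [LinearEquiv.mul_apply, LinearEquiv.mul_apply, apply_inv_apply] at this
  rw [map_sub]
  exact sub_mem this h3

theorem perp_of (hz : R z = 0) (hg : MaxPair X (eL F E z) g) {w : V} (hw : w ≠ 0)
    (hw1 : w ∈ eL F E z) (hw2 : g⁻¹ w ∈ eL F E z) {x x' : V} (hx : x ∉ eL F E z)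
    (h1 : g⁻¹ x ∈ eL F E z) (h2 : polar R z x = 0) (h3 : g⁻¹ x' ∈ eL F E z) :
    polar R z x' = 0 := by
  have := h.fd
  by_contra hd
  obtain ⟨y, y1, y2⟩ := exists_mem_not_mem (H := Submodule.span E {z})
    (W := (𝓓).perp (spanL E [z, x])) (by
      have := h.nd.finrank_add_finrank_perp (spanL E [z, x])
      have := finrank_span_singleton_le (F := E) z
      have := finrank_span_list_le (F := E) [z, x]
      have := h.dim
      simp only [List.length] at *
      omega)
  have y3 : polar R z y = 0 := mem_perp_spanL.1 y1 z (by simp)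
  have y4 : polar R y x = 0 := (𝓓).B_swap_zero (mem_perp_spanL.1 y1 x (by simp))
  obtain ⟨u, hu⟩ : ∃ u, u = polar R y x' • z - polar R z x' • y := ⟨_, rfl⟩
  have u1 : u ∉ eL F E z := fun e => y2 (by
    have := eL_smul (polar R z x')⁻¹ (sub_mem (smul_mem_eL (polar R y x') z) e)
    rwa [hu, sub_sub_cancel, inv_smul_smul₀ hd] at this)
  have key : eL F E u ≤ (eL F E z).map (g : V →ₗ[F] V) := fun v hv => by
    obtain ⟨e, rfl⟩ := mem_eL.1 hv
    have c : ∀ e : E, g⁻¹ (e • u - (e * e * R y * polar R z x') • z) ∈ eL F E z := fun e => by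
      obtain ⟨t, t0, t1, t2, t3⟩ := h.rho hz (y := e • y) (by simp [y3])
      convert h.stab hg t0 t1 hx h1 (by simp [t2 x h2, y4]) h3 using 2
      rw [t3, hu, Q_smul, polar_smul_left, smul_eq_mul]
      module
    refine mem_map_iff.2 ?_
    convert Submodule.smul_mem _ (2 : F)⁻¹ (sub_mem (c e) (c (-e))) using 1
    rw [eq_inv_smul_iff₀ h.two, ← map_sub, ← map_smul, two_smul]
    congr 1
    module
  have hz0 : z ≠ 0 := by rintro rfl; simp at hd
  have u0 := ne_zero_of_not_mem u1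
  have e1 : ∀ {v : V}, v ≠ 0 → finrank F (eL F E v) = finrank F E := fun {v} hv =>
    ((LinearEquiv.toSpanNonzeroSingleton E V v hv).restrictScalars F).finrank_eq.symm
  have := Submodule.eq_of_le_of_finrank_eq key (by rw [LinearEquiv.finrank_map_eq, e1 u0, e1 hz0])
  exact u1 (eL_eq hw1 hw ▸ eL_eq (this ▸ mem_map_iff.2 hw2 : w ∈ eL F E u) hw ▸ self_mem_eL u)

theorem le_of_perp (hr : (finrank F E).Prime) (hz : R z = 0) (hg : MaxPair X (eL F E z) g) {w : V}
    (hw : w ≠ 0) (hw1 : w ∈ eL F E z) (hw2 : g⁻¹ w ∈ eL F E z) {x : V} (hx : x ∉ eL F E z)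
    (h1 : g⁻¹ x ∈ eL F E z) (h2 : polar R z x = 0) : OmegaV Q ≤ X := by
  have := h.fd
  let Y := (eL F E z).map (g : V →ₗ[F] V)
  have hY : ¬ eL F E z ≤ Y := fun e => by
    obtain ⟨y, a1, a2⟩ := hg.inv.exists_not_mem
    exact a2 (by simpa [inv_apply_apply] using mem_map_iff.1 (e a1))
  have mv : ∀ (U : Submodule E V) x, x ∉ Submodule.span E {z} ⊔ U → ∀ k : E, ∃ y ∈ (𝓓).perp U,
      polar R z y = 0 ∧ polar R y x = k := fun U x hx k => by
    obtain ⟨y, a1, a2⟩ := h.nd.exists_perp_eq hx k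
    rw [CForm.perp_sup] at a1
    exact ⟨y, a1.2, (𝓓).mem_perp_singleton.1 a1.1, by rwa [polar_comm]⟩
  have key : ∀ y x', polar R z y = 0 → x' ∈ Y → polar R y x • z ∈ Y → polar R y x' • z ∈ Y :=
    fun y x' e a1 a2 => by
      obtain ⟨t, t0, t1, t2, -⟩ := h.rho hz e
      have := h.stab hg t0 t1 hx h1 (by rw [t2 x h2, add_sub_cancel_left]; exact mem_map_iff.1 a2)
        (mem_map_iff.1 a1)
      rw [t2 _ (h.perp_of hz hg hw hw1 hw2 hx h1 h2 (mem_map_iff.1 a1)), add_sub_cancel_left] at this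
      exact mem_map_iff.2 this
  have co : ∀ x' ∈ Y, ∃ c : F, x' - c • x ∈ eL F E z := fun x' a => by
    by_cases h3 : x' ∈ Submodule.span E {z} ⊔ Submodule.span E {x}
    · obtain ⟨s, hs⟩ := mem_sup_span_singleton.1 h3
      obtain ⟨c, rfl⟩ := eL_le_of_mul hr hw hw1 (mem_map_iff.2 hw2) hY (s := s) fun k hk => by
        obtain ⟨y, -, a1, a2⟩ := mv ⊥ x (by rwa [sup_bot_eq]) k
        obtain ⟨b, hb⟩ := Submodule.mem_span_singleton.1 hs
        have := key y x' a1 a (a2 ▸ hk)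
        rwa [← sub_add_cancel x' (s • x), ← hb, polar_add_right, polar_smul_right, polar_smul_right,
          polar_comm R y z, a1, a2, smul_zero, zero_add] at this
      exact ⟨c, by rwa [algebraMap_smul] at hs⟩
    · refine (hY fun y hy => ?_).elim
      obtain ⟨k, rfl⟩ := mem_eL.1 hy
      obtain ⟨y, a1, a2, a3⟩ := mv _ x' h3 k
      have a4 : polar R y x = 0 := (𝓓).B_swap_zero ((𝓓).mem_perp_singleton.1 a1)
      exact a3 ▸ key y x' a2 a (by simp [a4])
  obtain ⟨φ, a1, a2⟩ := h.ndQ.exists_perp_eq hx 1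
  rw [CForm.ofQuad_B, polar_comm] at a2
  replace a1 : ∀ v ∈ eL F E z, polar Q φ v = 0 := (𝓒).mem_perp'.1 a1
  have a3 : ∀ v, polar Q (g⁻¹ φ) v = polar Q φ (g v) := fun v => by
    rw [← h.pol_map hg.mem, apply_inv_apply]
  have a4 : ∀ v ∈ eL F E z, g v - polar Q φ (g v) • x ∈ eL F E z := fun v hv => by
    obtain ⟨c, hc⟩ := co (g v) (Submodule.mem_map_of_mem hv)
    have := a1 _ hc
    rw [polar_sub_right, polar_smul_right, a2, smul_eq_mul, mul_one, sub_eq_zero] at this
    rwa [this]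
  refine h.le_of_tau hr.two_le hz (φ := g⁻¹ φ) hw2 (by simpa using hw)
    (by rw [a3, apply_inv_apply, a1 w hw1]) (fun e => ?_) fun u u1 u2 => ?_
  · obtain ⟨b, hb⟩ := mem_eL.1 h1
    rw [← h.pol_map (inv_mem hg.mem), ← hb, h.pol, polar_smul_right, e] at a2
    simp at a2
  have u3 := a4 u u1
  rw [← a3, u2, zero_smul, sub_zero] at u3
  obtain ⟨k, hk⟩ := mem_eL.1 u3
  obtain ⟨y, -, b1, b2⟩ := mv ⊥ x (by rwa [sup_bot_eq]) k
  obtain ⟨t, t0, t1, t2, -⟩ := h.rho hz b1
  refine ⟨g⁻¹ * t * g, mul_mem (mul_mem (inv_mem hg.mem) t0) hg.mem, fun v hv => g.injective ?_⟩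
  have := t1 _ (a4 v hv)
  rw [map_sub, map_smul, t2 x h2, b2, hk, sub_eq_iff_eq_add] at this
  rw [LinearEquiv.mul_apply, LinearEquiv.mul_apply, apply_inv_apply, this, map_add, map_smul, a3]
  module

theorem le_of_maxPair (hr : (finrank F E).Prime) (hz : R z = 0) (hg : MaxPair X (eL F E z) g)
    {w : V} (hw : w ≠ 0) (hw1 : w ∈ eL F E z) (hw2 : g⁻¹ w ∈ eL F E z) : OmegaV Q ≤ X := by
  have := h.fd
  have := Fintype.ofFinite E
  have := Fintype.ofFinite F
  by_contra hn
  have hd : ∀ x, g⁻¹ x ∈ eL F E z → polar R z x = 0 → x ∈ eL F E z := fun x a b => by_contra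
    fun e => hn (h.le_of_perp hr hz hg hw hw1 hw2 e a b)
  obtain ⟨x, x1, x2⟩ := hg.exists_not_mem
  have d0 : polar R z x ≠ 0 := fun e => x2 (hd x x1 e)
  have hP : (𝓓).NondegOn (spanL E [z, x]) := fun v hv e => by
    obtain ⟨a, b, rfl⟩ := mem_spanL_pair.1 hv
    have e1 := e z (mem_spanL (by simp))
    have e2 := e x (mem_spanL (by simp))
    simp only [CForm.ofQuad_B, polar_add_left, polar_smul_left, polar_self', hz, mul_zero,
      smul_eq_mul, zero_add, polar_comm R x z, mul_eq_zero, d0, or_false] at e1 e2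
    simp only [e1, zero_mul, add_zero, mul_eq_zero, d0, or_false] at e2
    simp [e1, e2]
  obtain ⟨S, hS⟩ : ∃ S, S = (𝓓).perp (spanL E [z, x]) := ⟨_, rfl⟩
  have S1 : (𝓓).NondegOn S := hS ▸ h.nd.nondegOn_perp hP
  have S2 : 2 ≤ finrank E S := by
    have := h.nd.finrank_add_finrank_perp (spanL E [z, x])
    have := finrank_span_list_le (F := E) [z, x]
    have := h.dim
    simp only [List.length] at *
    rw [hS]
    omega
  have S3 : ∀ y ∈ S, polar R y z = 0 ∧ polar R y x = 0 := fun y hy =>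
    ⟨(𝓓).B_swap_zero (mem_perp_spanL.1 (hS ▸ hy) z (by simp)),
      (𝓓).B_swap_zero (mem_perp_spanL.1 (hS ▸ hy) x (by simp))⟩
  have hq : 4 ≤ Fintype.card E := by
    rw [Module.card_eq_pow_finrank (K := F)]
    exact (Nat.pow_le_pow_left Fintype.one_lt_card 2).trans
      (Nat.pow_le_pow_right Fintype.card_pos hr.two_le)
  have k1 : ∀ a ∈ S, R a ≠ 0 → ∀ x', g⁻¹ x' ∈ eL F E z → polar R a x' = 0 := by
    intro a a1 a2 x' a3
    obtain ⟨n, n1, n2⟩ := exists_nonsingular (h.nd.nondegOn_inf S1 (nondegOn_singleton h.twoE a2)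
      ((Submodule.span_singleton_le_iff_mem _ _).2 a1)) (ne_bot_of_finrank_pos (by
        have := h.nd.finrank_inf_perp S (Submodule.span E {a})
        have := finrank_span_singleton_le (F := E) a
        omega))
    have n3 : polar R a n = 0 := (𝓓).mem_perp_singleton.1 n1.2
    obtain ⟨r, s, r0, e⟩ := exists_conic h.twoE hq n2 a2 a2
    obtain ⟨b, hb⟩ : ∃ b, b = r • n + s • a := ⟨_, rfl⟩
    have b1 : b ∈ S := hb ▸ add_mem (S.smul_mem _ n1.1) (S.smul_mem _ a1)
    have b2 : R b = R a := by simp [hb, Q_add, Q_smul, polar_comm R n, n3, e]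
    have t0 := h.res _ (mem_OmegaV.2 (refl_mul_refl_mem_commutator h.nd a2 (b2 ▸ a2)
      ⟨R a, by rw [b2]⟩))
    have t1 : ∀ v, polar R a v = 0 → polar R b v = 0 →
        H13.KL.res F E V (refl R a * refl R b).1 v = v := fun v e1 e2 => by
      rw [res_apply, orth_mul_apply, refl_apply_of_orth e2, refl_apply_of_orth e1]
    have t2 := h.stab hg t0 (fun v hv => by
      obtain ⟨c, rfl⟩ := mem_eL.1 hv
      exact t1 _ (by simp [S3 a a1]) (by simp [S3 b b1])) x2 x1
      (by rw [t1 x (S3 a a1).2 (S3 b b1).2]; simp) a3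
    rw [res_apply, orth_mul_apply] at t2
    obtain ⟨y, hy⟩ : ∃ y, y = (refl R a).1 ((refl R b).1 x') - x' := ⟨_, rfl⟩
    have y1 : y ∈ S := by
      rw [hy, refl_apply, refl_apply, sub_right_comm, sub_right_comm x', sub_self]
      exact sub_mem (sub_mem S.zero_mem (S.smul_mem _ b1)) (S.smul_mem _ a1)
    obtain ⟨c, hc⟩ := mem_eL.1 (hd y (hy ▸ t2) (by rw [polar_comm, (S3 y y1).1]))
    have y2 := (S3 y y1).2
    rw [← hc, polar_smul_left, smul_eq_zero_iff_left d0] at y2
    rw [y2, zero_smul, hy, eq_comm, sub_eq_zero] at hc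
    have y3 := congrArg (refl R a).1 hc
    rw [← orth_mul_apply, refl_mul_self, orth_one_apply, refl_apply, refl_apply,
      sub_right_inj] at y3
    have y4 := congrArg (polar R n) y3
    rw [polar_smul_right, polar_smul_right, polar_comm R n a, n3, smul_zero,
      show polar R n b = r * (2 * R n) by simp [hb, polar_self', polar_comm R n a, n3],
      smul_eq_zero_iff_left (mul_ne_zero r0 (mul_ne_zero h.twoE n2))] at y4
    rw [y4, zero_smul, eq_comm, smul_eq_zero_iff_left (by rintro rfl; simp at a2)] at y3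
    exact (mul_eq_zero.1 y3).resolve_left (inv_ne_zero a2)
  obtain ⟨k, hk⟩ := mem_eL.1 hw1
  have k0 : k / polar R z x ≠ 0 := div_ne_zero (by rintro rfl; exact hw (by simp [← hk])) d0
  obtain ⟨y, y1, y2⟩ := exists_Q_eq_of_nondegOn h.nd S1 S2 k0
  obtain ⟨t, t0, t1, -, t3⟩ := h.rho hz (y := y) (by rw [polar_comm, (S3 y y1).1])
  have t4 : t x = x - polar R z x • y - w := by
    rw [t3, (S3 y y1).2, y2, div_mul_cancel₀ _ d0, hk, zero_smul, add_zero]
  have t5 : g⁻¹ (t x) ∉ eL F E z := fun e => by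
    have := k1 y y1 (y2 ▸ k0) _ e
    rw [t4, ← hk] at this
    simp only [polar_sub_right, polar_smul_right, S3 y y1, polar_self', mul_zero, sub_zero,
      zero_sub, neg_eq_zero, smul_eq_mul, mul_eq_zero, d0, h.twoE, y2, k0, or_self] at this
  have e : (g⁻¹ * t * g) (g⁻¹ x) = g⁻¹ (t x) := by
    rw [LinearEquiv.mul_apply, LinearEquiv.mul_apply, apply_inv_apply]
  refine hn (h.le_of_perp hr hz (maxPair_conj hg t0 (fun v a b => by
    rwa [← t1 v a, inv_apply_apply]) fun e' => t5 (e ▸ (e' _).1 x1)) (w := g⁻¹ w)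
    (by simpa using hw) hw2 ?_ t5 (by rwa [← e, inv_apply_apply]) (h.perp_iff.2 fun c => ?_))
  · have : (g⁻¹ * t * g) (g⁻¹ w) = g⁻¹ w := by
      rw [LinearEquiv.mul_apply, LinearEquiv.mul_apply, apply_inv_apply, t1 w hw1]
    rwa [← this, inv_apply_apply]
  have a1 : g⁻¹ (g (c • z)) ∈ eL F E z := by rw [inv_apply_apply]; exact smul_mem_eL c z
  have a2 : ∀ v, g⁻¹ v ∈ eL F E z → polar Q (g (c • z)) v = 0 := fun v hv => by
    rw [← h.pol_map (inv_mem hg.mem), h.ts hz a1 hv]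
  rw [← h.pol_map hg.mem, apply_inv_apply, t4, polar_sub_right, polar_sub_right, a2 x x1, a2 w hw2,
    h.pol, polar_smul_right, polar_comm R _ y, k1 y y1 (y2 ▸ k0) _ a1]
  simp

omit [Finite F] [FiniteDimensional F V] in
theorem semi (hg : ∀ v, R v = 0 → ∀ a : E, g (a • v) ∈ eL F E (g v)) : g ∈ semiStab F E V := by
  have := h.fd
  have := Fintype.ofFinite E
  have hd := h.dim
  obtain ⟨v₀, v0, v1⟩ := (iso3_quad R).exists_iso (by omega)
  have : Nontrivial V := ⟨⟨v₀, 0, v0⟩⟩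
  refine mem_semiStab fun a => ?_
  choose! b hb using fun v hv a => mem_eL.1 (hg v hv a)
  have sj : ∀ v, v ≠ 0 → R v = 0 → ∀ c : E, ∃ a : E, g (a • v) = c • g v := fun v a1 a2 c => by
    obtain ⟨a, rfl⟩ := (Finite.injective_iff_surjective (f := b v)).1 (fun a a' e =>
      smul_left_injective E a1 (g.injective (by rw [← hb v a2, ← hb v a2, e]))) c
    exact ⟨a, (hb v a2 a).symm⟩
  have key : ∀ u v, R u = 0 → R v = 0 → polar R u v ≠ 0 → b u a = b v a := fun u v u1 v1 d0 => by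
    obtain ⟨c, hc⟩ : ∃ c, c = polar R u v := ⟨_, rfl⟩
    have hP := nondegOn_pair (Q := R) (f := c⁻¹ • v) u1 (by rw [Q_smul, v1, mul_zero])
      (by simp [hc, d0])
    obtain ⟨n, n1, n2⟩ := exists_Q_eq_of_nondegOn h.nd (h.nd.nondegOn_perp hP) (by
      have := h.nd.finrank_add_finrank_perp (Submodule.span E {u, c⁻¹ • v})
      have := finrank_span_pair_le (F := E) u (c⁻¹ • v)
      omega) (mul_ne_zero h.twoE d0)
    obtain ⟨n3, n4⟩ := (𝓓).mem_perp_pair.1 n1
    rw [CForm.ofQuad_B] at n3 n4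
    rw [polar_smul_left, smul_eq_zero_iff_right (inv_ne_zero (hc ▸ d0))] at n4
    have p1 : R (u - (2 : E) • v + n) = 0 := by
      simp only [Q_add, Q_sub, Q_smul, polar_sub_left, polar_smul_left, polar_smul_right, *,
        smul_eq_mul]
      ring
    have p2 : R (u + v + (u - (2 : E) • v + n)) = 0 := by
      simp only [Q_add, Q_sub, Q_smul, polar_sub_left, polar_smul_left, polar_smul_right,
        polar_add_left, polar_add_right, polar_sub_right, polar_self', polar_comm R v u, *,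
        smul_eq_mul]
      ring
    have n0 : n ≠ 0 := by rintro rfl; simp [h.twoE, d0] at n2
    obtain ⟨p, hp⟩ : ∃ p, p = u - (2 : E) • v + n := ⟨_, rfl⟩
    have p3 : polar R n p ≠ 0 := by
      simp [hp, polar_comm R n, n3, n4, polar_self', n2, h.twoE, d0]
    rw [← hp] at p1 p2
    have e := hb _ p2 a
    simp only [smul_add, map_add, ← hb u u1, ← hb v v1, ← hb p p1] at e
    have u0 : u ≠ 0 := by rintro rfl; simp at d0
    have v0 : v ≠ 0 := by rintro rfl; simp at d0
    obtain ⟨x, hx⟩ := sj u u0 u1 (b (u + v + p) a - b u a)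
    obtain ⟨y, hy⟩ := sj v v0 v1 (b (u + v + p) a - b v a)
    obtain ⟨w, hw⟩ := sj p (by rintro rfl; simp at p3) p1 (b (u + v + p) a - b p a)
    have e1 : x • u + y • v + w • p = 0 := g.injective (by
      rw [map_add, map_add, hx, hy, hw, map_zero]; linear_combination (norm := module) e)
    have e2 := congrArg (polar R n) e1
    simp only [polar_add_right, polar_smul_right, polar_comm R n u, polar_comm R n v, n3, n4,
      smul_zero, zero_add, polar_zero_right, smul_eq_zero, p3, or_false] at e2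
    have e3 := congrArg (polar R u) e1
    have e4 := congrArg (polar R v) e1
    simp only [e2, polar_add_right, polar_smul_right, polar_self', u1, v1, polar_comm R v u,
      smul_eq_mul, mul_zero, zero_mul, zero_add, add_zero, polar_zero_right, mul_eq_zero, d0,
      or_false] at e3 e4
    rw [e4, zero_smul, map_zero, eq_comm, smul_eq_zero_iff_left (by simpa using u0)] at hx
    rw [e3, zero_smul, map_zero, eq_comm, smul_eq_zero_iff_left (by simpa using v0)] at hy
    linear_combination hy - hx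
  refine ⟨b v₀ a, (iso3_quad R).mem_of_iso h.nd (by omega)
    { carrier := {x | g (a • x) = b v₀ a • g x}
      add_mem' := fun e e' => by simp_all
      zero_mem' := by simp
      neg_mem' := fun e => by simp_all } fun v hv => ?_⟩
  by_cases e : v = 0
  · simp [e]
  refine (hb v hv a).symm.trans (congrArg (· • g v) ?_)
  by_cases e' : polar R v₀ v = 0
  · obtain ⟨y, y1, y2, y3⟩ := exists_sing_ne_ne h.nd v0 e v1 e'
    rw [key v y hv y1 y3, key v₀ y v1 y1 y2]
  · exact (key v₀ v v1 hv e').symm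

theorem le_of_not_mem (hr : (finrank F E).Prime) (hg : g ∈ X) (hg' : g ∉ semiStab F E V) :
    OmegaV Q ≤ X := by
  have := h.fd
  obtain ⟨v, hv0, a, hva⟩ : ∃ v, R v = 0 ∧ ∃ a : E, g (a • v) ∉ eL F E (g v) := by
    by_contra! hc
    exact hg' (h.semi hc)
  have hv : v ≠ 0 := by rintro rfl; simp at hva
  suffices ∃ k ∈ X, k ∉ glStab (eL F E v) ∧ k v = v by
    obtain ⟨k, k1, k2, k3⟩ := this
    obtain ⟨k', hk, w, hw, w1, w2⟩ := exists_maxPair k1 k2 hv (self_mem_eL v) (by
      rw [← k3, inv_apply_apply, k3]; exact self_mem_eL v)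
    exact h.le_of_maxPair hr hv0 hk hw w1 w2
  by_cases e : R (g v) = 0
  · obtain ⟨A, A1, A2, -⟩ := h.trans hv (v := g v) (by simpa using hv) (e.trans hv0.symm)
    refine ⟨A⁻¹ * g, mul_mem (inv_mem A1) hg, fun e => ?_, by
      rw [LinearEquiv.mul_apply, ← one_smul E (g v), ← A2, inv_apply_apply, one_smul]⟩
    obtain ⟨s, hs⟩ := mem_eL.1 ((e _).1 (smul_mem_eL a v))
    exact hva (mem_eL.2 ⟨s, by rw [← A2, hs, LinearEquiv.mul_apply, apply_inv_apply]⟩)
  by_contra! hc
  have key := fun x => h.mem_of_inv e (W := (eL F E v).map (g : V →ₗ[F] V)) (x := x)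
    (fun t t1 t2 r hr => mem_map_iff.2 (by
      have := by_contra fun e' => hc (g⁻¹ * t * g) (mul_mem (mul_mem (inv_mem hg) t1) hg) e' (by
        rw [LinearEquiv.mul_apply, LinearEquiv.mul_apply, t2, inv_apply_apply])
      simpa only [LinearEquiv.mul_apply, apply_inv_apply] using (this _).1 (mem_map_iff.1 hr)))
    (Submodule.mem_map_of_mem (smul_mem_eL a v)) hva
  obtain ⟨n, n1, n2⟩ := exists_Q_eq_perp h.nd [g v] (by simpa using h.dim) 1
  replace n1 := n1 _ (List.mem_singleton_self _)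
  have : polar R n n = 0 := h.perp_iff.2 fun c => by
    rw [← h.pol_map (inv_mem hg)]
    exact h.ts hv0 (mem_map_iff.1 (key _ (by simp [n1]))) (mem_map_iff.1 (key _ n1))
  simp [polar_self', n2, h.twoE] at this

end EO

theorem isMaximalIn_ext_quad [Finite F] [FiniteDimensional F V] (hQ : QNondeg Q)
    (h2 : (2 : F) ≠ 0) (hr : (finrank F E).Prime) (hd : 3 * finrank F E < finrank F V)
    (hsa : ∀ (k : E) x y, polar Q (k • x) y = polar Q x (k • y)) :
    Cfsg.Geo.IsMaximalIn (OmegaV Q) (semiStab F E V ⊓ OmegaV Q) := by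
  have : FiniteDimensional F E := FiniteDimensional.of_finrank_pos hr.pos
  have : Finite E := Module.finite_of_finite F
  have : Module.Finite E V := Module.Finite.of_restrictScalars_finite F E V
  have h2' : (2 : E) ≠ 0 := by rw [← map_ofNat (algebraMap F E) 2]; exact (map_ne_zero _).2 h2
  obtain ⟨l, hl⟩ := exists_dual_one (F := F) (one_ne_zero (α := E))
  have hl0 : l ≠ 0 := by rintro rfl; simp at hl
  obtain ⟨D, hD⟩ := exists_ext_bilin hl0 (polarBilin Q) hsa
  have hs : ∀ x y, D x y = D y x := fun x y => eq_of_dual hl0 fun k => by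
    have := (hD (k • x) y).symm.trans ((polar_comm Q _ _).trans (hD y (k • x)))
    simpa using this
  let R : QuadraticForm E V := (2 : E)⁻¹ • LinearMap.BilinMap.toQuadraticMap D
  have hR : ∀ x, Q x = l (R x) := fun x => mul_left_cancel₀ h2 (by
    rw [← polar_self', ← smul_eq_mul, ← map_smul, ← algebraMap_smul E, map_ofNat]
    simpa [R, h2'] using hD x x)
  have hp : ∀ x y, polar R x y = D x y := fun x y => by
    simp [R, polar, hs y x]; field_simp; ring
  let f : orth R →* orth Q := ((res F E V).comp (orth R).subtype).codRestrict _ fun g =>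
    mem_orth.2 fun x => by rw [hR, hR]; exact congrArg l (orth_Q g x)
  have key : ∀ X, semiStab F E V ⊓ OmegaV Q ≤ X → X ≤ orth Q → EO Q R l X := fun X a b =>
    ⟨hl0, hR, fun x hx => hQ x fun y => (hD x y).trans (by
      rw [← hp, show polar R x y = 0 from hx y, map_zero]), h2, b, by
        rintro _ ⟨g, hg, rfl⟩
        refine a ⟨res_mem_semiStab _, mem_OmegaV (g := f g) |>.2 ?_⟩
        have : (commutator (orth R)).map f ≤ commutator (orth Q) := by
          rw [commutator_def, Subgroup.map_commutator]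
          exact Subgroup.commutator_mono le_top le_top
        exact this ⟨g, hg, rfl⟩, by
      rw [← finrank_mul_finrank F E V, mul_comm] at hd
      exact lt_of_mul_lt_mul_left hd (Nat.zero_le _)⟩
  refine isMaximalIn_of _ _ inf_le_right (fun e => ?_) fun M a1 a2 g a3 a4 =>
    (key M a1 (a2.trans OmegaV_le)).le_of_not_mem hr a3 fun e => a4 ⟨e, a2 a3⟩
  have h := key _ inf_le_right OmegaV_le
  obtain ⟨s, hs⟩ := exists_not_mem_range hr.two_le
  obtain ⟨u, u0, u1⟩ := (iso3_quad R).exists_iso (by have := h.dim; omega)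
  have u2 : Q u = 0 := by rw [hR, show R u = 0 from u1, map_zero]
  have u3 := fun a b => h.ts u1 (smul_mem_eL a u) (smul_mem_eL b u)
  have u4 : polar Q u (s • u) = 0 := by simpa using u3 1 s
  obtain ⟨b, hb⟩ := (e (eich_mem_OmegaV hQ (notExc_of_two_ne_zero h2) u2 u4)).1.1 s
  have b1 := hb u
  rw [eich_apply_of_orth u2 u4 u4 (u3 s s), eich_apply_of_orth u2 u4 (by simpa using u3 1 1)
    (by simpa using u3 s 1)] at b1
  obtain rfl := smul_left_injective E u0 b1
  obtain ⟨d, d1, d2⟩ := exists_dual_pair hl0 hs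
  obtain ⟨x, hx⟩ := h.nd.exists_eq u0 d
  have b2 := hb x
  rw [eich_apply u2 u4, eich_apply u2 u4, hR, h.sing u1 (smul_mem_eL s u)] at b2
  simp only [h.pol, polar_smul_left, polar_smul_right, show polar R u x = d from hx, smul_eq_mul, d1,
    d2, map_zero, zero_mul, zero_smul, sub_zero, one_smul, smul_add] at b2
  rw [add_sub_assoc, add_right_inj, sub_eq_iff_eq_add, ← two_smul E, smul_smul,
    ← algebraMap_smul E] at b2
  exact h.not_two_mul hs _ (smul_left_injective E u0 b2)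

open Matrix Cfsg.Geo in
theorem isMaximalIn_field_quad {ι : Type} [Fintype ι] [DecidableEq ι] [Nonempty ι] {F : Type*}
    [Field F] [Fintype F] {r : ℕ} {K : Subalgebra F (Matrix ι ι F)} {Q : QuadraticForm F (ι → F)}
    (hQ : QNondeg Q) (h2 : Odd (Fintype.card F)) (hr : r.Prime) (hK : IsFieldSubalgebra r K)
    (hd : 3 * r < Fintype.card ι) (hsa : IsSelfAdjointFor (polar Q) K) :
    IsMaximalIn (omegaGL Q) (subalgebraNormalizer K ⊓ omegaGL Q) := by
  letI := fieldOf hK; letI := modOf K; letI := towerOf K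
  rw [omegaGL_eq, subalgebraNormalizer_eq hK, ← Subgroup.comap_inf]
  exact isMaximalIn_comap _ (isMaximalIn_ext_quad hQ (odd_card_iff.1 h2) (hK.finrank_eq ▸ hr)
    (by simpa [hK.finrank_eq] using hd) fun k x y => hsa k k.2 x y)

end H12
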