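import Cfsg.Agent.H12.O2a

/-!
# Orthogonal decompositions into planes: root elements
-/

set_option autoImplicit false
set_option maxHeartbeats 400000

namespace H12

open Module H11 QuadraticMap

variable {F : Type*} [Field F] [Fintype F] {V : Type*} [AddCommGroup V] [Module F V]
  {Q : QuadraticForm F V} [FiniteDimensional F V] {X : Subgroup (V ≃ₗ[F] V)}
  {κ : Type*} [Fintype κ] {D : κ → Submodule F V} {π : κ → V →ₗ[F] V}

local notation "𝓒" => CForm.ofQuad Q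

variable (Q X D π) in
/-- An overgroup of the stabiliser of an orthogonal decomposition into planes. -/
structure PD : Prop where
  nd : QNondeg Q
  dec : OrthDec (CForm.ofQuad Q) D
  proj : IsProj D π
  pl : ∀ i, Pl Q (D i)
  five : 5 ≤ Fintype.card κ
  ge : decStab D ⊓ OmegaV Q ≤ X
  le : X ≤ OmegaV Q

variable (Q X D) in
/-- The reflection class of `y` contains the block vectors of the same square class. -/
def Nw (y : V) : Prop :=
  Q y ≠ 0 ∧ ∀ i, ∀ c ∈ D i, Q c ≠ 0 → IsSquare (Q c * Q y) → RR Q X c y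

theorem exists_notMem_list {κ : Type*} [Fintype κ] (l : List κ) (h : l.length < Fintype.card κ) :
    ∃ x, x ∉ l := by
  classical
  obtain ⟨x, -, hx⟩ := Finset.exists_mem_notMem_of_card_lt_card (s := l.toFinset)
    (t := Finset.univ) ((List.toFinset_card_le l).trans_lt (by rwa [Finset.card_univ]))
  exact ⟨x, fun e => hx (List.mem_toFinset.2 e)⟩

namespace PD

variable (h : PD Q X D π)
include h

theorem dim : 10 ≤ finrank F V := by
  have := h.proj.finrank_eq fun i => (h.pl i).two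
  have := h.five
  omega

theorem ne : NotExc F V := Or.inr (by have := h.dim; omega)

theorem spec : Spec 𝓒 (OmegaV Q) := spec_quad h.nd h.ne

theorem orth {g : V ≃ₗ[F] V} (hg : g ∈ X) : g ∈ orth Q := OmegaV_le (h.le hg)

theorem fresh (l : List κ) (hl : l.length ≤ 4) : ∃ x, x ∉ l :=
  exists_notMem_list l (by have := h.five; omega)

theorem o {i j : κ} (hij : i ≠ j) {x y : V} (hx : x ∈ D i) (hy : y ∈ D j) : polar Q x y = 0 :=
  h.dec.B_eq_zero hij hx hy

theorem bp {i : κ} {x : V} (hx : x ∈ D i) (y : V) : polar Q x (π i y) = polar Q x y :=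
  h.dec.B_proj h.proj hx y

theorem b0 {i : κ} {x y : V} (hx : x ∈ D i) (hy : π i y = 0) : polar Q x y = 0 := by
  rw [← h.bp hx, hy, polar_zero_right]

theorem proj_eq_zero {i : κ} {y : V} (hy : ∀ x ∈ D i, polar Q x y = 0) : π i y = 0 :=
  (h.pl i).nd.eq_zero (h.proj.mem i y) ((𝓒).mem_perp.2 fun x hx => (h.bp hx y).trans (hy x hx))

theorem perp {i : κ} {y : V} (hy : π i y = 0) : y ∈ (𝓒).perp (D i) :=
  (𝓒).mem_perp.2 fun _ hx => h.b0 hx hy

theorem polar_eq_sum (x y : V) : polar Q x y = ∑ i, polar Q (π i x) (π i y) := by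
  conv_lhs => rw [← h.proj.sum x]
  rw [← polarBilin_apply_apply, map_sum, LinearMap.sum_apply]
  exact Finset.sum_congr rfl fun i _ => (h.bp (h.proj.mem i x) y).symm

theorem proj_map {k : V ≃ₗ[F] V} (hk : k ∈ H12.orth Q) {a b : κ}
    (e : (D a).map (k : V →ₗ[F] V) = D b) (y : V) : π b (k y) = k (π a y) := by
  have h1 : k (π a y) ∈ D b := e ▸ ⟨_, h.proj.mem a y, rfl⟩
  rw [← sub_eq_zero, ← h.proj.self h1, ← map_sub]
  refine h.proj_eq_zero fun x hx => ?_
  obtain ⟨x, hx', rfl⟩ := e.ge hx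
  rw [polar_sub_right, LinearEquiv.coe_coe, orth_polar ⟨k, hk⟩, orth_polar ⟨k, hk⟩, h.bp hx',
    sub_self]

theorem proj_sub {S : Subgroup (V ≃ₗ[F] V)} {i : κ} {k : V ≃ₗ[F] V} (hk : k ∈ subG 𝓒 S (D i))
    (y : V) : k y - y = k (π i y) - π i y := by
  have := hk.2.2 (y - π i y) (h.perp (by rw [map_sub, h.proj.self (h.proj.mem i y), sub_self]))
  rw [map_sub] at this
  linear_combination (norm := module) this

theorem sub_mem {S : Subgroup (V ≃ₗ[F] V)} {i : κ} {k : V ≃ₗ[F] V} (hk : k ∈ subG 𝓒 S (D i))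
    {x : V} (hx : x ∈ D i) : k x ∈ D i := (subG_le_glStab h.nd (Or.inr le_rfl) hk x).1 hx

theorem subX {i : κ} {k : V ≃ₗ[F] V} (hk : k ∈ subG 𝓒 (OmegaV Q) (D i)) : k ∈ X :=
  h.ge (h.dec.subG_le h.nd i hk)

theorem rr {i j : κ} {a b : V} (ha : a ∈ D i) (hb : b ∈ D j) (ha0 : Q a ≠ 0) (hb0 : Q b ≠ 0)
    (hs : IsSquare (Q a * Q b)) : RR Q X a b := h.dec.rr h.nd h.ge i j a ha b hb ha0 hb0 hs

theorem rr' {i j : κ} {a b : V} (ha : a ∈ D i) (hb : b ∈ D j) (ha0 : Q a ≠ 0) (e : Q b = Q a) :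
    RR Q X a b := h.rr ha hb ha0 (e.trans_ne ha0) ⟨Q a, by rw [e]⟩

theorem nw_mem {i : κ} {a : V} (ha : a ∈ D i) (ha0 : Q a ≠ 0) : Nw Q X D a :=
  ⟨ha0, fun _ _ hc hc0 hs => h.rr hc ha hc0 ha0 hs⟩

theorem nw_rr {y z : V} (hy : Nw Q X D y) (hz : RR Q X z y) : Nw Q X D z :=
  ⟨hz.1, fun i c hc hc0 hs => (hy.2 i c hc hc0
    (isSquare_trans hc0 hz.1 hy.1 hs (hz.isSquare h.nd h.ne h.le))).trans hz.symm⟩

theorem map_rr {y : V} (hy : Nw Q X D y) {k : V ≃ₗ[F] V} (hk : k ∈ decStab D) (hX : k ∈ X) :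
    RR Q X (k y) y := by
  obtain ⟨i, -⟩ := h.fresh [] (by simp)
  obtain ⟨c, hc, e⟩ := (h.pl i).exists_Q h.nd hy.1
  obtain ⟨τ, hτ⟩ := hk
  have h1 : Q (k c) = Q y := (orth_Q ⟨k, h.orth hX⟩ c).trans e
  exact ((hy.2 i c hc (e.trans_ne hy.1) ⟨Q y, by rw [e]⟩).conj hX (h.orth hX)).symm.trans
    (hy.2 (τ i) _ (hτ i ▸ ⟨c, hc, rfl⟩) (h1.trans_ne hy.1) ⟨Q y, by rw [h1]⟩)

theorem refl_mem {i : κ} {a : V} (ha : a ∈ D i) : (refl Q a).1 ∈ decStab D :=
  (h.dec.subG_le (G := (𝓒).isom) h.nd i ((mem_subG le_rfl).2 ⟨(refl Q a).2, fun x hx =>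
    refl_apply_of_orth ((𝓒).mem_perp.1 hx a ha)⟩)).1

theorem refl_rr {y : V} (hy : Nw Q X D y) {i j : κ} {a b : V} (ha : a ∈ D i) (hb : b ∈ D j)
    (hab : RR Q X a b) : RR Q X ((refl Q a).1 ((refl Q b).1 y)) y :=
  h.map_rr hy (k := (refl Q a * refl Q b).1) (mul_mem (h.refl_mem ha) (h.refl_mem hb)) hab.2.2

/-- A vector with a vanishing component can be moved by the full stabiliser. -/
theorem map_rr' {y : V} (hy : Nw Q X D y) {o : κ} (ho : π o y = 0) {k : V ≃ₗ[F] V}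
    (hk : k ∈ decStab D) (hk' : k ∈ H12.orth Q) : RR Q X (k y) y := by
  obtain ⟨s, hs, h1, h2⟩ := h.spec.plane _ (h.pl o).nd (h.pl o).two.ge k hk'
  have h3 : k * s ∈ decStab D :=
    mul_mem hk (h.dec.subG_le (G := (𝓒).isom) h.nd o ⟨hs, hs, h1⟩).1
  have := h.map_rr hy h3 (h.ge ⟨h3, h2⟩)
  rwa [LinearEquiv.mul_apply, h1 y (h.perp ho)] at this

/-- An element of `X` acting on the `j`-th block as a reflection. -/
theorem exists_refl {j o : κ} {d : V} (hd : d ∈ D j) (hd0 : Q d ≠ 0) :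
    ∃ k ∈ X, ∀ x, π o x = 0 → k x = (refl Q d).1 x := by
  obtain ⟨d', hd', e⟩ := (h.pl o).exists_Q h.nd hd0
  exact ⟨_, (h.rr' hd hd' hd0 e).2.2, fun x hx => by
    rw [orth_mul_apply, refl_apply_of_orth (h.b0 hd' hx)]⟩

theorem fill {u w : V} {j o : κ} (hjo : j ≠ o) (hj : π j u = 0) (ho : π o u = 0)
    (hw : w ∈ RS Q X u) (hw0 : π j w ≠ 0) : D j ≤ RS Q X u ∧ D o ≤ RS Q X u := by
  obtain ⟨ρ, hρ, h1⟩ := (h.pl j).exists_rot h.nd
  have h2 := RS.conj hw (h.subX hρ) (h.orth (h.subX hρ))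
  rw [hρ.2.2 u (h.perp hj)] at h2
  have h3 := Submodule.sub_mem _ h2 hw
  rw [h.proj_sub hρ] at h3
  have h4 := Submodule.sub_mem _ (h.sub_mem hρ (h.proj.mem j w)) (h.proj.mem j w)
  have h5 : D j ≤ RS Q X u := (h.pl j).le_of_refl h.nd h4 (fun e => hw0 (h1 _ (h.proj.mem j w) (by
    rw [sub_eq_zero] at e; rw [e, e]))) h3 fun d hd hd0 => by
      obtain ⟨k, hk, e⟩ := h.exists_refl (o := o) hd hd0
      have := RS.conj h3 hk (h.orth hk)
      rwa [e u ho, refl_apply_of_orth (h.b0 hd hj), e _ (h.proj.other o j hjo.symm _ h4)] at this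
  refine ⟨h5, ?_⟩
  obtain ⟨g, hg, e1, -, e3⟩ := h.dec.exists_swap_isom h.nd j o
  obtain ⟨s, hs, a1, a2⟩ := h.spec.plane _ (h.pl j).nd (h.pl j).two.ge g hg.2
  have hs' : s ∈ subG 𝓒 (𝓒).isom (D j) := ⟨hs, hs, a1⟩
  have hX := h.ge ⟨mul_mem hg.1 (h.dec.subG_le h.nd j hs').1, a2⟩
  have hu : (g * s) u = u := by
    rw [LinearEquiv.mul_apply, a1 u (h.perp hj)]
    conv_lhs => rw [← h.proj.sum u]
    rw [map_sum]
    refine (Finset.sum_congr rfl fun l _ => ?_).trans (h.proj.sum u)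
    by_cases b1 : l = j
    · rw [b1, hj, map_zero]
    by_cases b2 : l = o
    · rw [b2, ho, map_zero]
    exact e3 l b1 b2 _ (h.proj.mem l u)
  intro x hx
  obtain ⟨x, hx', rfl⟩ := e1.ge hx
  have := RS.conj (h5 (h.sub_mem (inv_mem hs') hx')) hX (h.orth hX)
  rwa [hu, LinearEquiv.mul_apply, apply_inv_apply] at this

theorem core2 {u w : V} {m i j : κ} (hmi : m ≠ i) (hu0 : u ≠ 0) (hu : Q u = 0)
    (hs : ∀ l, l ≠ m → l ≠ i → π l u = 0) (hjm : j ≠ m) (hji : j ≠ i)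
    (hw : w ∈ RS Q X u) (hw0 : π j w ≠ 0) : OmegaV Q ≤ X := by
  have hQ := h.nd
  have h1 : ∀ l, l ≠ m → l ≠ i → D l ≤ RS Q X u := fun l hm hi => by
    by_cases e : j = l
    · obtain ⟨o, ho⟩ := h.fresh [m, i, j] (by simp)
      simp only [List.mem_cons, List.not_mem_nil, or_false, not_or] at ho
      exact e ▸ (h.fill (Ne.symm ho.2.2) (hs j hjm hji) (hs o ho.1 ho.2.1) hw hw0).1
    · exact (h.fill e (hs j hjm hji) (hs l hm hi) hw hw0).2
  obtain ⟨l, hl⟩ : ∃ l, π l u ≠ 0 := by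
    by_contra hc
    push Not at hc
    exact hu0 (h.proj.eq_zero hc)
  have hl' : D l ≤ D m ⊔ D i := by
    by_cases e : l = m
    · exact e ▸ le_sup_left
    by_cases e' : l = i
    · exact e' ▸ le_sup_right
    exact absurd (hs l e e') hl
  obtain ⟨d, hd, hd0, h2⟩ := (h.pl l).exists_ne hQ one_ne_zero (h.proj.mem l u) hl
  rw [h.bp hd] at h2
  replace hd0 := hd0.trans_ne one_ne_zero
  obtain ⟨d', hd', e⟩ := (h.pl j).exists_Q h.nd hd0
  have hk := (h.rr' hd hd' hd0 e).2.2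
  set k := (refl Q d * refl Q d').1 with hk'
  have hku : k u = (refl Q d).1 u := by
    rw [hk', orth_mul_apply, refl_apply_of_orth (h.b0 hd' (hs j hjm hji))]
  have hM := nondegOn_sup (h.pl m).nd (h.pl i).nd (h.dec.orth m i hmi)
  set W := (𝓒).perp (D m ⊔ D i) with hW
  have hWn := hQ.nondegOn_perp hM
  have w1 : ∀ x ∈ W, π m x = 0 ∧ π i x = 0 := fun x hx =>
    ⟨h.proj_eq_zero fun y hy => (𝓒).mem_perp.1 hx y (Submodule.mem_sup_left hy),
      h.proj_eq_zero fun y hy => (𝓒).mem_perp.1 hx y (Submodule.mem_sup_right hy)⟩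
  have w2 : ∀ l, l ≠ m → l ≠ i → D l ≤ W := fun l hm hi => by
    rw [hW, CForm.perp_sup]
    exact le_inf (h.dec.orth m l hm.symm) (h.dec.orth i l hi.symm)
  have w3 : W ≤ RS Q X u := fun x hx => by
    rw [← h.proj.sum x]
    refine Submodule.sum_mem _ fun l _ => ?_
    by_cases e : l = m
    · rw [e, (w1 x hx).1]; exact zero_mem _
    by_cases e' : l = i
    · rw [e', (w1 x hx).2]; exact zero_mem _
    exact h1 l e e' (h.proj.mem l x)
  have uM : u ∈ D m ⊔ D i := by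
    rw [← h.proj.sum u]
    refine Submodule.sum_mem _ fun l _ => ?_
    by_cases e : l = m
    · exact Submodule.mem_sup_left (e ▸ h.proj.mem l u)
    by_cases e' : l = i
    · exact Submodule.mem_sup_right (e' ▸ h.proj.mem l u)
    rw [hs l e e']; exact zero_mem _
  have fM : k u ∈ D m ⊔ D i := by
    rw [hku, refl_apply]; exact Submodule.sub_mem _ uM (Submodule.smul_mem _ _ (hl' hd))
  have w4 : W ≤ RS Q X (k u) := fun x hx => by
    have h3 : (refl Q d').1 x ∈ W := by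
      rw [refl_apply]; exact Submodule.sub_mem _ hx (Submodule.smul_mem _ _ (w2 j hjm hji hd'))
    have := RS.conj (w3 h3) hk (h.orth hk)
    rwa [hk', orth_mul_apply _ _ ((refl Q d').1 x), ← orth_mul_apply (refl Q d'), refl_mul_self,
      orth_one_apply, refl_apply_of_orth ((𝓒).mem_perp.1 hx d (hl' hd))] at this
  have hf : Q (k u) = 0 := (orth_Q ⟨k, h.orth hk⟩ u).trans hu
  have huf : polar Q u (k u) ≠ 0 := by
    rw [hku, refl_apply, polar_sub_right, polar_self', hu, polar_smul_right, polar_comm Q u d]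
    simpa using ⟨hd0, h2⟩
  generalize k u = f at *
  have hP : (𝓒).NondegOn (Submodule.span F {u, f}) := by
    have := nondegOn_pair (e := u) (f := (polar Q u f)⁻¹ • f) hu (by rw [Q_smul, hf, mul_zero])
      (by rw [polar_smul_right, smul_eq_mul, inv_mul_cancel₀ huf])
    rwa [Submodule.span_insert, Submodule.span_singleton_smul_eq
      (IsUnit.mk0 _ (inv_ne_zero huf)), ← Submodule.span_insert] at this
  have hPW : W ≤ (𝓒).perp (Submodule.span F {u, f}) :=
    (𝓒).perp_anti (Submodule.span_le.2 (by rintro _ (rfl | rfl) <;> assumption))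
  have d1 := finrank_sup_of_perp hP hPW
  have d2 := hQ.finrank_add_finrank_perp (D m ⊔ D i)
  have d3 := finrank_sup_le' (D m) (D i)
  have d4 := finrank_span_pair_of_not_mem (F := F) hu0 (w := f) fun e => by
    obtain ⟨c, rfl⟩ := Submodule.mem_span_singleton.1 e
    exact huf (by rw [polar_smul_right, polar_self', hu]; simp)
  rw [(h.pl m).two, (h.pl i).two] at d3
  rw [← hW] at d2
  have d5 := h.dim
  have fu : ∀ a b : V, Q a = 0 → polar Q a b ≠ 0 → W ≤ RS Q X a → a ∈ D m ⊔ D i →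
      Fu Q X (Submodule.span F {a, b} ⊔ W) a := fun a b ha hab hW' haM x hx h0 => by
    obtain ⟨y, hy, z, hz, rfl⟩ := Submodule.mem_sup.1 hx
    obtain ⟨α, β, rfl⟩ := Submodule.mem_span_pair.1 hy
    rw [polar_add_right, polar_add_right, polar_smul_right, polar_smul_right, polar_self', ha,
      show polar Q a z = 0 from (𝓒).mem_perp.1 hz a haM] at h0
    obtain rfl : β = 0 := by simpa [hab] using h0
    rw [zero_smul, add_zero]
    exact (ei_smul_self ha α).add (RS.ei (hW' hz) ha)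
  have hS : (𝓒).NondegOn (Submodule.span F {u, f} ⊔ W) := nondegOn_sup hP hWn hPW
  have h3 := Fu.subG_le hQ h.ne hS (Or.inr (by omega)) (by omega) (fu u f hu huf w3 uM)
    (by rw [Set.pair_comm]; exact fu f u hf (by rwa [polar_comm]) w4 fM)
    (Submodule.mem_sup_left (Submodule.subset_span (by simp)))
    (Submodule.mem_sup_left (Submodule.subset_span (by simp))) hu hf huf
  refine ((enlarge_quad hQ h.ne).le_or_of_dec h.spec h.dec (fun i => (h.pl i).two.ge) h.le h.ge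
    ((w2 j hjm hji).trans le_sup_right) hS (by omega) h3).resolve_right fun e => ?_
  have := (h.pl j).two
  rw [← e.1] at this
  omega

theorem core {u w : V} {j o : κ} (hjo : j ≠ o) (hu0 : u ≠ 0) (hu : Q u = 0) (hj : π j u = 0)
    (ho : π o u = 0) (hw : w ∈ RS Q X u) (hw0 : π j w ≠ 0) : OmegaV Q ≤ X := by
  obtain ⟨h1, h2⟩ := h.fill hjo hj ho hw hw0
  have d1 := finrank_sup_of_perp (h.pl j).nd (h.dec.orth j o hjo)
  rw [(h.pl j).two, (h.pl o).two] at d1
  obtain ⟨v, hv, hv0, hv1⟩ := iso3_quad Q (D j ⊔ D o) (by omega)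
  obtain ⟨l, hl⟩ : ∃ l, π l u ≠ 0 := by
    by_contra hc
    push Not at hc
    exact hu0 (h.proj.eq_zero hc)
  refine h.core2 (w := u) (j := l) hjo hv0 hv1 (fun l a b => ?_) (fun e => hl (e ▸ hj))
    (fun e => hl (e ▸ ho)) ((mem_RS hv1).2 fun c => ?_) hl
  · obtain ⟨x, hx, y, hy, rfl⟩ := Submodule.mem_sup.1 hv
    rw [map_add, h.proj.other l j a x hx, h.proj.other l o b y hy, add_zero]
  · have h3 := RS.ei (sup_le h1 h2 hv) hu
    have h4 := ((mem_RS hu).1 (sup_le h1 h2 hv) c).smul_left h3.2.1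
    exact h4.swap hv1

theorem tan_vec {y u : V} {m : κ} (hy : Nw Q X D y) (h1 : RR Q X (y + u) y) (hu : Q u = 0)
    (huy : polar Q u y = 0) (hm : π m u = 0) (hy0 : π m y ≠ 0) :
    ∃ c ∈ D m, ∃ a : F, a ≠ 0 ∧ RR Q X c y ∧ RR Q X (c + a • u) y := by
  obtain ⟨c, hc, e, h2⟩ := (h.pl m).exists_ne h.nd hy.1 (h.proj.mem m y) hy0
  rw [h.bp hc] at h2
  have h3 := hy.2 m c hc (e.trans_ne hy.1) ⟨Q y, by rw [e]⟩
  have h4 := (h3.refl_apply (rr_self hy.1)).refl_apply h1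
  refine ⟨c, hc, (Q y)⁻¹ * polar Q y c, mul_ne_zero (inv_ne_zero hy.1) (by rwa [polar_comm]), h3, ?_⟩
  convert h4 using 1
  have h5 : Q (y + u) = Q y := by rw [Q_add, hu, polar_comm, huy]; simp
  have h6 := hy.1
  rw [refl_apply, refl_apply, h5, polar_add_left, polar_sub_right, polar_sub_right,
    polar_smul_right, polar_smul_right, huy, polar_self', polar_comm Q u c, h.b0 hc hm]
  simp only [smul_eq_mul]
  match_scalars <;> field_simp <;> ring

/-- A tangent pair of reflections generates everything. -/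
theorem tan {y u : V} {m o : κ} (hmo : m ≠ o) (hy : Nw Q X D y) (h1 : RR Q X (y + u) y)
    (hu0 : u ≠ 0) (hu : Q u = 0) (huy : polar Q u y = 0) (hm : π m u = 0) (ho : π o u = 0)
    (hy0 : π m y ≠ 0) : OmegaV Q ≤ X := by
  obtain ⟨c, hc, a, ha, h2, h3⟩ := h.tan_vec hy h1 hu huy hm hy0
  have h4 := (h3.trans h2.symm).ei (by rw [Q_smul, hu, mul_zero])
    (by rw [polar_smul_left, polar_comm, h.b0 hc hm, smul_zero])
  have v0 : (Q c)⁻¹ • a • u ≠ 0 := smul_ne_zero (inv_ne_zero h2.1) (smul_ne_zero ha hu0)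
  have vm : π m ((Q c)⁻¹ • a • u) = 0 := by rw [map_smul, map_smul, hm, smul_zero, smul_zero]
  have vo : π o ((Q c)⁻¹ • a • u) = 0 := by rw [map_smul, map_smul, ho, smul_zero, smul_zero]
  generalize (Q c)⁻¹ • a • u = v at *
  let A : AddSubgroup V :=
    { carrier := {w | Ei Q X v w}
      add_mem' := Ei.add
      zero_mem' := ei_zero_right h4.1
      neg_mem' := Ei.neg }
  refine h.core hmo v0 h4.1 vm vo (w := c) ((mem_RS h4.1).2 fun μ =>
    (h.pl m).smul_mem h.nd (A := A) hc h2.1 h4 (fun w hw hw' d hd hd0 => ?_) μ)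
    (by rw [h.proj.self hc]; exact ne_zero_of_Q h2.1)
  obtain ⟨k, hk, e⟩ := h.exists_refl (o := o) hd hd0
  have := Ei.conj hw hk (h.orth hk)
  rwa [e v vo, refl_apply_of_orth (h.b0 hd vm), e _ (h.proj.other o m hmo.symm _ hw')] at this

end PD

end H12
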