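import Cfsg.Agent.H12.OF6
import Cfsg.Agent.H12.O2b
import Cfsg.Agent.H12.Rho

/-!
# Orthonormal frames of unitary spaces: preliminaries
-/

set_option autoImplicit false
set_option maxHeartbeats 400000

namespace H12

open Module H11 QuadraticMap Equiv Finset

section Field

variable {F : Type*} [Field F] [Fintype F] [DecidableEq F] {σ : F →+* F}

variable (σ) in
/-- The elements of norm one. -/
def nOne : Finset F := univ.filter fun ω => ω * σ ω = 1

theorem mem_nOne {ω : F} : ω ∈ nOne σ ↔ ω * σ ω = 1 := by simp [nOne]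

theorem card_nOne (hσ : σ ≠ RingHom.id F) (hσ2 : ∀ a, σ (σ a) = a) :
    Fintype.card F + 2 ≤ (nOne σ).card * ((nOne σ).card - 1) ∧ 3 ≤ (nOne σ).card ∧
      ((∃ a, σ a = a ∧ a ≠ 0 ∧ a ≠ 1) → 4 ≤ (nOne σ).card) := by
  obtain ⟨θ, hθ⟩ := exists_ne_of_ne_id hσ
  set K : Finset F := univ.filter fun a => σ a = a with hK
  have h1 : K.card * K.card ≤ Fintype.card F := by
    rw [← card_product, ← card_univ]
    refine card_le_card_of_injOn (fun x => x.1 + x.2 * θ) (fun _ _ => mem_univ _) ?_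
    rintro ⟨a, b⟩ h ⟨c, d⟩ h' e
    simp only [hK, coe_product, coe_filter, mem_univ, true_and, Set.mem_prod,
      Set.mem_setOf_eq] at h h' e
    have e' := congrArg σ e
    simp only [map_add, map_mul, h, h'] at e'
    have : b = d := mul_right_cancel₀ (sub_ne_zero.2 hθ) (by linear_combination e' - e)
    exact Prod.ext (by rw [this] at e; simpa using e) this
  have h2 : Fintype.card F - 1 ≤ (nOne σ).card * (K.card - 1) := by
    rw [← card_univ, ← card_erase_of_mem (mem_univ (0 : F)),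
      ← card_erase_of_mem (show (0 : F) ∈ K by simp [hK])]
    refine (card_le_mul_card_image (f := fun x => x * σ x) _ (nOne σ).card fun a ha => ?_).trans
      (Nat.mul_le_mul_left _ (card_le_card fun a ha => ?_))
    · obtain ⟨b, hb, rfl⟩ := mem_image.1 ha
      have hb0 : b ≠ 0 := ne_of_mem_erase hb
      refine card_le_card_of_injOn (· / b) (fun x hx => ?_) fun x _ y _ e =>
        (div_left_inj' hb0).1 e
      have := (mem_filter.1 (mem_coe.1 hx)).2
      have h3 : σ b ≠ 0 := (map_ne_zero σ).2 hb0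
      rw [mem_coe, mem_nOne, map_div₀]
      field_simp
      exact this
    · obtain ⟨b, hb, rfl⟩ := mem_image.1 ha
      have hb0 : b ≠ 0 := ne_of_mem_erase hb
      simp [hK, hb0, hσ2, mul_comm]
  have h3 : 2 ≤ K.card := one_lt_card.2 ⟨0, by simp [hK], 1, by simp [hK], zero_ne_one⟩
  have h4 : (∃ a, σ a = a ∧ a ≠ 0 ∧ a ≠ 1) → 3 ≤ K.card := fun ⟨a, h5, h6, h7⟩ =>
    two_lt_card_iff.2 ⟨0, 1, a, by simp [hK], by simp [hK], by simp [hK, h5], zero_ne_one, h6.symm,
      h7.symm⟩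
  obtain ⟨k, hk⟩ : ∃ k, K.card = k + 1 := ⟨K.card - 1, by omega⟩
  rw [hk] at h1 h2 h3 h4
  generalize (nOne σ).card = r at *
  have h5 : k + 2 ≤ r := by
    by_contra h5
    have := Nat.mul_le_mul_right k (show r ≤ k + 1 by omega)
    rw [Nat.add_sub_cancel] at h2
    have : (k + 1) * (k + 1) = (k + 1) * k + k + 1 := by ring
    omega
  refine ⟨?_, by omega, fun h => by have := h4 h; omega⟩
  obtain ⟨s, rfl⟩ : ∃ s, r = s + 1 := ⟨r - 1, by omega⟩
  rw [Nat.add_sub_cancel] at h2 ⊢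
  have := Nat.mul_le_mul_left (s + 1) (show k + 1 ≤ s by omega)
  have : (s + 1) * (k + 1) = (s + 1) * k + s + 1 := by ring
  omega

omit [DecidableEq F] in
theorem subring_eq_top' (M : Subring F) {s : Finset F} (hs : ∀ x ∈ s, x ∈ M)
    (h : Fintype.card F < s.card * s.card) : ∀ x, x ∈ M := by
  classical
  let K : Subfield F := { M with
    inv_mem' := fun x hx => by
      by_cases h0 : x = 0
      · rw [h0, inv_zero]; exact M.zero_mem
      have h1 := FiniteField.pow_card_sub_one_eq_one x h0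
      have h2 := Fintype.one_lt_card (α := F)
      rw [show x⁻¹ = x ^ (Fintype.card F - 2) from inv_eq_of_mul_eq_one_right (by
        rw [← pow_succ', ← h1]; congr 1; omega)]
      exact M.pow_mem hx _ }
  by_contra hc
  have h1 : s.card ≤ Fintype.card K := by
    rw [← card_univ, ← card_attach]
    exact card_le_card_of_injOn (fun x => ⟨x.1, hs _ x.2⟩) (fun _ _ => mem_univ _)
      fun x _ y _ e => Subtype.ext (by simpa using e)
  have h2 := Module.card_eq_pow_finrank (K := K) (V := F)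
  have h3 : 2 ≤ finrank K F := by
    by_contra h3
    have h4 : finrank K F = 1 := by have := finrank_pos (R := K) (M := F); omega
    rw [h4, pow_one] at h2
    refine hc fun x => ?_
    obtain ⟨y, rfl⟩ := ((Fintype.bijective_iff_injective_and_card (K.subtype)).2
      ⟨K.subtype.injective, h2.symm⟩).2 x
    exact y.2
  have h4 : Fintype.card K ^ 2 ≤ Fintype.card F := h2 ▸ Nat.pow_le_pow_right Fintype.card_pos h3
  nlinarith

variable (hσ : σ ≠ RingHom.id F) (hσ2 : ∀ a, σ (σ a) = a)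
include hσ hσ2

omit [DecidableEq F] in
theorem exists_nOne (a b : F) : ∃ ω, ω * σ ω = 1 ∧ ω ≠ a ∧ ω ≠ b := by
  classical
  obtain ⟨ω, h1, h2⟩ := exists_mem_notMem_of_card_lt_card (s := {a, b}) (t := nOne σ)
    (card_le_two.trans_lt (card_nOne hσ hσ2).2.1)
  exact ⟨ω, mem_nOne.1 h1, by simpa using h2⟩

omit [DecidableEq F] in
theorem exists_nOne' : ∃ ω, ω * σ ω = 1 ∧ ω ≠ 1 ∧ ω ≠ -1 ∧ σ ω ≠ ω := by
  obtain ⟨ω, h1, h2, h3⟩ := exists_nOne hσ hσ2 1 (-1)
  exact ⟨ω, h1, h2, h3, fun e => (mul_self_eq_one_iff.1 (by rwa [e] at h1)).elim h2 h3⟩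

omit [DecidableEq F] in
theorem addSubgroup_all {A : AddSubgroup F} (h1 : ∀ ω, ω * σ ω = 1 → ∀ a ∈ A, ω * a ∈ A) {a : F}
    (ha : a ∈ A) (h0 : a ≠ 0) (b : F) : b ∈ A := by
  classical
  let M : Subring F :=
    { carrier := {c | ∀ a ∈ A, c * a ∈ A}
      mul_mem' := fun h h' a ha => by rw [mul_assoc]; exact h _ (h' a ha)
      one_mem' := fun a ha => by rwa [one_mul]
      add_mem' := fun h h' a ha => by rw [add_mul]; exact add_mem (h a ha) (h' a ha)
      zero_mem' := fun a _ => by rw [zero_mul]; exact zero_mem _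
      neg_mem' := fun h a ha => by rw [neg_mul]; exact neg_mem (h a ha) }
  have h2 := (card_nOne hσ hσ2).1
  have := subring_eq_top' M (s := nOne σ) (fun ω hω => h1 ω (mem_nOne.1 hω))
    (by have := Nat.mul_le_mul_left (nOne σ).card (Nat.sub_le (nOne σ).card 1); omega) (b / a) a ha
  rwa [div_mul_cancel₀ _ h0] at this

theorem card_two_val {a b : F} (ha : σ a = a) (hb : σ b = b) (ha0 : a ≠ 0) (hb0 : b ≠ 0) :
    Fintype.card F + 2 ≤
      2 * (((nOne σ ×ˢ nOne σ).image fun x => a * x.1 + b * x.2).erase 0).card := by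
  set r := (nOne σ).card with hr
  set s := (nOne σ ×ˢ nOne σ).filter fun x => a * x.1 + b * x.2 ≠ 0 with hs
  have h1 : ((nOne σ ×ˢ nOne σ).filter fun x => ¬ a * x.1 + b * x.2 ≠ 0).card ≤ r :=
    card_le_card_of_injOn Prod.fst (fun x hx => (mem_product.1 (mem_filter.1 hx).1).1) (by
      rintro ⟨x, y⟩ h ⟨x', y'⟩ h' (rfl : x = x')
      have e := not_not.1 (mem_filter.1 h).2
      have e' := not_not.1 (mem_filter.1 h').2
      exact Prod.ext rfl (mul_left_cancel₀ hb0 (by linear_combination e - e')))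
  have h2 := card_filter_add_card_filter_not (s := nOne σ ×ˢ nOne σ)
    fun x => a * x.1 + b * x.2 ≠ 0
  have h3 := card_le_mul_card_image (f := fun x : F × F => a * x.1 + b * x.2) s 2 fun t ht => by
    obtain ⟨z, hz, rfl⟩ := mem_image.1 ht
    have h0 := (mem_filter.1 hz).2
    generalize a * z.1 + b * z.2 = t at h0
    refine (card_le_card_of_injOn Prod.fst (fun x hx => ?_) ?_).trans
      (card_qrts (a := a * σ t) (b := b * b - a * a - t * σ t) (c := a * t) fun e =>
        mul_ne_zero ha0 h0 e.2.2)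
    · obtain ⟨h4, rfl⟩ := mem_filter.1 hx
      obtain ⟨h5, h6⟩ := mem_product.1 (mem_filter.1 h4).1
      rw [mem_nOne] at h5 h6
      rw [mem_coe, mem_qrts, map_add, map_mul, map_mul, ha, hb]
      linear_combination (-(a * b * x.2)) * h5 - b * b * x.1 * h6
    · rintro ⟨x, y⟩ h ⟨x', y'⟩ h' (rfl : x = x')
      have e := (mem_filter.1 h).2
      have e' := (mem_filter.1 h').2
      exact Prod.ext rfl (mul_left_cancel₀ hb0 (by linear_combination e - e'))
  have h4 : (s.image fun x => a * x.1 + b * x.2) ⊆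
      ((nOne σ ×ˢ nOne σ).image fun x => a * x.1 + b * x.2).erase 0 := fun t ht => by
    obtain ⟨z, hz, rfl⟩ := mem_image.1 ht
    exact mem_erase.2 ⟨(mem_filter.1 hz).2, mem_image_of_mem _ (mem_filter.1 hz).1⟩
  have h5 := card_le_card h4
  have h6 := (card_nOne hσ hσ2).1
  rw [card_product, ← hr, ← hs] at h2
  rw [← hr, Nat.mul_sub_one] at h6
  omega

omit [DecidableEq F] in
theorem exists_four_nOne {a b c d : F} (ha : σ a = a) (hb : σ b = b) (hc : σ c = c) (hd : σ d = d)
    (ha0 : a ≠ 0) (hb0 : b ≠ 0) (hc0 : c ≠ 0) (hd0 : d ≠ 0) :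
    ∃ x y z w : F, x * σ x = 1 ∧ y * σ y = 1 ∧ z * σ z = 1 ∧ w * σ w = 1 ∧ (x ≠ 1 ∨ y ≠ 1) ∧
      a * (x - 1) + b * (y - 1) + c * (z - 1) + d * (w - 1) = 0 := by
  classical
  have h1 := card_two_val hσ hσ2 ha hb ha0 hb0
  have h2 := card_two_val hσ hσ2 hc hd hc0 hd0
  set S := ((nOne σ ×ˢ nOne σ).image fun x => a * x.1 + b * x.2).erase 0
  set S' := ((nOne σ ×ˢ nOne σ).image fun x => c * x.1 + d * x.2).erase 0
  have h3 := card_union_add_card_inter S (S'.image fun t => a + b + c + d - t)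
  rw [card_image_of_injective _ (sub_right_injective)] at h3
  have h4 := card_le_univ (S ∪ S'.image fun t => a + b + c + d - t)
  obtain ⟨t, h5, h6⟩ := exists_mem_notMem_of_card_lt_card (s := {a + b})
    (t := S ∩ S'.image fun t => a + b + c + d - t) (by rw [card_singleton]; omega)
  obtain ⟨h7, h8⟩ := mem_inter.1 h5
  obtain ⟨⟨x, y⟩, h9, rfl⟩ := mem_image.1 (mem_of_mem_erase h7)
  obtain ⟨t, h10, e⟩ := mem_image.1 h8
  obtain ⟨⟨z, w⟩, h11, rfl⟩ := mem_image.1 (mem_of_mem_erase h10)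
  simp only [mem_product, mem_nOne, mem_singleton] at h6 h9 h11 e
  refine ⟨x, y, z, w, h9.1, h9.2, h11.1, h11.2, ?_, by linear_combination -e⟩
  by_contra h
  push Not at h
  exact h6 (by rw [h.1, h.2]; ring)

end Field

variable {F : Type*} [Field F] {V : Type*} [AddCommGroup V] [Module F V] {σ : F →+* F}
  {hσ2 : ∀ a, σ (σ a) = a} {C : CForm (hermType σ hσ2) V} {X : Subgroup (V ≃ₗ[F] V)}
  {κ : Type*} {e : κ → V} {g k : V ≃ₗ[F] V} {u v w x y : V} {a c ω : F}

variable (C) in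
open Classical in
/-- A quasi-reflection or transvection (junk value `1`). -/
noncomputable def uq (v : V) (c : F) : V ≃ₗ[F] V :=
  if h : c + σ c + c * σ c * C.N v = 0 then (qrefl C h).1 else 1

theorem uq_apply (h : c + σ c + c * σ c * C.N v = 0) (x : V) :
    uq C v c x = x + (c * C.B v x) • v := by rw [uq, dif_pos h, qrefl_apply]

theorem uq_isom : uq C v c ∈ C.isom := by
  rw [uq]; split_ifs with h
  exacts [(qrefl C h).2, one_mem _]

theorem uq_conj (hg : g ∈ C.isom) : g * uq C v c * g⁻¹ = uq C (g v) c := by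
  by_cases h : c + σ c + c * σ c * C.N v = 0
  · ext x
    obtain ⟨x, rfl⟩ := g.surjective x
    rw [uq_apply (by rwa [CForm.isom_N hg]), LinearEquiv.mul_apply, LinearEquiv.mul_apply,
      inv_apply_apply, uq_apply h, CForm.isom_B hg, map_add, map_smul]
  · rw [uq, uq, dif_neg h, dif_neg (by rwa [CForm.isom_N hg]), mul_one, mul_inv_cancel]

theorem uq_of_perp (h : C.B v x = 0) : uq C v c x = x := by
  by_cases h' : c + σ c + c * σ c * C.N v = 0
  · simp [uq_apply h', h]
  · rw [uq, dif_neg h']; rfl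

theorem det_uq [FiniteDimensional F V] (h : c + σ c + c * σ c * C.N v = 0) :
    LinearMap.det (uq C v c : V →ₗ[F] V) = 1 + c * C.N v := by
  rw [show (uq C v c : V →ₗ[F] V) = LinearMap.transvection (c • C.B v) v from
    LinearMap.ext (uq_apply h), LinearMap.transvection.det, LinearMap.smul_apply, herm_B_self,
    smul_eq_mul]

theorem uq_ok (hv : C.N v = 1) (hω : ω * σ ω = 1) :
    (ω - 1) + σ (ω - 1) + (ω - 1) * σ (ω - 1) * C.N v = 0 := by
  rw [hv, map_sub, map_one]; linear_combination hω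

theorem uq_ok2 (hv : C.N v = 2) : (-1 : F) + σ (-1) + -1 * σ (-1) * C.N v = 0 := by
  rw [hv, map_neg, map_one]; ring

theorem uq_mul (hv : C.N v = 1) {ω' : F} (hω : ω * σ ω = 1) (hω' : ω' * σ ω' = 1) :
    uq C v (ω - 1) * uq C v (ω' - 1) = uq C v (ω * ω' - 1) := by
  ext x
  rw [LinearEquiv.mul_apply, uq_apply (uq_ok hv hω), uq_apply (uq_ok hv hω'),
    uq_apply (uq_ok hv (by rw [map_mul]; linear_combination ω' * σ ω' * hω + hω'))]
  simp only [map_add, map_smul, herm_B_self, hv, smul_eq_mul]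
  module

theorem uq_zero : uq C v 0 = 1 := by
  ext x; simp [uq_apply (C := C) (v := v) (c := 0) (by simp)]

theorem uq_smul (ha : a * σ a = 1) : uq C (a • v) c = uq C v c := by
  have h1 : C.N (a • v) = C.N v := by rw [herm_N_smul, ha, one_mul]
  by_cases h : c + σ c + c * σ c * C.N v = 0
  · ext x
    rw [uq_apply h, uq_apply (by rwa [h1]), herm_B_smul_left, smul_smul]
    congr 2
    linear_combination c * C.B v x * ha
  · rw [uq, uq, dif_neg h, dif_neg (by rwa [h1])]

theorem nOne_σ (hω : ω * σ ω = 1) (hσ2 : ∀ a, σ (σ a) = a) : σ ω * σ (σ ω) = 1 := by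
  rw [hσ2, mul_comm, hω]

theorem urq_norm (h : Rq C C.isom v y a) (hC : C.Nondeg) (hv0 : v ≠ 0) (hv : C.N v = 0)
    (hy : C.B v y = 0) : a + σ a = C.N y := by
  obtain ⟨g, hg, e⟩ := h
  obtain ⟨p, hp⟩ := hC.exists_eq hv0 1
  have h1 := CForm.isom_B hg p p
  have h2 : C.B p v = 1 := by rw [herm_symm, hp, map_one]
  have h3 : C.B y v = 0 := C.B_swap_zero hy
  rw [e] at h1
  simp only [map_add, map_sub, map_smulₛₗ, LinearMap.add_apply, LinearMap.sub_apply,
    LinearMap.smul_apply, smul_eq_mul, hp, h2, h3, hy, herm_B_self, hv, RingHom.id_apply,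
    herm_symm p y, map_mul, map_one] at h1
  have h4 : ∀ t, (hermType σ hσ2).σ t = σ t := fun _ => rfl
  simp only [h4, hσ2] at h1
  linear_combination -h1

theorem urq_su [FiniteDimensional F V] (hC : C.Nondeg) (hv0 : v ≠ 0) (hv : C.N v = 0)
    (hy : C.B v y = 0) (hk : k ∈ C.isom)
    (e : ∀ x, k x = x + C.B v x • y - (σ (C.B x y) + a * C.B v x) • v) : k ∈ SLV F V := by
  have h := urq_norm ⟨k, hk, e⟩ hC hv0 hv hy
  rw [show k = (rho C hv hy h).1 from LinearEquiv.ext fun x => by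
    rw [e, rho_apply, herm_symm x y]]
  exact rho_mem_sisom hv hy h

variable (C X) in
/-- The vectors `y` for which `X` contains a root element attached to `(v, y)`. -/
def urS {v : V} (hv : C.N v = 0) : AddSubgroup V where
  carrier := {y | C.B v y = 0 ∧ ∃ a, Rq C X v y a}
  zero_mem' := ⟨map_zero _, 0, rho_zero⟩
  add_mem' := fun ⟨h1, _, h2⟩ ⟨h3, _, h4⟩ =>
    ⟨by rw [map_add, h1, h3, add_zero], _, h2.mul h4 (C.B_self_of_zero hv) h1 h3⟩
  neg_mem' := fun ⟨h1, _, h2⟩ => ⟨by rw [map_neg, h1, neg_zero], _, by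
    simpa using rho_zero.div h2 (C.B_self_of_zero hv) (map_zero _) h1⟩

theorem urq_self (hv : C.N v = 0) (c : F) : c • v ∈ urS C X hv :=
  ⟨by rw [map_smul, C.B_self_of_zero hv, smul_zero], c - σ c, 1, one_mem _, fun x => by
    rw [map_smul, smul_eq_mul, map_mul, herm_symm x v]
    have h4 : ∀ t, (hermType σ hσ2).σ t = σ t := fun _ => rfl
    simp only [h4, LinearEquiv.coe_one, id]
    module⟩

theorem urq_tv (hσ : σ ≠ RingHom.id F) (hv : C.N v = 0) (hw : C.N w = 1)
    (h : ∀ μ : F, μ • w ∈ urS C X hv) (ha : a + σ a = 0) : Rq C X v 0 a := by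
  obtain ⟨θ, hθ⟩ := exists_ne_of_ne_id hσ
  obtain ⟨t, rfl⟩ : ∃ t, a = t - σ t := by
    have h1 := sub_ne_zero.2 hθ
    have h2 := sub_ne_zero.2 hθ.symm
    refine ⟨a * θ / (θ - σ θ), ?_⟩
    rw [map_div₀, map_mul, map_sub, hσ2, eq_neg_of_add_eq_zero_right ha]
    field_simp
    ring
  obtain ⟨h1, b, h2⟩ := h 1
  obtain ⟨h3, b', h4⟩ := h t
  have hv' := C.B_self_of_zero hv
  have := (h2.mul h4 hv' h1 h3).div (h4.mul h2 hv' h3 h1) hv'
    (by rw [map_add, h1, h3, add_zero]) (by rw [map_add, h1, h3, add_zero])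
  have h4 : ∀ t, (hermType σ hσ2).σ t = σ t := fun _ => rfl
  convert this using 1
  · abel
  · simp [add_comm (t • w), herm_B_self, hw, h4, hσ2]
    ring

end H12
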