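import Cfsg.Agent.H12.ExA
import Cfsg.Agent.H12.UF1
import Cfsg.Agent.H11.Order2

/-!
# Hermitian forms over an extension field of odd prime degree: field theory
-/

set_option autoImplicit false
set_option maxHeartbeats 400000

namespace H12

open Module H11 H13.KL

variable {F E : Type*} [Field F] [Field E] [Algebra F E] {σ : F →+* F} {τ : E →+* E}
  {l : Dual F E}

local notation "𝔣" => algebraMap F E

variable (σ τ l) in
/-- Compatible involutions on an extension of odd prime degree. -/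
structure UE : Prop where
  σσ : ∀ a, σ (σ a) = a
  ττ : ∀ a, τ (τ a) = a
  hσ : σ ≠ RingHom.id F
  ne : l ≠ 0
  alg : ∀ c, τ (𝔣 c) = 𝔣 (σ c)
  lτ : ∀ a, l (τ a) = σ (l a)
  pr : (finrank F E).Prime
  odd : finrank F E ≠ 2

namespace UE

variable (h : UE σ τ l)
include h

theorem fd : FiniteDimensional F E := FiniteDimensional.of_finrank_pos h.pr.pos

theorem three : 3 ≤ finrank F E := by have := h.pr.two_le; have := h.odd; omega

theorem τ_smul (c : F) (a : E) : τ (c • a) = σ c • τ a := by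
  rw [Algebra.smul_def, Algebra.smul_def, map_mul, h.alg]

theorem hτ : τ ≠ RingHom.id E := fun e => h.hσ (RingHom.ext fun c => (𝔣).injective (by
  rw [← h.alg, e]; rfl))

theorem dec {θ : F} (hθ : σ θ ≠ θ) (x : E) : ∃ a b, τ a = a ∧ τ b = b ∧ x = a + θ • b := by
  have h1 : θ - σ θ ≠ 0 := sub_ne_zero.2 hθ.symm
  have h2 : τ ((θ - σ θ)⁻¹ • (x - τ x)) = (θ - σ θ)⁻¹ • (x - τ x) := by
    rw [h.τ_smul, map_inv₀, map_sub, map_sub, h.σσ, h.ττ, ← neg_sub θ, ← neg_sub x, inv_neg,
      neg_smul_neg]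
  refine ⟨x - θ • (θ - σ θ)⁻¹ • (x - τ x), _, ?_, h2, by simp⟩
  rw [map_sub, h.τ_smul, h2]
  have : τ x - x = (σ θ - θ) • (θ - σ θ)⁻¹ • (x - τ x) := by
    rw [← neg_sub θ, neg_smul, smul_inv_smul₀ h1, neg_sub]
  linear_combination (norm := module) this

theorem dec' {θ : F} (hθ : σ θ ≠ θ) (x : E) : ∃ a b, τ a = -a ∧ τ b = -b ∧ x = a + θ • b := by
  obtain ⟨ω, ω0, hω⟩ := exists_trace_zero' (hσ2 := h.σσ) h.hσ
  obtain ⟨a, b, ha, hb, e⟩ := h.dec hθ (ω⁻¹ • x)
  have := eq_neg_of_add_eq_zero_right hω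
  exact ⟨ω • a, ω • b, by rw [h.τ_smul, ha, this, neg_smul], by rw [h.τ_smul, hb, this, neg_smul],
    by rw [smul_comm, ← smul_add, ← e, smul_inv_smul₀ ω0]⟩

theorem mem_of_fix {Z : Submodule F E} (hZ : ∀ a, τ a = a → a ∈ Z) (x : E) : x ∈ Z := by
  obtain ⟨θ, hθ⟩ := exists_ne_of_ne_id h.hσ
  obtain ⟨a, b, ha, hb, rfl⟩ := h.dec hθ x
  exact add_mem (hZ a ha) (Z.smul_mem _ (hZ b hb))

theorem exists_fix : ∃ t, τ t = t ∧ ∀ c, 𝔣 c ≠ t := by
  by_contra! hc
  obtain ⟨κ, hκ⟩ := exists_not_mem_range h.pr.two_le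
  obtain ⟨c, e⟩ := Submodule.mem_one.1 (h.mem_of_fix (Z := 1) (fun a ha =>
    Submodule.mem_one.2 (hc a ha)) κ)
  exact hκ c e

theorem not_quad {t : E} (ht : ∀ c, 𝔣 c ≠ t) (a b : F) : t * t ≠ 𝔣 a + b • t := fun e => by
  have := h.fd
  have h1 : ∀ x ∈ Submodule.span F {1, t}, t * x ∈ Submodule.span F {1, t} := fun x hx => by
    obtain ⟨c, d, rfl⟩ := Submodule.mem_span_pair.1 hx
    exact Submodule.mem_span_pair.2 ⟨d * a, c + d * b, by
      rw [mul_add, mul_smul_comm, mul_smul_comm, e, Algebra.algebraMap_eq_smul_one]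
      simp only [mul_one]; module⟩
  rcases mem_bot_or h.pr ((Submodule.span F {1, t}).toSubalgebra (Submodule.subset_span (by simp))
    fun x y hx hy => by
      obtain ⟨c, d, rfl⟩ := Submodule.mem_span_pair.1 hx
      rw [add_mul, smul_mul_assoc, smul_mul_assoc, one_mul]
      exact add_mem (Submodule.smul_mem _ _ hy) (Submodule.smul_mem _ _ (h1 y hy))) with e | e
  · obtain ⟨c, e⟩ := e t (Submodule.subset_span (by simp))
    exact ht c e
  · have h2 := finrank_span_pair_le (F := F) (1 : E) t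
    rw [show Submodule.span F {1, t} = ⊤ from eq_top_iff.2 fun x _ => e x, finrank_top] at h2
    have := h.three
    omega

theorem indep {θ a b : F} (hθ : σ θ ≠ θ) (ha : σ a = -a) (hb : σ b = -b) (e : a + θ * b = 0) :
    a = 0 ∧ b = 0 := by
  have h1 := congrArg σ e
  rw [map_add, map_mul, ha, hb, map_zero] at h1
  have h2 : b = 0 := (mul_eq_zero.1 (by linear_combination -e - h1 : (σ θ - θ) * b = 0)).resolve_left
    (sub_ne_zero.2 hθ)
  exact ⟨by simpa [h2] using e, h2⟩

theorem l_skew {a : E} (ha : τ a = -a) (x : E) : σ (l (τ x * (a * x))) = -l (τ x * (a * x)) := by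
  rw [← h.lτ, map_mul τ, map_mul τ, h.ττ, ha, ← map_neg]; congr 1; ring

theorem exists_skew {γ : E} (hγ : γ ≠ 0) {c : F} (hc : σ c = -c) :
    ∃ a, τ a = -a ∧ l (τ γ * (a * γ)) = c := by
  have : ∃ a, τ a = -a ∧ l (τ γ * (a * γ)) ≠ 0 := by
    by_contra! hc
    obtain ⟨θ, hθ⟩ := exists_ne_of_ne_id h.hσ
    refine mul_ne_zero ((map_ne_zero τ).2 hγ) hγ (eq_zero_of_dual h.ne fun k => ?_)
    obtain ⟨a, b, ha, hb, rfl⟩ := h.dec' hθ k
    rw [add_mul, smul_mul_assoc, map_add, map_smul, mul_left_comm, mul_left_comm b, hc a ha,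
      hc b hb]
    simp
  obtain ⟨a, ha, e⟩ := this
  refine ⟨(c / l (τ γ * (a * γ))) • a, ?_, ?_⟩
  · rw [h.τ_smul, map_div₀, h.l_skew ha, hc, ha, neg_div_neg_eq, smul_neg]
  · rw [smul_mul_assoc, mul_smul_comm, map_smul, smul_eq_mul, div_mul_cancel₀ _ e]

/-- The Hermitian form `l (τ x * b * y)`. -/
noncomputable def form {b : E} (hb : τ b = b) : CForm (hermType σ h.σσ) E :=
  CForm.ofHerm σ h.hσ h.σσ (LinearMap.mk₂'ₛₗ σ (RingHom.id F) (fun x y => l (τ x * (b * y)))
    (fun _ _ _ => by simp [add_mul]) (fun _ _ _ => by simp [h.τ_smul])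
    (fun _ _ _ => by simp [mul_add]) (fun _ _ _ => by simp))
    ⟨fun x y => by
      simp only [LinearMap.mk₂'ₛₗ_apply]
      rw [← h.lτ, map_mul τ, map_mul τ, h.ττ, hb]; congr 1; ring⟩

theorem form_B {b : E} (hb : τ b = b) (x y : E) : (h.form hb).B x y = l (τ x * (b * y)) := rfl

theorem form_N {b : E} (hb : τ b = b) (x : E) : (h.form hb).N x = l (τ x * (b * x)) := rfl

theorem form_nd : (h.form (map_one τ)).Nondeg := fun x hx =>
  (map_eq_zero τ).1 (eq_zero_of_dual h.ne fun k => by simpa [form_B, mul_comm] using hx k)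

theorem all [Finite F] (B : AddSubgroup (E → E)) (hadd : ∀ f ∈ B, ∀ x y, f (x + y) = f x + f y)
    (hsm : ∀ f ∈ B, ∀ (c : F) x, f (c • x) = c • f x)
    (h1 : ∀ a, τ a = -a → (fun x => a * x) ∈ B) {u : E} (hu : u * τ u = 1) (hu' : ∀ c, 𝔣 c ≠ u)
    (h2 : ∀ c, τ c = c ∧ c ≠ 0 ∨ c = u → ∀ f ∈ B, (fun x => c * f (τ c * x)) ∈ B)
    (h3 : ∀ f ∈ B, ∀ x, σ (l (τ x * f x)) = -l (τ x * f x)) {γ : E} (hγ : γ ≠ 0) {T : Set E}
    (hT : ∀ Z : Submodule F E, T ⊆ Z → ∀ w, l (τ γ * w) = 0 → w ∈ Z)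
    (hT' : ∀ w ∈ T, l (τ γ * w) = 0)
    (h4 : ∀ w ∈ T, ∀ f ∈ B, (fun x => l (τ w * x) • f γ - l (τ (f γ) * x) • w +
      (l (τ γ * f γ) * l (τ w * x)) • w) ∈ B) (p v : E) :
    (fun x => l (τ p * x) • v - l (τ v * x) • p) ∈ B := by
  have := h.fd
  have h0 := h.form_nd
  have d3 := h.three
  obtain ⟨θ, hθ⟩ := exists_ne_of_ne_id h.hσ
  have u0 : u ≠ 0 := left_ne_zero_of_mul_eq_one hu
  have hB : ∀ x y, (h.form (map_one τ)).B x y = l (τ x * y) := fun x y => by rw [form_B, one_mul]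
  have sq : ∀ s : F, σ s = s → ∀ f ∈ B, (s * s) • f ∈ B := fun s hs f hf => by
    by_cases e : s = 0
    · simp [e]
    convert h2 (𝔣 s) (.inl ⟨by rw [h.alg, hs], by simpa⟩) f hf using 1
    ext x
    rw [h.alg, hs, ← Algebra.smul_def, ← Algebra.smul_def, hsm f hf, Pi.smul_apply, mul_smul]
  have sc : ∀ c : F, σ c = c → ∀ f ∈ B, c • f ∈ B := fun c hc f hf => by
    by_cases e : (2 : F) = 0
    · obtain ⟨s, rfl⟩ := isSquare_of_two_eq_zero e c
      refine sq s (sub_eq_zero.1 (mul_self_eq_zero.1 ?_)) f hf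
      rw [map_mul] at hc
      linear_combination hc + (s * s - s * σ s) * e
    · convert sub_mem (sq ((c + 1) / 2) (by simp [hc, map_ofNat]) f hf)
        (sq ((c - 1) / 2) (by simp [hc, map_ofNat]) f hf) using 1
      rw [← sub_smul]; congr 1; field_simp; ring
  obtain ⟨f, hf, e⟩ : ∃ f ∈ B, ∀ a, τ a = -a → f γ ≠ a * γ := by
    by_contra! hc
    have key : ∀ f ∈ B, ∃ a, ∀ x, f x = a * x := fun f hf => by
      have f0 : f 0 = 0 := by simpa using hsm f hf 0 0
      have a1 : ∀ e, τ e = e → τ (f (e * γ) / γ) = -(f (e * γ) / γ) := fun e he => by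
        by_cases e0 : e = 0
        · simp [e0, f0]
        obtain ⟨a, ha, e'⟩ := hc _ (h2 e (.inl ⟨he, e0⟩) f hf)
        rw [he] at e'
        rw [show f (e * γ) / γ = a / e by field_simp; linear_combination e', map_div₀, ha, he,
          neg_div]
      have a2 : ∀ x, τ (f (x * γ) / γ) = -(f (τ x * γ) / γ) := fun x => by
        obtain ⟨a, b, ha, hb, rfl⟩ := h.dec hθ x
        rw [map_add, h.τ_smul, ha, hb, add_mul, add_mul, smul_mul_assoc, smul_mul_assoc, hadd f hf,
          hadd f hf, hsm f hf, hsm f hf, add_div, add_div, smul_div_assoc, smul_div_assoc, map_add,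
          h.τ_smul, a1 a ha, a1 b hb]
        module
      have a3 : ∀ x, f (u * x * γ) = u * u * f (τ u * x * γ) := h.mem_of_fix (Z :=
        { carrier := {x | f (u * x * γ) = u * u * f (τ u * x * γ)}
          zero_mem' := by simp [f0]
          add_mem' := fun a b => by simp_all [mul_add, add_mul]
          smul_mem' := fun c x a => by simp_all }) fun e he => by
        by_cases e0 : e = 0
        · simp [e0, f0]
        obtain ⟨a, ha, e'⟩ := hc _ (h2 e (.inl ⟨he, e0⟩) _ (h2 u (.inr rfl) f hf))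
        have e1 := a2 (τ u * e)
        rw [he, ← mul_assoc (τ u)] at e'
        rw [show f (τ u * e * γ) / γ = a / (e * u) by field_simp; linear_combination e', map_div₀,
          map_mul, map_mul, ha, he, h.ττ, neg_div, neg_inj, div_eq_div_iff
          (mul_ne_zero e0 ((map_ne_zero τ).2 u0)) hγ] at e1
        change f (u * e * γ) = _
        apply mul_left_cancel₀ e0
        linear_combination (-u) * e1 - u * e' - e * f (u * e * γ) * hu
      rcases mem_bot_or h.pr
        { carrier := {s | ∀ x, f (s * x) = s * f x}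
          mul_mem' := fun a b x => by rw [mul_assoc, a, b, mul_assoc]
          add_mem' := fun a b x => by rw [add_mul, hadd f hf, a, b, add_mul]
          algebraMap_mem' := fun c x => by
            rw [← Algebra.smul_def, ← Algebra.smul_def, hsm f hf] } with e | e
      · obtain ⟨c, e⟩ := e (u * u) fun x => by
          have := a3 (u * x / γ)
          rwa [mul_assoc u, mul_assoc (τ u), div_mul_cancel₀ _ hγ, ← mul_assoc, ← mul_assoc (τ u),
            mul_comm (τ u), hu, one_mul] at this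
        exact (h.not_quad hu' c 0 (by simp [e])).elim
      · exact ⟨f 1, fun x => by simpa [mul_comm] using e x 1⟩
    obtain ⟨w, w1, w2⟩ : ∃ w ∈ T, w ≠ 0 := by
      by_contra! hc
      obtain ⟨w, a, b, -⟩ := (iso3_herm (exists_norm_of_finite h.σσ h.hσ)
        (h.form (map_one τ))).exists_not_mem ⊤ ⊥ (by simpa)
      obtain ⟨x, x1, x2⟩ := exists_ker_ne_zero ((h.form (map_one τ)).B γ) (by simp; omega)
      exact x1 (hT ⊥ hc x (by rwa [hB] at x2))
    obtain ⟨ω, ω0, hω⟩ := exists_trace_zero' (hσ2 := h.σσ) h.hσ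
    obtain ⟨a, ha, e⟩ := h.exists_skew hγ (eq_neg_of_add_eq_zero_right hω)
    obtain ⟨b, hb⟩ := key _ (h4 w w1 _ (h1 a ha))
    obtain ⟨x, x1, x2⟩ := exists_ker_ne_zero (((h.form (map_one τ)).B w).prod
      ((h.form (map_one τ)).B (a * γ))) (by simp; omega)
    have x3 : l (τ w * x) = 0 := hB w x ▸ congrArg Prod.fst x2
    have x4 : l (τ (a * γ) * x) = 0 := hB _ x ▸ congrArg Prod.snd x2
    obtain rfl : b = 0 := by simpa [x3, x4, x1, -map_mul] using (hb x).symm
    obtain ⟨y, hy⟩ := h0.exists_eq w2 1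
    have := congrArg (fun t => l (τ γ * t)) (hb y)
    rw [hB] at hy
    simp [hy, mul_add, mul_sub, hT' w w1, e, ω0, -map_mul] at this
  obtain ⟨y, y0, y1, y2⟩ : ∃ y, y ≠ 0 ∧ l (τ γ * y) = 0 ∧ ∀ c : F, ∃ f ∈ B, f γ = c • y := by
    obtain ⟨a, ha, e1⟩ := h.exists_skew hγ (h3 f hf γ)
    obtain ⟨b, c, hb, hc, e2⟩ := h.dec' hθ (f γ / γ - a)
    rw [sub_eq_iff_eq_add, div_eq_iff hγ] at e2
    have e3 := h.indep hθ (h.l_skew hb γ) (h.l_skew hc γ) (by
      rw [e2, add_mul, add_mul, mul_add, mul_add, map_add, map_add, smul_mul_assoc, mul_smul_comm,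
        map_smul] at e1
      simpa using e1.symm)
    refine ⟨c * γ, fun e4 => e (b + a) (by rw [map_add, ha, hb, neg_add]) (by
      rw [e2, (mul_eq_zero.1 e4).resolve_right hγ]; simp), e3.2, fun k => ?_⟩
    have k1 : θ - σ θ ≠ 0 := sub_ne_zero.2 hθ.symm
    have k2 : σ ((k - σ k) / (θ - σ θ)) = (k - σ k) / (θ - σ θ) := by
      rw [map_div₀, map_sub, map_sub, h.σσ, h.σσ, ← neg_sub k, ← neg_sub θ, neg_div_neg_eq]
    refine ⟨_, add_mem (sc _ k2 _ (sub_mem (sub_mem hf (h1 a ha)) (h1 b hb)))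
      (sc (k - θ * ((k - σ k) / (θ - σ θ))) (by rw [map_sub, map_mul, k2]; field_simp; ring) _
        (h1 c hc)), ?_⟩
    simp only [Pi.add_apply, Pi.smul_apply, Pi.sub_apply, e2, add_mul, smul_mul_assoc]
    module
  let R : E → Submodule F E := fun p =>
    { carrier := {v | ∀ c : F, (fun x => l (τ p * x) • c • v - l (τ (c • v) * x) • p) ∈ B}
      zero_mem' := fun c => by convert B.zero_mem using 1; ext; simp
      add_mem' := fun a b c => by
        convert add_mem (a c) (b c) using 1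
        ext x; simp only [smul_add, map_add, add_mul, Pi.add_apply]; module
      smul_mem' := fun d v a c => by rw [smul_smul]; exact a _ }
  have r1 : ∀ p v, v ∈ R p → p ∈ R v := fun p v a c => by
    convert a (-σ c) using 1
    ext x; simp only [h.τ_smul, map_neg, h.σσ, smul_mul_assoc, map_smul, smul_eq_mul]; module
  have r2 : ∀ e, τ e = e → ∀ p v, v ∈ R p → e * v ∈ R (e * p) := fun e he p v a c => by
    by_cases e0 : e = 0
    · convert B.zero_mem using 1; ext; simp [e0]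
    convert h2 e (.inl ⟨he, e0⟩) _ (a c) using 1
    ext x
    simp only [h.τ_smul, map_mul, he, smul_mul_assoc, mul_sub, mul_smul_comm, mul_left_comm e,
      mul_assoc]
  have r3 : ∀ w, l (τ γ * w) = 0 → w ∈ R y := hT _ fun w hw => r1 _ _ fun c => by
    obtain ⟨f, hf, e⟩ := y2 c
    simpa [e, y1, -map_mul] using h4 w hw f hf
  have r4 : ∀ x, x ∈ R y := by
    by_contra! hc
    obtain ⟨x₀, hx₀⟩ := hc
    have r5 : ∀ w ∈ R y, l (τ γ * w) = 0 := fun w hw => by_contra fun e => hx₀ (by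
      have := add_mem (r3 (x₀ - (l (τ γ * x₀) / l (τ γ * w)) • w) (by simp [mul_sub, e]))
        ((R y).smul_mem (l (τ γ * x₀) / l (τ γ * w)) hw)
      rwa [sub_add_cancel] at this)
    obtain ⟨t, t1, t2⟩ := h.exists_fix
    have t0 : t ≠ 0 := fun e => t2 0 (by simp [e])
    have t3 : 1 + t ≠ 0 := fun e => t2 (-1) (by simp [eq_neg_of_add_eq_zero_right e])
    have t4 : γ / (1 + t) ∈ Submodule.span F {γ, γ / t} := by
      rw [← h0.perp_perp (Submodule.span F _), CForm.mem_perp']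
      intro x hx
      rw [CForm.mem_perp_pair, hB, hB, map_div₀, t1] at hx
      have a1 := r1 _ _ (r2 t t1 _ _ (r3 (x / t) (by rw [← hx.2]; congr 1; ring)))
      rw [mul_div_cancel₀ _ t0] at a1
      have a2 := r5 _ (by
        simpa [← add_mul, ← mul_assoc, t3] using r2 (1 + t)⁻¹ (by simp [t1]) _ _
          (r1 _ _ (by simpa [add_mul] using add_mem (r1 _ _ (r3 x hx.1)) a1 : (1 + t) * y ∈ R x)) :
          (1 + t)⁻¹ * x ∈ R y)
      rw [hB, map_div₀, map_add, map_one, t1, ← a2]; congr 1; ring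
    obtain ⟨α, β, e⟩ := Submodule.mem_span_pair.1 t4
    rw [Algebra.smul_def, Algebra.smul_def] at e
    field_simp at e
    by_cases a0 : α = 0
    · by_cases b1 : β = 1
      · exact one_ne_zero (by simpa [a0, b1] using e : (1 : E) = 0)
      · refine t2 (β / (1 - β)) ?_
        rw [map_div₀, div_eq_iff ((map_ne_zero 𝔣).2 (sub_ne_zero.2 (Ne.symm b1))), map_sub, map_one]
        simp only [a0, map_zero] at e
        linear_combination e
    · refine h.not_quad t2 (-β / α) ((1 - α - β) / α) ?_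
      have := (map_ne_zero 𝔣).2 a0
      simp only [Algebra.smul_def, map_div₀, map_sub, map_neg, map_one]
      field_simp
      linear_combination e
  have := h.mem_of_fix (Z := (R p).comap (LinearMap.mulRight F y)) (fun e he => by
    by_cases e0 : e = 0
    · simp [e0]
    simpa [← mul_assoc, e0] using r1 _ _ (r2 e he _ _ (r4 (e⁻¹ * p)))) (v / y) 1
  simpa [y0] using this

end UE

theorem UE.rank_one [Fintype F] {q : ℕ} {hF : Fintype.card F = q ^ 2} (h : UE (frob hF) τ l)
    {P : Submodule F E} (hP : P ≠ ⊤) (H : ∀ b, τ b = b → ∀ e ∈ P, e ≠ 0 →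
      (∀ x ∈ P, l (τ x * (b * e)) = 0) → ∀ y ∈ P, ∀ x ∈ P, l (τ x * (b * y)) = 0) {e e' : E}
    (he : e ∈ P) (he0 : e ≠ 0) (he' : e' ∈ P) : ∃ c : F, e' = c • e := by
  classical
  have := h.fd
  have : Finite E := Module.finite_of_finite F
  have := Fintype.ofFinite E
  have hq := two_le_of_card_sq hF
  obtain ⟨θ, hθ⟩ := exists_ne_of_ne_id h.hσ
  obtain ⟨ω, ω0, hω⟩ := exists_trace_zero' (hσ2 := h.σσ) h.hσ
  replace hω := eq_neg_of_add_eq_zero_right hω
  let A : AddSubgroup E := τ.toAddMonoidHom.eqLocus (AddMonoidHom.id E)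
  let Z : Submodule F E :=
    { carrier := {s | ∀ y ∈ P, ∀ x ∈ P, l (τ x * (s * y)) = 0}
      zero_mem' := by simp
      add_mem' := fun a b y hy x hx => by simp [add_mul, mul_add, a y hy x hx, b y hy x hx]
      smul_mem' := fun c s a y hy x hx => by simp [a y hy x hx] }
  obtain ⟨n, hn⟩ : ∃ n, finrank F P = n := ⟨_, rfl⟩
  have cP : Fintype.card P = q ^ (2 * n) := by
    rw [← Nat.card_eq_fintype_card, card_submodule, hF, hn, pow_mul]
  have c1 : ∀ b : A, (q : ℤ) * (Finset.univ.filter fun x : P => l (τ x * (b * x)) = 0).card =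
      if b.1 ∈ Z then (q : ℤ) * q ^ (2 * n) else q ^ (2 * n) + (-1) ^ n * (q - 1) * q ^ n := by
    intro b
    split_ifs with hb
    · rw [Finset.filter_true_of_mem fun x _ => hb _ x.2 _ x.2, Finset.card_univ, cP]; simp
    have := cnt_herm n (C := (h.form (b := b) b.2).restrict P) (fun x hx => by_contra fun x0 =>
      hb (H b b.2 x x.2 (by simpa using x0) fun y hy => CForm.B_swap_zero _ (hx ⟨y, hy⟩))) hn 0
      (zero_pow (by omega))
    rw [if_pos rfl, cnt, Nat.card_eq_fintype_card, Fintype.card_subtype] at this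
    exact this
  have c2 : ∀ x : P, (q : ℤ) * (Finset.univ.filter fun b : A => l (τ x * (b * x)) = 0).card =
      if x = 0 then (q : ℤ) * Fintype.card A else Fintype.card A := by
    intro x
    split_ifs with hx
    · simp [hx]
    let φ : A →+ F := l.toAddMonoidHom.comp ((AddMonoidHom.mulLeft (τ x)).comp
      ((AddMonoidHom.mulRight x.1).comp A.subtype))
    have a1 := AddSubgroup.card_mul_index φ.ker
    have a2 : Nat.card φ.range = q := (Nat.card_congr (Equiv.subtypeEquivRight fun c => ⟨by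
      rintro ⟨b, rfl⟩
      exact herm_σN (C := h.form (b := b) b.2) x, fun hc => by
      obtain ⟨a, ha, e⟩ := h.exists_skew (γ := x) (by simpa using hx) (c := ω * c)
        (by rw [map_mul, hω, frob_apply, hc, neg_mul])
      exact ⟨⟨ω⁻¹ • a, show τ _ = _ by rw [h.τ_smul, map_inv₀, hω, ha, inv_neg, neg_smul_neg]; rfl⟩,
        by simp [φ, e, ω0]⟩⟩)).trans (card_fixed hF)
    rw [AddSubgroup.index_ker, a2, Nat.card_eq_fintype_card, Nat.card_eq_fintype_card,
      Fintype.card_subtype, mul_comm] at a1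
    rw [← a1]
    exact (Nat.cast_mul _ _).symm.trans (congrArg (fun s : Finset A => ((q * s.card : ℕ) : ℤ))
      (Finset.filter_congr fun _ _ => Iff.rfl))
  have c3 : ∑ b : A, ((Finset.univ.filter fun x : P => l (τ x * (b * x)) = 0).card : ℤ) =
      ∑ x : P, ((Finset.univ.filter fun b : A => l (τ x * (b * x)) = 0).card : ℤ) := by
    simp only [Finset.card_filter, Nat.cast_sum]
    exact Finset.sum_comm
  replace c3 := congrArg ((q : ℤ) * ·) c3
  simp only [Finset.mul_sum, c1, c2, Finset.sum_ite, Finset.sum_const, Finset.filter_eq',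
    Finset.mem_univ, if_true, Finset.card_singleton, Finset.filter_ne', nsmul_eq_mul,
    Finset.cast_card_erase_of_mem, Finset.card_univ, cP] at c3
  have c4 := Finset.card_filter_add_card_filter_not (s := (Finset.univ : Finset A)) (·.1 ∈ Z)
  obtain ⟨k, hk⟩ : ∃ k, (Finset.univ.filter fun b : A => b.1 ∈ Z).card = k := ⟨_, rfl⟩
  have c5 : k * k ≤ Fintype.card Z := by
    rw [← hk, ← Fintype.card_subtype, ← Fintype.card_prod]
    refine Fintype.card_le_of_injective (fun x => ⟨x.1.1.1 + θ • x.2.1.1,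
      add_mem x.1.2 (Z.smul_mem _ x.2.2)⟩) ?_
    rintro ⟨⟨⟨a, ha⟩, _⟩, ⟨b, hb⟩, _⟩ ⟨⟨⟨a', ha'⟩, _⟩, ⟨b', hb'⟩, _⟩ e
    replace e : a + θ • b = a' + θ • b' := congrArg Subtype.val e
    have e1 := congrArg τ e
    rw [map_add, map_add, h.τ_smul, h.τ_smul, show τ a = a from ha, show τ b = b from hb,
      show τ a' = a' from ha', show τ b' = b' from hb'] at e1
    obtain rfl : b = b' := smul_right_injective E (sub_ne_zero.2 hθ)
      (by linear_combination (norm := module) e1 - e : (_ - θ) • b = (_ - θ) • b')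
    obtain rfl : a = a' := by simpa using e
    rfl
  have c6 : Fintype.card E ≤ Fintype.card A * Fintype.card A := by
    rw [← Fintype.card_prod]
    refine Fintype.card_le_of_surjective (fun x => x.1.1 + θ • x.2.1) fun x => ?_
    obtain ⟨a, b, ha, hb, e⟩ := h.dec hθ x
    exact ⟨(⟨a, ha⟩, ⟨b, hb⟩), e.symm⟩
  have n0 : 0 < n := hn ▸ finrank_pos_iff_exists_ne_zero.2 ⟨⟨e, he⟩, by simpa using he0⟩
  have c7 : (k : ℤ) * q ^ n = -(-1) ^ n * Fintype.card A := by
    rw [hk, Finset.card_univ] at c4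
    rw [hk, ← c4] at c3
    have e1 : ((-1 : ℤ) ^ n) ^ 2 = 1 := by rw [← pow_mul, mul_comm, pow_mul]; simp
    have e2 : (2 : ℤ) ≤ q ^ n := by exact_mod_cast hq.trans (Nat.le_self_pow n0.ne' q)
    have e3 : (q : ℤ) ^ n - (-1) ^ n ≠ 0 := by rcases neg_one_pow_eq_or ℤ n with e | e <;> omega
    refine mul_left_cancel₀ (mul_ne_zero e3 (show (q : ℤ) - 1 ≠ 0 by omega)) ?_
    rw [← c4]
    push_cast at c3 ⊢
    rw [mul_comm 2, pow_mul] at c3
    linear_combination c3 - (q - 1) * (k + (Finset.univ.filter fun b : A => ¬ b.1 ∈ Z).card) * e1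
  have c8 : Fintype.card A = k * q ^ n := by
    rcases neg_one_pow_eq_or ℤ n with e | e <;> rw [e] at c7
    · have : 0 < Fintype.card A := Fintype.card_pos
      have : (0 : ℤ) ≤ k * q ^ n := by positivity
      omega
    · exact_mod_cast (by simpa using c7.symm : (Fintype.card A : ℤ) = k * q ^ n)
  have d1 := h.form_nd.finrank_add_finrank_perp P
  have d2 : finrank F E ≤ finrank F Z + n := by
    rw [← Nat.card_eq_fintype_card, card_submodule, hF] at c5
    rw [c8, ← Nat.card_eq_fintype_card, card_module (F := F), hF, mul_mul_mul_comm] at c6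
    have := c6.trans (Nat.mul_le_mul_right _ c5)
    rwa [← mul_pow, ← sq, ← pow_add, Nat.pow_le_pow_iff_right (by nlinarith)] at this
  have d3 : ∀ y ∈ P, Z.map (LinearMap.mulRight F y) ≤ (h.form (map_one τ)).perp P := by
    rintro y hy _ ⟨s, hs, rfl⟩ x hx
    simpa [UE.form_B] using hs y hy x hx
  have d4 := Submodule.eq_of_le_of_finrank_le (d3 e he) (by
    rw [← (Submodule.equivMapOfInjective _ (mul_left_injective₀ he0) Z).finrank_eq]; omega)
  obtain ⟨w, w1, w2⟩ := Submodule.exists_mem_ne_zero_of_ne_bot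
    (p := (h.form (map_one τ)).perp P) fun e => hP (by
      rw [← h.form_nd.perp_perp P, e, CForm.perp_bot])
  obtain ⟨c, hc⟩ := eL_le_of_mul h.pr (z := (1 : E)) w2 (mem_eL.2 ⟨w, by simp⟩) w1 (fun e1 => he0
    (h.form_nd e fun y => e1 (mem_eL.2 ⟨y, by simp⟩) e he)) (s := e' / e) fun k hk => by
      obtain ⟨s, hs, e1⟩ := d4.ge hk
      refine d3 e' he' ⟨s, hs, ?_⟩
      simp only [smul_eq_mul, mul_one, LinearMap.mulRight_apply] at e1 ⊢
      rw [← e1]; field_simp
  exact ⟨c, by rw [Algebra.smul_def, hc, div_mul_cancel₀ _ he0]⟩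

end H12
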