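import Cfsg.Agent.H12.ExU1
import Cfsg.Agent.H12.ExO2

/-!
# Overgroups of the unitary group over an extension field of odd prime degree
-/

set_option autoImplicit false
set_option maxHeartbeats 400000

namespace H12

open Module H11 H13.KL

variable {F E V : Type*} [Field F] [Field E] [Algebra F E] [AddCommGroup V] [Module F V]
  [Module E V] [IsScalarTower F E V] {σ : F →+* F} {τ : E →+* E} {hσ2 : ∀ a, σ (σ a) = a}
  {hτ2 : ∀ a, τ (τ a) = a} {C : CForm (hermType σ hσ2) V} {D : CForm (hermType τ hτ2) V}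
  {l : Dual F E} {X : Subgroup (V ≃ₗ[F] V)} {g : V ≃ₗ[F] V} {z : V} {u : E}

local notation "𝔣" => algebraMap F E

theorem herm_rq {v y : V} {a : F} : Rq C X v y a ↔
    ∃ g ∈ X, ∀ x, g x = x + C.B v x • y - (C.B y x + a * C.B v x) • v := by
  simp only [Rq, herm_symm _ y]; rfl

variable (C D l X u) in
/-- An overgroup of the unitary group over an extension field. -/
structure EU : Prop extends UE σ τ l where
  eq : ∀ x y, C.B x y = l (D.B x y)
  nd : D.Nondeg
  le : X ≤ C.isom ⊓ SLV F V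
  res : ∀ g ∈ D.isom, Algebra.norm F (LinearMap.det (g : V →ₗ[E] V)) = 1 → res F E V g ∈ X
  dim : 2 ≤ finrank E V
  u1 : u * τ u = 1
  u2 : ∀ c, 𝔣 c ≠ u
  u3 : 3 ≤ finrank E V ∨ Algebra.norm F u = 1

namespace EU

variable (h : EU C D l X u)
include h

theorem fdE : FiniteDimensional E V := FiniteDimensional.of_finrank_pos (by have := h.dim; omega)

theorem le' : X ≤ C.isom := h.le.trans inf_le_left

theorem perp_iff {x y : V} : D.B x y = 0 ↔ ∀ k : E, C.B x (k • y) = 0 :=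
  ⟨fun e k => by simp [h.eq, e], fun e => eq_zero_of_dual h.ne fun k => by
    simpa [h.eq] using e k⟩

theorem ndC : C.Nondeg := fun x hx => h.nd x fun y => h.perp_iff.2 fun _ => hx _

theorem Bz (k : E) (x : V) : C.B (k • z) x = l (τ k * D.B z x) := by
  rw [h.eq, herm_B_smul_left]

theorem Bz' (k : E) (x : V) : C.B x (k • z) = l (τ (D.B z x) * k) := by
  rw [h.eq, D.B_smul_right, herm_symm z x, mul_comm]

theorem ts (hz : D.N z = 0) {x y : V} (hx : x ∈ eL F E z) (hy : y ∈ eL F E z) : C.B x y = 0 := by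
  obtain ⟨a, rfl⟩ := mem_eL.1 hx
  obtain ⟨b, rfl⟩ := mem_eL.1 hy
  simp [h.Bz, herm_B_self, hz]

theorem res' {k : V ≃ₗ[E] V} (hk : k ∈ D.isom) (hk' : k ∈ SLV E V) : H13.KL.res F E V k ∈ X :=
  h.res k hk (by rw [mem_SLV.1 hk', map_one])

theorem rho (hz : D.N z = 0) {y : V} (hy : D.B z y = 0) {a : E} (ha : a + τ a = D.N y) :
    ∃ t ∈ X, (∀ v ∈ eL F E z, t v = v) ∧
      ∀ x, t x = x + D.B z x • y - (D.B y x + a * D.B z x) • z := by
  have := h.fdE
  refine ⟨_, h.res' (H12.rho D hz hy ha).2 (rho_mem_sisom hz hy ha), fun v hv => ?_,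
    rho_apply hz hy ha⟩
  obtain ⟨c, rfl⟩ := mem_eL.1 hv
  simp [rho_apply, herm_B_self, hz, D.B_swap_zero hy]

theorem tv (hz : D.N z = 0) {a : E} (ha : τ a = -a) :
    ∃ t ∈ X, (∀ v ∈ eL F E z, t v = v) ∧ ∀ x, t x = x + (a * D.B z x) • z := by
  obtain ⟨t, t1, t2, t3⟩ := h.rho hz (y := 0) (by simp) (a := -a) (by simp [ha, D.N_zero])
  exact ⟨t, t1, t2, fun x => by simp [t3]⟩

theorem rho' (hz : D.N z = 0) {y : V} (hy : D.B z y = 0) : ∃ t ∈ X, (∀ v ∈ eL F E z, t v = v) ∧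
    ∀ x, D.B z x = 0 → t x = x - D.B y x • z := by
  obtain ⟨a, ha⟩ := exists_trace_eq h.hτ hτ2 (herm_σN (C := D) y)
  obtain ⟨t, t1, t2, t3⟩ := h.rho hz hy ha
  exact ⟨t, t1, t2, fun x hx => by simp [t3, hx]⟩

theorem trans {v w : V} (hv : v ≠ 0) (hw : w ≠ 0) (hv0 : D.N v = 0) (hw0 : D.N w = 0) :
    ∃ k ∈ X, ∃ s : E, s ≠ 0 ∧ ∀ a : E, k (a • v) = a • s • w := by
  have := h.fdE
  obtain ⟨k, hk, e⟩ := h.nd.witt_one hv hw (hw0.trans hv0.symm)
  obtain ⟨f, hf⟩ := exists_hypPair h.nd hv hv0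
  have h1 := h.nd.σ_det_mul_det hk
  obtain ⟨a, ha, e'⟩ := hilbert90 h.hτ hτ2 (d := τ (LinearMap.det (k : V →ₗ[E] V)))
    (by rw [hτ2]; exact h1)
  obtain ⟨t, h2, -, -, h4⟩ := hf.exists_torus h.nd ha
  refine ⟨_, h.res' (mul_mem hk t.2) (mem_SLV.2 ?_), a, ha, fun b => by simp [h2, e]⟩
  rw [LinearEquiv.coe_toLinearMap_mul, map_mul, ← LinearEquiv.coe_det t.1, h4, mul_comm]
  exact (congrArg (· * _) e').trans h1

theorem scal (hz : D.N z = 0) (hz0 : z ≠ 0) {c : E} (hc : τ c = c ∧ c ≠ 0 ∨ c = u) :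
    ∃ k ∈ X, (∀ a : E, k (a • z) = (c * a) • z) ∧ ∀ x, D.B z (k⁻¹ x) = τ c * D.B z x := by
  have := h.fdE
  have u0 : u ≠ 0 := left_ne_zero_of_mul_eq_one h.u1
  suffices ∃ k ∈ D.isom, Algebra.norm F (LinearMap.det (k : V →ₗ[E] V)) = 1 ∧ k z = c • z by
    obtain ⟨k, k1, k2, k3⟩ := this
    refine ⟨_, h.res k k1 k2, fun a => by simp [k3, smul_smul, mul_comm], fun x => ?_⟩
    rw [← map_inv, res_apply, ← CForm.isom_B k1, k3, apply_inv_apply, herm_B_smul_left]
  obtain ⟨f, hf⟩ := exists_hypPair h.nd hz0 hz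
  obtain ⟨t, h2, -, -, h4⟩ := hf.exists_torus h.nd (a := c) (hc.elim And.right (· ▸ u0))
  rw [LinearEquiv.coe_det] at h4
  change _ = c * (τ c)⁻¹ at h4
  rcases hc with hc | rfl
  · exact ⟨_, t.2, by rw [h4, hc.1, mul_inv_cancel₀ hc.2, map_one], h2⟩
  rcases h.u3 with e | e
  · obtain ⟨n, n1, n2⟩ := exists_perp_nonsingular h.hτ h.nd e z
    obtain ⟨s, s1, s2, -, s3⟩ := exists_qrefl_det n2 (d := c⁻¹ * τ c)
      (by rw [map_mul, map_inv₀, hτ2]; field_simp; exact div_self ((map_ne_zero τ).2 u0))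
    refine ⟨_, mul_mem t.2 s1, ?_, by
      rw [LinearEquiv.mul_apply, s2 z (D.B_swap_zero n1), h2]⟩
    rw [LinearEquiv.coe_toLinearMap_mul, map_mul, h4, s3, show c * (τ c)⁻¹ * (c⁻¹ * τ c) = 1 by
      have := (map_ne_zero τ).2 u0; field_simp, map_one]
  · exact ⟨_, t.2, by rw [h4, ← eq_inv_of_mul_eq_one_left h.u1, map_mul, e, mul_one], h2⟩

theorem mem_of_skew {Y : Submodule F V} {y : V} (hy : ∀ a, τ a = -a → a • y ∈ Y) :
    eL F E y ≤ Y := fun x hx => by
  obtain ⟨θ, hθ⟩ := exists_ne_of_ne_id h.hσ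
  obtain ⟨k, rfl⟩ := mem_eL.1 hx
  obtain ⟨a, b, ha, hb, rfl⟩ := h.dec' hθ k
  rw [add_smul, smul_assoc]
  exact add_mem (hy a ha) (Y.smul_mem _ (hy b hb))

theorem exists_skew (hv : z ≠ 0) (hz : D.N z = 0) :
    ∃ y, D.N y = 0 ∧ D.B z y ≠ 0 ∧ τ (D.B z y) = -D.B z y := by
  have := h.fdE
  obtain ⟨ω, ω0, hω⟩ := exists_trace_zero' (hσ2 := hτ2) h.hτ
  obtain ⟨f, hf⟩ := exists_hypPair h.nd hv hz
  exact ⟨ω • f, D.N_smul_of_zero hf.right _, by simpa [hf.pair] using ω0, by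
    simpa [hf.pair] using eq_neg_of_add_eq_zero_right hω⟩

theorem semi [Finite E] (hg : ∀ v, D.N v = 0 → ∀ a : E, g (a • v) ∈ eL F E (g v)) :
    g ∈ semiStab F E V := by
  have := h.fdE
  obtain ⟨v₀, -, v0, v1⟩ := herm_exists_iso (exists_norm_of_finite hτ2 h.hτ) D (W := ⊤)
    (by simpa using h.dim)
  have : Nontrivial V := ⟨⟨v₀, 0, v0⟩⟩
  choose! b hb using fun v hv a => mem_eL.1 (hg v hv a)
  have sj : ∀ v, v ≠ 0 → D.N v = 0 → ∀ c : E, ∃ a : E, g (a • v) = c • g v := fun v a1 a2 c => by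
    obtain ⟨a, rfl⟩ := (Finite.injective_iff_surjective (f := b v)).1 (fun a a' e =>
      smul_left_injective E a1 (g.injective (by rw [← hb v a2, ← hb v a2, e]))) c
    exact ⟨a, (hb v a2 a).symm⟩
  have k1 : ∀ u v, D.N u = 0 → D.N v = 0 → D.B u v ≠ 0 → τ (D.B u v) = -D.B u v →
      ∀ a, b u a = b v a := fun u v u1 v1 d0 d1 a => by
    have p : D.N (u + v) = 0 := by rw [herm_N_add, u1, v1, d1]; ring
    have e := hb _ p a
    simp only [smul_add, map_add, ← hb u u1, ← hb v v1] at e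
    have u0 : u ≠ 0 := by rintro rfl; simp at d0
    have v0 : v ≠ 0 := by rintro rfl; simp at d0
    obtain ⟨x, hx⟩ := sj u u0 u1 (b (u + v) a - b u a)
    obtain ⟨y, hy⟩ := sj v v0 v1 (b (u + v) a - b v a)
    have e1 : x • u + y • v = 0 := g.injective (by
      rw [map_add, hx, hy, map_zero]; linear_combination (norm := module) e)
    have e3 := congrArg (D.B u) e1
    simp only [map_add, map_smul, herm_B_self, u1, smul_eq_mul, mul_zero, zero_add, map_zero,
      mul_eq_zero, d0, or_false] at e3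
    rw [e3, zero_smul, add_zero, smul_eq_zero_iff_left u0] at e1
    rw [e1, zero_smul, map_zero, eq_comm, smul_eq_zero_iff_left (by simpa using u0)] at hx
    rw [e3, zero_smul, map_zero, eq_comm, smul_eq_zero_iff_left (by simpa using v0)] at hy
    linear_combination hy - hx
  have k2 : ∀ v, v ≠ 0 → D.N v = 0 → ∀ a e : E, g (a • e • v) = b v a • g (e • v) := by
    intro v v0 v1 a
    refine h.mem_of_fix (Z :=
      { carrier := {e | g (a • e • v) = b v a • g (e • v)}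
        zero_mem' := by simp
        add_mem' := fun e e' => by simp_all [add_smul]
        smul_mem' := fun c e e' => by
          simp only [Set.mem_setOf_eq, smul_assoc] at *
          rw [smul_comm a c, map_smul g c, map_smul g c, e', smul_comm] }) fun e he => ?_
    by_cases e0 : e = 0
    · simp [e0]
    obtain ⟨y, y1, y2, y3⟩ := h.exists_skew v0 v1
    change g (a • e • v) = _
    rw [← hb _ (D.N_smul_of_zero v1 e), k1 v y v1 y1 y2 y3, k1 (e • v) y (D.N_smul_of_zero v1 e) y1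
      (by rw [herm_B_smul_left, he]; exact mul_ne_zero e0 y2)
      (by rw [herm_B_smul_left, he, map_mul, he, y3, mul_neg])]
  have k3 : ∀ u v, D.N u = 0 → D.N v = 0 → D.B u v ≠ 0 → ∀ a, b u a = b v a := by
    intro u v u1 v1 d0 a
    obtain ⟨ω, ω0, hω⟩ := exists_trace_zero' (hσ2 := hτ2) h.hτ
    have v0 : v ≠ 0 := by rintro rfl; simp at d0
    have v2 := D.N_smul_of_zero v1 (ω / D.B u v)
    rw [k1 u _ u1 v2 (by simpa [d0]) (by simpa [d0] using eq_neg_of_add_eq_zero_right hω)]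
    exact smul_left_injective E (by simp [d0, ω0, v0]) ((hb _ v2 a).trans (k2 v v0 v1 a _))
  refine mem_semiStab fun a => ⟨b v₀ a, mem_of_singular h.nd v0 v1
    { carrier := {x | g (a • x) = b v₀ a • g x}
      add_mem' := fun e e' => by simp_all
      zero_mem' := by simp
      neg_mem' := fun e => by simp_all } fun v hv => ?_⟩
  by_cases e : v = 0
  · simp [e]
  refine (hb v hv a).symm.trans (congrArg (· • g v) ?_)
  by_cases e' : D.B v₀ v = 0
  · obtain ⟨y, -, y2, y3⟩ := h.nd.exists_perp_ne_ne (U := ⊥) v0 e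
    obtain ⟨c, hc⟩ := exists_add_smul_singular v1 y2
    rw [k3 v _ hv hc (by simpa [D.B_swap_zero e']), k3 v₀ _ v1 hc (by simpa [herm_B_self, v1])]
  · exact (k3 v₀ v v1 hv e' a).symm

variable [Finite F] [FiniteDimensional F V]

/-- All root elements supported on an isotropic `E`-line generate the special unitary group. -/
theorem le_of_rq (hz : D.N z = 0) (hz0 : z ≠ 0)
    (H : ∀ p ∈ eL F E z, ∀ v ∈ eL F E z, Rq C X p v 0) : C.isom ⊓ SLV F V ≤ X := by
  have := h.fdE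
  have := h.fd
  have hd : 6 ≤ finrank F V := by
    have := finrank_mul_finrank F E V
    have := h.three
    have := h.dim
    nlinarith
  have h1 : ∀ p, D.N p = 0 → ∀ v ∈ eL F E p, Rq C X p v 0 := fun p hp v hv => by
    by_cases p0 : p = 0
    · obtain ⟨c, rfl⟩ := mem_eL.1 hv
      simpa [p0] using rho_zero
    obtain ⟨k, k1, s, s0, k2⟩ := h.trans hz0 p0 hz hp
    obtain ⟨c, rfl⟩ := mem_eL.1 hv
    have := (H _ (smul_mem_eL s⁻¹ z) _ (smul_mem_eL (c * s⁻¹) z)).conj k1 (h.le' k1)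
    simpa [k2, s0, smul_smul] using this
  have h2 : ∀ p, D.N p = 0 → ∀ a, a + σ a = 0 → Rq C X p 0 a := fun p hp a ha => by
    obtain ⟨ω, ω0, hω⟩ := exists_trace_zero' (hσ2 := hσ2) h.hσ
    replace hω := eq_neg_of_add_eq_zero_right hω
    obtain ⟨c, hc⟩ := exists_trace_eq h.hσ hσ2 (b := -a / ω) (by
      rw [map_div₀, map_neg, hω, eq_neg_of_add_eq_zero_right ha, neg_neg, div_neg, neg_div])
    obtain ⟨t, t1, t2⟩ := herm_rq.1 (h1 p hp ((ω * c) • p) (Submodule.smul_mem _ _ (self_mem_eL p)))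
    refine herm_rq.2 ⟨t, t1, fun x => ?_⟩
    rw [t2, herm_B_smul_left, map_mul, hω, show a = -(ω * (c + σ c)) by rw [hc]; field_simp]
    simp only [map_zero, LinearMap.zero_apply]
    module
  obtain ⟨κ, κ0, hκ⟩ := exists_ker_ne_zero l (by have := h.three; simp; omega)
  have h3 : ∀ p, p ≠ 0 → D.N p = 0 → Q1 C (C.isom ⊓ SLV F V) X p := fun p p0 hp => by
    have hp' : C.N p = 0 := by rw [← herm_B_self, h.eq, herm_B_self, hp, map_zero]
    obtain ⟨f, hf⟩ := h.ndC.exists_eq p0 1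
    let R : Submodule F V :=
      { carrier := {y | C.B p y = 0 ∧ ∀ c : F, ∃ a, Rq C X p (c • y) a}
        zero_mem' := ⟨by simp, fun c => ⟨0, by simpa using rho_zero⟩⟩
        add_mem' := fun {y y'} a b => ⟨by simp [a.1, b.1], fun c =>
          let ⟨_, e⟩ := a.2 c; let ⟨_, e'⟩ := b.2 c
          ⟨_, smul_add c y y' ▸ e.mul e' (C.B_self_of_zero hp') (by simp [a.1]) (by simp [b.1])⟩⟩
        smul_mem' := fun d y a => ⟨by simp [a.1], fun c => by rw [smul_smul]; exact a.2 _⟩ }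
    have r1 : ∀ k : E, k • p ∈ R := fun k => ⟨h.ts hp (self_mem_eL p) (smul_mem_eL k p), fun c =>
      ⟨0, h1 p hp _ (Submodule.smul_mem _ _ (smul_mem_eL k p))⟩⟩
    have r2 : ∀ y, C.B p y = 0 → D.B p y ≠ 0 → y ∈ R := fun y y1 y2 => by
      obtain ⟨c, hc⟩ := exists_add_smul_singular hp y2
      obtain ⟨y', e⟩ : ∃ y', y' = y + c • p := ⟨_, rfl⟩
      have a1 : C.B y' p = 0 := C.B_swap_zero (by rw [e, map_add, y1, (r1 c).1, add_zero])
      have a2 : D.B y' p ≠ 0 := D.B_swap_ne (by simpa [e, herm_B_self, hp] using y2)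
      obtain ⟨k, hk⟩ : ∃ k : E, C.B y' (k • p) ≠ 0 := by
        by_contra! hc
        exact a2 (h.perp_iff.2 hc)
      obtain ⟨ω, ω0, hω⟩ := exists_trace_zero' (hσ2 := hσ2) h.hσ
      obtain ⟨t, t1, t2⟩ := h2 y' (e ▸ hc) ω hω
      have a3 : t (k • p) ∈ R := ⟨by
        rw [← CForm.isom_B (h.le' (inv_mem t1)), inv_apply_apply, show t⁻¹ p = p from by
          rw [← t.injective.eq_iff, apply_inv_apply, t2]; simp [a1], (r1 k).1], fun d => by
        obtain ⟨a, ha⟩ := (r1 k).2 d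
        have := ha.conj t1 (h.le' t1)
        rw [show t p = p by rw [t2]; simp [a1], map_smul] at this
        exact ⟨a, this⟩⟩
      have a4 := R.smul_mem (ω * C.B y' (k • p))⁻¹ (sub_mem (r1 k) a3)
      rw [t2, map_zero, map_zero, zero_add, smul_zero, add_zero, sub_sub_cancel,
        inv_smul_smul₀ (mul_ne_zero ω0 hk), e] at a4
      simpa using sub_mem a4 (r1 c)
    refine q1_of_rho inf_le_left h.le hp' hf (fun y hy => ?_) fun a ha =>
      h2 p hp a (by simpa [hermType] using (ha.tvOk inf_le_left hp' hf).1)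
    suffices y ∈ R by simpa using this.2 1
    by_cases e : D.B p y = 0
    · obtain ⟨f', hf'⟩ := h.nd.exists_eq p0 κ
      simpa using sub_mem (r2 (y + f') (by rw [map_add, hy, h.eq, hf', hκ, add_zero])
        (by rwa [map_add, e, hf', zero_add])) (r2 f' (by rw [h.eq, hf', hκ]) (by rwa [hf']))
    · exact r2 y hy e
  obtain ⟨f, hf⟩ := exists_hypPair h.nd hz0 hz
  obtain ⟨c, hc⟩ : ∃ c, l c = 1 := LinearMap.surjective h.ne 1
  have f1 := D.N_smul_of_zero hf.right c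
  have f2 : C.B z (c • f) ≠ 0 := by simp [h.eq, hf.pair, hc]
  exact (rootG_herm h.hσ (exists_norm_of_finite hσ2 h.hσ) h.ndC (by omega)).fin X z (c • f)
    (by rw [← herm_B_self, h.eq, herm_B_self, hz, map_zero])
    (by rw [← herm_B_self, h.eq, herm_B_self, f1, map_zero]) f2 (h3 z hz0 hz)
    (h3 _ (by rintro e; simp [e] at f2) f1)

/-- Elements inducing enough transvections on an isotropic `E`-line. -/
theorem le_of_tau (hz : D.N z = 0) {φ : V} (hφ : D.B z φ ≠ 0) {T : Set E}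
    (hT : ∀ Z : Submodule F E, T ⊆ Z → ∀ w, C.B φ (w • z) = 0 → w ∈ Z)
    (hT' : ∀ w ∈ T, C.B φ (w • z) = 0)
    (ht : ∀ w ∈ T, ∃ t ∈ X, ∀ v ∈ eL F E z, t v = v + C.B φ v • w • z) :
    C.isom ⊓ SLV F V ≤ X := by
  have hz0 : z ≠ 0 := by rintro rfl; simp at hφ
  have zz : ∀ k : E, D.B z (k • z) = 0 := fun k => by simp [herm_B_self, hz]
  let B : AddSubgroup (E → E) :=
    { carrier := {f | ∃ β ∈ X, ∀ x, β x = x + f (D.B z x) • z}
      zero_mem' := ⟨1, one_mem _, fun x => by simp⟩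
      add_mem' := by
        rintro f f' ⟨β, b1, b2⟩ ⟨β', b1', b2'⟩
        exact ⟨β * β', mul_mem b1 b1', fun x => by
          rw [LinearEquiv.mul_apply, b2', b2, map_add, zz, add_zero, Pi.add_apply]; module⟩
      neg_mem' := by
        rintro f ⟨β, b1, b2⟩
        exact ⟨β⁻¹, inv_mem b1, fun x => β.injective (by
          rw [apply_inv_apply, b2, map_add, zz, add_zero, Pi.neg_apply]; module)⟩ }
  have sj := fun e => h.nd.exists_eq hz0 e
  refine h.le_of_rq hz hz0 fun p hp v hv => ?_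
  obtain ⟨p, rfl⟩ := mem_eL.1 hp
  obtain ⟨v, rfl⟩ := mem_eL.1 hv
  refine Exists.elim (h.all B ?_ ?_ (fun a ha => let ⟨t, t1, _, t2⟩ := h.tv hz ha; ⟨t, t1, t2⟩)
    h.u1 h.u2 ?_ ?_ hφ (T := T) (by simpa only [h.Bz'] using hT) (by simpa only [h.Bz'] using hT')
    ?_ p v) fun β ⟨b1, b2⟩ => herm_rq.2 ⟨β, b1, fun x => by
      rw [b2, h.Bz, h.Bz, sub_smul, smul_assoc, smul_assoc]; module⟩
  · rintro f ⟨β, -, b2⟩ a b
    obtain ⟨x, rfl⟩ := sj a
    obtain ⟨y, rfl⟩ := sj b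
    have := map_add β x y
    rw [b2, b2, b2, map_add] at this
    exact smul_left_injective E hz0 (by linear_combination (norm := module) this)
  · rintro f ⟨β, -, b2⟩ c a
    obtain ⟨x, rfl⟩ := sj a
    have := map_smul β c x
    rw [b2, b2, smul_add, add_right_inj, ← algebraMap_smul E c x, map_smul, algebraMap_smul,
      ← smul_assoc] at this
    exact smul_left_injective E hz0 this
  · rintro c hc f ⟨β, b1, b2⟩
    obtain ⟨k, k1, k2, k3⟩ := h.scal hz hz0 hc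
    exact ⟨k * β * k⁻¹, mul_mem (mul_mem k1 b1) (inv_mem k1), fun x => by
      rw [LinearEquiv.mul_apply, LinearEquiv.mul_apply, b2, map_add, apply_inv_apply, k2, k3]⟩
  · rintro f ⟨β, b1, b2⟩ a
    obtain ⟨x, rfl⟩ := sj a
    have := CForm.isom_B (h.le' b1) x x
    rw [b2, C.B_add_left, map_add, map_add, h.ts hz (smul_mem_eL _ z) (smul_mem_eL _ z),
      herm_symm x (_ • z), h.Bz'] at this
    linear_combination this
  · rintro w hw f ⟨β, b1, b2⟩
    obtain ⟨t, t1, t2⟩ := ht w hw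
    obtain ⟨k, k1, k2⟩ := herm_rq.1 <| rq_of_comm h.ndC h.le' (M := eL F E z)
      (fun x a y b => h.ts hz a b) t1 b1 (smul_mem_eL w z) t2 fun x => by
        rw [b2, add_sub_cancel_left]; exact smul_mem_eL _ z
    refine ⟨k, k1, fun x => ?_⟩
    rw [k2, b2, add_sub_cancel_left]
    simp only [show (hermType σ hσ2).ε = 1 from rfl, map_one, one_smul, one_mul, h.Bz, h.Bz' _ φ,
      add_smul, sub_smul, smul_assoc]
    module

theorem stab (hg : MaxPair X (eL F E z) g) {t : V ≃ₗ[F] V} (ht : t ∈ X)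
    (hL : ∀ v ∈ eL F E z, t v = v) {x x' : V} (hx : x ∉ eL F E z) (h1 : g⁻¹ x ∈ eL F E z)
    (h2 : g⁻¹ (t x - x) ∈ eL F E z) (h3 : g⁻¹ x' ∈ eL F E z) : g⁻¹ (t x' - x') ∈ eL F E z := by
  have := (hg.stab ht (fun v hv hv' => by rwa [hL v hv]) hx h1
    (by simpa only [← map_add, sub_add_cancel] using add_mem h2 h1) _).1 h3
  rw [LinearEquiv.mul_apply, LinearEquiv.mul_apply, apply_inv_apply] at this
  rw [map_sub]
  exact sub_mem this h3

theorem le_of_codim (hz : D.N z = 0) (hg : g ∈ X) {x : V} (hx : x ∉ eL F E z)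
    (h1 : g⁻¹ x ∈ eL F E z) (co : ∀ v ∈ eL F E z, ∃ c : F, g v - c • x ∈ eL F E z) {T : Set V}
    (hT : ∀ Z : Submodule F V, T ⊆ Z → ∀ w ∈ eL F E z, g⁻¹ w ∈ eL F E z → w ∈ Z)
    (ht : ∀ w ∈ T, w ∈ eL F E z ∧ g⁻¹ w ∈ eL F E z ∧
      ∃ t ∈ X, (∀ v ∈ eL F E z, t v = v) ∧ t x = x + w) : C.isom ⊓ SLV F V ≤ X := by
  obtain ⟨φ, a1, a2⟩ := h.ndC.exists_perp_eq hx 1
  rw [← map_one σ, ← σ.injective.eq_iff, ← herm_symm, hσ2] at a2
  replace a1 : ∀ v ∈ eL F E z, C.B φ v = 0 := C.mem_perp'.1 a1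
  have a3 : ∀ v, C.B (g⁻¹ φ) v = C.B φ (g v) := fun v => by
    rw [← CForm.isom_B (h.le' hg), apply_inv_apply]
  have a4 : ∀ v ∈ eL F E z, g v - C.B φ (g v) • x ∈ eL F E z := fun v hv => by
    obtain ⟨c, hc⟩ := co v hv
    have := a1 _ hc
    rw [map_sub, map_smul, a2, smul_eq_mul, mul_one, sub_eq_zero] at this
    rwa [this]
  have hz0 : z ≠ 0 := by
    rintro rfl
    obtain ⟨k, hk⟩ := mem_eL.1 h1
    rw [smul_zero, eq_comm, LinearEquiv.map_eq_zero_iff] at hk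
    exact hx (by rw [hk]; exact zero_mem _)
  refine h.le_of_tau hz (φ := g⁻¹ φ) (fun e => ?_) (T := {k | g (k • z) ∈ T}) (fun Z hZ w hw => ?_)
    (fun w hw => by rw [a3, a1 _ (ht _ hw).1]) fun w hw => ?_
  · obtain ⟨b, hb⟩ := mem_eL.1 h1
    rw [← CForm.isom_B (h.le' (inv_mem hg)), ← hb, h.Bz', e] at a2
    simp at a2
  · have b1 := a4 _ (smul_mem_eL w z)
    rw [← a3, hw, zero_smul, sub_zero] at b1
    obtain ⟨k, k1, k2⟩ := hT (Z.map (g.toLinearMap ∘ₗ
      (LinearMap.toSpanSingleton E V z).restrictScalars F)) (fun y hy => by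
        obtain ⟨k, hk⟩ := mem_eL.1 (ht y hy).2.1
        have : g (k • z) = y := by rw [hk, apply_inv_apply]
        exact ⟨k, hZ (by rwa [Set.mem_setOf_eq, this]), this⟩) _ b1
      (by rw [inv_apply_apply]; exact smul_mem_eL w z)
    rwa [← smul_left_injective E hz0 (g.injective k2)]
  obtain ⟨-, -, t, t0, t1, t2⟩ := ht _ hw
  refine ⟨g⁻¹ * t * g, mul_mem (mul_mem (inv_mem hg) t0) hg, fun v hv => g.injective ?_⟩
  have := t1 _ (a4 v hv)
  rw [map_sub, map_smul, t2, sub_eq_iff_eq_add] at this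
  rw [LinearEquiv.mul_apply, LinearEquiv.mul_apply, apply_inv_apply, this, map_add,
    map_smul g (C.B _ _), a3]
  module

theorem le_of_perp (hz : D.N z = 0) (hg : MaxPair X (eL F E z) g) {w : V}
    (hw : w ≠ 0) (hw1 : w ∈ eL F E z) (hw2 : g⁻¹ w ∈ eL F E z) {x : V} (hx : x ∉ eL F E z)
    (h1 : g⁻¹ x ∈ eL F E z) (h2 : D.B z x = 0) : C.isom ⊓ SLV F V ≤ X := by
  have := h.fdE
  let Y := (eL F E z).map (g : V →ₗ[F] V)
  have hY : ¬ eL F E z ≤ Y := fun e => by
    obtain ⟨y, a1, a2⟩ := hg.inv.exists_not_mem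
    exact a2 (by simpa [inv_apply_apply] using mem_map_iff.1 (e a1))
  have pp : ∀ x' ∈ Y, D.B z x' = 0 := fun x' hx' => by_contra fun e => hY <|
    eL_eq (smul_mem_eL (F := F) _ z) (smul_ne_zero e (by rintro rfl; simp at e)) ▸
      h.mem_of_skew fun a ha => by
      obtain ⟨t, t0, t1, t2⟩ := h.tv hz ha
      have := h.stab hg t0 t1 hx h1 (by simp [t2, h2]) (mem_map_iff.1 hx')
      rw [t2, add_sub_cancel_left, mul_smul] at this
      exact mem_map_iff.2 this
  have mv : ∀ (U : Submodule E V) x, x ∉ Submodule.span E {z} ⊔ U → ∀ k : E, ∃ y ∈ D.perp U,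
      D.B z y = 0 ∧ D.B y x = -k := fun U x hx k => by
    obtain ⟨y, a1, a2⟩ := h.nd.exists_perp_eq hx (τ (-k))
    rw [CForm.perp_sup] at a1
    exact ⟨y, a1.2, D.mem_perp_singleton.1 a1.1, by rw [herm_symm, a2, hτ2]⟩
  have key : ∀ y x', D.B z y = 0 → x' ∈ Y → D.B y x • z ∈ Y → D.B y x' • z ∈ Y :=
    fun y x' e a1 a2 => by
      obtain ⟨t, t0, t1, t2⟩ := h.rho' hz e
      have := h.stab hg t0 t1 hx h1 (by
        rw [t2 x h2, sub_sub_cancel_left]; exact mem_map_iff.1 (neg_mem a2)) (mem_map_iff.1 a1)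
      rw [t2 _ (pp _ a1), sub_sub_cancel_left] at this
      exact neg_mem_iff.1 (mem_map_iff.2 this)
  refine h.le_of_codim hz hg.mem hx h1 (fun v hv => ?_)
    (T := {w | w ∈ eL F E z ∧ g⁻¹ w ∈ eL F E z}) (fun Z hZ w a b => hZ ⟨a, b⟩) fun w hw => ?_
  swap
  · obtain ⟨k, rfl⟩ := mem_eL.1 hw.1
    obtain ⟨y, -, b1, b2⟩ := mv ⊥ x (by rwa [sup_bot_eq]) k
    obtain ⟨t, t0, t1, t2⟩ := h.rho' hz b1
    exact ⟨hw.1, hw.2, t, t0, t1, by rw [t2 x h2, b2, neg_smul, sub_neg_eq_add]⟩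
  have a : g v ∈ Y := Submodule.mem_map_of_mem hv
  generalize g v = x' at a
  by_cases h3 : x' ∈ Submodule.span E {z} ⊔ Submodule.span E {x}
  · obtain ⟨s, hs⟩ := mem_sup_span_singleton.1 h3
    obtain ⟨c, rfl⟩ := eL_le_of_mul h.pr hw hw1 (mem_map_iff.2 hw2) hY (s := s) fun k hk => by
      obtain ⟨y, -, a1, a2⟩ := mv ⊥ x (by rwa [sup_bot_eq]) (-k)
      obtain ⟨b, hb⟩ := Submodule.mem_span_singleton.1 hs
      have := key y x' a1 a (by rwa [a2, neg_neg])
      rwa [← sub_add_cancel x' (s • x), ← hb, map_add, map_smul, map_smul, D.B_swap_zero a1, a2,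
        smul_zero, zero_add, neg_neg] at this
    exact ⟨c, by rwa [algebraMap_smul] at hs⟩
  · refine (hY fun y hy => ?_).elim
    obtain ⟨k, rfl⟩ := mem_eL.1 hy
    obtain ⟨y, a1, a2, a3⟩ := mv _ x' h3 (-k)
    have a4 : D.B y x = 0 := D.B_swap_zero (D.mem_perp_singleton.1 a1)
    simpa [a3] using key y x' a2 a (by simp [a4])

end EU

section
variable [Fintype F] {q : ℕ} {hF : Fintype.card F = q ^ 2} {C : CForm (hermT hF) V}

namespace EU

variable (h : EU C D l X u) [FiniteDimensional F V]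
include h

theorem le_of_maxPair (hz : D.N z = 0) (hg : MaxPair X (eL F E z) g)
    {w : V} (hw : w ≠ 0) (hw1 : w ∈ eL F E z) (hw2 : g⁻¹ w ∈ eL F E z) :
    C.isom ⊓ SLV F V ≤ X := by
  have := h.fdE
  have := h.fd
  by_contra hn
  have hd : ∀ x, g⁻¹ x ∈ eL F E z → D.B z x = 0 → x ∈ eL F E z := fun x a b => by_contra
    fun e => hn (h.le_of_perp hz hg hw hw1 hw2 e a b)
  obtain ⟨x, x1, x2⟩ := hg.exists_not_mem
  have d0 : D.B z x ≠ 0 := fun e => x2 (hd x x1 e)
  have hz0 : z ≠ 0 := by rintro rfl; simp at d0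
  have zz : ∀ v ∈ eL F E z, D.B z v = 0 := fun v hv => by
    obtain ⟨k, rfl⟩ := mem_eL.1 hv
    simp [herm_B_self, hz]
  let ψ : E →ₗ[F] E := (D.B z).restrictScalars F ∘ₗ g.toLinearMap ∘ₗ
    (LinearMap.toSpanSingleton E V z).restrictScalars F
  have hψ : ∀ y, g⁻¹ y ∈ eL F E z → D.B z y ∈ LinearMap.range ψ := fun y hy => by
    obtain ⟨k, hk⟩ := mem_eL.1 hy
    exact ⟨k, show D.B z (g (k • z)) = _ by rw [hk, apply_inv_apply]⟩
  have hψ' : ∀ e ∈ LinearMap.range ψ, ∃ y, g⁻¹ y ∈ eL F E z ∧ D.B z y = e := by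
    rintro _ ⟨k, rfl⟩
    exact ⟨g (k • z), by rw [inv_apply_apply]; exact smul_mem_eL k z, rfl⟩
  let W : Submodule F E := ((eL F E z).map (g : V →ₗ[F] V)).comap
    ((LinearMap.toSpanSingleton E V z).restrictScalars F)
  have hW : ∀ k, k ∈ W ↔ g⁻¹ (k • z) ∈ eL F E z := fun k => mem_map_iff
  have w1 : W ≤ (h.form (map_one τ)).perp (LinearMap.range ψ) := fun k hk e he => by
    obtain ⟨y, y1, rfl⟩ := hψ' e he
    rw [UE.form_B, one_mul, ← h.Bz', ← CForm.isom_B (h.le' (inv_mem hg.mem)),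
      h.ts hz y1 ((hW k).1 hk)]
  have w2 : finrank F (LinearMap.ker ψ) ≤ finrank F W := by
    choose s hs using fun k : LinearMap.ker ψ => mem_eL.1 (hd (g (k.1 • z)) (by
      rw [inv_apply_apply]; exact smul_mem_eL _ z) k.2)
    refine LinearMap.finrank_le_finrank_of_injective (f :=
      { toFun := fun k => ⟨s k, (hW _).2 (by rw [hs, inv_apply_apply]; exact smul_mem_eL _ z)⟩
        map_add' := fun a b => Subtype.ext (smul_left_injective E hz0 (by
          simp [hs, add_smul]))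
        map_smul' := fun c a => Subtype.ext (smul_left_injective E hz0 (by simp [hs])) })
      fun a b e => Subtype.ext (smul_left_injective E hz0 (g.injective ?_))
    simp only [← hs]
    exact congrArg (·.1 • z) e
  have w3 := Submodule.eq_of_le_of_finrank_le w1 (by
    have := ψ.finrank_range_add_finrank_ker
    have := h.form_nd.finrank_add_finrank_perp (LinearMap.range ψ)
    omega)
  have w4 : ∀ k, (∀ e ∈ LinearMap.range ψ, l (τ e * k) = 0) → g⁻¹ (k • z) ∈ eL F E z :=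
    fun k hk => (hW k).1 (w3.ge fun e he => by rw [UE.form_B, one_mul, hk e he])
  obtain ⟨ω, ω0, hω⟩ := exists_trace_zero' (hσ2 := h.σσ) h.hσ
  replace hω := eq_neg_of_add_eq_zero_right hω
  have co : ∀ e ∈ LinearMap.range ψ, ∃ c : F, e = c • D.B z x := fun e he => by
    refine h.toUE.rank_one (fun e => ?_) (fun b hb e he e0 H y hy e' he' => ?_) (hψ x x1) d0 he
    · obtain ⟨k, rfl⟩ := mem_eL.1 hw1
      have := w1 ((hW k).2 hw2)
      rw [e, h.form_nd.perp_top, Submodule.mem_bot] at this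
      simp [this] at hw
    obtain ⟨v, v1, rfl⟩ := hψ' e he
    obtain ⟨y, y1, rfl⟩ := hψ' y hy
    obtain ⟨t, t0, t1, t2⟩ := h.tv hz (a := ω • b) (by rw [h.τ_smul, hω, hb, neg_smul])
    have := w1 ((hW _).2 (by
      simpa only [t2, add_sub_cancel_left] using h.stab hg t0 t1 (fun e => e0 (zz v e)) v1 (by
        rw [t2, add_sub_cancel_left]
        exact w4 _ fun e he => by simp [H e he]) y1)) e' he'
    simpa [UE.form_B, ω0] using this
  refine hn (h.le_of_codim hz hg.mem x2 x1 (fun v hv => ?_)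
    (T := {w | ∃ a, τ a = -a ∧ l (τ (D.B z x) * (a * D.B z x)) = 0 ∧ w = (a * D.B z x) • z})
    (fun Z hZ w a b => ?_) ?_)
  · have a : g⁻¹ (g v) ∈ eL F E z := by rwa [inv_apply_apply]
    obtain ⟨c, hc⟩ := co _ (hψ _ a)
    refine ⟨c, hd _ (by rw [map_sub, map_smul]; exact sub_mem a (Submodule.smul_mem _ _ x1)) ?_⟩
    rw [map_sub, hc, ← algebraMap_smul E c x, map_smul, algebraMap_smul, sub_self]
  · obtain ⟨k, rfl⟩ := mem_eL.1 a
    obtain ⟨θ, hθ⟩ := exists_ne_of_ne_id h.hσ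
    obtain ⟨a, b', ha, hb, e⟩ := h.dec' hθ (k / D.B z x)
    rw [div_eq_iff d0] at e
    have e1 := w1 ((hW k).2 b) _ (hψ x x1)
    rw [UE.form_B, one_mul, e, add_mul, mul_add, map_add, smul_mul_assoc, mul_smul_comm,
      map_smul] at e1
    obtain ⟨e2, e3⟩ := h.indep hθ (h.l_skew ha _) (h.l_skew hb _) e1
    rw [e, add_mul, add_smul, smul_mul_assoc, smul_assoc]
    exact add_mem (hZ ⟨a, ha, e2, rfl⟩) (Z.smul_mem _ (hZ ⟨b', hb, e3, rfl⟩))
  · rintro _ ⟨a, ha, e, rfl⟩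
    obtain ⟨t, t0, t1, t2⟩ := h.tv hz ha
    refine ⟨smul_mem_eL _ z, w4 _ fun e' he' => ?_, t, t0, t1, t2 x⟩
    obtain ⟨c, rfl⟩ := co e' he'
    rw [h.τ_smul, smul_mul_assoc, map_smul, e, smul_zero]

theorem le_of_not_mem (hg : g ∈ X) (hg' : g ∉ semiStab F E V) : C.isom ⊓ SLV F V ≤ X := by
  have := h.fdE
  have := h.fd
  have : Finite E := Module.finite_of_finite F
  obtain ⟨v, hv0, a, hva⟩ : ∃ v, D.N v = 0 ∧ ∃ a : E, g (a • v) ∉ eL F E (g v) := by
    by_contra! hc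
    exact hg' (h.semi hc)
  have hv : v ≠ 0 := by rintro rfl; simp at hva
  suffices ∃ k ∈ X, k ∉ glStab (eL F E v) ∧ k v ∈ eL F E v by
    obtain ⟨k, k1, k2, k3⟩ := this
    obtain ⟨k', hk, w, hw, w1, w2⟩ := exists_maxPair k1 k2 (x := k v) (by simpa using hv) k3 (by
      rw [inv_apply_apply]; exact self_mem_eL v)
    exact h.le_of_maxPair hv0 hk hw w1 w2
  have gv : g v ≠ 0 := by simpa using hv
  by_cases e : D.N (g v) = 0
  · obtain ⟨A, A1, s, s0, A2⟩ := h.trans hv gv hv0 e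
    refine ⟨A⁻¹ * g, mul_mem (inv_mem A1) hg, fun e => ?_, mem_eL.2 ⟨s⁻¹, A.injective (by
      rw [LinearEquiv.mul_apply, apply_inv_apply, A2, inv_smul_smul₀ s0])⟩⟩
    obtain ⟨b, hb⟩ := mem_eL.1 ((e _).1 (smul_mem_eL a v))
    exact hva (mem_eL.2 ⟨b * s, by rw [mul_smul, ← A2, hb, LinearEquiv.mul_apply, apply_inv_apply]⟩)
  by_contra! hc
  let M := (eL F E v).map (g : V →ₗ[F] V)
  have key : ∀ t ∈ X, t (g v) = g v → ∀ r ∈ M, t r - r ∈ M := fun t t1 t2 r hr =>
    sub_mem (mem_map_iff.2 (by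
      have := by_contra fun e' => hc (g⁻¹ * t * g) (mul_mem (mul_mem (inv_mem hg) t1) hg) e' (by
        rw [LinearEquiv.mul_apply, LinearEquiv.mul_apply, t2, inv_apply_apply]; exact self_mem_eL v)
      simpa only [LinearEquiv.mul_apply, apply_inv_apply] using (this _).1 (mem_map_iff.1 hr))) hr
  have m1 : g (a • v) ∈ M := Submodule.mem_map_of_mem (smul_mem_eL a v)
  have fin : ∀ p, p ≠ 0 → D.B (g v) p = 0 → ¬ eL F E p ≤ M := fun p p0 p1 e' => by
    have e1 : ∀ {v : V}, v ≠ 0 → finrank F (eL F E v) = finrank F E := fun {v} hv =>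
      ((LinearEquiv.toSpanNonzeroSingleton E V v hv).restrictScalars F).finrank_eq.symm
    have := Submodule.eq_of_le_of_finrank_eq e' (by rw [LinearEquiv.finrank_map_eq, e1 p0, e1 hv])
    obtain ⟨c, hc⟩ := mem_eL.1 (this ▸ Submodule.mem_map_of_mem (self_mem_eL v) : g v ∈ eL F E p)
    exact e (by rw [← herm_B_self]; nth_rw 2 [← hc]; rw [map_smul, p1, smul_zero])
  have hS := h.nd.nondegOn_perp (W := Submodule.span E {g v}) fun x hx e' => by
    obtain ⟨c, rfl⟩ := Submodule.mem_span_singleton.1 hx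
    have := e' _ (Submodule.mem_span_singleton_self _)
    rw [herm_B_smul_left, herm_B_self, mul_eq_zero, map_eq_zero] at this
    rw [this.resolve_right e, zero_smul]
  have hn : ¬ D.perp (Submodule.span E {g v}) ≤ D.perp (Submodule.span E {g (a • v)}) := by
    rwa [h.nd.perp_le_perp_iff, Submodule.span_singleton_le_iff_mem]
  rcases h.u3 with e3 | e3
  · obtain ⟨p, p1, p2, p3⟩ := exists_singular_not_mem hS
      (herm_exists_iso (exists_norm_of_finite hτ2 h.hτ) D (by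
        have := h.nd.finrank_add_finrank_perp (Submodule.span E {g v})
        have := finrank_span_singleton_le (F := E) (g v)
        omega)) hn
    rw [CForm.mem_perp_singleton] at p1 p3
    have p4 := D.B_swap_ne p3
    have p0 : p ≠ 0 := by rintro rfl; simp at p3
    refine fin p p0 p1 (eL_eq (smul_mem_eL (F := F) _ p) (smul_ne_zero p4 p0) ▸
      h.mem_of_skew fun b hb => ?_)
    obtain ⟨t, t0, -, t2⟩ := h.tv p2 hb
    simpa [t2, smul_smul] using key t t0 (by simp [t2, D.B_swap_zero p1]) _ m1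
  obtain ⟨n, n1, n2, n3⟩ : ∃ n, D.B (g v) n = 0 ∧ D.N n ≠ 0 ∧ D.B n (g (a • v)) ≠ 0 := by
    by_contra! hc
    obtain ⟨p, p1, p2⟩ := SetLike.not_le_iff_exists.1 hn
    obtain ⟨n, n1, n2⟩ := herm_exists_nonisotropic h.hτ hS (by rintro e; simp [e] at hn)
    rw [CForm.mem_perp_singleton] at p1 p2 n1
    have p3 : D.N p = 0 := by_contra fun e => p2 (D.B_swap_zero (hc p p1 e))
    obtain ⟨c, c0, hc'⟩ : ∃ c : E, c ≠ 0 ∧ c * D.B n p + τ (c * D.B n p) = 0 := by
      obtain ⟨ω, ω0, hω⟩ := exists_trace_zero' (hσ2 := hτ2) h.hτ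
      by_cases e : D.B n p = 0
      · exact ⟨1, one_ne_zero, by simp [e]⟩
      · exact ⟨ω / D.B n p, div_ne_zero ω0 e, by rwa [div_mul_cancel₀ _ e]⟩
    have := D.B_swap_zero (hc (n + c • p) (by simp [n1, p1]) (by
      rwa [herm_N_add, D.N_smul_of_zero p3, D.B_smul_right, hc', add_zero, add_zero]))
    simp [D.B_swap_zero (hc n n1 n2), c0, p2] at this
  obtain ⟨s, s1, s2, s3, s4⟩ := exists_qrefl_det n2 h.u1
  have t0 := h.res s s1 (by rw [s4, e3])
  have t1 := key _ t0 (s2 _ (D.B_swap_zero n1))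
  have n0 : n ≠ 0 := by rintro rfl; simp at n3
  have u1 : u - 1 ≠ 0 := fun e => h.u2 1 (by rw [map_one, sub_eq_zero.1 e])
  have m2 := t1 _ m1
  rw [res_apply, show s (g (a • v)) - g (a • v) = ((u - 1) * (D.B n (g (a • v)) / D.N n)) • n by
    have := s2 (g (a • v) - (D.B n (g (a • v)) / D.N n) • n) (by simp [herm_B_self, n2])
    rw [map_sub, map_smul s _ n, s3] at this
    linear_combination (norm := module) this] at m2
  obtain ⟨c, hc⟩ := eL_le_of_mul h.pr (smul_ne_zero (mul_ne_zero u1 (div_ne_zero n3 n2)) n0)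
    (smul_mem_eL _ n) m2 (fin n n0 n1) (s := u - 1) fun k hk => by
      convert t1 _ hk using 1
      rw [res_apply, map_smul, s3]; module
  exact h.u2 (c + 1) (by rw [map_add, hc, map_one, sub_add_cancel])

end EU

end

end H12
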