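import Cfsg.Agent.H12.ExU2
import Cfsg.Agent.H12.GeoForm

/-!
# Extension-field subgroups of unitary groups are maximal
-/

set_option autoImplicit false
set_option maxHeartbeats 400000

namespace H12

open Module H11 H13.KL

variable {F E V : Type*} [Field F] [Field E] [Algebra F E] [AddCommGroup V] [Module F V]
  [Module E V] [IsScalarTower F E V] [Fintype F] {q : ℕ} {hF : Fintype.card F = q ^ 2}
  {τ : E →+* E} {l : Dual F E}

theorem UE.exists_u (h : UE (frob hF) τ l) (P : Prop) (hP : P ∨ 3 ≤ q ∨ finrank F E ≠ 3) :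
    ∃ u, u * τ u = 1 ∧ (∀ c, algebraMap F E c ≠ u) ∧ (P ∨ Algebra.norm F u = 1) := by
  classical
  have := h.fd
  have : Finite E := Module.finite_of_finite F
  have := Fintype.ofFinite E
  have hq := two_le_of_card_sq hF
  have c1 := (card_nOne h.hτ h.ττ).1
  rw [Module.card_eq_pow_finrank (K := F), hF] at c1
  have c2 : ∀ n, 0 < n → (∀ u, u * τ u = 1 → u ^ n = 1) → (nOne τ).card ≤ n := fun n n0 hn =>
    (Finset.card_le_card fun u hu => Multiset.mem_toFinset.2 ((Polynomial.mem_nthRoots n0).2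
      (hn u (mem_nOne.1 hu)))).trans ((Multiset.toFinset_card_le _).trans
        (Polynomial.card_nthRoots n (1 : E)))
  have c3 : ∀ u, u * τ u = 1 → ∀ c, algebraMap F E c = u → u ^ (q + 1) = 1 := by
    rintro _ hu c rfl
    rwa [h.alg, frob_apply, map_pow, ← pow_succ'] at hu
  have c4 : ∀ r, r ≤ finrank F E → (q ^ 2) ^ r ≤ (q ^ 2) ^ finrank F E := fun r hr =>
    Nat.pow_le_pow_right (by positivity) hr
  have c5 := c4 3 h.three
  by_contra! hc
  by_cases hp : P
  · have := c2 (q + 1) (by omega) fun u hu => by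
      by_contra e
      exact (hc u hu fun c e' => e (c3 u hu c e')).1 hp
    have := Nat.mul_le_mul this (Nat.sub_le_sub_right this 1)
    have : q * q * q ≤ (q ^ 2) ^ 3 := by
      rw [← pow_mul, ← sq, ← pow_succ]; exact Nat.pow_le_pow_right (by omega) (by omega)
    simp only [Nat.add_sub_cancel] at *
    nlinarith
  have := c2 ((q + 1) * (q + 1)) (by positivity) fun u hu => by
    have hu' : u ^ (q + 1) * τ (u ^ (q + 1)) = 1 := by rw [map_pow, ← mul_pow, hu, one_pow]
    by_contra e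
    refine (hc _ hu' fun c e' => e (pow_mul u _ _ ▸ c3 _ hu' c e')).2 ?_
    obtain ⟨s, s1, s2⟩ := h.form_nd.exists_isom (Algebra.lmul F E u) ⟨fun x y => by
      simp only [UE.form_B, Algebra.coe_lmul_eq_mul, LinearMap.mul_apply', map_mul]
      congr 1; linear_combination τ x * y * hu, fun x => by
      simp only [UE.form_N, Algebra.coe_lmul_eq_mul, LinearMap.mul_apply', map_mul]
      congr 1; linear_combination τ x * x * hu⟩
    have := h.form_nd.σ_det_mul_det s1
    rw [show (s : E →ₗ[F] E) = Algebra.lmul F E u from LinearMap.ext s2, ← Algebra.norm_apply] at this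
    rw [map_pow, pow_succ]
    exact this
  have := Nat.mul_le_mul this ((Nat.sub_le _ 1).trans this)
  rcases hP.resolve_left hp with e | e
  · obtain ⟨k, rfl⟩ := Nat.exists_eq_add_of_le e
    ring_nf at *
    omega
  · have e5 := c4 5 (by
      have := h.three
      by_contra e'
      exact absurd ((by omega : finrank F E = 4) ▸ h.pr) (by norm_num))
    obtain ⟨k, rfl⟩ := Nat.exists_eq_add_of_le hq
    ring_nf at *
    omega

theorem isMaximalIn_ext_herm [FiniteDimensional F V] {C : CForm (hermT hF) V} (hC : C.Nondeg)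
    (hr : (finrank F E).Prime) (ho : finrank F E ≠ 2) (hd : 2 ≤ finrank E V)
    (hq : 3 ≤ finrank E V ∨ 3 ≤ q ∨ finrank F E ≠ 3)
    (had : ∀ k : E, ∃ k' : E, ∀ x y, C.B (k • x) y = C.B x (k' • y)) :
    Cfsg.Geo.IsMaximalIn (C.isom ⊓ SLV F V) (semiStab F E V ⊓ (C.isom ⊓ SLV F V)) := by
  have : FiniteDimensional F E := FiniteDimensional.of_finrank_pos hr.pos
  have : Module.Finite E V := Module.Finite.of_restrictScalars_finite F E V
  have : Nontrivial V := nontrivial_of_finrank_pos (R := E) (by omega)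
  have hσ := frob_ne_id hF
  obtain ⟨x₀, -, hx₀⟩ := herm_exists_nonisotropic hσ (C.nondegOn_top.2 hC) top_ne_bot
  have x0 : x₀ ≠ 0 := by rintro rfl; exact hx₀ C.N_zero
  choose t ht using had
  have un : ∀ k k', (∀ x y, C.B (k • x) y = C.B x (k' • y)) → t k = k' := fun k k' e =>
    smul_left_injective E x0 (hC.ext' fun y => (ht k y x₀).symm.trans (e y x₀))
  let τ : E →+* E :=
    { toFun := t
      map_one' := un _ _ (by simp)
      map_mul' := fun a b => un _ _ fun x y => by rw [mul_smul, ht, ht, smul_smul, mul_comm]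
      map_zero' := un _ _ (by simp)
      map_add' := fun a b => un _ _ fun x y => by simp [add_smul, ht] }
  have hτ : ∀ k x y, C.B (k • x) y = C.B x (τ k • y) := ht
  have hτ2 : ∀ a, τ (τ a) = a := fun a => un _ _ fun x y => by
    rw [H12.herm_symm y, ← hτ, ← H12.herm_symm]
  let l : Dual F E := C.B x₀ ∘ₗ (LinearMap.toSpanSingleton E V x₀).restrictScalars F
  have hl : ∀ a, l a = C.B x₀ (a • x₀) := fun _ => rfl
  have h : UE (frob hF) τ l := ⟨frob_frob hF, hτ2, hσ, fun e => hx₀ (by
    simpa [e, H12.herm_B_self] using (hl 1).symm), fun c => un _ _ fun x y => by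
      rw [algebraMap_smul, algebraMap_smul, H12.herm_B_smul_left, C.B_smul_right],
    fun a => by rw [hl, hl, ← hτ, ← H12.herm_symm], hr, ho⟩
  choose ψ hψ using fun x => exists_comp_eq h.ne (C.B x)
  have key : ∀ k x y, l (k * ψ x y) = C.B x (k • y) := fun k x y => by
    rw [hψ, map_smul, smul_eq_mul]
  let D : CForm (hermType τ hτ2) V := CForm.ofHerm τ h.hτ hτ2
    { toFun := ψ
      map_add' x x' := LinearMap.ext fun y => eq_of_dual h.ne fun k => by simp [mul_add, key]
      map_smul' c x := LinearMap.ext fun y => eq_of_dual h.ne fun k => by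
        rw [LinearMap.smul_apply, smul_eq_mul, ← mul_assoc, key, key, hτ, smul_smul, mul_comm] }
    ⟨fun x y => eq_of_dual h.ne fun k => by
      change l (k * τ (ψ x y)) = l (k * ψ y x)
      rw [key, H12.herm_symm, hτ, ← key, ← h.lτ, map_mul τ, hτ2]⟩
  have hD : ∀ x y, C.B x y = l (D.B x y) := hψ
  obtain ⟨u, u1, u2, u3⟩ := h.exists_u _ hq
  refine isMaximalIn_of _ _ inf_le_right (fun e => ?_) fun M a1 a2 g a3 a4 =>
    EU.le_of_not_mem (D := D) ⟨h, hD, fun x hx => hC x fun y => by rw [hD, hx, map_zero], a2,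
      fun k k1 k2 => a1 ⟨res_mem_semiStab k, herm_mem_isom fun x y => by
        rw [hD, hD, res_apply, res_apply, CForm.isom_B k1], mem_SLV.2
          (LinearMap.det_restrictScalars.trans k2)⟩, hd, u1, u2, u3⟩ a3 fun e => a4 ⟨e, a2 a3⟩
  have d3 : 3 ≤ finrank F V := by
    have := finrank_mul_finrank F E V
    have := h.three
    nlinarith
  obtain ⟨κ, hκ⟩ := exists_not_mem_range hr.two_le
  obtain ⟨p, p0, p1⟩ := (iso3_herm (exists_norm_of_finite h.σσ hσ) C).exists_iso d3
  obtain ⟨ω, ω0, hω⟩ := exists_trace_zero' (hσ2 := h.σσ) hσ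
  obtain ⟨b, hb⟩ := (e (x := (rho C p1 (w := 0) (map_zero _) (hω.trans C.N_zero.symm)).1)
    ⟨Subtype.prop _, rho_mem_sisom p1 (map_zero _) (hω.trans C.N_zero.symm)⟩).1.1 κ
  simp only [rho_apply, smul_zero, add_zero, map_zero, LinearMap.zero_apply, zero_add] at hb
  obtain ⟨x, x1, x2⟩ := exists_ker_ne_zero ((C.B p).prod (C.B (τ κ • p))) (by simp; omega)
  have x3 : C.B p x = 0 := congrArg Prod.fst x2
  have x4 : C.B (τ κ • p) x = 0 := congrArg Prod.snd x2
  rw [hτ, hτ2] at x4
  obtain rfl : κ = b := smul_left_injective E x1 (by simpa [x3, x4] using hb x)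
  obtain ⟨y, hy⟩ := hC.exists_eq p0 ω⁻¹
  have b2 := hb y
  rw [hy, mul_inv_cancel₀ ω0, one_smul, smul_sub, sub_right_inj, ← algebraMap_smul E] at b2
  exact hκ _ (smul_left_injective E p0 b2)

open Matrix Cfsg.Geo in
theorem isMaximalIn_field_herm {n r : ℕ} (hF : Fintype.card F = q ^ 2)
    {K : Subalgebra F (Matrix (Fin n) (Fin n) F)} (hr : r.Prime) (ho : r ≠ 2) (hd : 2 * r ≤ n)
    (hq : 3 * r ≤ n ∨ 3 ≤ q ∨ r ≠ 3) (hK : IsFieldSubalgebra r K)
    (had : IsAdjointClosedFor (Cfsg.hermForm n F q) K) :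
    IsMaximalIn (Cfsg.GU n F q ⊓ specialLinear (Fin n) F)
      (subalgebraNormalizer K ⊓ (Cfsg.GU n F q ⊓ specialLinear (Fin n) F)) := by
  have : Nonempty (Fin n) := ⟨⟨0, by have := hr.pos; omega⟩⟩
  letI := fieldOf hK; letI := modOf K; letI := towerOf K
  have : Module.Finite K (Fin n → F) := Module.Finite.of_restrictScalars_finite F K _
  have e := finrank_mul_finrank F K (Fin n → F)
  rw [hK.finrank_eq, finrank_fin_fun] at e
  have r0 := hr.pos
  rw [SU_eq hF, subalgebraNormalizer_eq hK, ← Subgroup.comap_inf]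
  refine isMaximalIn_comap _ (isMaximalIn_ext_herm (hermC_nondeg hF) (hK.finrank_eq ▸ hr)
    (hK.finrank_eq ▸ ho) (by nlinarith) (by rw [hK.finrank_eq]; exact hq.imp_left fun _ => by nlinarith)
    fun k => ?_)
  obtain ⟨k', h1, h2⟩ := had k k.2
  exact ⟨⟨k', h1⟩, fun x y => by
    rw [H12.herm_symm y, H12.herm_symm (_ • y)]; exact congrArg _ (h2 x y)⟩

end H12
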