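import Cfsg.Agent.H11.O6Minus
import Cfsg.Agent.H12.RatLow
import Cfsg.Agent.H12.GeoForm

/-!
# The exterior square of a four-dimensional space
-/

set_option autoImplicit false
set_option maxHeartbeats 400000

namespace H12.K4

open Module H11 Matrix QuadraticMap

variable {F : Type*} [Field F]

/-- Coordinates on the space of alternating matrices. -/
abbrev A6 (F : Type*) := Fin 3 ⊕ Fin 3 → F

/-- The coordinates of an alternating matrix. -/
def toA : Matrix (Fin 4) (Fin 4) F →ₗ[F] A6 F where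
  toFun X := Sum.elim ![X 0 1, X 0 2, X 0 3] ![X 2 3, -X 1 3, X 1 2]
  map_add' X Y := by ext (i | i) <;> fin_cases i <;> simp [add_comm]
  map_smul' c X := by ext (i | i) <;> fin_cases i <;> simp

local notation "𝔢" => o6Emb F

theorem toA_apply (X : Matrix (Fin 4) (Fin 4) F) :
    toA X = Sum.elim ![X 0 1, X 0 2, X 0 3] ![X 2 3, -X 1 3, X 1 2] := rfl

theorem toA_emb (a : A6 F) : toA (𝔢 a) = a := by
  ext (i | i) <;> fin_cases i <;> simp [toA_apply, o6Emb_apply, altM]

theorem emb_toA_altM (a b c d e f : F) : 𝔢 (toA (altM a b c d e f)) = altM a b c d e f := by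
  simp [toA_apply, o6Emb_apply, altM]

theorem emb_toA {Y : Matrix (Fin 4) (Fin 4) F} (h1 : ∀ i, Y i i = 0) (h2 : ∀ i j, Y j i = - Y i j) :
    𝔢 (toA Y) = Y := by rw [eq_altM h1 h2, emb_toA_altM]

theorem emb_diag (a : A6 F) (i : Fin 4) : 𝔢 a i i = 0 := by
  fin_cases i <;> simp [o6Emb_apply, altM]

theorem emb_skew (a : A6 F) (i j : Fin 4) : 𝔢 a j i = - 𝔢 a i j := by
  fin_cases i <;> fin_cases j <;> simp [o6Emb_apply, altM]

theorem emb_transpose (a : A6 F) : (𝔢 a)ᵀ = - 𝔢 a := by
  ext i j; exact emb_skew a i j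

/-- The action of a matrix on alternating matrices. -/
def act (g : Matrix (Fin 4) (Fin 4) F) : A6 F →ₗ[F] A6 F where
  toFun a := toA (g * 𝔢 a * gᵀ)
  map_add' a b := by rw [map_add, mul_add, add_mul, map_add]
  map_smul' c a := by rw [map_smul, mul_smul_comm, smul_mul_assoc, map_smul]; rfl

theorem emb_act (g : Matrix (Fin 4) (Fin 4) F) (a : A6 F) : 𝔢 (act g a) = g * 𝔢 a * gᵀ := by
  obtain ⟨a, b, c, d, e, f, h⟩ := conj_altM_eq g (a (.inl 0)) (a (.inl 1)) (a (.inl 2))
    (a (.inr 2)) (- a (.inr 1)) (a (.inr 0))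
  change 𝔢 (toA (g * altM _ _ _ _ _ _ * gᵀ)) = g * altM _ _ _ _ _ _ * gᵀ
  rw [h, emb_toA_altM]

theorem act_mul (g h : Matrix (Fin 4) (Fin 4) F) (a : A6 F) : act (g * h) a = act g (act h a) :=
  o6Emb_injective (by simp only [emb_act, transpose_mul, mul_assoc])

theorem act_one (a : A6 F) : act 1 a = a := o6Emb_injective (by simp [emb_act])

theorem act_smul (c : F) (g : Matrix (Fin 4) (Fin 4) F) (a : A6 F) :
    act (c • g) a = (c * c) • act g a :=
  o6Emb_injective (by simp [emb_act, smul_smul])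

theorem q_act (g : Matrix (Fin 4) (Fin 4) F) (a : A6 F) :
    qPlus 3 F (act g a) = g.det * qPlus 3 F a := by
  rw [← pf_o6Emb, ← pf_o6Emb, emb_act, o6Emb_apply, pf_conj_altM]

theorem q_apply (a : A6 F) : qPlus 3 F a =
    a (.inl 0) * a (.inr 0) + a (.inl 1) * a (.inr 1) + a (.inl 2) * a (.inr 2) := by
  simp [qPlus, Fin.sum_univ_three]

theorem polar_q (a b : A6 F) : polar (qPlus 3 F) a b =
    a (.inl 0) * b (.inr 0) + a (.inl 1) * b (.inr 1) + a (.inl 2) * b (.inr 2) +
    (a (.inr 0) * b (.inl 0) + a (.inr 1) * b (.inl 1) + a (.inr 2) * b (.inl 2)) := by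
  simp only [polar, q_apply, Pi.add_apply]; ring

theorem polar_act (g : Matrix (Fin 4) (Fin 4) F) (a b : A6 F) :
    polar (qPlus 3 F) (act g a) (act g b) = g.det * polar (qPlus 3 F) a b := by
  simp only [polar, ← map_add, q_act]; ring

variable (F) in
/-- The representation on the exterior square. -/
def Φ : GL (Fin 4) F →* (A6 F ≃ₗ[F] A6 F) :=
  MonoidHom.mk' (fun g => LinearEquiv.ofLinear (act g.1) (act (g⁻¹).1)
    (LinearMap.ext fun a => by simp [← act_mul, act_one])
    (LinearMap.ext fun a => by simp [← act_mul, act_one])) fun g h =>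
      LinearEquiv.ext fun a => by
        simp only [LinearEquiv.ofLinear_apply, LinearEquiv.mul_apply, Units.val_mul, act_mul]

theorem Φ_apply (g : GL (Fin 4) F) (a : A6 F) : Φ F g a = act g.1 a := by
  simp only [Φ, MonoidHom.mk'_apply, LinearEquiv.ofLinear_apply]

/-- The Hodge star. -/
def hd : A6 F ≃ₗ[F] A6 F := LinearEquiv.funCongrLeft F F (Equiv.sumComm _ _)

@[simp] theorem hd_inl (a : A6 F) (i : Fin 3) : hd a (.inl i) = a (.inr i) := rfl
@[simp] theorem hd_inr (a : A6 F) (i : Fin 3) : hd a (.inr i) = a (.inl i) := rfl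

theorem hd_hd (a : A6 F) : hd (hd a) = a := by ext (i | i) <;> rfl

theorem emb_hd (a : A6 F) : 𝔢 (hd a) = hodge (𝔢 a) := by
  simp [o6Emb_apply, hodge_altM]

theorem q_hd (a : A6 F) : qPlus 3 F (hd a) = qPlus 3 F a := by simp [q_apply, mul_comm]

theorem act_hd_act (g : Matrix (Fin 4) (Fin 4) F) (a : A6 F) :
    act gᵀ (hd (act g a)) = g.det • hd a := o6Emb_injective (by
  rw [emb_act, emb_hd, emb_act, map_smul, emb_hd, o6Emb_apply, transpose_transpose, hodge_conj])

theorem emb_hd_mul (a : A6 F) : 𝔢 (hd a) * 𝔢 a = -(qPlus 3 F a) • (1 : Matrix _ _ F) := by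
  ext i j
  fin_cases i <;> fin_cases j <;>
    simp [o6Emb_apply, altM, Matrix.mul_apply, Fin.sum_univ_four, q_apply] <;> ring

theorem det_emb (a : A6 F) : (𝔢 a).det = qPlus 3 F a ^ 2 := by
  simp [det_fin_four, o6Emb_apply, altM, q_apply]; ring

/-- The exterior product of two vectors. -/
def wedge : (Fin 4 → F) →ₗ[F] (Fin 4 → F) →ₗ[F] A6 F :=
  LinearMap.mk₂ F (fun u v => toA (vecMulVec u v - vecMulVec v u))
    (fun u u' v => by rw [← map_add]; congr 1; ext; simp [vecMulVec_apply]; ring)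
    (fun c u v => by rw [← map_smul]; congr 1; ext; simp [vecMulVec_apply]; ring)
    (fun u u' v => by rw [← map_add]; congr 1; ext; simp [vecMulVec_apply]; ring)
    (fun c u v => by rw [← map_smul]; congr 1; ext; simp [vecMulVec_apply]; ring)

theorem emb_wedge (u v : Fin 4 → F) : 𝔢 (wedge u v) = vecMulVec u v - vecMulVec v u :=
  emb_toA (fun i => by simp [vecMulVec_apply, mul_comm]) fun i j => by
    simp [vecMulVec_apply, mul_comm]

theorem wedge_apply (u v : Fin 4 → F) : wedge u v = Sum.elim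
    ![u 0 * v 1 - v 0 * u 1, u 0 * v 2 - v 0 * u 2, u 0 * v 3 - v 0 * u 3]
    ![u 2 * v 3 - v 2 * u 3, -(u 1 * v 3 - v 1 * u 3), u 1 * v 2 - v 1 * u 2] := rfl

theorem act_wedge (g : Matrix (Fin 4) (Fin 4) F) (u v : Fin 4 → F) :
    act g (wedge u v) = wedge (g *ᵥ u) (g *ᵥ v) := o6Emb_injective (by
  rw [emb_act, emb_wedge, emb_wedge, mul_sub, sub_mul, mul_vecMulVec, mul_vecMulVec,
    vecMulVec_mul, vecMulVec_mul, vecMul_transpose, vecMul_transpose])

theorem wedge_self (u : Fin 4 → F) : wedge u u = 0 := o6Emb_injective (by simp [emb_wedge])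

theorem wedge_comm (u v : Fin 4 → F) : wedge v u = - wedge u v :=
  o6Emb_injective (by simp [emb_wedge])

theorem q_wedge (u v : Fin 4 → F) : qPlus 3 F (wedge u v) = 0 := by
  simp [q_apply, wedge_apply]; ring

theorem emb_wedge_mulVec (u v x : Fin 4 → F) :
    𝔢 (wedge u v) *ᵥ x = (v ⬝ᵥ x) • u - (u ⬝ᵥ x) • v := by
  rw [emb_wedge, sub_mulVec, vecMulVec_mulVec, vecMulVec_mulVec]; simp

theorem mem_span_of_wedge {u v : Fin 4 → F} (hu : u ≠ 0) (h : wedge u v = 0) :
    v ∈ Submodule.span F {u} := by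
  obtain ⟨i, hi⟩ := Function.ne_iff.1 hu
  have := emb_wedge_mulVec u v (Pi.single i 1)
  rw [h, map_zero, zero_mulVec, dotProduct_single, dotProduct_single, eq_comm, sub_eq_zero] at this
  refine Submodule.mem_span_singleton.2 ⟨(u i * 1)⁻¹ * (v i * 1), ?_⟩
  rw [mul_smul, this, inv_smul_smul₀ (by simpa using hi)]

theorem mem_span_wedge (a : A6 F) :
    a ∈ Submodule.span F {x : A6 F | ∃ u v : Fin 4 → F, wedge u v = x} := by
  have : a = a (.inl 0) • wedge (Pi.single 0 1) (Pi.single 1 1) +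
      a (.inl 1) • wedge (Pi.single 0 1) (Pi.single 2 1) +
      a (.inl 2) • wedge (Pi.single 0 1) (Pi.single 3 1) +
      a (.inr 0) • wedge (Pi.single 2 1) (Pi.single 3 1) +
      a (.inr 1) • wedge (Pi.single 3 1) (Pi.single 1 1) +
      a (.inr 2) • wedge (Pi.single 1 1) (Pi.single 2 1) := by
    ext (i | i) <;> fin_cases i <;> simp [wedge_apply]
  rw [this]
  refine add_mem (add_mem (add_mem (add_mem (add_mem ?_ ?_) ?_) ?_) ?_) ?_ <;>
    exact Submodule.smul_mem _ _ (Submodule.subset_span ⟨_, _, rfl⟩)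

/-- The column space. -/
def col (a : A6 F) : Submodule F (Fin 4 → F) := LinearMap.range (toLin' (𝔢 a))

theorem col_smul {c : F} (hc : c ≠ 0) (a : A6 F) : col (c • a) = col a := by
  rw [col, col, map_smul, map_smul, LinearMap.range_smul _ _ hc]

theorem col_act (g : GL (Fin 4) F) (a : A6 F) : col (act g.1 a) = (col a).map (toLin' g.1) := by
  rw [col, col, emb_act, toLin'_mul, toLin'_mul, LinearMap.range_comp_of_range_eq_top,
    LinearMap.range_comp]
  exact LinearMap.range_eq_top.2 fun x => ⟨((g⁻¹).1)ᵀ *ᵥ x, by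
    simp [mulVec_mulVec, ← transpose_mul]⟩

theorem col_wedge {u v : Fin 4 → F} (h : wedge u v ≠ 0) :
    col (wedge u v) = Submodule.span F {u, v} := by
  have hu : u ≠ 0 := by rintro rfl; simp at h
  have hv : v ∉ Submodule.span F {u} := fun e => by
    obtain ⟨c, rfl⟩ := Submodule.mem_span_singleton.1 e
    simp [wedge_self] at h
  have hv0 : v ≠ 0 := by rintro rfl; simp at h
  have key : ∀ φ : Dual F (Fin 4 → F), φ v • u - φ u • v ∈ col (wedge u v) := fun φ =>
    ⟨fun i => φ (Pi.single i 1), by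
      have : ∀ x : Fin 4 → F, (x ⬝ᵥ fun i => φ (Pi.single i 1)) = φ x := fun x => by
        conv_rhs => rw [← Finset.univ_sum_single x, map_sum]
        refine Finset.sum_congr rfl fun i _ => ?_
        rw [← smul_eq_mul, ← map_smul, ← Pi.single_smul, smul_eq_mul, mul_one]
      rw [toLin'_apply, emb_wedge_mulVec, this, this]⟩
  refine le_antisymm ?_ (Submodule.span_le.2 ?_)
  · rintro _ ⟨x, rfl⟩
    rw [toLin'_apply, emb_wedge_mulVec]
    exact sub_mem (Submodule.smul_mem _ _ (Submodule.subset_span (by simp)))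
      (Submodule.smul_mem _ _ (Submodule.subset_span (by simp)))
  · rintro _ (rfl | rfl)
    · obtain ⟨φ, h1, h2⟩ := exists_dual_eq_one hv
      simpa [h2, h1 _ (Submodule.mem_span_singleton_self _)] using key φ
    · obtain ⟨φ, h1, h2⟩ := exists_dual_eq_one (not_mem_span_of_not_mem hu hv hv0)
      simpa [h2, h1 _ (Submodule.mem_span_singleton_self _)] using key φ

theorem scalar_of_act {h : Matrix (Fin 4) (Fin 4) F} {c : F} (hc : c ≠ 0)
    (H : ∀ a, act h a = c • a) : ∃ d : F, h = d • (1 : Matrix _ _ F) := by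
  have key : ∀ i j k l, h k i * h l j - h k j * h l i =
      c * ((1 : Matrix _ _ F) k i * (1 : Matrix _ _ F) l j -
        (1 : Matrix _ _ F) k j * (1 : Matrix _ _ F) l i) := fun i j k l => by
    have := congrFun (congrFun (congrArg 𝔢 (H (wedge (Pi.single i 1) (Pi.single j 1)))) k) l
    rw [act_wedge, map_smul, emb_wedge, emb_wedge] at this
    simpa [vecMulVec_apply, one_apply, Pi.single_apply] using this
  have h0 : ∀ i k, k ≠ i → h k i = 0 := fun i k hk => by
    by_contra hn
    obtain ⟨j, a1, a2⟩ := (by decide : ∀ i k : Fin 4, ∃ j, j ≠ i ∧ j ≠ k) i k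
    have b1 := key i j k j
    have b2 := key i j k i
    have b3 := key i j i j
    simp only [one_apply, hk, a1, a1.symm, a2.symm, if_true, if_false] at b1 b2 b3
    apply hc
    have : h k i * c = 0 := by linear_combination h i i * b1 - h j i * b2 - h k i * b3
    exact (mul_eq_zero.1 this).resolve_left hn
  have h1 : ∀ i j, i ≠ j → h i i * h j j = c := fun i j e => by
    simpa [one_apply, e, e.symm, h0 j i e] using key i j i j
  have h2 : ∀ i j, h i i = h j j := fun i j => by
    obtain ⟨k, a1, a2⟩ := (by decide : ∀ i j : Fin 4, ∃ k, i ≠ k ∧ j ≠ k) i j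
    have := h1 i k a1
    exact mul_right_cancel₀ (fun e => hc (by rw [← this, e, mul_zero])) (this.trans (h1 j k a2).symm)
  refine ⟨h 0 0, Matrix.ext fun i j => ?_⟩
  by_cases e : i = j
  · simp [e, h2 j 0]
  · simp [e, h0 j i e]

end H12.K4
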