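import Cfsg.Agent.H12.RQ3

/-!
# Stabilisers of non-degenerate subspaces in small orthogonal groups
-/

set_option autoImplicit false
set_option maxHeartbeats 400000

namespace H12

open Module H11 QuadraticMap

variable {F : Type*} [Field F] {V : Type*} [AddCommGroup V] [Module F V]
  {Q : QuadraticForm F V} {X : Subgroup (V ≃ₗ[F] V)} [FiniteDimensional F V] [Fintype F]

local notation "𝓒" => CForm.ofQuad Q

theorem omega_le_of_perp_le (hQ : QNondeg Q) (hne : NotExc F V) {S : Submodule F V}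
    (hS : (𝓒).NondegOn S) (h3 : 3 ≤ finrank F S) (hSX : subG 𝓒 (OmegaV Q) S ≤ X) {u : V}
    (hu : u ∈ S) (hu0 : u ≠ 0) (hu1 : Q u = 0) (h : ∀ r ∈ (𝓒).perp S, Ei Q X u r) :
    OmegaV Q ≤ X := by
  have h4 : Fu Q X ⊤ u := by
    intro w _ hw
    obtain ⟨s, hs, r, hr, rfl⟩ := hQ.exists_add hS w
    rw [polar_add_right, (h r hr).2.1, add_zero] at hw
    exact (ei_of_subG hQ hne hSX hu hs hu1 hw).add (h r hr)
  obtain ⟨f, hf, h5⟩ := exists_hypPair_sub hQ hS hu hu0 hu1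
  obtain ⟨b, hb, hb0, h6, h7, -⟩ := exists_ns_perp_hyp hQ hS h3 hu hf h5
  have hk := eich_mem_subG hQ hne hf hb h5.right h7
  refine h4.omega_le hQ hne (h3.trans (Submodule.finrank_le _)) hu1 (hSX hk) hk.2.1 ?_
  rw [eich_apply h5.right h7]
  simp only [polar_add_right, polar_sub_right, polar_smul_right, polar_self', hu1, h6,
    polar_comm Q b u, polar_comm Q f u, show polar Q u f = 1 from h5.pair]
  simpa using hb0

omit [Fintype F] in
theorem rr_of_stab (hQ : QNondeg Q) {S : Submodule F V} (hX : glStab S ⊓ OmegaV Q ≤ X) {a b : V}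
    (ha : a ∈ S ∨ a ∈ (𝓒).perp S) (hb : b ∈ S ∨ b ∈ (𝓒).perp S) (ha0 : Q a ≠ 0) (hb0 : Q b ≠ 0)
    (h : IsSquare (Q a * Q b)) : RR Q X a b := by
  refine ⟨ha0, hb0, hX ⟨?_, (rr_of_isSquare hQ ha0 hb0 h).2.2⟩⟩
  have k : ∀ a, a ∈ S ∨ a ∈ (𝓒).perp S → (refl Q a).1 ∈ glStab S := fun a ha =>
    subG_le_glStab (G := (𝓒).isom) (S := Submodule.span F {a}) hQ
      (ha.symm.imp (fun h x hx => (𝓒).mem_perp_singleton.2 ((𝓒).mem_perp'.1 h x hx))
        (Submodule.span_singleton_le_iff_mem _ _).2)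
      ((mem_subG le_rfl).2 ⟨(refl Q a).2, fun x hx =>
        refl_apply_of_orth ((𝓒).mem_perp_singleton.1 hx)⟩)
  exact mul_mem (k a ha) (k b hb)

theorem Big.omega_le_of_rr (hQ : QNondeg Q) (hne : NotExc F V) {S : Submodule F V} (hb : Big Q S)
    (hd : 4 ≤ finrank F S) (hirr : Irr 𝓒 ((𝓒).perp S)) (hX : glStab S ⊓ OmegaV Q ≤ X) {a x : V}
    (ha : a ∈ S ∨ a ∈ (𝓒).perp S) (h : RR Q X x a) (he : IsSquare (Q x * Q a)) (h1 : x ∉ S)
    (h2 : x ∉ (𝓒).perp S) : OmegaV Q ≤ X := by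
  have hS := hb.nondeg
  have hSX : subG 𝓒 (OmegaV Q) S ≤ X :=
    (le_inf (subG_le_glStab hQ (Or.inr le_rfl)) (subG_le _)).trans hX
  obtain ⟨s, hs, n, hn, rfl⟩ := hQ.exists_add hS x
  have hs0 : s ≠ 0 := by rintro rfl; exact h2 (by simpa)
  have hn0 : n ≠ 0 := by rintro rfl; exact h1 (by simpa)
  have h3 : n ∈ eiSub Q X S := by
    by_cases h0 : Q s = 0
    · have h4 : polar Q s n = 0 := (𝓒).mem_perp.1 hn s hs
      have e : Q (s + n) = Q n := by rw [Q_add, h0, h4]; simp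
      have h5 := h.trans (rr_of_stab hQ hX (Or.inr hn) ha (e ▸ h.1) h.2.1 (e ▸ he)).symm
      rw [add_comm] at h5
      exact mem_eiSub_of hQ hne hS hd hSX (S.smul_mem _ hs)
        (smul_ne_zero (inv_ne_zero h5.2.1) hs0) hn (h5.ei h0 h4)
    · exact h.mem_eiSub hQ hne hS hd hSX hs hs0 hn ha (Or.inl h0)
  have h4 := ((spec_quad hQ hne).eq_of_irr hS (by omega) hirr (Y := eiSub Q X S) (fun r hr => hr.1)
    fun k hk => mem_glStab_iff_map.2 (map_eq_of_le (by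
      rintro _ ⟨r, hr, rfl⟩
      have h5 := OmegaV_le hk.2
      refine ⟨(mem_glStab_iff_map.1 (mem_glStab_perp h5 hk.1)).le ⟨r, hr.1, rfl⟩, fun u hu h0 => ?_⟩
      have := (hr.2 (k⁻¹ u) ((mem_glStab_iff_map.1 (inv_mem hk.1)).le ⟨u, hu, rfl⟩)
        ((orth_Q ⟨k⁻¹, inv_mem h5⟩ u).trans h0)).conj (hX hk) h5
      rwa [apply_inv_apply] at this))).resolve_left
    fun e => hn0 ((Submodule.eq_bot_iff _).1 e n h3)
  obtain ⟨u, hu, hu0, hu1⟩ := iso3_quad Q S hb.three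
  exact omega_le_of_perp_le hQ hne hS hb.three hSX hu hu0 hu1 fun r hr => (h4.ge hr).2 u hu hu1

theorem Big.omega_le (hQ : QNondeg Q) (hne : NotExc F V) {S : Submodule F V} (hb : Big Q S)
    (hd : 4 ≤ finrank F S) (hirr : Irr 𝓒 ((𝓒).perp S)) (hX : glStab S ⊓ OmegaV Q ≤ X)
    (hX' : X ≤ OmegaV Q) {g : V ≃ₗ[F] V} (hg : g ∈ X) (h1 : g ∉ glStab S)
    (h2 : ¬ S.map (g : V →ₗ[F] V) ≤ (𝓒).perp S) : OmegaV Q ≤ X := by
  by_contra hc
  let D : Bool → Submodule F V := fun b => cond b S ((𝓒).perp S)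
  have m : ∀ i a, a ∈ D i → a ∈ S ∨ a ∈ (𝓒).perp S := by
    rintro (_ | _) a ha
    exacts [Or.inr ha, Or.inl ha]
  have hN : NoNew Q X D := ⟨hX'.trans OmegaV_le, by
    rintro (_ | _)
    exacts [hQ.nondegOn_perp hb.nondeg, hb.nondeg], by
    rintro (_ | _) (_ | _) h
    exacts [absurd rfl h, (𝓒).le_perp_perp S, le_rfl, absurd rfl h],
    fun i j a ha b hb' => rr_of_stab hQ hX (m i a ha) (m j b hb'), fun i a ha x h => by
    by_contra hx
    push Not at hx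
    exact hc (hb.omega_le_of_rr hQ hne hd hirr hX (m i a ha) h (h.isSquare hQ hne hX') (hx true)
      (hx false))⟩
  obtain ⟨_ | _, hj⟩ := hN.exists_map_le hQ (fun x hx => ⟨true, hb, hx false⟩) hg (i := true) hb
  · exact h2 (Submodule.map_le_iff_le_comap.2 hj)
  · exact h1 (mem_glStab_iff_map.2 (map_eq_of_le (Submodule.map_le_iff_le_comap.2 hj)))

theorem Big.isMaximalIn (hQ : QNondeg Q) (hV : 5 ≤ finrank F V) {W : Submodule F V}
    (h0 : W ≠ ⊥) (hb : Big Q ((𝓒).perp W)) (hd : 4 ≤ finrank F ((𝓒).perp W)) (hirr : Irr 𝓒 W)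
    (hnot : finrank F W < finrank F ((𝓒).perp W) ∨ (finrank F W = finrank F ((𝓒).perp W) ∧
      ¬ ((𝓒).restrict W).Iso ((𝓒).restrict ((𝓒).perp W)))) :
    Cfsg.Geo.IsMaximalIn (OmegaV Q) (glStab W ⊓ OmegaV Q) := by
  have hne : NotExc F V := Or.inr (by omega)
  have h := spec_quad hQ hne
  have h1 := hQ.finrank_add_finrank_perp W
  refine isMaximalIn_of _ _ inf_le_right (fun e => h.not_le_glStab hV h0 (by
    rintro rfl
    rw [finrank_top] at h1
    omega) (e.trans inf_le_left)) fun M h2 h3 g hg hg' => ?_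
  rw [← glStab_perp_inf hQ h.le] at h2 hg'
  refine hb.omega_le hQ hne hd (by rwa [hQ.perp_perp]) h2 h3 hg (fun e => hg' ⟨e, h3 hg⟩)
    fun e => ?_
  rw [hQ.perp_perp] at e
  have h4 := finrank_map_equiv ((𝓒).perp W) g
  have h5 := Submodule.finrank_mono e
  rcases hnot with h6 | ⟨h6, h7⟩
  · omega
  · refine h7 (CForm.Iso.symm ⟨(g.submoduleMap ((𝓒).perp W)).trans
      (LinearEquiv.ofEq _ _ (Submodule.eq_of_le_of_finrank_eq e (by omega))), ?_⟩)
    exact ⟨fun x y => CForm.isom_B (h.le (h3 hg)) _ _, fun x => CForm.isom_N (h.le (h3 hg)) _⟩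

theorem quad_isMaximalIn_nondeg' (hQ : QNondeg Q)
    (hV : 9 ≤ finrank F V ∨ 7 ≤ finrank F V ∧ Fintype.card F ≠ 2) {W : Submodule F V}
    (hW : (𝓒).NondegOn W) (h0 : W ≠ ⊥) (h1 : W ≠ ⊤) (hiso : 2 * finrank F W = finrank F V →
      ¬ ((𝓒).restrict W).Iso ((𝓒).restrict ((𝓒).perp W)))
    (hex : ∀ U, U = W ∨ U = (𝓒).perp W →
      ¬ (Fintype.card F ≤ 3 ∧ finrank F U = 2 ∧ ∃ u ∈ U, u ≠ 0 ∧ Q u = 0)) :
    Cfsg.Geo.IsMaximalIn (OmegaV Q) (glStab W ⊓ OmegaV Q) := by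
  have h2 := hQ.finrank_add_finrank_perp W
  by_cases h3 : finrank F W ≤ finrank F ((𝓒).perp W)
  · refine Big.isMaximalIn hQ (by omega) h0 ⟨hQ.nondegOn_perp hW, Or.inl (by omega),
      fun _ => Or.inl (by omega)⟩ (by omega) (irr_quad hQ hW (hex _ (Or.inl rfl))) ?_
    rcases h3.lt_or_eq with h4 | h4
    · exact Or.inl h4
    · exact Or.inr ⟨h4, hiso (by omega)⟩
  · rw [← glStab_perp_inf hQ OmegaV_le]
    refine Big.isMaximalIn hQ (by omega) (fun e => h1 ?_) (by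
      rw [hQ.perp_perp]; exact ⟨hW, Or.inl (by omega), fun _ => Or.inl (by omega)⟩)
      (by rw [hQ.perp_perp]; omega) (irr_quad hQ (hQ.nondegOn_perp hW) (hex _ (Or.inr rfl)))
      (Or.inl (by rw [hQ.perp_perp]; omega))
    rw [e, finrank_bot] at h2
    exact Submodule.eq_top_of_finrank_eq (by omega)

end H12
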