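import Cfsg.Agent.H12.KL1
import Cfsg.Agent.H12.RQ4
import Cfsg.Agent.H11.SUSimple

/-!
# The Klein correspondence
-/

set_option autoImplicit false
set_option maxHeartbeats 400000

namespace H12

open Module H11 Matrix QuadraticMap Cfsg.Geo
open scoped MatrixGroups

section Rat

variable {K F : Type*} [Field K] [Field F] [Algebra K F] {V₀ V : Type*} [AddCommGroup V₀]
  [Module K V₀] [AddCommGroup V] [Module F V] [Module K V] [IsScalarTower K F V]
  {ι : V₀ →ₗ[K] V}

theorem rat_of_span [FiniteDimensional K V₀] (hd : finrank K V₀ = finrank F V)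
    (hs : ∀ v, v ∈ Submodule.span F (Set.range ι)) : Rat F ι := by
  let b := finBasis K V₀
  refine ⟨_, b, basisOfTopLeSpanOfCardEqFinrank (fun i => ι (b i)) (fun v _ => ?_) (by simpa),
    fun i => by simp⟩
  refine Submodule.span_le.2 ?_ (hs v)
  rintro _ ⟨x, rfl⟩
  rw [← b.sum_repr x, map_sum]
  exact Submodule.sum_mem _ fun i _ => by
    rw [ι_smul (F := F)]; exact Submodule.smul_mem _ _ (Submodule.subset_span ⟨i, rfl⟩)

theorem Rat.li (h : Rat F ι) {n : ℕ} {v : Fin n → V₀} (hv : LinearIndependent K v) :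
    LinearIndependent F fun i => ι (v i) := by
  rw [linearIndependent_iff_notMem_span] at hv ⊢
  intro i
  have := h.not_mem_span (hv i)
  rwa [Set.image_image] at this

variable (F ι) in
/-- The rational points of a subspace. -/
def ratPts (S : Submodule F V) : Submodule K V₀ := (S.restrictScalars K).comap ι

@[simp] theorem mem_ratPts {S : Submodule F V} {x : V₀} : x ∈ ratPts F ι S ↔ ι x ∈ S := Iff.rfl

variable (ι) in
/-- A subspace which is spanned by rational points. -/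
def RatS (S : Submodule F V) : Prop := S ≤ Submodule.span F (ι '' ratPts F ι S)

theorem RatS.mem {S Z : Submodule F V} (h : RatS ι S) (hZ : ∀ x, ι x ∈ S → ι x ∈ Z) : S ≤ Z :=
  h.trans (Submodule.span_le.2 (by rintro _ ⟨x, hx, rfl⟩; exact hZ x hx))

theorem Rat.finrank_span [FiniteDimensional K V₀] (h : Rat F ι) (Z : Submodule K V₀) :
    finrank F (Submodule.span F (ι '' Z)) = finrank K Z := by
  let b := finBasis K Z
  have h1 := finrank_span_eq_card (h.li (b.linearIndependent.map' Z.subtype Z.ker_subtype))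
  rw [Fintype.card_fin] at h1
  refine Eq.trans (congrArg (fun S : Submodule F V => finrank F S) ?_) h1
  refine le_antisymm (Submodule.span_le.2 ?_) (Submodule.span_mono ?_)
  · rintro _ ⟨x, hx, rfl⟩
    rw [show x = Z.subtype ⟨x, hx⟩ from rfl, ← b.sum_repr ⟨x, hx⟩, map_sum, map_sum]
    exact Submodule.sum_mem _ fun i _ => by
      rw [map_smul, ι_smul (F := F)]; exact Submodule.smul_mem _ _ (Submodule.subset_span ⟨i, rfl⟩)
  · rintro _ ⟨i, rfl⟩
    exact ⟨_, (b i).2, rfl⟩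

theorem RatS.finrank_eq [FiniteDimensional K V₀] (h : Rat F ι) {S : Submodule F V}
    (hS : RatS ι S) : finrank K (ratPts F ι S) = finrank F S := by
  rw [← h.finrank_span, le_antisymm (Submodule.span_le.2 (by rintro _ ⟨x, hx, rfl⟩; exact hx)) hS]

theorem Rat.finrank_le [FiniteDimensional K V₀] [FiniteDimensional F V] (h : Rat F ι)
    (S : Submodule F V) : finrank K (ratPts F ι S) ≤ finrank F S := by
  rw [← h.finrank_span]
  exact Submodule.finrank_mono (Submodule.span_le.2 (by rintro _ ⟨x, hx, rfl⟩; exact hx))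

theorem Rat.ratS_range (h : Rat F ι) {T : V →ₗ[F] V} (hT : ∀ x, ∃ y, ι y = T (ι x)) :
    RatS ι (LinearMap.range T) := by
  rintro _ ⟨v, rfl⟩
  refine h.mem (Z := Submodule.comap T (Submodule.span F (ι '' ratPts F ι (LinearMap.range T))))
    (fun x => ?_) v
  obtain ⟨y, hy⟩ := hT x
  exact Submodule.subset_span ⟨y, ⟨_, hy.symm⟩, hy⟩

theorem Rat.mem_of_smul (h : Rat F ι) {x y : V₀} {c : F} (hx : x ≠ 0) (e : ι y = c • ι x) :
    ∃ k, c = algebraMap K F k := by
  obtain ⟨φ₀, φ, a1, -, a3⟩ := h.exists_one_zero (Z := ⊥) (x := x) (by simpa)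
  exact ⟨φ₀ y, by rw [← a1, e, map_smul, a3, smul_eq_mul, mul_one]⟩

end Rat

namespace K4

variable {K F : Type*} [Field K] [Field F] [Algebra K F] {W : Type*} [AddCommGroup W] [Module K W]
  {ι : W →ₗ[K] A6 F} {Q : QuadraticForm K W} {G : Subgroup (GL (Fin 4) F)} {δ : F}

local notation "𝔣" => algebraMap K F
local notation "𝔮" => qPlus 3 F
local notation "𝓒" => CForm.ofQuad Q

variable (ι) in
/-- Corresponding elements. -/
def Cor (g : GL (Fin 4) F) (k : W ≃ₗ[K] W) : Prop := ∀ w, ι (k w) = act g.1 (ι w)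

theorem Cor.mul {g g' : GL (Fin 4) F} {k k' : W ≃ₗ[K] W} (h : Cor ι g k) (h' : Cor ι g' k') :
    Cor ι (g * g') (k * k') := fun w => by
  rw [LinearEquiv.mul_apply, h, h', Units.val_mul, act_mul]

theorem cor_one : Cor ι 1 1 := fun w => by simp [act_one]

theorem Cor.inv {g : GL (Fin 4) F} {k : W ≃ₗ[K] W} (h : Cor ι g k) : Cor ι g⁻¹ k⁻¹ := fun w => by
  conv_rhs => rw [← apply_inv_apply k w, h, ← act_mul, Units.inv_mul, act_one]

variable (ι Q G δ) in
/-- A group acting as an orthogonal group on a form of the exterior square. -/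
structure KL : Prop where
  rat : Rat F ι
  δ0 : δ ≠ 0
  q : ∀ w, 𝔮 (ι w) = δ * 𝔣 (Q w)
  det : ∀ g ∈ G, g.1.det = 1
  map : ∀ g ∈ G, ∃ k ∈ OmegaV Q, Cor ι g k
  surj : ∀ k ∈ OmegaV Q, ∃ g ∈ G, Cor ι g k

theorem finrank_A6 : finrank F (A6 F) = 6 := by simp

theorem scalar_of_cor (h : Rat F ι) {g : GL (Fin 4) F} (e : Cor ι g 1) : g = 1 ∨ g = -1 := by
  have h1 : ∀ a, act g.1 a = (1 : F) • a := fun a => by
    have := h.map_eq_zero (φ := act g.1 - LinearMap.id) (fun x => by simp [← e x]) a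
    simpa [sub_eq_zero] using this
  obtain ⟨d, hd⟩ := scalar_of_act one_ne_zero h1
  have := congrFun (h1 (Pi.single (.inl 0) 1)) (.inl 0)
  rw [hd, act_smul, act_one] at this
  rcases mul_self_eq_one_iff.1 (by simpa using this : d * d = 1) with rfl | rfl
  · exact Or.inl (Units.ext (by simpa using hd))
  · exact Or.inr (Units.ext (by simpa using hd))

theorem kl_of_card [Fintype K] [Finite W] (rat : Rat F ι) (q : ∀ w, 𝔮 (ι w) = 𝔣 (Q w))
    (det : ∀ g ∈ G, g.1.det = 1) (map : ∀ g ∈ G, ∀ w, ∃ w', ι w' = act g.1 (ι w))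
    (hp : commutator G = ⊤)
    (hc : Nat.gcd 2 (Fintype.card K - 1) * Nat.card (commutator (orth Q)) ≤ Nat.card G) :
    KL ι Q G 1 := by
  obtain ⟨φ, hφ⟩ := exists_orth_hom (fun g : G => g.1.1) (fun g => g.1.1ᵀ) rfl transpose_one
    (fun _ _ => rfl) (fun _ _ => transpose_mul _ _) (((o6Emb F).restrictScalars K) ∘ₗ ι)
    (o6Emb_injective.comp rat.inj) Q fun g w => by
      obtain ⟨w', e⟩ := map g g.2 w
      exact ⟨w', by simp [e, emb_act], (𝔣).injective (by rw [← q, ← q, e, q_act, det g g.2, one_mul])⟩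
  have hc' : ∀ g : G, Cor ι g (φ g).1 := fun g w => o6Emb_injective (by
    simpa [emb_act] using hφ g w)
  have h1 : ∀ g, φ g ∈ commutator (orth Q) := map_mem_commutator_of_perfect φ hp
  have : Finite (orth Q) := Finite.of_injective (fun g : orth Q => (g.1 : W → W))
    fun a b h => orth_ext (congrFun h)
  have h2 : Nat.card φ.ker ≤ Nat.gcd 2 (Fintype.card K - 1) := by
    classical
    have a1 : ∀ g : φ.ker, g.1.1 = 1 ∨ g.1.1 = -1 := fun g => scalar_of_cor rat (by
      have := hc' g; rwa [MonoidHom.mem_ker.1 g.2] at this)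
    by_cases e : (2 : K) = 0
    · have : Subsingleton φ.ker := ⟨fun a b => Subtype.ext (Subtype.ext (by
        have e' : (-1 : GL (Fin 4) F) = 1 := Units.ext (by
          have : (-1 : F) = 1 := by
            have := congrArg 𝔣 e
            rw [map_ofNat, map_zero] at this
            linear_combination -this
          rw [Units.val_neg, Units.val_one, ← neg_one_smul F, this, one_smul])
        rcases a1 a with h | h <;> rcases a1 b with h' | h' <;> simp [h, h', e']))⟩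
      exact (Nat.card_of_subsingleton 1).le.trans (Nat.gcd_pos_of_pos_left _ two_pos)
    · have a2 := odd_card_iff.2 e
      rw [Nat.gcd_eq_left (by obtain ⟨m, hm⟩ := a2; omega)]
      refine (Nat.card_le_card_of_injective (fun g : φ.ker => decide (g.1.1 = 1)) fun a b h =>
        Subtype.ext (Subtype.ext ?_)).trans (by simp)
      rcases a1 a with h1 | h1 <;> rcases a1 b with h2 | h2
      · rw [h1, h2]
      · rw [h1, of_decide_eq_true (h.symm.trans (decide_eq_true h1))]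
      · rw [h2, of_decide_eq_true (h.trans (decide_eq_true h2))]
      · rw [h1, h2]
  have h3 : φ.range = commutator (orth Q) := by
    refine Subgroup.eq_of_le_of_card_ge (by rintro _ ⟨g, rfl⟩; exact h1 g) ?_
    rw [← φ.ker.card_mul_index, Subgroup.index_ker] at hc
    exact Nat.le_of_mul_le_mul_left (hc.trans (Nat.mul_le_mul_right _ h2))
      (Nat.gcd_pos_of_pos_left _ two_pos)
  refine ⟨rat, one_ne_zero, by simpa, det, fun g hg => ⟨_, mem_OmegaV.2 (h1 ⟨g, hg⟩), hc' _⟩, ?_⟩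
  rintro _ ⟨k, hk, rfl⟩
  obtain ⟨g, rfl⟩ := h3.ge hk
  exact ⟨g, g.2, hc' g⟩

namespace KL

variable (h : KL ι Q G δ)
include h

theorem polar (x y : W) : polar 𝔮 (ι x) (ι y) = δ * 𝔣 (polar Q x y) := by
  simp only [QuadraticMap.polar, ← map_add, h.q, map_sub]; ring

theorem dim : finrank K W = 6 := h.rat.finrank_eq.trans finrank_A6

theorem fin : FiniteDimensional K W := Module.finite_of_finrank_eq_succ h.dim

theorem nondegOn {S : Submodule F (A6 F)} (hS : RatS ι S) (hn : (CForm.ofQuad 𝔮).NondegOn S) :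
    (𝓒).NondegOn (ratPts F ι S) := fun x hx e => h.rat.inj (by
  rw [map_zero]
  exact hn _ hx fun y hy => hS.mem (Z := LinearMap.ker ((CForm.ofQuad 𝔮).B (ι x))) (fun z hz => by
    change QuadraticMap.polar 𝔮 (ι x) (ι z) = 0
    rw [h.polar, show QuadraticMap.polar Q x z = 0 from e z hz, map_zero, mul_zero]) hy)

theorem nd : QNondeg Q := fun x e => h.nondegOn (S := ⊤)
  (fun v _ => h.rat.mem (fun x => Submodule.subset_span (Set.mem_image_of_mem _ trivial)) v)
  (fun x _ e => qPlus_nondeg 3 x fun y => e y trivial) x trivial fun y _ => e y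

theorem ne : NotExc K W := Or.inr (by rw [h.dim]; norm_num)

theorem uniq {g : GL (Fin 4) F} {k k' : W ≃ₗ[K] W} (e : Cor ι g k) (e' : Cor ι g k') : k = k' :=
  LinearEquiv.ext fun w => h.rat.inj ((e w).trans (e' w).symm)

theorem isMaximalIn {H : Subgroup (GL (Fin 4) F)} {H' : Subgroup (W ≃ₗ[K] W)}
    (hH : ∀ g ∈ G, ∀ k, Cor ι g k → (g ∈ H ↔ k ∈ H'))
    (hm : IsMaximalIn (OmegaV Q) (H' ⊓ OmegaV Q)) : IsMaximalIn G (H ⊓ G) := by
  refine isMaximalIn_of _ _ inf_le_right (fun e => hm.1.not_ge fun k hk => ?_)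
    fun M h1 h2 g hg hg' => ?_
  · obtain ⟨g, hg, c⟩ := h.surj k hk
    exact ⟨(hH g hg k c).1 (e hg).1, hk⟩
  let M' : Subgroup (W ≃ₗ[K] W) :=
    { carrier := {k | k ∈ OmegaV Q ∧ ∃ m ∈ M, Cor ι m k}
      one_mem' := ⟨one_mem _, 1, one_mem _, cor_one⟩
      mul_mem' := fun ⟨a, m, hm, c⟩ ⟨a', m', hm', c'⟩ => ⟨mul_mem a a', _, mul_mem hm hm', c.mul c'⟩
      inv_mem' := fun ⟨a, m, hm, c⟩ => ⟨inv_mem a, _, inv_mem hm, c.inv⟩ }
  rcases hm.2 M' (fun k hk => by
    obtain ⟨g, hg, c⟩ := h.surj k hk.2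
    exact ⟨hk.2, g, h1 ⟨(hH g hg k c).2 hk.1, hg⟩, c⟩) (fun k hk => hk.1) with e | e
  · obtain ⟨k, hk, c⟩ := h.map g (h2 hg)
    exact absurd ⟨(hH g (h2 hg) k c).2 (e.le ⟨hk, g, hg, c⟩).1, h2 hg⟩ hg'
  · intro x hx
    obtain ⟨k, hk, c⟩ := h.map x hx
    obtain ⟨-, m, hm, c'⟩ := e.ge hk
    have a := mul_mem hx (inv_mem (h2 hm))
    simpa using mul_mem (h1 ⟨(hH _ a _ (c.mul c'.inv)).2 (by simp), a⟩) hm

theorem twist (P : GL (Fin 4) F) :
    KL (((Φ F P⁻¹).toLinearMap.restrictScalars K) ∘ₗ ι) Q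
      (G.comap (MulAut.conj P : GL (Fin 4) F →* GL (Fin 4) F)) ((P⁻¹).1.det * δ) := by
  have c : ∀ g k, Cor ι (P * g * P⁻¹) k ↔
      Cor (((Φ F P⁻¹).toLinearMap.restrictScalars K) ∘ₗ ι) g k := fun g k =>
    forall_congr' fun w => by
      rw [← (Φ F P⁻¹).injective.eq_iff]
      simp only [LinearMap.comp_apply, LinearMap.restrictScalars_apply, LinearEquiv.coe_coe,
        Φ_apply, ← act_mul, ← Units.val_mul, ← mul_assoc, inv_mul_cancel, one_mul]
  obtain ⟨n, b₀, b, e⟩ := h.rat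
  refine ⟨⟨n, b₀, b.map (Φ F P⁻¹), fun i => by simp [e]⟩,
    mul_ne_zero (P⁻¹).det_ne_zero h.δ0, fun w => ?_, fun g hg => ?_, fun g hg => ?_, fun k hk => ?_⟩
  · change 𝔮 (Φ F P⁻¹ (ι w)) = _
    rw [Φ_apply, q_act, h.q, mul_assoc]
  · have := h.det _ hg
    change (P.1 * g.1 * (P⁻¹).1).det = 1 at this
    rwa [det_mul, det_mul, mul_right_comm, ← det_mul, Units.mul_inv, det_one, one_mul] at this
  · obtain ⟨k, hk, e⟩ := h.map _ hg
    exact ⟨k, hk, (c g k).1 e⟩
  · obtain ⟨g, hg, e⟩ := h.surj k hk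
    exact ⟨P⁻¹ * g * P, by simpa [mul_assoc] using hg, (c _ k).1 (by simpa [mul_assoc] using e)⟩

theorem map_iff {g : GL (Fin 4) F} {k : W ≃ₗ[K] W} (c : Cor ι g k) {S T : Submodule F (A6 F)}
    (hS : RatS ι S) : (∀ x ∈ ratPts F ι S, k x ∈ ratPts F ι T) ↔ ∀ a ∈ S, act g.1 a ∈ T :=
  ⟨fun e => hS.mem (Z := T.comap (act g.1)) fun x hx => by simpa [c x] using e x hx,
    fun e x hx => by simpa [c x] using e _ hx⟩

end KL

theorem isMaximalIn_of_conj {Γ : Type*} [Group Γ] (P : Γ) {G H : Subgroup Γ}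
    (h : IsMaximalIn (G.comap (MulAut.conj P : Γ →* Γ))
      (H.comap (MulAut.conj P : Γ →* Γ) ⊓ G.comap (MulAut.conj P : Γ →* Γ))) :
    IsMaximalIn G (H ⊓ G) := by
  have := isMaximalIn_comap (MulAut.conj P).symm h
  convert this using 1 <;> ext g <;> simp [mul_assoc]

theorem mem_SL {g : GL (Fin 4) F} : g ∈ specialLinear (Fin 4) F ↔ g.1.det = 1 := by
  simp [specialLinear, Units.ext_iff]

theorem card_omega_six [Fintype K] [FiniteDimensional K W] (hQ : QNondeg Q)
    (hd : finrank K W = 6) : ∃ c, Nat.gcd 2 (Fintype.card K - 1) *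
      Nat.card (commutator (orth Q)) = Fintype.card K ^ 6 * c *
        ((Fintype.card K ^ 2 - 1) * (Fintype.card K ^ 4 - 1)) ∧
      (c = Fintype.card K ^ 3 - 1 ∨ c = Fintype.card K ^ 3 + 1 ∧ ¬ (𝓒).HasTS 3) := by
  by_cases e : (𝓒).HasTS 3
  · obtain ⟨ε, hε⟩ := quad_iso_qPlus hQ (m := 3) hd e
    have := card_omegaPlus_mul (F := K) (m := 2) (Or.inr (by norm_num))
    rw [Nat.card_congr ((omegaEquiv _ (coe_qPlus 3)).trans
      (commutatorCongr (H11.isomCongr ε hε).symm)).toEquiv] at this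
    exact ⟨_, by simpa [Finset.prod_range_succ] using this, Or.inl rfl⟩
  · obtain ⟨a, b, hab⟩ := exists_aniso K
    obtain ⟨ε, hε⟩ := quad_iso_qMinus hQ (m := 2) hd e hab
    have := card_omegaMinus_mul (F := K) (m := 2) (Or.inr (by norm_num)) hab
    rw [Nat.card_congr ((omegaEquiv _ (coe_qMinus 2 a b)).trans
      (commutatorCongr (H11.isomCongr ε hε).symm)).toEquiv] at this
    exact ⟨_, by simpa [Finset.prod_range_succ] using this, Or.inr ⟨rfl, e⟩⟩

theorem kl_SL (F : Type*) [Field F] [Fintype F] :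
    KL (LinearMap.id : A6 F →ₗ[F] A6 F) (qPlus 3 F) (specialLinear (Fin 4) F) 1 := by
  let e : SL(4, F) ≃* specialLinear (Fin 4) F :=
    (MonoidHom.ofInjective SpecialLinearGroup.toGL_injective).trans (MulEquiv.subgroupCongr (by
      ext g
      exact ⟨by rintro ⟨x, rfl⟩; exact mem_SL.2 x.2, fun h => ⟨⟨g.val, mem_SL.1 h⟩, Units.ext rfl⟩⟩))
  refine kl_of_card ⟨_, finBasis F _, finBasis F _, fun _ => rfl⟩ (fun _ => rfl)
    (fun g => mem_SL.1) (fun g _ w => ⟨_, rfl⟩)
    (perfect_of_equiv e (sl_commutator_eq_top (by simp))) ?_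
  obtain ⟨c, h1, h2 | h2⟩ := card_omega_six (qPlus_nondeg (F := F) 3) finrank_A6
  · rw [h1, ← Nat.card_congr e.toEquiv, card_sl_four, h2]
    exact le_of_eq (by ring)
  · exact absurd (qPlus_hasTS 3) h2.2

end K4

end H12
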