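import Cfsg.Agent.H12.KL3
import Cfsg.Agent.H12.Char2

/-!
# Symplectic subgroups of `SL₄` and `SU₄`
-/

set_option autoImplicit false
set_option maxHeartbeats 400000

namespace H12

open Module H11 Matrix QuadraticMap Cfsg Cfsg.Geo

section Point

variable {F : Type*} [Field F] [Fintype F] {V : Type*} [AddCommGroup V] [Module F V]
  [FiniteDimensional F V] {Q : QuadraticForm F V}

local notation "𝓒" => CForm.ofQuad Q

omit [Fintype F] in
theorem CForm.Nondeg.exists_add_perp {T : FormType F} {C : CForm T V} (hC : C.Nondeg)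
    {S : Submodule F V} (hS : C.NondegOn S) (x : V) : ∃ s ∈ S, ∃ n ∈ C.perp S, s + n = x :=
  Submodule.mem_sup.1 ((hC.isCompl_perp hS).sup_eq_top.ge Submodule.mem_top)

theorem exists_Q_eq_of_two6 (hQ : QNondeg Q) (hd : 6 ≤ finrank F V) {v x : V} (hv : v ≠ 0)
    (hx : x ∉ Submodule.span F {v}) (α β c : F) :
    ∃ y, polar Q v y = α ∧ polar Q x y = β ∧ Q y = c := by
  obtain ⟨y₁, h1⟩ := hQ.exists_eq hv α
  obtain ⟨y₂, h2, h3⟩ := hQ.exists_perp_eq hx (β - polar Q x y₁)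
  obtain ⟨P, a1, a2, a3⟩ := hQ.exists_nondegOn_perp (spanL F [v, x])
  have := finrank_span_list_le (F := F) [v, x]
  obtain ⟨p, hp, n, hn, e⟩ := hQ.exists_add_perp a2 (y₁ + y₂)
  obtain ⟨s, hs, h5⟩ : ∃ s ∈ P, Q s = c - Q n := by
    by_cases h : c - Q n = 0
    · exact ⟨0, zero_mem _, by simp [h]⟩
    · exact exists_Q_eq_of_nondegOn hQ a2 (by simp at this; omega) h
  have b : ∀ z ∈ [v, x], polar Q z (s + n) = polar Q z (y₁ + y₂) := fun z hz => by
    rw [← e, polar_add_right, polar_add_right, show polar Q z s = 0 from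
      mem_perp_spanL.1 (a1 hs) z hz, show polar Q z p = 0 from mem_perp_spanL.1 (a1 hp) z hz]
  refine ⟨s + n, ?_, ?_, ?_⟩
  · rw [b v (by simp), polar_add_right, show polar Q v y₁ = α from h1,
      show polar Q v y₂ = 0 from (𝓒).mem_perp_singleton.1 h2, add_zero]
  · rw [b x (by simp), polar_add_right, show polar Q x y₂ = _ from h3]; ring
  · rw [Q_add, show polar Q s n = 0 from (𝓒).mem_perp.1 hn s hs, h5]; ring

theorem isMaximalIn_nonsingular6 (hQ : QNondeg Q) (h2 : (2 : F) = 0) (hd : 6 ≤ finrank F V) {v : V}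
    (hv : Q v ≠ 0) :
    IsMaximalIn (OmegaV Q) (glStab (Submodule.span F {v}) ⊓ OmegaV Q) := by
  have hne : NotExc F V := Or.inr (by omega)
  have hS := spec_quad hQ hne
  have hv0 : v ≠ 0 := fun h => by simp [h] at hv
  have hvv : ∀ x, polar Q x x = 0 := fun x => by rw [polar_self', h2, zero_mul]
  refine isMaximalIn_of _ _ inf_le_right (fun h => hS.not_le_glStab (by omega) (by simpa)
    (ne_top_of_finrank_lt (by have := finrank_span_singleton_le (F := F) v; omega))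
    (h.trans inf_le_left)) fun M h1 hM g hg hg' => ?_
  let M' : Subgroup (orth Q) := M.subgroupOf _
  let R : V → Prop := fun a => refl Q v * refl Q a ∈ M'
  have fix : ∀ k ∈ OmegaV Q, k v = v → k ∈ M := fun k hk e => h1 ⟨mem_glStab_of_mapsTo fun x hx => by
    obtain ⟨c, rfl⟩ := Submodule.mem_span_singleton.1 hx
    rwa [map_smul, e], hk⟩
  have R1 : ∀ a, Q a ≠ 0 → polar Q v a = 0 → R a := fun a ha e => fix _
    (mem_OmegaV.2 (refl_mul_refl_mem_commutator hQ hv ha (isSquare_of_two_eq_zero h2 _))) (by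
      change (refl Q v * refl Q a).1 v = v
      rw [orth_mul_apply, refl_apply_of_orth ((polar_comm Q a v).trans e),
        refl_apply_of_orth (hvv v)])
  have R2 : ∀ a b, R a → R b → refl Q a * refl Q b ∈ M' := fun a b ha hb => by
    have := mul_mem (inv_mem ha) hb
    rwa [_root_.mul_inv_rev, refl_inv, refl_inv, mul_assoc, ← mul_assoc (refl Q v), refl_mul_self,
      one_mul] at this
  have R3 : ∀ a b, R a → R b → R ((refl Q b).1 a) := fun a b ha hb => by
    have := mul_mem hb (R2 a b ha hb)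
    change refl Q v * refl Q _ ∈ M'
    rwa [← refl_conj, refl_inv, ← mul_assoc, ← mul_assoc, mul_assoc _ (refl Q a)]
  have conj : ∀ k : orth Q, k ∈ M' → ∀ a b, refl Q a * refl Q b ∈ M' →
      refl Q (k.1 a) * refl Q (k.1 b) ∈ M' := fun k hk a b h => by
    have := mul_mem (mul_mem hk h) (inv_mem hk)
    rwa [← refl_conj, ← refl_conj, show k * refl Q a * k⁻¹ * (k * refl Q b * k⁻¹) =
      k * (refl Q a * refl Q b) * k⁻¹ by group]
  let g' : orth Q := ⟨g, OmegaV_le (hM hg)⟩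
  have hgv : g v ∉ Submodule.span F {v} := fun h => hg' ⟨mem_glStab_of_mapsTo fun x hx => by
    obtain ⟨c, rfl⟩ := Submodule.mem_span_singleton.1 hx
    rw [map_smul]; exact Submodule.smul_mem _ _ h, hM hg⟩
  have R4 : ∀ a, Q a ≠ 0 → polar Q (g v) a = 0 → refl Q (g v) * refl Q a ∈ M' := fun a ha e => by
    obtain ⟨b, rfl⟩ := g.surjective a
    exact conj g' hg v b (R1 b ((orth_Q g' b) ▸ ha) ((orth_polar g' v b).symm.trans e))
  obtain ⟨a, a1, a2, a3⟩ := exists_Q_eq_of_two6 hQ hd hv0 hgv 0 0 1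
  obtain ⟨x, b1, b2, b3⟩ := exists_Q_eq_of_two6 hQ hd hv0 hgv 1 0 1
  have R5 : R x := by
    have := mul_mem (mul_mem (R1 a (a3 ▸ one_ne_zero) a1) (inv_mem (R4 a (a3 ▸ one_ne_zero) a2)))
      (R4 x (b3 ▸ one_ne_zero) b2)
    change refl Q v * refl Q x ∈ M'
    convert this using 1
    group
  have ns : ∀ y, polar Q v y ≠ 0 → y ∉ Submodule.span F {v} := fun y hy h => by
    obtain ⟨c, rfl⟩ := Submodule.mem_span_singleton.1 h
    exact hy (by rw [polar_smul_right, hvv, smul_zero])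
  have R6 : ∀ y, polar Q v y = 1 → Q y = 1 → R y := fun y c1 c2 => by
    obtain ⟨k, hk, e1, e2⟩ := hS.witt_step (Submodule.span F {v})
      (by have := finrank_span_singleton_le (F := F) v; omega) (u := x) (v := y)
      (ns x (b1 ▸ one_ne_zero)) (ns y (c1 ▸ one_ne_zero)) (fun z hz => by
        obtain ⟨c, rfl⟩ := Submodule.mem_span_singleton.1 hz
        rw [CForm.ofQuad_B, CForm.ofQuad_B, polar_smul_left, polar_smul_left, c1, b1])
      (c2.trans b3.symm)
    have e3 := e1 v (Submodule.mem_span_singleton_self v)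
    have := conj ⟨k, OmegaV_le hk⟩ (fix k hk e3) v x R5
    rwa [show (⟨k, OmegaV_le hk⟩ : orth Q).1 = k from rfl, e3, e2] at this
  have R7 : ∀ y, Q y = 1 → R y := fun y hy => by
    by_cases c1 : polar Q v y = 0
    · exact R1 y (hy ▸ one_ne_zero) c1
    obtain ⟨z, d1, d2, d3⟩ := exists_Q_eq_of_two6 hQ hd hv0 (ns y c1) 1 (polar Q v y - 1) 1
    have := R3 _ z (R6 ((refl Q z).1 y) (by
      rw [refl_apply, d3, polar_comm Q z, d2, polar_sub_right, polar_smul_right, d1]; simp)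
      ((orth_Q _ _).trans hy)) (R6 z d1 d3)
    rwa [← orth_mul_apply, refl_mul_self, orth_one_apply] at this
  have R8 : ∀ y, Q y ≠ 0 → R y := fun y hy => by
    obtain ⟨c, hc, e⟩ := exists_smul_Q_eq h2 hy one_ne_zero
    have := R7 _ e
    change refl Q v * refl Q _ ∈ M' at this
    rwa [refl_smul hc] at this
  rintro _ ⟨k, hk, rfl⟩
  rw [SetLike.mem_coe, commutator_eq_ker_dickson hQ hne h2, ker_dickson_eq_closure hQ hne] at hk
  refine (Subgroup.closure_le M').2 ?_ hk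
  rintro _ ⟨a, b, ha, hb, rfl⟩
  exact R2 a b (R8 a ha) (R8 b hb)

theorem isMaximalIn_point6 (hQ : QNondeg Q) (hd : 6 ≤ finrank F V) {v : V} (hv : Q v ≠ 0) :
    IsMaximalIn (OmegaV Q) (glStab (Submodule.span F {v}) ⊓ OmegaV Q) := by
  by_cases h2 : (2 : F) = 0
  · exact isMaximalIn_nonsingular6 hQ h2 hd hv
  have hv0 : v ≠ 0 := fun h => by simp [h] at hv
  have h1 := finrank_span_singleton (K := F) hv0
  have h3 := hQ.finrank_add_finrank_perp (Submodule.span F {v})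
  have h4 : (𝓒).NondegOn (Submodule.span F {v}) := fun x hx e => by
    obtain ⟨c, rfl⟩ := Submodule.mem_span_singleton.1 hx
    have := e v (Submodule.mem_span_singleton_self v)
    rw [CForm.ofQuad_B, polar_smul_left, polar_self', smul_eq_mul] at this
    simp [(mul_eq_zero.1 this).resolve_right (mul_ne_zero h2 hv)]
  exact Big.isMaximalIn hQ (by omega) (by simpa) ⟨hQ.nondegOn_perp h4, Or.inl (by omega),
    fun _ => Or.inl (by omega)⟩ (by omega) (irr_quad hQ h4 (by omega)) (Or.inl (by omega))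

end Point

namespace K4

section

variable {F : Type*} [Field F]

theorem mem_sim_iff {f : (Fin 4 → F) → (Fin 4 → F) → F} {M : Matrix (Fin 4) (Fin 4) F}
    (hf : ∀ x y, f x y = x ⬝ᵥ M *ᵥ y) {g : GL (Fin 4) F} :
    g ∈ similarityGroup f ↔ ∃ c : F, c ≠ 0 ∧ g.1ᵀ * M * g.1 = c • M := by
  have key : ∀ c : F, (∀ u v, f (g.1 *ᵥ u) (g.1 *ᵥ v) = c * f u v) ↔ g.1ᵀ * M * g.1 = c • M :=
    fun c => by
      have e : ∀ u v, f (g.1 *ᵥ u) (g.1 *ᵥ v) = u ⬝ᵥ (g.1ᵀ * M * g.1) *ᵥ v := fun u v => by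
        rw [hf, ← mulVec_mulVec, ← mulVec_mulVec, dotProduct_mulVec u, vecMul_transpose]
      refine ⟨fun h => Matrix.ext fun i j => ?_, fun h u v => ?_⟩
      · have := h (Pi.single i 1) (Pi.single j 1)
        rw [e, hf] at this
        simpa using this
      · rw [e, h, hf, smul_mulVec, dotProduct_smul, smul_eq_mul]
  exact ⟨fun ⟨c, h⟩ => ⟨c, c.ne_zero, (key c).1 h⟩, fun ⟨c, hc, h⟩ => ⟨Units.mk0 c hc, (key c).2 h⟩⟩

theorem exists_gram {f : (Fin 4 → F) → (Fin 4 → F) → F} (hf : IsBilinearForm f)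
    (hn : IsNondegenerateForm f) : ∃ M : Matrix (Fin 4) (Fin 4) F, M.det ≠ 0 ∧
      (∀ i j, M i j = f (Pi.single i 1) (Pi.single j 1)) ∧ ∀ x y, f x y = x ⬝ᵥ M *ᵥ y := by
  have e : ∀ x y, f x y = x ⬝ᵥ LinearMap.BilinForm.toMatrix' (bilinOf hf) *ᵥ y := fun x y => by
    rw [← toBilin'_apply', toBilin'_toMatrix']; rfl
  refine ⟨_, fun h => ?_, fun i j => rfl, e⟩
  obtain ⟨v, hv, h⟩ := exists_mulVec_eq_zero_iff.2 h
  obtain ⟨x, hx⟩ := (hn v hv).1
  exact hx ((e x v).trans ((congrArg _ h).trans (dotProduct_zero _)))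

theorem act_inj {g : Matrix (Fin 4) (Fin 4) F} (h : g.det ≠ 0) : Function.Injective (act g) :=
  fun a b e => by
    rw [← act_one a, ← act_one b, ← nonsing_inv_mul g (IsUnit.mk0 _ h), act_mul, act_mul, e]

theorem sim_alt_iff {g : GL (Fin 4) F} (hg : g.1.det = 1) (m : A6 F) :
    (∃ c : F, c ≠ 0 ∧ g.1ᵀ * o6Emb F m * g.1 = c • o6Emb F m) ↔
      ∃ c : F, c ≠ 0 ∧ act g.1 (hd m) = c • hd m := by
  have e : ∀ c : F, g.1ᵀ * o6Emb F m * g.1 = c • o6Emb F m ↔ act g.1ᵀ m = c • m := fun c => by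
    rw [← o6Emb_injective.eq_iff, emb_act, map_smul, transpose_transpose]
  simp only [e]
  refine ⟨fun ⟨c, hc, h⟩ => ⟨c⁻¹, inv_ne_zero hc, ?_⟩, fun ⟨c, hc, h⟩ => ⟨c⁻¹, inv_ne_zero hc, ?_⟩⟩
  · have := act_hd_act g.1ᵀ m
    rw [h, det_transpose, hg, one_smul, transpose_transpose, map_smul, map_smul] at this
    rw [eq_inv_smul_iff₀ hc, this]
  · have := act_hd_act g.1 (hd m)
    rw [h, hg, one_smul, map_smul, map_smul, hd_hd] at this
    rw [eq_inv_smul_iff₀ hc, this]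

end

variable {K F : Type*} [Field K] [Field F] [Algebra K F] {W : Type*} [AddCommGroup W] [Module K W]
  {ι : W →ₗ[K] A6 F} {Q : QuadraticForm K W} {G : Subgroup (GL (Fin 4) F)} {δ : F}

theorem KL.alt [Fintype K] (h : KL ι Q G δ) {H : Subgroup (GL (Fin 4) F)} {m : A6 F}
    (hm : (o6Emb F m).det ≠ 0) {v : W} {κ : F} (hκ : κ ≠ 0) (hv : ι v = κ • hd m)
    (hH : ∀ g ∈ G, g ∈ H ↔ ∃ c : F, c ≠ 0 ∧ g.1ᵀ * o6Emb F m * g.1 = c • o6Emb F m) :
    IsMaximalIn G (H ⊓ G) := by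
  have := h.fin
  have h1 : Q v ≠ 0 := fun e => hm (by
    have := h.q v
    rw [hv, Q_smul, q_hd, e, map_zero, mul_zero] at this
    rw [det_emb, (mul_eq_zero.1 this).resolve_left (mul_ne_zero hκ hκ), zero_pow two_ne_zero])
  have h0 : v ≠ 0 := fun e => by simp [e] at h1
  refine h.isMaximalIn (fun g hg k c => ?_) (isMaximalIn_point6 h.nd h.dim.ge h1)
  rw [hH g hg, sim_alt_iff (h.det g hg)]
  have e : ∀ a : F, act g.1 (hd m) = a • hd m ↔ ι (k v) = a • ι v := fun a => by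
    rw [c, hv, map_smul, smul_comm a, (smul_right_injective _ hκ).eq_iff]
  simp only [e]
  refine ⟨fun ⟨a, _, h2⟩ => mem_glStab_of_mapsTo fun x hx => ?_, fun h2 => ?_⟩
  · obtain ⟨b, rfl⟩ := h.rat.mem_of_smul h0 h2
    obtain ⟨s, rfl⟩ := Submodule.mem_span_singleton.1 hx
    rw [map_smul, h.rat.inj (h2.trans (ι_smul b v).symm)]
    exact Submodule.smul_mem _ _ (Submodule.smul_mem _ _ (Submodule.mem_span_singleton_self v))
  · obtain ⟨b, hb⟩ := Submodule.mem_span_singleton.1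
      ((mem_glStab.1 h2 v).1 (Submodule.mem_span_singleton_self v))
    refine ⟨algebraMap K F b, fun e => h0 (k.injective ?_), by rw [← hb, ι_smul (F := F)]⟩
    rw [← hb, (map_eq_zero _).1 e, zero_smul, map_zero]

theorem sl4_alt {F : Type*} [Field F] [Fintype F] (f : (Fin 4 → F) → (Fin 4 → F) → F)
    (hf : IsSymplecticForm f) :
    IsMaximalIn (specialLinear (Fin 4) F) (similarityGroup f ⊓ specialLinear (Fin 4) F) := by
  obtain ⟨M, h1, h2, h3⟩ := exists_gram hf.bilinear hf.nondegenerate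
  have e := emb_toA (Y := M) (fun i => by rw [h2, hf.alternating]) fun i j => by
    rw [h2, h2, hf.skew]
  exact (kl_SL F).alt (m := toA M) (by rwa [e]) one_ne_zero (one_smul _ _).symm fun g _ => by
    rw [e, mem_sim_iff h3]

section SU

variable {F : Type*} [Field F] [Fintype F] {q : ℕ} (hF : Fintype.card F = q ^ 2)

local notation "𝓖" => GU 4 F q ⊓ specialLinear (Fin 4) F

theorem mem_subfield_iff {n : ℕ} {F₀ : Subfield F} {ρ : F →+* F} (hρ : ∀ a, a ∈ F₀ ↔ ρ a = a)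
    {P g : GL (Fin n) F} : g ∈ subfieldSubgroup F₀ P ↔
      ∃ c : F, c ≠ 0 ∧ (P⁻¹ * g * P).1 = c • (P⁻¹ * g * P).1.map ρ := by
  rw [subfieldSubgroup_eq, Subgroup.mem_comap]
  have e : ∀ (c : F) (x y : Fin n → F₀), glHom (Fin n) F g (ratMap F₀ P x) = c • ratMap F₀ P y ↔
      (P⁻¹ * g * P).1 *ᵥ (fun i => (x i : F)) = c • fun i => (y i : F) := fun c x y => by
    rw [← (glEquiv (Fin n) F P⁻¹).injective.eq_iff, map_smul, ratMap_apply, ratMap_apply]
    change (P⁻¹).1 *ᵥ (g.1 *ᵥ _) = c • (P⁻¹).1 *ᵥ _ ↔ _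
    simp only [mulVec_mulVec, ← Units.val_mul, inv_mul_cancel, Units.val_one, one_mulVec, mul_assoc]
  generalize P⁻¹ * g * P = h at e
  refine ⟨fun ⟨c, hc, h1, _⟩ => ⟨c / ρ c, div_ne_zero hc ((map_ne_zero _).2 hc),
    Matrix.ext fun i j => ?_⟩, fun ⟨c, hc, h1⟩ => ?_⟩
  · obtain ⟨y, hy⟩ := h1 (Pi.single j 1)
    have := congrFun ((e _ _ _).1 hy) i
    rw [show (fun i => ((Pi.single j 1 : Fin n → F₀) i : F)) = Pi.single j 1 from
      funext fun i => by by_cases e : i = j <;> simp [e]] at this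
    simp only [mulVec_single_one, col_apply, Pi.smul_apply, smul_eq_mul] at this
    simp only [Matrix.smul_apply, map_apply, this, map_mul, (hρ _).1 (y i).2, smul_eq_mul]
    field_simp [(map_ne_zero ρ).2 hc]
  · by_cases h0 : ∃ i j, h.1 i j ≠ 0
    · obtain ⟨i, j, h2⟩ := h0
      have a : ∀ i j, ρ (h.1 i j) = c⁻¹ * h.1 i j := fun i j => by
        rw [eq_inv_mul_iff_mul_eq₀ hc]; exact (congrFun (congrFun h1 i) j).symm
      refine (rat_ratMap F₀ P).mem_ratStab h2 fun x => ⟨fun l => ⟨(h.1 i j)⁻¹ *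
        (h.1 *ᵥ fun i => (x i : F)) l, (hρ _).2 ?_⟩, (e _ _ _).2 (funext fun l => ?_)⟩
      · simp only [mulVec, dotProduct, map_mul, map_inv₀, map_sum, a, (hρ _).1 (x _).2, mul_assoc,
          ← Finset.mul_sum]
        field_simp
      · simp [h2]
    · push Not at h0
      exact (rat_ratMap F₀ P).mem_ratStab one_ne_zero fun x => ⟨0, (e _ _ _).2 (funext fun l => by
        simp [mulVec, dotProduct, h0])⟩

include hF

theorem mem_subfield_two {F₀ : Subfield F} (hcard : Fintype.card F = Nat.card F₀ ^ 2) (a : F) :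
    a ∈ F₀ ↔ frob hF a = a := by
  have : F₀ = fixF (frob hF) := by
    refine SetLike.coe_injective (Set.eq_of_subset_of_ncard_le
      (fun x hx => fix_of_card_two hF hcard ⟨x, hx⟩) (le_of_eq ?_))
    change Nat.card (fixF (frob hF)) = Nat.card F₀
    rw [Nat.card_eq_fintype_card, card_fixF]
    exact Nat.pow_left_injective two_ne_zero (hF.symm.trans hcard)
  rw [this, mem_fixF]

theorem su_subfield_iff {F₀ : Subfield F} (hcard : Fintype.card F = Nat.card F₀ ^ 2)
    (P : GL (Fin 4) F) {g : GL (Fin 4) F} (hg : g ∈ 𝓖) : g ∈ subfieldSubgroup F₀ P ↔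
      ∃ c : F, c ≠ 0 ∧ g.1ᵀ * (P.1.map (frob hF) * (P⁻¹).1) * g.1 =
        c • (P.1.map (frob hF) * (P⁻¹).1) := by
  rw [mem_subfield_iff (mem_subfield_two hF hcard)]
  refine exists_congr fun c => and_congr_right fun _ => ?_
  have h1 := ((mem_SU hF).1 hg).1
  have h2 := mul_eq_one_comm.1 h1
  have h3 : (P⁻¹).1.map (frob hF) * P.1.map (frob hF) = 1 := by
    rw [← Matrix.map_mul, Units.inv_mul, Matrix.map_one _ (map_zero _) (map_one _)]
  have h4 := mul_eq_one_comm.1 h3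
  simp only [Units.val_mul, Matrix.map_mul]
  refine ⟨fun e => ?_, fun e => ?_⟩
  · have := congrArg (g.1ᵀ * P.1.map (frob hF) * · * (P⁻¹).1) e
    simp only [mul_assoc, Units.mul_inv, mul_one, mul_smul_comm, smul_mul_assoc] at this ⊢
    rw [this, ← mul_assoc (P.1.map _), h4, one_mul, ← mul_assoc, h1, one_mul]
  · have := congrArg ((P⁻¹).1.map (frob hF) * g.1.map (frob hF) * · * P.1) e
    simp only [mul_assoc, Units.inv_mul, mul_one, mul_smul_comm, smul_mul_assoc] at this ⊢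
    rw [← this, ← mul_assoc (g.1.map _), h2, one_mul, ← mul_assoc ((P⁻¹).1.map _), h3, one_mul]

theorem gram_eq (P : GL (Fin 4) F) : P.1.map (frob hF) * (P⁻¹).1 = (P⁻¹).1ᵀ *
    (of fun i j => hermForm 4 F q (P.1 *ᵥ Pi.single i 1) (P.1 *ᵥ Pi.single j 1)) * (P⁻¹).1 := by
  have : (of fun i j => hermForm 4 F q (P.1 *ᵥ Pi.single i 1) (P.1 *ᵥ Pi.single j 1)) =
      P.1ᵀ * P.1.map (frob hF) := by
    ext i j; simp [hermForm, mul_apply]
  rw [this, ← mul_assoc, ← transpose_mul, Units.mul_inv, transpose_one, one_mul]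

theorem gram_mul_map (P : GL (Fin 4) F) : P.1.map (frob hF) * (P⁻¹).1 *
    (P.1.map (frob hF) * (P⁻¹).1).map (frob hF) = 1 := by
  rw [Matrix.map_mul, Matrix.map_map, show (frob hF) ∘ (frob hF) = id from funext (frob_frob hF),
    Matrix.map_id, mul_assoc, ← mul_assoc (P⁻¹).1, Units.inv_mul, one_mul, ← Matrix.map_mul,
    Units.mul_inv, Matrix.map_one _ (map_zero _) (map_one _)]

theorem single_mem {F₀ : Subfield F} (i j : Fin 4) : (Pi.single i 1 : Fin 4 → F) j ∈ F₀ := by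
  by_cases e : j = i <;> simp [e]

theorem su4_alt {F₀ : Subfield F} {P : GL (Fin 4) F} (hcard : Fintype.card F = Nat.card F₀ ^ 2)
    (halt : ∀ u : Fin 4 → F, (∀ i, u i ∈ F₀) → hermForm 4 F q (P.1 *ᵥ u) (P.1 *ᵥ u) = 0) :
    IsMaximalIn 𝓖 (subfieldSubgroup F₀ P ⊓ 𝓖) := by
  have h1 := gram_mul_map hF P
  have h2 := gram_eq hF P
  have a1 := fun i => halt _ (single_mem hF i)
  rw [← emb_toA (Y := of _) (fun i => a1 i) (fun i j => by
    have := halt _ fun l => add_mem (single_mem hF i l) (single_mem hF j l)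
    change (hermC (Fin 4) hF).B (P.1 *ᵥ (Pi.single i 1 + Pi.single j 1))
      (P.1 *ᵥ (Pi.single i 1 + Pi.single j 1)) = 0 at this
    simp only [mulVec_add, map_add, LinearMap.add_apply, hermC_B_eq, a1] at this
    simp only [of_apply]
    linear_combination this)] at h2
  replace h2 := h2.trans (emb_act (P⁻¹).1ᵀ _).symm
  generalize act (P⁻¹).1ᵀ _ = m at h2
  have h3 := fun g => su_subfield_iff hF hcard P (g := g)
  rw [h2] at h1 h3
  have h4 : (o6Emb F m).det ≠ 0 := fun e => by simpa [e] using congrArg det h1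
  have h5 : qPlus 3 F m ≠ 0 := fun e => h4 (by simp [det_emb, e])
  have h6 : hd m = -qPlus 3 F m • (frob hF) ∘ m := o6Emb_injective (by
    rw [← mul_one (o6Emb F (hd m)), ← h1, ← mul_assoc, emb_hd_mul, map_smul, emb_map]; simp)
  have h7 := congrArg (qPlus 3 F) h6
  rw [q_hd, Q_smul, q_map] at h7
  obtain ⟨κ, hκ, e⟩ := hilbert90 (frob_ne_id hF) (frob_frob hF) (d := -frob hF (qPlus 3 F m)) (by
    rw [map_neg, frob_frob]
    exact mul_left_cancel₀ h5 (by linear_combination -h7))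
  refine (kl_SU hF).alt h4 hκ (v := ⟨κ • hd m, ?_⟩) rfl h3
  rw [mem_Wσ, map_smul, hd_hd, h6]
  ext i
  simp only [Pi.smul_apply, Function.comp_apply, smul_eq_mul, map_mul, map_neg, frob_frob, ← e]
  field_simp

end SU

end K4

end H12
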