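import Cfsg.Agent.H12.KL4
import Cfsg.Agent.H12.DecSL

/-!
# Decompositions of a four-dimensional space and the Klein correspondence
-/

set_option autoImplicit false
set_option maxHeartbeats 400000

namespace H12.K4

open Module H11 Matrix QuadraticMap Cfsg Cfsg.Geo

section

variable {F : Type*} [Field F]

local notation "𝔮" => qPlus 3 F
local notation "𝐞" i => (Pi.single i 1 : Fin 4 → F)

/-- The coordinate planes of the exterior square. -/
def pl (F : Type*) [Field F] (k : Fin 3) : Submodule F (A6 F) where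
  carrier := {a | ∀ j, j ≠ k → a (.inl j) = 0 ∧ a (.inr j) = 0}
  zero_mem' := fun _ _ => ⟨rfl, rfl⟩
  add_mem' ha hb j hj := by simp [ha j hj, hb j hj]
  smul_mem' c a ha j hj := by simp [ha j hj]

theorem mem_pl {k : Fin 3} {a : A6 F} :
    a ∈ pl F k ↔ ∀ j, j ≠ k → a (.inl j) = 0 ∧ a (.inr j) = 0 := Iff.rfl

theorem eq_of_pl {k : Fin 3} {a : A6 F} (h : a ∈ pl F k) :
    a = a (.inl k) • Pi.single (.inl k) 1 + a (.inr k) • Pi.single (.inr k) 1 := by
  ext (j | j) <;> by_cases e : j = k <;> simp [e, h j]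

theorem inl_mem_pl (k : Fin 3) : Pi.single (.inl k) 1 ∈ pl F k := fun j hj => by simp [hj]

theorem inr_mem_pl (k : Fin 3) : Pi.single (.inr k) 1 ∈ pl F k := fun j hj => by simp [hj]

theorem pl_eq (k : Fin 3) :
    pl F k = Submodule.span F {Pi.single (.inl k) 1, Pi.single (.inr k) 1} :=
  le_antisymm (fun _ h => Submodule.mem_span_pair.2 ⟨_, _, (eq_of_pl h).symm⟩)
    (Submodule.span_le.2 (by rintro _ (rfl | rfl); exacts [inl_mem_pl k, inr_mem_pl k]))

theorem finrank_pl (k : Fin 3) : finrank F (pl F k) = 2 := by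
  rw [pl_eq]
  refine finrank_span_pair_of_not_mem (by simp) fun e => ?_
  obtain ⟨c, hc⟩ := Submodule.mem_span_singleton.1 e
  simpa using congrFun hc (.inr k)

theorem polar_pl {k : Fin 3} {a : A6 F} (h : a ∈ pl F k) (b : A6 F) :
    polar 𝔮 a b = a (.inl k) * b (.inr k) + a (.inr k) * b (.inl k) := by
  rw [polar_q]
  fin_cases k <;> simp [h 0, h 1, h 2]

theorem q_pl {k : Fin 3} {a : A6 F} (h : a ∈ pl F k) : 𝔮 a = a (.inl k) * a (.inr k) := by
  rw [q_apply]
  fin_cases k <;> simp [h 0, h 1, h 2]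

theorem nondegOn_pl (k : Fin 3) : (CForm.ofQuad 𝔮).NondegOn (pl F k) := fun a ha e => by
  have h1 := e _ (inl_mem_pl k)
  have h2 := e _ (inr_mem_pl k)
  simp only [CForm.ofQuad_B, polar_pl ha] at h1 h2
  rw [eq_of_pl ha]
  simp_all

theorem sing_pl {k : Fin 3} {a : A6 F} (h : a ∈ pl F k) (h0 : a ≠ 0) (h1 : 𝔮 a = 0) :
    ∃ s : Fin 3 ⊕ Fin 3, (s = .inl k ∨ s = .inr k) ∧ ∃ c : F, c ≠ 0 ∧ a = c • Pi.single s 1 := by
  have e := eq_of_pl h
  rcases mul_eq_zero.1 (q_pl h ▸ h1) with h2 | h2 <;> rw [h2] at e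
  · exact ⟨_, Or.inr rfl, a (.inr k), fun e' => h0 (by rw [e, e']; simp), by simpa using e⟩
  · exact ⟨_, Or.inl rfl, a (.inl k), fun e' => h0 (by rw [e, e']; simp), by simpa using e⟩

/-- The pairs of indices belonging to the coordinates. -/
def bw : Fin 3 ⊕ Fin 3 → Fin 4 × Fin 4 :=
  Sum.elim ![(0, 1), (0, 2), (0, 3)] ![(2, 3), (3, 1), (1, 2)]

theorem wedge_bw (s : Fin 3 ⊕ Fin 3) :
    wedge (𝐞 (bw s).1) (𝐞 (bw s).2) = Pi.single s 1 := by
  rcases s with s | s <;> fin_cases s <;> ext (i | i) <;> fin_cases i <;> simp [bw, wedge_apply]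

/-- The coordinate planes. -/
def cp (F : Type*) [Field F] (s : Fin 3 ⊕ Fin 3) : Submodule F (Fin 4 → F) :=
  Submodule.span F {Pi.single (bw s).1 1, Pi.single (bw s).2 1}

theorem map_cp {g : GL (Fin 4) F} {s t : Fin 3 ⊕ Fin 3} {c : F} (hc : c ≠ 0)
    (h : act g.1 (Pi.single s 1) = c • Pi.single t 1) : (cp F s).map (toLin' g.1) = cp F t := by
  have e : ∀ s, col (Pi.single s 1 : A6 F) = cp F s := fun s => by
    rw [← wedge_bw, col_wedge (by rw [wedge_bw]; simp), cp]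
  rw [← e, ← col_act, h, col_smul hc, e]

theorem act_single_mem {g : Matrix (Fin 4) (Fin 4) F} {s t : Fin 3 ⊕ Fin 3}
    (h : (cp F s).map (toLin' g) ≤ cp F t) :
    act g (Pi.single s 1) ∈ Submodule.span F {(Pi.single t 1 : A6 F)} := by
  obtain ⟨a, b, e⟩ := Submodule.mem_span_pair.1
    (h ⟨𝐞 (bw s).1, Submodule.subset_span (by simp), rfl⟩)
  obtain ⟨c, d, e'⟩ := Submodule.mem_span_pair.1
    (h ⟨𝐞 (bw s).2, Submodule.subset_span (by simp), rfl⟩)
  rw [toLin'_apply] at e e'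
  refine Submodule.mem_span_singleton.2 ⟨a * d - b * c, ?_⟩
  rw [← wedge_bw s, act_wedge, ← e, ← e', ← wedge_bw t]
  simp only [map_add, map_smul, LinearMap.add_apply, LinearMap.smul_apply, wedge_self,
    wedge_comm (𝐞 (bw t).1) (𝐞 (bw t).2)]
  module

theorem exists_cp {g : GL (Fin 4) F} {k j : Fin 3} (h : ∀ a ∈ pl F k, act g.1 a ∈ pl F j)
    {s : Fin 3 ⊕ Fin 3} (hs : s = .inl k ∨ s = .inr k) :
    ∃ t, (t = .inl j ∨ t = .inr j) ∧ (cp F s).map (toLin' g.1) = cp F t := by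
  obtain ⟨t, ht, c, hc, e⟩ := sing_pl (h (Pi.single s 1) (by
    rcases hs with rfl | rfl; exacts [inl_mem_pl k, inr_mem_pl k]))
    (fun e => by simpa using act_inj g.det_ne_zero (e.trans (map_zero _).symm))
    (by rw [q_act, ← wedge_bw, q_wedge, mul_zero])
  exact ⟨t, ht, map_cp hc e⟩

theorem act_diagonal (d : Fin 4 → F) (a : A6 F) (s : Fin 3 ⊕ Fin 3) :
    act (diagonal d) a s = d (bw s).1 * d (bw s).2 * a s := by
  change toA _ s = _
  rcases s with s | s <;> fin_cases s <;> simp [toA_apply, bw, o6Emb_apply, altM] <;> ring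

theorem exists_GL {b : Fin 4 → Fin 4 → F} (h : ⊤ ≤ Submodule.span F (Set.range b)) :
    ∃ P : GL (Fin 4) F, ∀ i, P.1 *ᵥ (𝐞 i) = b i := by
  let B := basisOfTopLeSpanOfCardEqFinrank b h (by simp)
  refine ⟨(glEquiv (Fin 4) F).symm ((Pi.basisFun F (Fin 4)).equiv B (Equiv.refl _)), fun i => ?_⟩
  rw [glEquiv_symm_mulVec, ← Pi.basisFun_apply, Basis.equiv_apply]
  simp [B]

theorem dec_conj {t : ℕ} (E : Fin t → Submodule F (Fin 4 → F)) (P : GL (Fin 4) F) :
    (decompositionStabilizer fun i => (E i).map (toLin' P.1)).comap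
      (MulAut.conj P : GL (Fin 4) F →* GL (Fin 4) F) = decompositionStabilizer E := by
  ext g
  refine exists_congr fun σ => forall_congr' fun i => ?_
  change ((E i).map (toLin' P.1)).map (toLin' (P * g * P⁻¹).1) = _ ↔ _
  rw [← Submodule.map_comp, ← toLin'_mul, ← Units.val_mul, inv_mul_cancel_right, Units.val_mul,
    toLin'_mul, Submodule.map_comp]
  exact (Submodule.map_injective_of_injective (glEquiv (Fin 4) F P).injective).eq_iff

theorem mem_dec_of_exists {t : ℕ} {E : Fin t → Submodule F (Fin 4 → F)}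
    (hE : Function.Injective E) {g : GL (Fin 4) F}
    (h : ∀ i, ∃ j, (E i).map (toLin' g.1) = E j) : g ∈ decompositionStabilizer E := by
  rw [decompositionStabilizer_eq]
  exact mem_decStab_of_exists hE h

theorem exists_planes {D : Fin 2 → Submodule F (Fin 4 → F)} (hD : IsMDecomposition 2 D) :
    ∃ P : GL (Fin 4) F, D = fun i => (![cp F (.inl 0), cp F (.inr 0)] i).map (toLin' P.1) := by
  have k : ∀ i, ∃ u v, D i = Submodule.span F {u, v} := fun i => by
    obtain ⟨u, hu, hu0⟩ := Submodule.exists_mem_ne_zero_of_ne_bot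
      (ne_bot_of_finrank_pos (W := D i) (by rw [hD.finrank_eq]; omega))
    obtain ⟨v, hv, hv'⟩ := exists_mem_not_mem (W := D i)
      ((finrank_span_one_le u).trans_lt (by rw [hD.finrank_eq]; omega))
    exact ⟨u, v, (Submodule.eq_of_le_of_finrank_eq (Submodule.span_le.2 (by
      rintro _ (rfl | rfl) <;> assumption))
      (by rw [finrank_span_pair_of_not_mem hu0 hv', hD.finrank_eq])).symm⟩
  choose u v h using k
  obtain ⟨P, hP⟩ := exists_GL (b := ![u 0, v 0, u 1, v 1]) (by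
    rw [← hD.iSup_eq_top]
    refine iSup_le fun i => h i ▸ Submodule.span_mono ?_
    fin_cases i <;> rintro _ (rfl | rfl) <;> simp)
  refine ⟨P, funext fun i => ?_⟩
  fin_cases i <;> simp [h, cp, Submodule.map_span, Set.image_pair, ← mulVec_single_one, hP, bw]

theorem exists_lines {D : Fin 4 → Submodule F (Fin 4 → F)} (hD : IsMDecomposition 1 D)
    {b : Fin 4 → Fin 4 → F} (hb : ∀ i, b i ∈ D i) (hb0 : ∀ i, b i ≠ 0) :
    ∃ P : GL (Fin 4) F, (∀ i, P.1 *ᵥ (𝐞 i) = b i) ∧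
      D = fun i => (Submodule.span F {𝐞 i}).map (toLin' P.1) := by
  have h : ∀ i, D i = Submodule.span F {b i} := fun i => (Submodule.eq_of_le_of_finrank_eq
    ((Submodule.span_singleton_le_iff_mem _ _).2 (hb i))
    (by rw [hD.finrank_eq, finrank_span_singleton (hb0 i)])).symm
  obtain ⟨P, hP⟩ := exists_GL (b := b) (by
    rw [← hD.iSup_eq_top]
    exact iSup_le fun i => h i ▸ Submodule.span_mono (by simp))
  exact ⟨P, hP, funext fun i => by simp [h, Submodule.map_span, ← mulVec_single_one, hP]⟩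

theorem cp_injective : Function.Injective (cp F) := fun s t e => by
  have := act_single_mem (F := F) (g := 1) (s := s) (t := t) (by rw [toLin'_one, Submodule.map_id, e])
  rw [act_one] at this
  obtain ⟨c, hc⟩ := Submodule.mem_span_singleton.1 this
  by_contra h
  simpa [h] using congrFun hc s

theorem two_iff {g : GL (Fin 4) F} :
    g ∈ decompositionStabilizer ![cp F (.inl 0), cp F (.inr 0)] ↔
      ∀ a ∈ pl F 0, act g.1 a ∈ pl F 0 := by
  refine ⟨fun ⟨σ, h⟩ => ?_, fun h => mem_dec_of_exists (fun i j e => ?_) fun i => ?_⟩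
  · have k : ∀ i s, ![cp F (.inl 0), cp F (.inr 0)] i = cp F s →
        act g.1 (Pi.single s 1) ∈ pl F 0 := fun i s e => by
      have := h i
      rw [e] at this
      generalize σ i = j at this
      fin_cases j
      · exact (Submodule.span_singleton_le_iff_mem _ _).2 (inl_mem_pl 0) (act_single_mem this.le)
      · exact (Submodule.span_singleton_le_iff_mem _ _).2 (inr_mem_pl 0) (act_single_mem this.le)
    intro a ha
    rw [eq_of_pl ha, map_add, map_smul, map_smul]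
    exact add_mem (Submodule.smul_mem _ _ (k 0 _ rfl)) (Submodule.smul_mem _ _ (k 1 _ rfl))
  · fin_cases i <;> fin_cases j <;> simp_all [cp_injective.eq_iff]
  · fin_cases i
    · obtain ⟨t, rfl | rfl, e⟩ := exists_cp h (Or.inl rfl)
      exacts [⟨0, e⟩, ⟨1, e⟩]
    · obtain ⟨t, rfl | rfl, e⟩ := exists_cp h (Or.inr rfl)
      exacts [⟨0, e⟩, ⟨1, e⟩]

theorem mem_cp {s : Fin 3 ⊕ Fin 3} {x : Fin 4 → F} (h : x ∈ cp F s) {l : Fin 4}
    (h1 : l ≠ (bw s).1) (h2 : l ≠ (bw s).2) : x l = 0 := by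
  obtain ⟨a, b, rfl⟩ := Submodule.mem_span_pair.1 h
  simp [h1, h2]

theorem four_iff {g : GL (Fin 4) F} :
    g ∈ decompositionStabilizer (fun i : Fin 4 => Submodule.span F {𝐞 i}) ↔
      ∀ k, ∃ j, ∀ a ∈ pl F k, act g.1 a ∈ pl F j := by
  refine ⟨fun ⟨σ, h⟩ k => ?_, fun h => mem_dec_of_exists (fun i j e => ?_) fun i => ?_⟩
  · have a1 : ∀ s t, ((σ (bw s).1, σ (bw s).2) = bw t ∨ (σ (bw s).2, σ (bw s).1) = bw t) →
        act g.1 (Pi.single s 1) ∈ Submodule.span F {(Pi.single t 1 : A6 F)} := fun s t e => by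
      refine act_single_mem ?_
      rw [cp, Submodule.span_insert, Submodule.map_sup, h, h, ← Submodule.span_insert, cp]
      rcases e with e | e <;> rw [← e]
      exact Submodule.span_mono (by simp [Set.pair_comm])
    obtain ⟨j, s, t, hs, ht, b1, b2⟩ : ∃ j s t, (s = .inl j ∨ s = .inr j) ∧ (t = .inl j ∨ t = .inr j) ∧
        ((σ (bw (.inl k)).1, σ (bw (.inl k)).2) = bw s ∨
          (σ (bw (.inl k)).2, σ (bw (.inl k)).1) = bw s) ∧
        ((σ (bw (.inr k)).1, σ (bw (.inr k)).2) = bw t ∨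
          (σ (bw (.inr k)).2, σ (bw (.inr k)).1) = bw t) := by
      clear a1 h
      revert σ k
      decide
    have m : ∀ s, (s = .inl j ∨ s = .inr j) → Submodule.span F {(Pi.single s 1 : A6 F)} ≤ pl F j := by
      rintro _ (rfl | rfl) <;> rw [Submodule.span_singleton_le_iff_mem]
      exacts [inl_mem_pl j, inr_mem_pl j]
    refine ⟨j, fun a ha => ?_⟩
    rw [eq_of_pl ha, map_add, map_smul, map_smul]
    exact add_mem (Submodule.smul_mem _ _ (m s hs (a1 _ _ b1)))
      (Submodule.smul_mem _ _ (m t ht (a1 _ _ b2)))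
  · obtain ⟨c, hc⟩ := Submodule.mem_span_singleton.1
      (e.le (Submodule.mem_span_singleton_self _))
    by_contra h
    simpa [h] using congrFun hc i
  · have a1 : ∀ s, ∃ t, (cp F s).map (toLin' g.1) = cp F t := by
      rintro (k | k) <;> obtain ⟨j, e⟩ := h k
      · exact (exists_cp e (Or.inl rfl)).imp fun _ => And.right
      · exact (exists_cp e (Or.inr rfl)).imp fun _ => And.right
    choose τ hτ using a1
    obtain ⟨s, s', a2, a3, a4⟩ : ∃ s s', s ≠ s' ∧ (i = (bw s).1 ∨ i = (bw s).2) ∧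
        (i = (bw s').1 ∨ i = (bw s').2) := by
      clear hτ τ h
      revert i
      decide
    have a5 : τ s ≠ τ s' := fun e => a2 (cp_injective (Submodule.map_injective_of_injective
      (f := toLin' g.1) (glEquiv (Fin 4) F g).injective (by rw [hτ, hτ, e])))
    have a6 : ∀ s, (i = (bw s).1 ∨ i = (bw s).2) → g.1 *ᵥ (𝐞 i) ∈ cp F (τ s) := fun s e =>
      (hτ s).le ⟨_, Submodule.subset_span (by rcases e with rfl | rfl <;> simp), rfl⟩
    obtain ⟨j, hj⟩ := (by decide : ∀ t t', t ≠ t' → ∃ j, ∀ l, l ≠ j →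
      (l ≠ (bw t).1 ∧ l ≠ (bw t).2) ∨ (l ≠ (bw t').1 ∧ l ≠ (bw t').2)) _ _ a5
    refine ⟨j, Submodule.eq_of_le_of_finrank_eq ?_ ?_⟩
    · rw [Submodule.map_span, Set.image_singleton, Submodule.span_singleton_le_iff_mem,
        Submodule.mem_span_singleton]
      refine ⟨(g.1 *ᵥ (𝐞 i)) j, funext fun l => ?_⟩
      by_cases e : l = j
      · simp [e]
      · rcases hj l e with b | b
        · simpa [e, eq_comm] using mem_cp (a6 s a3) b.1 b.2
        · simpa [e, eq_comm] using mem_cp (a6 s' a4) b.1 b.2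
    · rw [toLin'_eq, LinearEquiv.finrank_map_eq, finrank_span_singleton (by simp),
        finrank_span_singleton (by simp)]

end

variable {K F : Type*} [Field K] [Field F] [Algebra K F] {W : Type*} [AddCommGroup W] [Module K W]
  {ι : W →ₗ[K] A6 F} {Q : QuadraticForm K W} {G : Subgroup (GL (Fin 4) F)} {δ : F}

local notation "𝓒" => CForm.ofQuad Q

theorem KL.ratS_pl (h : KL ι Q G δ) {t : GL (Fin 4) F} (ht : t ∈ G) {d : Fin 4 → F}
    (e : t.1 = diagonal d) {k : Fin 3} (h1 : ∀ j, j ≠ k → d (bw (.inl j)).1 * d (bw (.inl j)).2 = 1 ∧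
      d (bw (.inr j)).1 * d (bw (.inr j)).2 = 1)
    (h2 : d (bw (.inl k)).1 * d (bw (.inl k)).2 ≠ 1) (h3 : d (bw (.inr k)).1 * d (bw (.inr k)).2 ≠ 1) :
    RatS ι (pl F k) := by
  obtain ⟨τ, -, c⟩ := h.map t ht
  have := h.rat.ratS_range (T := act t.1 - LinearMap.id) fun x => ⟨τ x - x, by simp [c x]⟩
  convert this using 1
  refine le_antisymm (fun a ha => ⟨fun s => (d (bw s).1 * d (bw s).2 - 1)⁻¹ * a s, ?_⟩) ?_
  · rintro _ ⟨a, rfl⟩ j hj
    simp [e, act_diagonal, h1 j hj]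
  · ext (j | j) <;> by_cases e' : j = k
    · simp only [LinearMap.sub_apply, Pi.sub_apply, e, act_diagonal, e', LinearMap.id_apply]
      field_simp [sub_ne_zero.2 h2]
    · simp [e, act_diagonal, ha j e']
    · simp only [LinearMap.sub_apply, Pi.sub_apply, e, act_diagonal, e', LinearMap.id_apply]
      field_simp [sub_ne_zero.2 h3]
    · simp [e, act_diagonal, ha j e']

theorem KL.two [Fintype K] (h : KL ι Q G δ) (hq : 4 ≤ Fintype.card K) {t : GL (Fin 4) F}
    (ht : t ∈ G) {a : F} (h0 : a ≠ 0) (h1 : a * a ≠ 1) (e : t.1 = diagonal ![a, a, a⁻¹, a⁻¹]) :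
    IsMaximalIn G (decompositionStabilizer ![cp F (.inl 0), cp F (.inr 0)] ⊓ G) := by
  have := h.fin
  have hS := h.ratS_pl ht e (k := 0) (fun j hj => by
    fin_cases j
    · exact absurd rfl hj
    all_goals simp [bw, h0]) (by simpa [bw])
    (fun e => h1 (inv_eq_one.1 ((mul_inv a a).trans e)))
  have h2 := (hS.finrank_eq h.rat).trans (finrank_pl 0)
  have h3 := h.nondegOn hS (nondegOn_pl 0)
  have h4 := h.nd.finrank_add_finrank_perp (ratPts F ι (pl F 0))
  have h5 := h.dim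
  refine h.isMaximalIn (fun g hg k c => ?_) (Big.isMaximalIn h.nd (by omega)
    (ne_bot_of_finrank_pos (by omega)) ⟨h.nd.nondegOn_perp h3, Or.inl (by omega),
      fun _ => by omega⟩ (by omega) (irr_quad h.nd h3 (by omega)) (Or.inl (by omega)))
  rw [two_iff, ← h.map_iff c hS]
  exact ⟨mem_glStab_of_mapsTo, fun e x hx => (mem_glStab.1 e x).1 hx⟩

theorem KL.two' [Fintype K] (h : KL ι Q G δ) (hq : 4 ≤ Fintype.card K)
    {D : Fin 2 → Submodule F (Fin 4 → F)} (hD : IsMDecomposition 2 D) {a : F} (h0 : a ≠ 0)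
    (h1 : a * a ≠ 1) (H : ∀ t : GL (Fin 4) F, t.1.det = 1 → (∀ x ∈ D 0, t.1 *ᵥ x = a • x) →
      (∀ x ∈ D 1, t.1 *ᵥ x = a⁻¹ • x) → t ∈ G) :
    IsMaximalIn G (decompositionStabilizer D ⊓ G) := by
  obtain ⟨P, rfl⟩ := exists_planes hD
  have hd : (diagonal ![a, a, a⁻¹, a⁻¹]).det = 1 := by simp [Fin.prod_univ_four, h0]
  let t := GeneralLinearGroup.mkOfDetNeZero _ (hd.trans_ne one_ne_zero)
  refine isMaximalIn_of_conj P ?_
  rw [dec_conj]
  have k : ∀ s (c : F), (∀ x ∈ cp F s, t.1 *ᵥ x = c • x) →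
      ∀ x ∈ (cp F s).map (toLin' P.1), (P * t * P⁻¹).1 *ᵥ x = c • x := by
    rintro s c e _ ⟨x, hx, rfl⟩
    rw [toLin'_apply, mulVec_mulVec, ← Units.val_mul, inv_mul_cancel_right, Units.val_mul,
      ← mulVec_mulVec, e x hx, mulVec_smul]
  refine (h.twist P).two hq (t := t) (H _ ?_ (k _ _ fun x hx => ?_) (k _ _ fun x hx => ?_)) h0 h1 rfl
  · change (P.1 * t.1 * (P⁻¹).1).det = 1
    rwa [det_mul, det_mul, mul_right_comm, ← det_mul, Units.mul_inv, det_one, one_mul]
  all_goals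
    obtain ⟨r, s, rfl⟩ := Submodule.mem_span_pair.1 hx
    ext l
    fin_cases l <;> simp [t, bw, mulVec_diagonal]

theorem sl4_two {F : Type*} [Field F] [Fintype F] (hq : 4 ≤ Fintype.card F)
    (D : Fin 2 → Submodule F (Fin 4 → F)) (hD : IsMDecomposition 2 D) :
    IsMaximalIn (specialLinear (Fin 4) F) (decompositionStabilizer D ⊓ specialLinear (Fin 4) F) := by
  obtain ⟨a, h0, h1⟩ := exists_mul_self_ne_one (F := F) (by omega)
  exact (kl_SL F).two' hq hD h0 h1 fun t ht _ _ => mem_SL.2 ht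

theorem su4_lag {F : Type*} [Field F] [Fintype F] {q : ℕ} (hF : Fintype.card F = q ^ 2)
    (hq : 4 ≤ q) (D : Fin 2 → Submodule F (Fin 4 → F)) (hD : IsMDecomposition 2 D)
    (hts : ∀ i, IsTotallySingularFor (hermForm 4 F q) (D i)) :
    IsMaximalIn (GU 4 F q ⊓ specialLinear (Fin 4) F)
      (decompositionStabilizer D ⊓ (GU 4 F q ⊓ specialLinear (Fin 4) F)) := by
  have hq' := (card_fixF hF).symm ▸ hq
  obtain ⟨⟨a, ha⟩, h0, h1⟩ := exists_mul_self_ne_one (F := fixF (frob hF)) (by omega)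
  have h2 : a ≠ 0 := fun e => h0 (Subtype.ext e)
  refine (kl_SU hF).two' hq' hD h2 (fun e => h1 (Subtype.ext e)) fun t ht e0 e1 =>
    ⟨?_, mem_SL.2 ht⟩
  rw [GU_eq hF]
  refine (CForm.mem_isom_ofHerm _ _ _).2 fun x y => ?_
  have k : ∀ x, ∃ u ∈ D 0, ∃ v ∈ D 1, u + v = x := fun x => Submodule.mem_sup.1 (by
    have := hD.iSup_eq_top.ge (Submodule.mem_top (x := x))
    rwa [show iSup D = D 0 ⊔ D 1 from le_antisymm (iSup_le fun i => by fin_cases i <;> simp)
      (sup_le (le_iSup D 0) (le_iSup D 1))] at this)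
  obtain ⟨u, hu, v, hv, rfl⟩ := k x
  obtain ⟨u', hu', v', hv', rfl⟩ := k y
  change (hermC (Fin 4) hF).B (t.1 *ᵥ _) (t.1 *ᵥ _) = (hermC (Fin 4) hF).B _ _
  simp only [mulVec_add, e0 _ hu, e0 _ hu', e1 _ hv, e1 _ hv', map_add, LinearMap.add_apply,
    CForm.B_smul_left, CForm.B_smul_right, hermC_B_eq hF 4 u u', hermC_B_eq hF 4 v v',
    hts 0 _ hu' _ hu, hts 1 _ hv' _ hv, map_inv₀, show (hermT hF).σ a = a from ha]
  field_simp
  ring

end H12.K4
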