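import Cfsg.Agent.H12.P3c

/-!
# Three orthogonal planes: hyperbolic planes and maximality
-/

set_option autoImplicit false
set_option maxHeartbeats 400000

namespace H12

open Module H11 QuadraticMap

variable {F : Type*} [Field F] [Fintype F] {V : Type*} [AddCommGroup V] [Module F V]
  {Q : QuadraticForm F V} [FiniteDimensional F V] {X : Subgroup (V ≃ₗ[F] V)}
  {κ : Type*} [Fintype κ] {D : κ → Submodule F V} {π : κ → V →ₗ[F] V}

local notation "𝓒" => CForm.ofQuad Q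

theorem exists_pow_four_ne (hq : 7 ≤ Fintype.card F) : ∃ μ : F, μ ≠ 0 ∧ μ * μ * (μ * μ) ≠ 1 := by
  classical
  have c1 := card_qrts (a := (1 : F)) (b := 0) (c := -1) fun e => one_ne_zero e.1
  have c2 := card_qrts (a := (1 : F)) (b := 0) (c := 1) fun e => one_ne_zero e.1
  have c3 := Finset.card_union_le (qrts (1 : F) 0 (-1)) (qrts (1 : F) 0 1)
  obtain ⟨μ, hμ⟩ := exists_notMem_card ((Finset.card_insert_le (0 : F)
    (qrts (1 : F) 0 (-1) ∪ qrts (1 : F) 0 1)).trans_lt (by omega))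
  simp only [Finset.mem_insert, Finset.mem_union, mem_qrts, not_or] at hμ
  refine ⟨μ, hμ.1, fun e => mul_ne_zero hμ.2.1 hμ.2.2 ?_⟩
  linear_combination e

namespace P3

variable (h : P3 Q X D π)
include h

theorem mem_dec {k : V ≃ₗ[F] V} (hk : ∀ l, ∃ j, ∀ v ∈ D l, k v ∈ D j) : k ∈ decStab D :=
  mem_decStab_of_exists h.dec.injective fun l =>
    let ⟨j, hj⟩ := hk l
    ⟨j, Submodule.eq_of_le_of_finrank_eq (Submodule.map_le_iff_le_comap.2 hj)
      (by rw [finrank_map_equiv, (h.pl l).two, (h.pl j).two])⟩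

theorem hyp_add {i : κ} {e f x : V} (he : e ∈ D i) (hf : f ∈ D i) (h1 : Q e = 0)
    (h2 : polar Q e f = 1) (hx : x ∈ D i) : ∃ a b : F, x = a • e + b • f :=
  (h.pl i).eq_add he hf (fun e' => by rw [e'] at h2; simp at h2) (fun e' => by
    obtain ⟨c, rfl⟩ := Submodule.mem_span_singleton.1 e'
    rw [polar_smul_right, polar_self', h1] at h2
    simp at h2) hx

theorem exists_sw {i j : κ} (hij : i ≠ j) {e f e' f' : V} (he : e ∈ D i) (hf : f ∈ D i)
    (he' : e' ∈ D j) (hf' : f' ∈ D j) (a1 : Q e = 0) (a2 : Q f = 0) (a3 : polar Q e f = 1)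
    (b1 : Q e' = 0) (b2 : Q f' = 0) (b3 : polar Q e' f' = 1) :
    ∃ s : H12.orth Q, s.1 ∈ decStab D ∧ s⁻¹ = s ∧
      ∀ x, s.1 x = x - polar Q (f - f') x • (e - e') - polar Q (e - e') x • (f - f') := by
  obtain ⟨s, h1, h2⟩ := exists_swp (Q := Q) (p := e - e') (r := f - f')
    (by rw [Q_sub, a1, b1, h.o hij he he']; simp) (by rw [Q_sub, a2, b2, h.o hij hf hf']; simp)
    (by simp only [polar_sub_left, polar_sub_right, a3, b3, h.o hij he hf', h.o hij.symm he' hf]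
        ring)
  refine ⟨s, h.mem_dec fun l => ?_, h1, h2⟩
  by_cases c1 : l = i
  · refine ⟨j, fun v hv => ?_⟩
    obtain ⟨a, b, rfl⟩ := h.hyp_add he hf a1 a3 (c1 ▸ hv)
    convert add_mem ((D j).smul_mem a he') ((D j).smul_mem b hf') using 1
    simp only [h2, polar_sub_left, polar_add_right, polar_smul_right, polar_self', a1, a2, a3,
      polar_comm Q f e, h.o hij.symm he' he, h.o hij.symm he' hf, h.o hij.symm hf' he,
      h.o hij.symm hf' hf, smul_eq_mul]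
    module
  by_cases c2 : l = j
  · refine ⟨i, fun v hv => ?_⟩
    obtain ⟨a, b, rfl⟩ := h.hyp_add he' hf' b1 b3 (c2 ▸ hv)
    convert add_mem ((D i).smul_mem a he) ((D i).smul_mem b hf) using 1
    simp only [h2, polar_sub_left, polar_add_right, polar_smul_right, polar_self', b1, b2, b3,
      polar_comm Q f' e', h.o hij he he', h.o hij he hf', h.o hij hf he', h.o hij hf hf',
      smul_eq_mul]
    module
  refine ⟨l, fun v hv => ?_⟩
  rwa [h2, polar_sub_left, polar_sub_left, h.o (Ne.symm c1) he hv, h.o (Ne.symm c1) hf hv,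
    h.o (Ne.symm c2) he' hv, h.o (Ne.symm c2) hf' hv, sub_self, zero_smul, zero_smul, sub_zero,
    sub_zero]

theorem Q_sum3 {i j k : κ} (n1 : i ≠ j) (n2 : i ≠ k) (n3 : j ≠ k) (y : V) :
    Q y = Q (π i y) + Q (π j y) + Q (π k y) := by
  have m := fun l => h.proj.mem l y
  conv_lhs => rw [h.sum3 n1 n2 n3 y]
  rw [Q_add, Q_add, polar_add_left, h.o n1 (m _) (m _), h.o n2 (m _) (m _), h.o n3 (m _) (m _)]
  ring

theorem torus' {j : κ} {e f : V} (he : e ∈ D j) (hf : f ∈ D j) (a1 : Q e = 0) (a2 : Q f = 0)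
    (a3 : polar Q e f = 1) {μ : F} (h0 : μ ≠ 0) : ∃ τ ∈ decStab D, τ ∈ X ∧
      ∀ x, τ x = x + ((μ * μ - 1) * polar Q f x) • e + (((μ * μ)⁻¹ - 1) * polar Q e x) • f := by
  have m1 := add_mem he ((D j).smul_mem 1 hf)
  have m2 := add_mem he ((D j).smul_mem (μ * μ) hf)
  have q1 := Q_hyp' a1 a2 a3 1
  have q2 := Q_hyp' a1 a2 a3 (μ * μ)
  refine ⟨_, mul_mem (h.refl_mem m1) (h.refl_mem m2), (h.rr m1 m2 (q1.trans_ne one_ne_zero)
    (q2.trans_ne (mul_ne_zero h0 h0)) ⟨μ, by rw [q1, q2, one_mul]⟩).2.2, fun x => ?_⟩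
  have := refl_hyp_mul a1 a2 a3 one_ne_zero (mul_ne_zero h0 h0) x
  rwa [div_one, one_div] at this

variable (hq : 7 ≤ Fintype.card F)
include hq

theorem torus {j : κ} {e f : V} (he : e ∈ D j) (hf : f ∈ D j) (a1 : Q e = 0) (a2 : Q f = 0)
    (a3 : polar Q e f = 1) : ∃ τ ∈ decStab D, τ ∈ X ∧ ∃ c : F, c ≠ 0 ∧ c ≠ 1 ∧
      ∀ x, τ x = x + ((c - 1) * polar Q f x) • e + ((c⁻¹ - 1) * polar Q e x) • f := by
  obtain ⟨μ, h0, h1⟩ := exists_mul_self_ne_one (F := F) (by omega)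
  obtain ⟨τ, t1, t2, t3⟩ := h.torus' he hf a1 a2 a3 h0
  exact ⟨τ, t1, t2, μ * μ, mul_ne_zero h0 h0, h1, t3⟩

theorem sing_case {y : V} (hy : Nw Q X D y) {i m : κ} (hmi : m ≠ i) (hi : π i y ≠ 0)
    (hm : π m y ≠ 0) (h0 : Q (π i y) = 0) : OmegaV Q ≤ X := by
  have he := h.proj.mem i y
  obtain ⟨f, hf, h1⟩ := exists_hypPair_sub h.nd (h.pl i).nd he hi h0
  have h2 : polar Q (π i y) f = 1 := h1.pair
  obtain ⟨τ, t1, t2, c, -, c1, e⟩ := h.torus hq he hf h0 h1.right h2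
  have h3 : polar Q (π i y) y = 0 := by rw [← h.bp he, polar_self', h0, mul_zero]
  have h4 := h.map_rr hy t1 t2
  rw [e, h3, ← h.bp hf, polar_comm, h2, mul_zero, zero_smul, add_zero, mul_one] at h4
  exact h.fin hmi ((D i).smul_mem _ ((D i).smul_mem _ he))
    (smul_ne_zero (inv_ne_zero hy.1) (smul_ne_zero (sub_ne_zero.2 c1) hi))
    (h4.ei (by rw [Q_smul, h0, mul_zero]) (by rw [polar_smul_left, h3, smul_zero])) hm

variable (hh : ∀ i, ∃ e ∈ D i, e ≠ 0 ∧ Q e = 0)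
include hh

omit hq in
theorem norm_pair (y : V) {l : κ} (hx : Q (π l y) ≠ 0) : ∃ e ∈ D l, ∃ f ∈ D l, Q e = 0 ∧ Q f = 0 ∧
    polar Q e f = 1 ∧ π l y = Q (π l y) • e + f ∧ polar Q e y = 1 ∧ polar Q f y = Q (π l y) := by
  obtain ⟨e, he, e0, e1⟩ := hh l
  obtain ⟨f, hf, h1⟩ := exists_hypPair_sub h.nd (h.pl l).nd he e0 e1
  have h2 : polar Q e f = 1 := h1.pair
  have h3 : Q f = 0 := h1.right
  obtain ⟨a, b, h4⟩ := h.hyp_add he hf e1 h2 (h.proj.mem l y)
  have h5 := Q_hyp e1 h3 h2 a b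
  rw [← h4] at h5
  have hb : b ≠ 0 := fun e => hx (by rw [h5, e, mul_zero])
  refine ⟨b⁻¹ • e, (D l).smul_mem _ he, b • f, (D l).smul_mem _ hf, by rw [Q_smul, e1, mul_zero],
    by rw [Q_smul, h3, mul_zero], ?_, ?_, ?_, ?_⟩
  · rw [polar_smul_left, polar_smul_right, h2]; simp [hb]
  · rw [h5, smul_smul, mul_inv_cancel_right₀ hb, h4]
  · rw [polar_smul_left, ← h.bp he, h4, polar_add_right, polar_smul_right, polar_smul_right, h2,
      polar_self', e1]
    simp [hb]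
  · rw [polar_smul_left, ← h.bp hf, h5, h4, polar_add_right, polar_smul_right, polar_smul_right,
      polar_comm, h2, polar_self', h3]
    simp [mul_comm]

theorem uneq {y : V} (hy : Nw Q X D y) {i j k : κ} (n1 : i ≠ j) (n2 : i ≠ k)
    (n4 : j ≠ k) (hi : π i y ≠ 0) (hj : π j y ≠ 0) (hk : π k y ≠ 0)
    (hne : Q (π i y) ≠ Q (π j y)) : OmegaV Q ≤ X := by
  by_cases s1 : Q (π i y) = 0
  · exact h.sing_case hq hy n1.symm hi hj s1
  by_cases s2 : Q (π j y) = 0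
  · exact h.sing_case hq hy n1 hj hi s2
  by_cases s3 : Q (π k y) = 0
  · exact h.sing_case hq hy n2 hk hi s3
  obtain ⟨e₁, he₁, f₁, hf₁, a1, a2, a3, a4, a5, a6⟩ := h.norm_pair hh y s1
  obtain ⟨e₂, he₂, f₂, hf₂, b1, b2, b3, b4, b5, b6⟩ := h.norm_pair hh y s2
  obtain ⟨e₃, he₃, f₃, hf₃, c1, c2, c3, c4, c5, c6⟩ := h.norm_pair hh y s3
  have sy := h.sum3 n1 n2 n4 y
  rw [a4, b4, c4] at sy
  have hN := h.Q_sum3 n1 n2 n4 y
  obtain ⟨s, hs, s4, s5⟩ := h.exists_sw n1 he₁ hf₁ he₂ hf₂ a1 a2 a3 b1 b2 b3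
  obtain ⟨t, ht, t4, t5⟩ := h.exists_sw n4 he₂ hf₂ he₃ hf₃ b1 b2 b3 c1 c2 c3
  have h1 : (s * t * s * t).1 ∈ decStab D := mul_mem (mul_mem (mul_mem hs ht) hs) ht
  have h2 := h.map_rr hy h1 (h.ge ⟨h1, mem_OmegaV.2 (by
    have := Subgroup.commutator_mem_commutator (Subgroup.mem_top s) (Subgroup.mem_top t)
    rwa [commutatorElement_def, s4, t4] at this)⟩)
  generalize Q (π i y) = α at *
  generalize Q (π j y) = β at *
  generalize Q (π k y) = γ at *
  have o12 := h.o n1 he₁ he₂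
  have o13 := h.o n2 he₁ he₃
  have o23 := h.o n4 he₂ he₃
  have kk : ∀ a b c : F, s.1 (y + (a • e₁ + b • e₂ + c • e₃)) =
      y + ((β - α + b) • e₁ + (α - β + a) • e₂ + c • e₃) ∧
      t.1 (y + (a • e₁ + b • e₂ + c • e₃)) =
      y + (a • e₁ + (γ - β + c) • e₂ + (β - γ + b) • e₃) := fun a b c => by
    constructor
    · simp only [s5, polar_sub_left, polar_add_right, polar_smul_right, a5, a6, b5, b6, polar_self',
        a1, b1, o12, o13, o23, polar_comm Q e₂ e₁, polar_comm Q f₁ e₁, polar_comm Q f₂ e₂, a3, b3,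
        h.o n1 hf₁ he₂, h.o n2 hf₁ he₃, h.o n1.symm hf₂ he₁, h.o n4 hf₂ he₃, smul_eq_mul]
      module
    · simp only [t5, polar_sub_left, polar_add_right, polar_smul_right, c5, c6, b5, b6, polar_self',
        c1, b1, o12, o13, o23, polar_comm Q e₂ e₁, polar_comm Q e₃ e₁, polar_comm Q e₃ e₂,
        polar_comm Q f₃ e₃, polar_comm Q f₂ e₂, c3, b3, h.o n1.symm hf₂ he₁, h.o n4 hf₂ he₃,
        h.o n2.symm hf₃ he₁, h.o n4.symm hf₃ he₂, smul_eq_mul]
      module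
  have h3 : (s * t * s * t).1 y = y + ((β - α) • e₁ + (γ - β) • e₂ + (α - γ) • e₃) := by
    have e0 : y = y + ((0 : F) • e₁ + (0 : F) • e₂ + (0 : F) • e₃) := by simp
    rw [orth_mul_apply, orth_mul_apply, orth_mul_apply]
    conv_lhs => rw [e0, (kk _ _ _).2, (kk _ _ _).1, (kk _ _ _).2, (kk _ _ _).1]
    module
  rw [h3] at h2
  have z1 : ∀ a b c : F, Q (a • e₁ + b • e₂ + c • e₃) = 0 := fun a b c => by
    simp only [Q_add, Q_smul, polar_add_left, polar_smul_left, polar_smul_right, a1, b1, c1, o12,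
      o13, o23, smul_eq_mul]
    ring
  have z2 : ∀ a b c : F, polar Q (a • e₁ + b • e₂ + c • e₃) y = a + b + c := fun a b c => by
    simp only [polar_add_left, polar_smul_left, a5, b5, c5, smul_eq_mul]
    ring
  have h4 := h2.ei (z1 _ _ _) (by rw [z2]; ring)
  obtain ⟨μ, μ0, μ1⟩ := exists_pow_four_ne hq
  obtain ⟨τ₁, -, t1, r1⟩ := h.torus' he₁ hf₁ a1 a2 a3 μ0
  obtain ⟨τ₂, -, t2, r2⟩ := h.torus' he₂ hf₂ b1 b2 b3 μ0
  obtain ⟨τ₃, -, t3, r3⟩ := h.torus' he₃ hf₃ c1 c2 c3 μ0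
  have m0 := mul_ne_zero μ0 μ0
  generalize μ * μ = m at *
  have t0 : ∀ a b c a' b' c' : F,
      τ₁ (a • e₁ + b • e₂ + c • e₃ + (a' • f₁ + b' • f₂ + c' • f₃)) =
        (m * a) • e₁ + b • e₂ + c • e₃ + ((m⁻¹ * a') • f₁ + b' • f₂ + c' • f₃) ∧
      τ₂ (a • e₁ + b • e₂ + c • e₃ + (a' • f₁ + b' • f₂ + c' • f₃)) =
        a • e₁ + (m * b) • e₂ + c • e₃ + (a' • f₁ + (m⁻¹ * b') • f₂ + c' • f₃) ∧
      τ₃ (a • e₁ + b • e₂ + c • e₃ + (a' • f₁ + b' • f₂ + c' • f₃)) =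
        a • e₁ + b • e₂ + (m * c) • e₃ + (a' • f₁ + b' • f₂ + (m⁻¹ * c') • f₃) := by
    intro a b c a' b' c'
    refine ⟨?_, ?_, ?_⟩
    · simp only [r1, polar_add_right, polar_smul_right, polar_self', a1, a2, a3,
        polar_comm Q f₁ e₁, o12, o13, h.o n1 hf₁ he₂, h.o n2 hf₁ he₃, h.o n1 he₁ hf₂,
        h.o n2 he₁ hf₃, h.o n1 hf₁ hf₂, h.o n2 hf₁ hf₃, smul_eq_mul]
      module
    · simp only [r2, polar_add_right, polar_smul_right, polar_self', b1, b2, b3,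
        polar_comm Q f₂ e₂, o23, h.o n1.symm he₂ he₁, h.o n1.symm hf₂ he₁, h.o n4 hf₂ he₃,
        h.o n1.symm he₂ hf₁, h.o n4 he₂ hf₃, h.o n1.symm hf₂ hf₁, h.o n4 hf₂ hf₃, smul_eq_mul]
      module
    · simp only [r3, polar_add_right, polar_smul_right, polar_self', c1, c2, c3,
        polar_comm Q f₃ e₃, h.o n2.symm he₃ he₁, h.o n2.symm hf₃ he₁, h.o n4.symm he₃ he₂,
        h.o n4.symm hf₃ he₂, h.o n2.symm he₃ hf₁, h.o n2.symm hf₃ hf₁, h.o n4.symm he₃ hf₂,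
        h.o n4.symm hf₃ hf₂, smul_eq_mul]
      module
  have zp : ∀ a b c a' b' c' : F,
      polar Q (a • e₁ + b • e₂ + c • e₃) (a' • e₁ + b' • e₂ + c' • e₃) = 0 := by
    intro a b c a' b' c'
    have := z1 (a + a') (b + b') (c + c')
    rw [show (a + a') • e₁ + (b + b') • e₂ + (c + c') • e₃ = (a • e₁ + b • e₂ + c • e₃) +
      (a' • e₁ + b' • e₂ + c' • e₃) by module, Q_add, z1, z1] at this
    simpa using this
  obtain ⟨a, b, c, e1, e2, h5⟩ : ∃ a b c : F, a ≠ 0 ∧ a + b + c = 0 ∧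
      Ei Q X (a • e₁ + b • e₂ + c • e₃) y :=
    ⟨(Q y)⁻¹ * (β - α), (Q y)⁻¹ * (γ - β), (Q y)⁻¹ * (α - γ),
      mul_ne_zero (inv_ne_zero hy.1) (sub_ne_zero.2 hne.symm), by ring, by
        convert h4 using 1; module⟩
  have h6 : Ei Q X (a • e₁ + b • e₂ + c • e₃)
      (((1 - m * m) * α) • e₁ + ((1 - m * m) * β) • e₂ + ((1 - m * m) * γ) • e₃) := by
    have k1 := ((h5.conj t3 (h.orth t3)).conj t2 (h.orth t2)).conj t1 (h.orth t1)
    have k2 : τ₁ (τ₂ (τ₃ (a • e₁ + b • e₂ + c • e₃))) = m • (a • e₁ + b • e₂ + c • e₃) := by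
      rw [show a • e₁ + b • e₂ + c • e₃ = a • e₁ + b • e₂ + c • e₃ +
        ((0 : F) • f₁ + (0 : F) • f₂ + (0 : F) • f₃) by simp, (t0 _ _ _ _ _ _).2.2,
        (t0 _ _ _ _ _ _).2.1, (t0 _ _ _ _ _ _).1]
      module
    have k3 : τ₁ (τ₂ (τ₃ y)) = (m * α) • e₁ + (m * β) • e₂ + (m * γ) • e₃ +
        (m⁻¹ • f₁ + m⁻¹ • f₂ + m⁻¹ • f₃) := by
      rw [show y = α • e₁ + β • e₂ + γ • e₃ + ((1 : F) • f₁ + (1 : F) • f₂ + (1 : F) • f₃) by
        rw [sy]; module, (t0 _ _ _ _ _ _).2.2, (t0 _ _ _ _ _ _).2.1, (t0 _ _ _ _ _ _).1]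
      simp only [mul_one]
    rw [k2] at k1
    have k4 := h5.sub (k1.smul_right h5.1 (by
      have := k1.2.1
      rwa [polar_smul_left, smul_eq_zero, or_iff_right m0] at this))
    convert k4 using 1
    rw [k3]
    conv_rhs => rw [sy]
    match_scalars <;> field_simp <;> ring
  have m1 : 1 - m * m ≠ 0 := sub_ne_zero.2 μ1.symm
  generalize 1 - m * m = n at h6 m1
  have h7 := ((h6.swap (z1 _ _ _)).neg.add (ei_smul_self (z1 _ _ _)
    (c / (n * γ)))).swap (by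
      rw [Q_add, QuadraticMap.map_neg, z1, Q_smul, z1, polar_neg_left, polar_smul_right, zp]; simp)
  rw [show -(a • e₁ + b • e₂ + c • e₃) + (c / (n * γ)) •
    ((n * α) • e₁ + (n * β) • e₂ + (n * γ) • e₃) =
    (c * α / γ - a) • e₁ + (c * β / γ - b) • e₂ + (0 : F) • e₃ by
      match_scalars <;> field_simp <;> ring] at h7
  have h8 := h7.conj t3 (h.orth t3)
  have k5 : ∀ a b c : F, τ₃ (a • e₁ + b • e₂ + c • e₃) = a • e₁ + b • e₂ + (m * c) • e₃ :=
    fun a b c => by simpa using (t0 a b c 0 0 0).2.2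
  rw [k5, k5, mul_zero] at h8
  have h9 := (h8.sub h7).swap (by rw [Q_sub, z1, z1, zp]; simp)
  rw [show (n * α) • e₁ + (n * β) • e₂ + (m * (n * γ)) • e₃ -
    ((n * α) • e₁ + (n * β) • e₂ + (n * γ) • e₃) =
    ((m - 1) * (n * γ)) • e₃ by module] at h9
  have nz : ∀ {e f : V}, polar Q e f = 1 → e ≠ 0 := fun e e' => by simp [e'] at e
  have v0 : ((m - 1) * (n * γ)) • e₃ ≠ 0 := smul_ne_zero (mul_ne_zero
    (sub_ne_zero.2 fun e => μ1 (by rw [e, one_mul])) (mul_ne_zero m1 s3)) (nz c3)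
  by_cases u1 : c * α / γ - a = 0
  · refine h.fin n4 ((D k).smul_mem _ he₃) v0 h9 ?_
    rw [map_add, map_add, map_smul, map_smul, map_smul, h.proj.self he₂,
      h.proj.other j i n1.symm _ he₁, h.proj.other j k n4 _ he₃, smul_zero, smul_zero, zero_add,
      add_zero]
    refine smul_ne_zero (fun u2 => ?_) (nz b3)
    field_simp at u1 u2
    have : c * Q y = 0 := by rw [hN]; linear_combination u1 + u2 + γ * e2
    rw [mul_eq_zero, or_iff_left hy.1] at this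
    exact mul_ne_zero s3 e1 (by rw [this] at u1; linear_combination -u1)
  · refine h.fin n2 ((D k).smul_mem _ he₃) v0 h9 ?_
    rw [map_add, map_add, map_smul, map_smul, map_smul, h.proj.self he₁,
      h.proj.other i j n1 _ he₂, h.proj.other i k n2 _ he₃, smul_zero, smul_zero, add_zero,
      add_zero]
    exact smul_ne_zero u1 (nz a3)

theorem hyp_case {y : V} (hy : Nw Q X D y) (h0 : ∀ j, y ∉ D j) : OmegaV Q ≤ X := by
  classical
  obtain ⟨y, hy, hz⟩ := h.grow3 hy h0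
  obtain ⟨i, -⟩ := h.fresh [] (by simp)
  obtain ⟨j, n1, -⟩ := h.third (i := i) (j := i)
  obtain ⟨k, n2, n3⟩ := h.third (i := i) (j := j)
  replace n1 := n1.symm
  replace n2 := n2.symm
  replace n3 := n3.symm
  by_cases s1 : Q (π i y) = 0
  · exact h.sing_case hq hy n1.symm (hz _) (hz _) s1
  by_cases s2 : Q (π i y) = Q (π j y)
  swap
  · exact h.uneq hq hh hy n1 n2 n3 (hz _) (hz _) (hz _) s2
  by_cases s3 : Q (π i y) = Q (π k y)
  swap
  · exact h.uneq hq hh hy n2 n1 n3.symm (hz _) (hz _) (hz _) s3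
  have hN := h.Q_sum3 n1 n2 n3 y
  have m := fun l => h.proj.mem l y
  have o : ∀ {l r} {z : V}, l ≠ r → z ∈ D r → π l z = 0 := fun e hz => h.proj.other _ _ e _ hz
  have N0 := hy.1
  rw [← s2, ← s3] at hN
  rcases hq.eq_or_lt with h7 | h8
  · have e7 : (7 : F) = 0 := by
      have := FiniteField.cast_card_eq_zero F
      rwa [← h7] at this
    have h1 := (h.refl_rr hy (m j) (m k) (h.rr' (m j) (m k) (s2 ▸ s1)
      (s3.symm.trans s2))).refl_apply (rr_self N0)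
    have h2 : (refl Q y).1 ((refl Q (π j y)).1 ((refl Q (π k y)).1 y)) =
        (4 : F) • π i y + (2 : F) • π j y + (2 : F) • π k y := by
      have three : (3 : F) ≠ 0 := fun e => N0 (by rw [hN]; linear_combination Q (π i y) * e)
      have p1 : polar Q y (π j y) = 2 * Q (π i y) := by
        rw [polar_comm, ← h.bp (m j), polar_self', s2]
      have p2 : polar Q y (π k y) = 2 * Q (π i y) := by
        rw [polar_comm, ← h.bp (m k), polar_self', s3]
      simp only [refl_apply, polar_sub_right, polar_smul_right, polar_comm Q (π j y) y,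
        polar_comm Q (π k y) y, p1, p2, h.o n3 (m j) (m k), polar_self', ← s2, ← s3, smul_eq_mul]
      rw [show Q y = 3 * Q (π i y) by rw [hN]; ring]
      have s := h.sum3 n1 n2 n3 y
      generalize π i y = a at *
      generalize π j y = b at *
      generalize π k y = c at *
      generalize Q a = ν at *
      rw [s]
      match_scalars <;> field_simp
      · linear_combination -ν * e7
      · linear_combination -ν * e7
      · linear_combination -ν * e7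
    rw [h2] at h1
    have two : (2 : F) ≠ 0 := fun e => one_ne_zero (α := F) (by linear_combination e7 - 3 * e)
    have four : (4 : F) ≠ 0 := fun e => mul_ne_zero two two (by linear_combination e)
    have e1 : π i ((4 : F) • π i y + (2 : F) • π j y + (2 : F) • π k y) = (4 : F) • π i y := by
      simp [h.proj.self (m i), o n1 (m j), o n2 (m k)]
    have e2 : π j ((4 : F) • π i y + (2 : F) • π j y + (2 : F) • π k y) = (2 : F) • π j y := by
      simp [h.proj.self (m j), o n1.symm (m i), o n3 (m k)]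
    have e3 : π k ((4 : F) • π i y + (2 : F) • π j y + (2 : F) • π k y) = (2 : F) • π k y := by
      simp [h.proj.self (m k), o n2.symm (m i), o n3.symm (m j)]
    refine h.uneq hq hh (h.nw_rr hy h1) n1 n2 n3 (e1.trans_ne (smul_ne_zero four (hz i)))
      (e2.trans_ne (smul_ne_zero two (hz j))) (e3.trans_ne (smul_ne_zero two (hz k))) fun e => s1 ?_
    rw [e1, e2, Q_smul, Q_smul, ← s2] at e
    linear_combination 3 * e - 5 * Q (π i y) * e7
  obtain ⟨e, he, f, hf, a1, a2, a3, a4, a5, a6⟩ := h.norm_pair hh y s1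
  generalize Q (π i y) = ν at *
  have three : (3 : F) ≠ 0 := fun e => N0 (by rw [hN]; linear_combination ν * e)
  obtain ⟨t, t0, t1, t2⟩ : ∃ t : F, t ≠ 0 ∧ Q y * t * t + ν ≠ 0 ∧
      Q y * t * t ∉ qrts (1 : F) (-ν) (ν * ν) := by
    have c1 := card_qrts (a := (1 : F)) (b := -ν) (c := ν * ν) fun e => one_ne_zero e.1
    have c2 := Finset.card_biUnion_le_card_mul (insert (-ν) (qrts (1 : F) (-ν) (ν * ν)))
      (fun α => qrts (Q y) 0 (-α)) 2 fun α _ => card_qrts fun e => N0 e.1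
    have c3 := Finset.card_insert_le (-ν) (qrts (1 : F) (-ν) (ν * ν))
    obtain ⟨t, ht⟩ := exists_notMem_card ((Finset.card_insert_le (0 : F) ((insert (-ν)
      (qrts (1 : F) (-ν) (ν * ν))).biUnion fun α => qrts (Q y) 0 (-α))).trans_lt (by omega))
    rw [Finset.mem_insert, not_or, Finset.mem_biUnion] at ht
    exact ⟨t, ht.1, fun e => ht.2 ⟨-ν, Finset.mem_insert_self _ _, mem_qrts.2 (by
      linear_combination e)⟩, fun e => ht.2 ⟨_, Finset.mem_insert_of_mem e, mem_qrts.2 (by ring)⟩⟩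
  have m1 := add_mem ((D i).smul_mem (Q y * t * t) he) ((D i).smul_mem 1 hf)
  have q1 := Q_hyp a1 a2 a3 (Q y * t * t) 1
  rw [mul_one] at q1
  have α0 : Q y * t * t ≠ 0 := mul_ne_zero (mul_ne_zero N0 t0) t0
  have h1 := (hy.2 i _ m1 (q1.trans_ne α0) ⟨Q y * t, by rw [q1]; ring⟩).refl_apply (rr_self N0)
  rw [mem_qrts] at t2
  generalize Q y * t * t = α at *
  have p1 : polar Q y (α • e + (1 : F) • f) = α + ν := by
    rw [polar_comm, polar_add_left, polar_smul_left, polar_smul_left, a5, a6]; simp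
  rw [refl_apply, p1] at h1
  have c0 := mul_ne_zero (inv_ne_zero N0) t1
  have c1 : Q y * ((Q y)⁻¹ * (α + ν)) = α + ν := mul_inv_cancel_left₀ N0 _
  have qw : Q (α • e + (1 : F) • f - ((Q y)⁻¹ * (α + ν)) • y) = α := by
    rw [← p1, ← refl_apply, orth_Q, q1]
  generalize (Q y)⁻¹ * (α + ν) = c at *
  have e1 : π i (α • e + (1 : F) • f - c • y) = (α - c * ν) • e + (1 - c) • f := by
    rw [map_sub, h.proj.self m1, map_smul, a4]; module
  have e2 : ∀ l, l ≠ i → π l (α • e + (1 : F) • f - c • y) = (-c) • π l y := fun l hl => by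
    rw [map_sub, o hl m1, map_smul]; module
  have w := h.Q_sum3 n1 n2 n3 (α • e + (1 : F) • f - c • y)
  rw [qw, e2 j n1.symm, e2 k n2.symm, Q_smul, Q_smul, ← s2, ← s3] at w
  refine h.uneq hq hh (h.nw_rr hy h1) n1 n2 n3 (fun e' => ?_)
    (e2 j n1.symm ▸ smul_ne_zero (neg_ne_zero.2 c0) (hz j))
    (e2 k n2.symm ▸ smul_ne_zero (neg_ne_zero.2 c0) (hz k)) fun e' => t2 ?_
  · rw [e1] at e'
    have b1 := congrArg (polar Q e) e'
    have b2 := congrArg (polar Q f) e'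
    simp only [polar_add_right, polar_smul_right, polar_self', a1, a2, a3, polar_comm Q f e,
      polar_zero_right, smul_eq_mul] at b1 b2
    exact s1 (by rw [hN] at c1; linear_combination c1 + b2 + (4 * ν - ν) * b1 - ν * b1)
  · rw [e', e2 j n1.symm, Q_smul, ← s2] at w
    rw [hN] at c1
    linear_combination -3 * ν * w - (α + ν + 3 * ν * c) * c1

end P3

namespace P3

variable (h : P3 Q X D π)
include h

theorem cases : (∀ i, ∀ x ∈ D i, Q x = 0 → x = 0) ∨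
    7 ≤ Fintype.card F ∧ ∀ i, ∃ e ∈ D i, e ≠ 0 ∧ Q e = 0 := by
  by_cases h1 : ∀ i, ∀ x ∈ D i, Q x = 0 → x = 0
  · exact Or.inl h1
  push Not at h1
  obtain ⟨i, x, hx, h2, h3⟩ := h1
  refine Or.inr ⟨(h.pl i).big.resolve_left fun e => h3 (e.1 x hx h2), fun j => ?_⟩
  obtain ⟨g, hg, e, -⟩ := h.dec.exists_swap_isom h.nd i j
  exact ⟨g x, e ▸ ⟨x, hx, rfl⟩, fun e => h3 (g.injective (e.trans (map_zero g).symm)),
    (orth_Q ⟨g, hg.2⟩ x).trans h2⟩

theorem omega_le {y : V} (hy : Nw Q X D y) (h0 : ∀ j, y ∉ D j) : OmegaV Q ≤ X :=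
  h.cases.elim (fun a => (em _).elim (fun e => h.two_case a e hy h0) fun e => h.an_case a e hy h0)
    fun a => h.hyp_case a.1 a.2 hy h0

variable (hN : ∀ y, Nw Q X D y → ∃ j, y ∈ D j)
include hN

theorem f1 {g : V ≃ₗ[F] V} (hg : g ∈ X) {l m : κ} {a : V} (ha : a ∈ D l) (ha0 : Q a ≠ 0)
    (hm : g a ∈ D m) : g ∈ decStab D := by
  have hg' := h.orth hg
  have k : ∀ i, ∀ b ∈ D i, Q b = Q a → ∃ j, g b ∈ D j := fun i b hb e =>
    hN _ (h.nw_rr (h.nw_mem hm ((orth_Q ⟨g, hg'⟩ a).trans_ne ha0))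
      ((h.rr' hb ha (e.trans_ne ha0) e.symm).conj hg hg'))
  refine h.mem_dec fun i => ?_
  obtain ⟨b, hb, e⟩ := (h.pl i).exists_Q h.nd ha0
  obtain ⟨c, hc, e', h1, h2⟩ := (h.pl i).pair h.nd hb (e.trans_ne ha0)
  obtain ⟨j, hj⟩ := k i b hb e
  obtain ⟨j', hj'⟩ := k i c hc (e'.trans e)
  obtain rfl : j = j' := by
    by_contra hc
    exact h2 ((orth_polar ⟨g, hg'⟩ b c).symm.trans (h.o hc hj hj'))
  refine ⟨j, fun v hv => ?_⟩
  obtain ⟨α, β, rfl⟩ := (h.pl i).eq_add hb hc (ne_zero_of_Q (e.trans_ne ha0)) h1 hv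
  rw [map_add, map_smul, map_smul]
  exact add_mem ((D j).smul_mem _ hj) ((D j).smul_mem _ hj')

theorem f2 {s : V ≃ₗ[F] V} (hs : s ∈ X) {j : κ} {e : V} (he : e ∈ D j) (he0 : e ≠ 0)
    (h1 : s e = e) : s ∈ decStab D := by
  by_cases h2 : Q e = 0
  swap
  · exact h.f1 hN hs he h2 (h1.symm ▸ he)
  have hq : 7 ≤ Fintype.card F := (h.pl j).big.resolve_left fun a => he0 (a.1 e he h2)
  have hs' := h.orth hs
  obtain ⟨f, hf, h3⟩ := exists_hypPair_sub h.nd (h.pl j).nd he he0 h2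
  have h4 : polar Q e f = 1 := h3.pair
  by_cases h5 : s f ∈ D j
  · refine h.f1 hN hs (add_mem he ((D j).smul_mem 1 hf)) (m := j)
      ((Q_hyp' h2 h3.right h4 1).trans_ne one_ne_zero) ?_
    rw [map_add, map_smul, h1]
    exact add_mem he ((D j).smul_mem 1 h5)
  exfalso
  obtain ⟨k, hkj, hk⟩ : ∃ k, k ≠ j ∧ π k (s f) ≠ 0 := by
    by_contra hc
    push Not at hc
    exact h5 (h.proj.mem_iff.2 hc)
  obtain ⟨τ, -, t2, c, c0, c1, t3⟩ := h.torus hq he hf h2 h3.right h4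
  have hσ : s * τ * s⁻¹ ∈ X := mul_mem (mul_mem hs t2) (inv_mem hs)
  have s1 : ∀ x, polar Q e x = 0 → (s * τ * s⁻¹) x = x + ((c - 1) * polar Q (s f) x) • e :=
    fun x hx => by
      have a1 : polar Q e (s⁻¹ x) = 0 := by
        rw [← orth_polar ⟨s, hs'⟩]
        exact (congrArg₂ _ h1 (apply_inv_apply s x)).trans hx
      have a2 : polar Q f (s⁻¹ x) = polar Q (s f) x := by
        rw [← orth_polar ⟨s, hs'⟩]
        exact congrArg _ (apply_inv_apply s x)
      rw [LinearEquiv.mul_apply, LinearEquiv.mul_apply, t3, a1, a2, mul_zero, zero_smul, add_zero,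
        map_add, map_smul, h1, apply_inv_apply]
  have s0 : polar Q (s f) e = 1 := by
    rw [← h4, polar_comm Q e, ← orth_polar ⟨s, hs'⟩ f e]
    exact congrArg _ h1.symm
  generalize s * τ * s⁻¹ = σ at hσ s1
  generalize s f = f' at s0 s1 hk
  have s2 : ∀ x, polar Q e x = 0 → σ⁻¹ x = x + ((c⁻¹ - 1) * polar Q f' x) • e := fun x hx => by
    apply σ.injective
    rw [apply_inv_apply, s1 _ (by rw [polar_add_right, polar_smul_right, hx, polar_self', h2]; simp),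
      polar_add_right, polar_smul_right, s0]
    simp only [smul_eq_mul]
    match_scalars <;> field_simp <;> ring
  obtain ⟨ρ, hρ, r1⟩ := (h.pl k).exists_rot h.nd
  have hρe : ρ e = e := hρ.2.2 e (h.dec.orth k j hkj he)
  have hw : σ * ρ * σ⁻¹ * ρ⁻¹ ∈ X :=
    mul_mem (mul_mem (mul_mem hσ (h.subX hρ)) (inv_mem hσ)) (inv_mem (h.subX hρ))
  have w1 : ∀ l, l ≠ j → ∀ n ∈ D l, polar Q e (ρ⁻¹ n) = 0 → (σ * ρ * σ⁻¹ * ρ⁻¹) n =
      n + ((c - 1) * polar Q f' (n - ρ⁻¹ n)) • e := fun l hl n hn h6 => by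
    have h7 : polar Q e e = 0 := by rw [polar_self', h2, mul_zero]
    rw [LinearEquiv.mul_apply, LinearEquiv.mul_apply, LinearEquiv.mul_apply, s2 _ h6, map_add,
      apply_inv_apply, map_smul, hρe, map_add, map_smul, s1 n (h.o hl.symm he hn), s1 e h7, s0,
      polar_sub_right]
    match_scalars <;> field_simp <;> ring
  obtain ⟨o, ho⟩ := h.fresh [j, k] (by simp)
  simp only [List.mem_cons, List.not_mem_nil, or_false, not_or] at ho
  obtain ⟨a, ha, a1⟩ := (h.pl o).exists_Q h.nd one_ne_zero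
  have a2 : ρ⁻¹ a = a := (inv_mem hρ).2.2 a (h.dec.orth k o (Ne.symm ho.2) ha)
  have w2 := h.f1 hN hw ha (a1.trans_ne one_ne_zero) (m := o) (by
    rwa [w1 o ho.1 a ha (by rw [a2, h.o (Ne.symm ho.1) he ha]), a2, sub_self, polar_zero_right,
      mul_zero, zero_smul, add_zero])
  obtain ⟨d, hd, -, d1⟩ := (h.pl k).exists_ne h.nd one_ne_zero (h.proj.mem k f') hk
  rw [h.bp hd, polar_comm] at d1
  obtain ⟨n, hn, e1⟩ := exists_map_eq_of_inj (A := D k) (B := D k)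
    (LinearMap.id - (ρ⁻¹ : V ≃ₗ[F] V).toLinearMap)
    (fun x hx => Submodule.sub_mem _ hx (h.sub_mem (inv_mem hρ) hx)) (fun x hx e => r1 x hx (by
      have : ρ x = x := by
        conv_lhs => rw [(sub_eq_zero.1 e : x = ρ⁻¹ x)]
        exact apply_inv_apply ρ x
      rw [this, this])) le_rfl hd
  change n - ρ⁻¹ n = d at e1
  refine h.proj.not_mem_decStab hn (h.proj.not_mem hkj ?_ ?_) w2 <;>
    rw [w1 k hkj n hn (h.o hkj.symm he (h.sub_mem (inv_mem hρ) hn)), e1, map_add, map_smul]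
  · rw [h.proj.self hn, h.proj.other k j hkj _ he, smul_zero, add_zero]
    rintro rfl
    exact d1 (by rw [← e1]; simp)
  · rw [h.proj.self he, h.proj.other j k hkj.symm _ hn, zero_add]
    exact smul_ne_zero (mul_ne_zero (sub_ne_zero.2 c1) d1) he0

theorem b1 {g : V ≃ₗ[F] V} (hg : g ∈ X) {i l : κ} {c : V} (hc : c ∈ D l) (hc0 : c ≠ 0)
    (h1 : ∀ v ∈ D i, polar Q (g v) c = 0) : g ∈ decStab D := by
  by_contra hn
  have hg' := h.orth hg
  obtain ⟨ρ, hρ, r1⟩ := (h.pl i).exists_rot h.nd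
  have hs : g * ρ * g⁻¹ ∈ X := mul_mem (mul_mem hg (h.subX hρ)) (inv_mem hg)
  obtain ⟨τ, hτ⟩ := h.f2 hN hs hc hc0 (by
    rw [LinearEquiv.mul_apply, LinearEquiv.mul_apply, hρ.2.2 _ ((𝓒).mem_perp.2 fun v hv => by
      rw [CForm.ofQuad_B, ← orth_polar ⟨g, hg'⟩]
      exact (congrArg _ (apply_inv_apply g c)).trans (h1 v hv)), apply_inv_apply])
  set P := (D i).map (g : V →ₗ[F] V) with hP
  have p1 : ∀ x, (g * ρ * g⁻¹) x - x ∈ P := fun x => by
    refine ⟨ρ (g⁻¹ x) - g⁻¹ x, ?_, ?_⟩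
    · rw [h.proj_sub hρ]
      exact Submodule.sub_mem _ (h.sub_mem hρ (h.proj.mem i _)) (h.proj.mem i _)
    · rw [LinearEquiv.coe_coe, map_sub, apply_inv_apply]; rfl
  have p2 : ∀ x ∈ P, (g * ρ * g⁻¹) ((g * ρ * g⁻¹) x) = x → x = 0 := by
    rintro _ ⟨x, hx, rfl⟩ e
    simp only [LinearEquiv.mul_apply, LinearEquiv.coe_coe, inv_apply_apply] at e
    rw [r1 x hx (g.injective e), map_zero]
  have p3 : ∀ x ∈ P, ∀ j, x ∈ D j → Q x = 0 := by
    rintro _ ⟨x, hx, rfl⟩ j hj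
    by_contra e
    exact hn (h.f1 hN hg hx ((orth_Q ⟨g, hg'⟩ x).symm.trans_ne e) hj)
  have p4 : finrank F P = 2 := by rw [hP, finrank_map_equiv, (h.pl i).two]
  have hs' := h.orth hs
  generalize g * ρ * g⁻¹ = s at *
  have q1 : ∀ j, ∀ x ∈ D j, s x ∈ D (τ j) := fun j x hx => hτ j ▸ ⟨x, hx, rfl⟩
  by_cases h2 : ∀ j, τ j = j
  · obtain ⟨a, ha, a1⟩ := (h.pl i).exists_Q h.nd one_ne_zero
    obtain ⟨v, -, e⟩ := exists_map_eq_of_inj (A := P) (B := P) (s.toLinearMap - LinearMap.id)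
      (fun x _ => p1 x) (fun x hx e => p2 x hx (by
        have : s x = x := sub_eq_zero.1 e
        rw [this, this])) le_rfl (⟨a, ha, rfl⟩ : g a ∈ P)
    change s v - v = g a at e
    have e2 : ∀ j, Q (π j (g a)) = 0 := fun j => by
      have b1 := hτ j
      have b2 := q1 j _ (h.proj.mem j v)
      rw [h2 j] at b1 b2
      rw [← e, map_sub, h.proj_map hs' b1]
      exact p3 _ (p1 _) j (Submodule.sub_mem _ b2 (h.proj.mem j v))
    have e3 := quad_ts_iff.1 (CForm.ts_span (C := 𝓒) (s := Set.range fun l => π l (g a)) (by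
      rintro _ ⟨l, rfl⟩; exact e2 l) (by
      rintro _ ⟨l, rfl⟩ _ ⟨j, rfl⟩
      by_cases e : l = j
      · subst e; exact (𝓒).B_self_of_zero (e2 l)
      · exact h.o e (h.proj.mem _ _) (h.proj.mem _ _))) (g a) (by
      conv_rhs => rw [← h.proj.sum (g a)]
      exact Submodule.sum_mem _ fun l _ => Submodule.subset_span ⟨l, rfl⟩)
    exact one_ne_zero (a1.symm.trans ((orth_Q ⟨g, hg'⟩ a).symm.trans e3))
  push Not at h2
  obtain ⟨j, hj⟩ := h2
  have q2 : ∀ w ∈ P, ∃ x ∈ D j, s x - x = w := fun w hw =>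
    exists_map_eq_of_inj (A := D j) (B := P) (s.toLinearMap - LinearMap.id) (fun x _ => p1 x)
      (fun x hx e => by
        by_contra h0
        exact hj (h.proj.eq_of_mem h0 ((sub_eq_zero.1 e : s x = x) ▸ q1 j x hx) hx))
      (by rw [p4, (h.pl j).two]) hw
  obtain ⟨x, hx, hx0⟩ := Submodule.exists_mem_ne_zero_of_ne_bot (h.dec.ne_bot j)
  have n1 : τ (τ j) ≠ τ j := fun e => hj (τ.injective e)
  have q3 : s (s x) ∈ D j := by
    obtain ⟨z, hz, e⟩ := q2 _ (p1 (s x))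
    by_cases n2 : τ (τ j) = j
    · exact n2 ▸ q1 _ _ (q1 j x hx)
    have := congrArg (π (τ (τ j))) e
    rw [map_sub, map_sub, h.proj.other _ _ n1 _ (q1 j z hz), h.proj.other _ _ n2 _ hz,
      h.proj.self (q1 _ _ (q1 j x hx)), h.proj.other _ _ n1 _ (q1 j x hx), sub_zero, sub_zero] at this
    rw [← this]; exact zero_mem _
  have q4 : s (s x) = x := by
    obtain ⟨z, hz, e⟩ := q2 _ (add_mem (p1 (s x)) (p1 x))
    have := congrArg (π (τ j)) e
    rw [sub_add_sub_cancel, map_sub, map_sub, h.proj.self (q1 j z hz), h.proj.other _ _ hj _ hz,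
      h.proj.other _ _ hj _ q3, h.proj.other _ _ hj _ hx, sub_zero, sub_zero,
      map_eq_zero_iff _ s.injective] at this
    rw [this, map_zero, sub_zero, sub_add_sub_cancel, eq_comm, sub_eq_zero] at e
    exact e
  have q5 := p2 _ (p1 x) (by rw [map_sub, map_sub, q4])
  exact hj (h.proj.eq_of_mem hx0 ((sub_eq_zero.1 q5 : s x = x) ▸ q1 j x hx) hx)

theorem b2 {g : V ≃ₗ[F] V} (hg : g ∈ X) {i : κ}
    (h1 : ∀ l, ∀ c ∈ D l, (∀ v ∈ D i, polar Q (g v) c = 0) → c = 0) : False := by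
  classical
  have hg' := h.orth hg
  have k1 : ∀ l, ∀ v ∈ D i, π l (g v) = 0 → v = 0 := fun l v hv e => by
    by_contra h0
    obtain ⟨w, hw, -, -, w1⟩ := (h.pl i).exists_twin h.nd hv h0
    obtain ⟨c, hc, c0, c1⟩ := (h.pl l).exists_perp h.nd (g w)
    refine c0 (h1 l c hc fun x hx => ?_)
    obtain ⟨α, β, rfl⟩ := (h.pl i).eq_add hv hw h0 w1 hx
    rw [map_add, map_smul, map_smul, polar_add_left, polar_smul_left, polar_smul_left, c1,
      polar_comm, h.b0 hc e]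
    simp
  have k2 : ∀ a ∈ D i, a ≠ 0 → ∀ j k, j ≠ k → ∀ x ∈ D j, ∀ z ∈ D k, Q x ≠ 0 → Q z ≠ 0 →
      polar Q x (g a) = 0 → polar Q z (g a) = 0 → ¬ IsSquare (Q x * Q z) := by
    intro a ha a0 j k hjk x hx z hz x0 z0 x1 z1 hs
    have hr := (h.rr hx hz x0 z0 hs).2.2
    have h2 : (g⁻¹ * (refl Q x * refl Q z).1 * g) a = a := by
      rw [LinearEquiv.mul_apply, LinearEquiv.mul_apply, orth_mul_apply, refl_apply_of_orth z1,
        refl_apply_of_orth x1, inv_apply_apply]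
    obtain ⟨τ, hτ⟩ := h.f2 hN (mul_mem (mul_mem (inv_mem hg) hr) hg) ha a0 h2
    have h3 : τ i = i := h.proj.eq_of_mem a0 (hτ i ▸ ⟨a, ha, h2⟩) ha
    obtain ⟨o, ho⟩ := h.fresh [j, k] (by simp)
    simp only [List.mem_cons, List.not_mem_nil, or_false, not_or] at ho
    refine ne_zero_of_Q x0 (h1 j x hx fun v hv => ?_)
    have h4 : (g⁻¹ * (refl Q x * refl Q z).1 * g) v ∈ D i := h3 ▸ hτ i ▸ ⟨v, hv, rfl⟩
    have h5 : g ((g⁻¹ * (refl Q x * refl Q z).1 * g) v - v) =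
        -(((Q x)⁻¹ * polar Q x (g v)) • x) - ((Q z)⁻¹ * polar Q z (g v)) • z := by
      rw [map_sub, LinearEquiv.mul_apply, LinearEquiv.mul_apply, apply_inv_apply, orth_mul_apply,
        refl_apply, refl_apply, polar_sub_right, polar_smul_right, h.o hjk hx hz]
      module
    have h6 := k1 o _ (Submodule.sub_mem _ h4 hv) (by
      rw [h5, map_sub, map_neg, map_smul, map_smul, h.proj.other o j ho.1 _ hx,
        h.proj.other o k ho.2 _ hz]; simp)
    rw [h6, map_zero] at h5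
    have h7 := congrArg (π j) h5
    rw [map_zero, map_sub, map_neg, map_smul, map_smul, h.proj.self hx,
      h.proj.other j k hjk _ hz, smul_zero, sub_zero, eq_comm, neg_eq_zero, smul_eq_zero,
      or_iff_left (ne_zero_of_Q x0), mul_eq_zero, or_iff_right (inv_ne_zero x0)] at h7
    rwa [polar_comm]
  have k3 : ∀ a ∈ D i, a ≠ 0 → ∀ j k l, j ≠ k → j ≠ l → k ≠ l → Q (π j (g a)) ≠ 0 →
      Q (π k (g a)) ≠ 0 → Q (π l (g a)) ≠ 0 → False := by
    intro a ha a0 j k l n1 n2 n3 a1 a2 a3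
    obtain ⟨x, hx, x0, x1⟩ := (h.pl j).exists_perp_ns h.nd (h.proj.mem j _) a1
    obtain ⟨y, hy, y0, y1⟩ := (h.pl k).exists_perp_ns h.nd (h.proj.mem k _) a2
    obtain ⟨z, hz, z0, z1⟩ := (h.pl l).exists_perp_ns h.nd (h.proj.mem l _) a3
    rw [polar_comm, h.bp hx] at x1
    rw [polar_comm, h.bp hy] at y1
    rw [polar_comm, h.bp hz] at z1
    rcases exists_sq_pair x0 y0 z0 with e | e | e
    · exact k2 a ha a0 j k n1 x hx y hy x0 y0 x1 y1 e
    · exact k2 a ha a0 j l n2 x hx z hz x0 z0 x1 z1 e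
    · exact k2 a ha a0 k l n3 y hy z hz y0 z0 y1 z1 e
  obtain ⟨j, n1, -⟩ := h.third (i := i) (j := i)
  obtain ⟨k, n2, n3⟩ := h.third (i := i) (j := j)
  rcases h.cases with han | ⟨hq, hh⟩
  · obtain ⟨a, ha, a1⟩ := (h.pl i).exists_Q h.nd one_ne_zero
    have a0 := a1.trans_ne one_ne_zero
    have : ∀ j, Q (π j (g a)) ≠ 0 := fun j e =>
      ne_zero_of_Q a0 (k1 j a ha (han j _ (h.proj.mem j _) e))
    exact k3 a ha (ne_zero_of_Q a0) k j i n3 n2 n1 (this k) (this j) (this i)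
  obtain ⟨e, he, e0, e1⟩ := hh i
  obtain ⟨f, hf, h2⟩ := exists_hypPair_sub h.nd (h.pl i).nd he e0 e1
  have h3 : polar Q e f = 1 := h2.pair
  let B : κ → Finset F := fun j =>
    qrts (Q (π j (g f))) (polar Q (π j (g e)) (π j (g f))) (Q (π j (g e)))
  have c1 : ∀ j, (B j).card ≤ 2 := fun j => card_qrts fun ⟨_, a2, a3⟩ => e0 (k1 j e he (by
    refine (h.pl j).nd.eq_zero (h.proj.mem j _) ((𝓒).mem_perp.2 fun x hx => ?_)
    obtain ⟨v, hv, rfl⟩ := exists_map_eq_of_inj (A := D i) (B := D j) (π j ∘ₗ g.toLinearMap)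
      (fun x _ => h.proj.mem j _) (k1 j) (by rw [(h.pl i).two, (h.pl j).two]) hx
    obtain ⟨α, β, rfl⟩ := h.hyp_add he hf e1 h3 hv
    rw [CForm.ofQuad_B, LinearMap.comp_apply, LinearEquiv.coe_coe, map_add, map_add, map_smul,
      map_smul, map_smul, map_smul, polar_add_left, polar_smul_left, polar_smul_left, polar_self',
      a3, polar_comm, a2]
    simp))
  have c2 : ∀ j s, s ∉ B j → Q (π j (g (e + s • f))) ≠ 0 := fun j s hs e' => hs (mem_qrts.2 (by
    rw [map_add, map_add, map_smul, map_smul, Q_add, Q_smul, polar_smul_right, smul_eq_mul] at e'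
    linear_combination e'))
  have c3 := Finset.card_union_le (B i ∪ B j) (B k)
  have c4 := Finset.card_union_le (B i) (B j)
  obtain ⟨s, hs⟩ := exists_notMem_card (s := B i ∪ B j ∪ B k)
    (by have := c1 i; have := c1 j; have := c1 k; omega)
  simp only [Finset.mem_union, not_or] at hs
  refine k3 _ (add_mem he ((D i).smul_mem s hf)) (fun e' => ?_) k j i n3 n2 n1 (c2 k s hs.2)
    (c2 j s hs.1.2) (c2 i s hs.1.1)
  have := congrArg (polar Q f) e'
  rw [polar_add_right, polar_smul_right, polar_self', polar_comm, h3, show Q f = 0 from h2.right]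
    at this
  simp at this

end P3

theorem OrthDec.isMaximalIn_planes3 (hD : OrthDec 𝓒 D) (hQ : QNondeg Q)
    (h3 : Fintype.card κ = 3) (hp : ∀ i, Pl Q (D i)) :
    Cfsg.Geo.IsMaximalIn (OmegaV Q) (decStab D ⊓ OmegaV Q) := by
  obtain ⟨π, hπ⟩ := hD.exists_isProj
  have h0 : P3 Q _ D π := ⟨hQ, hD, hπ, hp, h3, le_rfl, inf_le_right⟩
  have : Nontrivial κ := Fintype.one_lt_card_iff_nontrivial.1 (by omega)
  refine isMaximalIn_of _ _ inf_le_right
    (fun e => h0.spec.not_le_decStab (by have := h0.dim; omega) hD (e.trans inf_le_left))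
    fun M h2 h4 g hg hg' => ?_
  have h : P3 Q M D π := ⟨hQ, hD, hπ, hp, h3, h2, h4⟩
  by_contra hc
  have hN : ∀ y, Nw Q M D y → ∃ j, y ∈ D j := fun y hy => by
    by_contra hx
    push Not at hx
    exact hc (h.omega_le hy hx)
  obtain ⟨i⟩ : Nonempty κ := inferInstance
  refine h.b2 hN hg (i := i) fun l c hc h1 => ?_
  by_contra h5
  exact hg' ⟨h.b1 hN hg hc h5 h1, h4 hg⟩

end H12
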