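import Cfsg.Agent.H12.KL5
import Cfsg.Agent.H12.P3d

/-!
# Monomial subgroups of `SL₄` and `SU₄`
-/

set_option autoImplicit false
set_option maxHeartbeats 400000

namespace H12

open Module H11 Matrix QuadraticMap Cfsg Cfsg.Geo

theorem plane_iso {F : Type*} [Field F] [Finite F] {V : Type*} [AddCommGroup V] [Module F V]
    [FiniteDimensional F V] {Q : QuadraticForm F V} {P P' : Submodule F V}
    (h : (CForm.ofQuad Q).NondegOn P) (h' : (CForm.ofQuad Q).NondegOn P') (d : finrank F P = 2)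
    (d' : finrank F P' = 2) (e : (∃ x ∈ P, x ≠ 0 ∧ Q x = 0) ↔ ∃ x ∈ P', x ≠ 0 ∧ Q x = 0) :
    ((CForm.ofQuad Q).restrict P).Iso ((CForm.ofQuad Q).restrict P') := by
  have k : ∀ P : Submodule F V, ((CForm.ofQuad Q).restrict P).HasTS 1 ↔
      ∃ x ∈ P, x ≠ 0 ∧ Q x = 0 := fun P => CForm.hasTS_one_iff.trans
    ⟨fun ⟨x, a, b⟩ => ⟨x, x.2, fun e => a (Subtype.ext e), b⟩,
      fun ⟨x, hx, a, b⟩ => ⟨⟨x, hx⟩, fun e => a (congrArg Subtype.val e), b⟩⟩
  rw [← CForm.restrict_nondeg_iff] at h h'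
  rw [← k, ← k] at e
  by_cases t : ((CForm.ofQuad Q).restrict P).HasTS 1
  · exact (quad_iso_qPlus h (m := 1) d t).trans (quad_iso_qPlus h' (m := 1) d' (e.1 t)).symm
  · obtain ⟨a, b, hab⟩ := exists_aniso F
    exact (quad_iso_qMinus h (m := 0) d t hab).trans
      (quad_iso_qMinus h' (m := 0) d' (mt e.2 t) hab).symm

namespace K4

variable {K F : Type*} [Field K] [Field F] [Algebra K F] {W : Type*} [AddCommGroup W] [Module K W]
  {ι : W →ₗ[K] A6 F} {Q : QuadraticForm K W} {G : Subgroup (GL (Fin 4) F)} {δ : F}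

local notation "𝓒" => CForm.ofQuad Q
local notation "𝐞" i => (Pi.single i 1 : Fin 4 → F)

theorem KL.four [Fintype K] (h : KL ι Q G δ) {a : F} (h0 : a ≠ 0) (h1 : a * a ≠ 1)
    (H : ∀ t : GL (Fin 4) F, ∀ d : Fin 4 → F, t.1 = diagonal d → t.1.det = 1 →
      (∀ i, d i = a ∨ d i = a⁻¹ ∨ d i = 1) → t ∈ G)
    (hq : 7 ≤ Fintype.card K ∧ Function.Surjective ι ∨
      Fintype.card K ≠ 3 ∧ ∀ k, algebraMap K F k ≠ a) :
    IsMaximalIn G (decompositionStabilizer (fun i : Fin 4 => Submodule.span F {𝐞 i}) ⊓ G) := by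
  have := h.fin
  have T : ∀ d : Fin 4 → F, d 0 * d 1 * d 2 * d 3 = 1 → (∀ i, d i = a ∨ d i = a⁻¹ ∨ d i = 1) →
      ∃ t ∈ G, t.1 = diagonal d := fun d e e' => by
    have hd : (diagonal d).det = 1 := by rwa [det_diagonal, Fin.prod_univ_four]
    exact ⟨GeneralLinearGroup.mkOfDetNeZero _ (hd.trans_ne one_ne_zero), H _ d rfl hd e', rfl⟩
  have h2 : a⁻¹ * a⁻¹ ≠ 1 := fun e => h1 (inv_eq_one.1 ((mul_inv a a).trans e))
  have hS : ∀ k, RatS ι (pl F k) := fun k => by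
    obtain ⟨t, ht, e⟩ := T (![![a, a, a⁻¹, a⁻¹], ![a, a⁻¹, a, a⁻¹], ![a, a⁻¹, a⁻¹, a]] k)
      (by fin_cases k <;> simp [h0]) (fun i => by fin_cases k <;> fin_cases i <;> simp)
    refine h.ratS_pl ht e (fun j hj => ?_) ?_ ?_
    · fin_cases k <;> fin_cases j <;> first | exact absurd rfl hj | simp [bw, h0]
    · fin_cases k <;> simpa [bw]
    · fin_cases k <;> exact h2
  have d2 := fun k => ((hS k).finrank_eq h.rat).trans (finrank_pl k)
  have n2 := fun k => h.nondegOn (hS k) (nondegOn_pl k)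
  have o2 : ∀ i j, i ≠ j → ratPts F ι (pl F j) ≤ (𝓒).perp (ratPts F ι (pl F i)) :=
    fun i j hij x hx => (𝓒).mem_perp.2 fun y hy => by
      have := h.polar y x
      rw [polar_pl hy, (hx i hij).1, (hx i hij).2, mul_zero, mul_zero, add_zero, eq_comm,
        mul_eq_zero, or_iff_right h.δ0, map_eq_zero] at this
      exact this
  have b2 : (∀ k, ∀ x ∈ ratPts F ι (pl F k), Q x = 0 → x = 0) ∧ Fintype.card K ≠ 3 ∨
      7 ≤ Fintype.card K ∧ ∀ k, ∃ x ∈ ratPts F ι (pl F k), x ≠ 0 ∧ Q x = 0 := by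
    refine hq.symm.imp (fun e => ⟨fun k x hx x0 => ?_, e.1⟩) fun e => ⟨e.1, fun k => ?_⟩
    · by_contra x1
      obtain ⟨s, -, c, -, hc⟩ := sing_pl hx (fun e => x1 (h.rat.inj (by rw [e, map_zero])))
        (by rw [h.q, x0, map_zero, mul_zero])
      obtain ⟨d, a1, a2, a3⟩ : ∃ d : Fin 4 → F, d 0 * d 1 * d 2 * d 3 = 1 ∧
          (∀ i, d i = a ∨ d i = a⁻¹ ∨ d i = 1) ∧
          (d (bw s).1 * d (bw s).2 = a ∨ d (bw s).1 * d (bw s).2 = a⁻¹) := by
        by_cases e : s = .inl 1 ∨ s = .inr 1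
        · exact ⟨![a, a⁻¹, 1, 1], by simp [h0], fun i => by fin_cases i <;> simp,
            by rcases e with rfl | rfl <;> simp [bw]⟩
        · exact ⟨![a, 1, a⁻¹, 1], by simp [h0], fun i => by fin_cases i <;> simp,
            by rcases s with s | s <;> fin_cases s <;> simp [bw] at e ⊢⟩
      obtain ⟨t, ht, e1⟩ := T d a1 a2
      obtain ⟨τ, -, c1⟩ := h.map t ht
      obtain ⟨r, hr⟩ := h.rat.mem_of_smul x1 (y := τ x) (c := d (bw s).1 * d (bw s).2) (by
        rw [c1, e1, hc]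
        ext l
        by_cases e : l = s <;> simp [act_diagonal, e])
      rcases a3 with a3 | a3
      · exact e.2 r (hr.symm.trans a3)
      · exact e.2 r⁻¹ (by rw [map_inv₀, ← hr, a3, inv_inv])
    · obtain ⟨x, hx⟩ := e.2 (Pi.single (.inl k) 1)
      refine ⟨x, by rw [mem_ratPts, hx]; exact inl_mem_pl k, fun e => by simpa [e] using congrFun hx (.inl k), ?_⟩
      have := h.q x
      rw [hx, ← wedge_bw, q_wedge, eq_comm, mul_eq_zero, or_iff_right h.δ0, map_eq_zero] at this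
      exact this
  have hD : OrthDec 𝓒 fun k => ratPts F ι (pl F k) := by
    refine ⟨n2, o2, ?_, fun i j => plane_iso (n2 i) (n2 j) (d2 i) (d2 j) ?_,
      fun i => ne_bot_of_finrank_pos (by rw [d2]; omega)⟩
    · have a1 := finrank_sup_of_perp (n2 0) (o2 0 1 (by decide))
      have a2 := finrank_sup_of_perp (W := ratPts F ι (pl F 2))
        (nondegOn_sup (n2 0) (n2 1) (o2 0 1 (by decide))) (by
          rw [CForm.perp_sup]; exact le_inf (o2 0 2 (by decide)) (o2 1 2 (by decide)))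
      rw [a1, d2, d2, d2] at a2
      exact top_le_iff.1 ((Submodule.eq_top_of_finrank_eq (a2.trans h.dim.symm)).ge.trans
        (sup_le (sup_le (le_iSup (fun k => ratPts F ι (pl F k)) 0)
          (le_iSup (fun k => ratPts F ι (pl F k)) 1)) (le_iSup (fun k => ratPts F ι (pl F k)) 2)))
    · rcases b2 with e | e
      · exact iff_of_false (fun ⟨x, a, b, c⟩ => b (e.1 i x a c)) fun ⟨x, a, b, c⟩ => b (e.1 j x a c)
      · exact iff_of_true (e.2 i) (e.2 j)
  refine h.isMaximalIn (fun g hg k c => ?_) (hD.isMaximalIn_planes3 h.nd (by simp) fun k =>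
    ⟨n2 k, d2 k, b2.imp (fun e => ⟨e.1 k, e.2⟩) And.left⟩)
  rw [four_iff]
  refine ⟨fun e => mem_decStab_of_exists hD.injective fun i => (e i).imp fun j e =>
    Submodule.eq_of_le_of_finrank_eq (Submodule.map_le_iff_le_comap.2 ((h.map_iff c (hS i)).2 e))
      (by rw [finrank_map_equiv, d2, d2]), fun ⟨τ, e⟩ i => ⟨τ i, (h.map_iff c (hS i)).1
        fun x hx => (e i).le ⟨x, hx, rfl⟩⟩⟩

theorem KL.four' [Fintype K] (h : KL ι Q G δ) {D : Fin 4 → Submodule F (Fin 4 → F)}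
    (hD : IsMDecomposition 1 D) {a : F} (h0 : a ≠ 0) (h1 : a * a ≠ 1)
    (H : ∀ t : GL (Fin 4) F, ∀ d : Fin 4 → F, (∀ i, ∀ x ∈ D i, t.1 *ᵥ x = d i • x) → t.1.det = 1 →
      (∀ i, d i = a ∨ d i = a⁻¹ ∨ d i = 1) → t ∈ G)
    (hq : 7 ≤ Fintype.card K ∧ Function.Surjective ι ∨
      Fintype.card K ≠ 3 ∧ ∀ k, algebraMap K F k ≠ a) :
    IsMaximalIn G (decompositionStabilizer D ⊓ G) := by
  choose b hb hb0 using fun i => Submodule.exists_mem_ne_zero_of_ne_bot
    (ne_bot_of_finrank_pos (W := D i) (by rw [hD.finrank_eq]; omega))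
  obtain ⟨P, -, rfl⟩ := exists_lines hD hb hb0
  refine isMaximalIn_of_conj P ?_
  rw [dec_conj]
  refine (h.twist P).four h0 h1 (fun t d e hd hd' => H _ d ?_ ?_ hd')
    (hq.imp_left (And.imp_right fun e => (Φ F P⁻¹).surjective.comp e))
  · rintro i _ ⟨x, hx, rfl⟩
    obtain ⟨c, rfl⟩ := Submodule.mem_span_singleton.1 hx
    change (P * t * P⁻¹).1 *ᵥ _ = _
    rw [toLin'_apply, mulVec_mulVec, ← Units.val_mul, inv_mul_cancel_right, Units.val_mul,
      ← mulVec_mulVec, ← mulVec_smul, e]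
    congr 1
    ext l
    by_cases e : l = i <;> simp [mulVec_diagonal, e]
  · change (P.1 * t.1 * (P⁻¹).1).det = 1
    rwa [det_mul, det_mul, mul_right_comm, ← det_mul, Units.mul_inv, det_one, one_mul]

theorem sl4_four {F : Type*} [Field F] [Fintype F] (hq : 7 ≤ Fintype.card F)
    (D : Fin 4 → Submodule F (Fin 4 → F)) (hD : IsMDecomposition 1 D) :
    IsMaximalIn (specialLinear (Fin 4) F) (decompositionStabilizer D ⊓ specialLinear (Fin 4) F) := by
  obtain ⟨a, h0, h1⟩ := exists_mul_self_ne_one (F := F) (by omega)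
  exact (kl_SL F).four' hD h0 h1 (fun t _ _ ht _ => mem_SL.2 ht)
    (Or.inl ⟨hq, Function.surjective_id⟩)

theorem su4_four {F : Type*} [Field F] [Fintype F] {q : ℕ} (hF : Fintype.card F = q ^ 2)
    (hq : q ≠ 3) (D : Fin 4 → Submodule F (Fin 4 → F))
    (hD : IsNondegenerateMDecomposition (hermForm 4 F q) 1 D) :
    IsMaximalIn (GU 4 F q ⊓ specialLinear (Fin 4) F)
      (decompositionStabilizer D ⊓ (GU 4 F q ⊓ specialLinear (Fin 4) F)) := by
  obtain ⟨a, a0, a1, a2, a3⟩ := exists_nOne' (frob_ne_id hF) (frob_frob hF)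
  have h0 := left_ne_zero_of_mul_eq_one a0
  refine (kl_SU hF).four' hD.decomp h0 (fun e => (mul_self_eq_one_iff.1 e).elim a1 a2)
    (fun t d e ht hd => ⟨?_, mem_SL.2 ht⟩)
    (Or.inr ⟨(card_fixF hF).symm ▸ hq, fun k e => a3 (e ▸ σ_fix k)⟩)
  have n : ∀ i, d i * frob hF (d i) = 1 := fun i => by
    rcases hd i with e | e | e <;> rw [e]
    · exact a0
    · rw [map_inv₀, ← mul_inv, a0, inv_one]
    · simp
  rw [GU_eq hF]
  refine (CForm.mem_isom_ofHerm _ _ _).2 fun x y => ?_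
  change (hermC (Fin 4) hF).B (t.1 *ᵥ _) (t.1 *ᵥ _) = (hermC (Fin 4) hF).B _ _
  obtain ⟨π, hπ⟩ := exists_isProj hD.decomp.indep hD.decomp.iSup_eq_top
  rw [← hπ.sum x, ← hπ.sum y]
  simp only [mulVec_sum, map_sum, LinearMap.sum_apply, e _ _ (hπ.mem _ _), CForm.B_smul_left,
    CForm.B_smul_right]
  refine Finset.sum_congr rfl fun i _ => Finset.sum_congr rfl fun j _ => ?_
  by_cases hij : i = j
  · rw [hij, ← mul_assoc]
    exact (congrArg (· * _) (n j)).trans (one_mul _)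
  · rw [hermC_B_eq, hD.orthogonal i j hij _ (hπ.mem _ _) _ (hπ.mem _ _), mul_zero, mul_zero]

end K4

end H12
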