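import Cfsg.Agent.H12.Sp4a
import Cfsg.Agent.H12.SUList

/-!
# Pairs of complementary totally singular subspaces of dimension at least three
-/

set_option autoImplicit false
set_option maxHeartbeats 400000

namespace H12

open Module H11 Submodule QuadraticMap Cfsg.Geo Cfsg

section

variable {F : Type*} [Field F] {T : FormType F} {V : Type*} [AddCommGroup V] [Module F V]
  {C : CForm T V} {G X : Subgroup (V ≃ₗ[F] V)} {U U' : Submodule F V} {P : V →ₗ[F] V}

theorem rho_iff_rq (σε : T.σ T.ε = T.ε) {p r : V} : Rho C X p r ↔ Rq C X r p 0 :=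
  exists_congr fun g => and_congr_right fun _ => forall_congr' fun x => by
    rw [C.σ_B, σε, zero_mul, add_zero]

variable [FiniteDimensional F V]

variable (C G X U U' P) in
/-- An overgroup of the stabiliser of the pair. -/
structure Lg3 : Prop where
  pair : LagPair C U U' P
  rd : RhoData C G
  hc : ∀ c, T.τ (T.ε * c) = 0 → ∃ d, T.σ d - T.ε * d = c
  h0 : ∃ θ, T.σ θ ≠ T.ε * θ
  hd : 3 ≤ finrank F U
  hX : glStab U ⊓ glStab U' ⊓ G ≤ X
  hXG : X ≤ G
  swap : ∃ s ∈ X, U.map (s : V →ₗ[F] V) = U' ∧ U'.map (s : V →ₗ[F] V) = U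
  ne : ¬ G ≤ X

namespace Lg3

variable (h : Lg3 C G X U U' P)
include h

theorem symm : Lg3 C G X U' U (LinearMap.id - P) :=
  ⟨h.pair.symm, h.rd, h.hc, h.h0, h.pair.left.finrank_eq h.pair.right ▸ h.hd,
    by rw [inf_comm (glStab U')]; exact h.hX, h.hXG,
    let ⟨s, a, b, c⟩ := h.swap; ⟨s, a, c, b⟩, h.ne⟩

theorem isom {g : V ≃ₗ[F] V} (hg : g ∈ X) : g ∈ C.isom := h.rd.root.spec.le (h.hXG hg)

theorem rq {u w : V} (hu : u ∈ U) (hw : w ∈ U') (huw : C.B u w = 0) : Rq C X u w 0 :=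
  (rho_iff_rq h.rd.σε).1 (h.symm.pair.rho h.rd h.symm.hX hw hu (C.B_swap_zero huw))

theorem mem_span {u y : V} {a : F} (hu : u ∈ U) (hu0 : u ≠ 0) (hy : y ∈ U)
    (hr : Rq C X u y a) : y ∈ span F {u} := by
  by_contra hn
  have o := h.pair.left.1.2
  have hC := h.rd.root.spec.nondeg
  have b3 : ∀ z ∈ U, z ∉ span F {u, y} → Rq C X u z 0 := fun z hz e => by
    obtain ⟨w, hw, a1, a2⟩ := h.pair.exists_dual hC (span_le.2 (by
      rintro _ (rfl | rfl); exacts [hu, hz])) hy (not_mem_span_pair_swap hn e)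
    obtain ⟨k, hk, e⟩ := h.pair.rho h.rd h.hX hz hw (C.B_swap_zero (a1 z (subset_span (by simp))))
    simpa [e, a2, o z hz y hy, o y hy z hz] using hr.comm hk (h.isom hk)
      (by simp [e, a1 u (subset_span (by simp)), o z hz u hu]) (o u hu u hu) (o u hu y hy)
  have b4 : ∀ z ∈ U, Rq C X u z 0 := fun z hz => by
    by_cases e : z ∈ span F {u, y}
    · obtain ⟨x, hx, a8⟩ := exists_mem_not_mem_of_finrank_lt (W := span F {u, y}) (W' := U) (by
        have := finrank_span_pair_le (F := F) u y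
        have := h.hd
        omega)
      simpa [o x hx z hz] using (b3 (z + x) (add_mem hz hx) fun e' => a8 (by
        simpa using sub_mem e' e)).div (b3 x hx a8) (o u hu u hu) (o u hu _ (add_mem hz hx))
        (o u hu x hx)
    · exact b3 z hz e
  obtain ⟨s, hs, a, -⟩ := h.swap
  refine h.ne (h.pair.le_of_fullQ h.rd h.hX h.hXG hs a hu hu0
    (h.pair.fullQ h.rd h.hc h.hX h.hXG hu hu0 fun z hz => ?_))
  have := ((rho_iff_rq h.rd.σε).2 (b4 _ (U.smul_mem (-T.ε) hz))).swap h.rd.εε h.rd.σε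
  rwa [smul_smul, neg_mul_neg, h.rd.εε, one_smul] at this

theorem proj {u r : V} (hu : u ∈ U) (hur : C.B u r = 0) (hr : Rq C X u r 0) :
    Rq C X u (P r) (-T.σ (C.B (r - P r) (P r))) := by
  have o := h.pair.left.1.2
  have a1 : C.B u (r - P r) = 0 := by rw [map_sub, hur, o u hu _ (h.pair.mem r), sub_zero]
  simpa using hr.div (h.rq hu (h.pair.sub r) a1) (o u hu u hu) hur a1

theorem tv_eq {p : V} {a : F} (hp : p ∈ U) (hp0 : p ≠ 0) (hr : Rq C X p 0 a) : a = 0 := by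
  have o := h.pair.left.1.2
  obtain ⟨u, hu, a1⟩ := exists_mem_not_mem_of_finrank_lt (W := span F {p}) (W' := U) (by
    have := finrank_span_singleton_le (F := F) p
    have := h.hd
    omega)
  have hu0 : u ≠ 0 := fun e => a1 (e ▸ zero_mem _)
  have a2 := not_mem_span_of_not_mem hp0 a1 hu0
  obtain ⟨w, hw, a3, a4⟩ := h.pair.exists_dual h.rd.root.spec.nondeg
    ((span_singleton_le_iff_mem _ _).2 hu) hp a2
  have a5 := C.B_swap_zero (a3 u (mem_span_singleton_self u))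
  obtain ⟨k, hk, e⟩ := hr
  have a6 : k u = u := by simp [e, o p hp u hu]
  have a7 := (h.rq hu hw a5).conj hk (h.isom hk)
  rw [a6] at a7
  have a8 := h.mem_span hu hu0 (h.pair.mem _)
    (h.proj hu (by rw [← a6, CForm.isom_B (h.isom hk), a5]) a7)
  have a9 : P w = 0 := by simpa using h.pair.symm.self hw
  by_contra ha
  simp only [e, smul_zero, add_zero, map_zero, zero_add, map_sub, a9, zero_sub, map_smul,
    h.pair.self hp, neg_mem_iff] at a8
  exact a2 ((smul_mem_iff _ (mul_ne_zero ha (C.B_swap_ne (a4 ▸ one_ne_zero)))).1 a8)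

theorem map_mem {g : V ≃ₗ[F] V} (hg : g ∈ X) {u w : V} (hu : u ∈ U) (hu0 : u ≠ 0) (hgu : g u ∈ U)
    (hw : w ∈ U') (huw : C.B u w = 0) : g w ∈ U' := by
  have o := h.pair.left.1.2
  have a0 : g u ≠ 0 := by simpa
  have a1 : ∀ θ : F, Rq C X (g u) (P (θ • g w)) _ := fun θ => h.proj hgu
    (by rw [C.B_smul_right, CForm.isom_B (h.isom hg), huw, mul_zero])
    (by simpa using (h.rq hu (U'.smul_mem θ hw) (by simp [huw])).conj hg (h.isom hg))
  obtain ⟨ν, hν⟩ := mem_span_singleton.1 (h.mem_span hgu a0 (h.pair.mem _) (a1 1))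
  rw [one_smul] at hν
  have a2 : ν = 0 := by
    by_contra hn
    obtain ⟨θ, hθ⟩ := h.h0
    obtain ⟨k, hk, e⟩ := a1 (θ / ν)
    have a3 : C.B (g w) (g u) = 0 := by rw [CForm.isom_B (h.isom hg), C.B_swap_zero huw]
    refine hθ (sub_eq_zero.1 ((mul_eq_zero.1
      (h.tv_eq hgu a0 ⟨k, hk, fun x => ?_⟩)).resolve_left T.ε_ne))
    rw [e, map_smul, ← hν, smul_smul (θ / ν), div_mul_cancel₀ _ hn]
    simp only [C.B_sub_left, C.B_smul_left, C.B_smul_right, a3, o _ hgu _ hgu, map_mul, C.σ_B x,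
      h.rd.σε]
    match_scalars
    · ring
    · simp; linear_combination (-θ * C.B (g u) x) * h.rd.εε
  have := h.pair.sub (g w)
  rwa [← hν, a2, zero_smul, sub_zero] at this

theorem exists_perp (a b : V) : ∃ u ∈ U, u ≠ 0 ∧ C.B a u = 0 ∧ C.B b u = 0 := by
  obtain ⟨u, hu, h6⟩ := exists_mem_ne_zero_of_ne_bot (ne_bot_of_finrank_pos
    (W := U ⊓ C.perp (span F {a, b})) (by
      have := h.rd.root.spec.nondeg.finrank_inf_perp U (span F {a, b})
      have := finrank_span_pair_le (F := F) a b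
      have := h.hd
      omega))
  exact ⟨u, hu.1, h6, C.mem_perp_pair.1 hu.2⟩

theorem mem_stab {g : V ≃ₗ[F] V} (hg : g ∈ X) {u : V} (hu : u ∈ U) (hu0 : u ≠ 0) (hgu : g u ∈ U) :
    g ∈ glStab U ⊓ glStab U' := by
  have a1 : ∀ x ∈ U, g x ∈ U := fun x hx => by
    obtain ⟨w, hw, hw0, b1, b2⟩ := h.symm.exists_perp u x
    exact h.symm.map_mem hg hw hw0 (h.map_mem hg hu hu0 hgu hw b1) hx (C.B_swap_zero b2)
  refine ⟨mem_glStab_of_mapsTo a1, mem_glStab_of_mapsTo fun x hx => ?_⟩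
  obtain ⟨y, hy, hy0, b1, -⟩ := h.exists_perp x x
  exact h.map_mem hg hy hy0 (a1 y hy) hx (C.B_swap_zero b1)

theorem main {g : V ≃ₗ[F] V} (hg : g ∈ X) :
    g ∈ glStab U ⊓ glStab U' ∨ U.map (g : V →ₗ[F] V) = U' ∧ U'.map (g : V →ₗ[F] V) = U := by
  have o' := h.pair.right.1.2
  have hC := h.rd.root.spec.nondeg
  obtain ⟨u, hu, hu0, -⟩ := h.exists_perp 0 0
  obtain ⟨w, hw, hw0, huw, -⟩ := h.symm.exists_perp u u
  obtain ⟨u₀, b1, b2, b3, b4⟩ := h.exists_perp (g u) (g w)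
  have key : ∀ θ : F, ∀ x ∈ U',
      (θ * C.B (g u) x) • P (g w) = (T.σ θ * T.ε * C.B (g w) x) • P (g u) := fun θ x hx => by
    obtain ⟨k, hk, e⟩ := (h.rq hu (U'.smul_mem θ hw) (by simp [huw])).conj hg (h.isom hg)
    have a1 := (h.mem_stab hk b1 b2 (by
      simpa [e, b3, C.B_swap_zero b4] using b1)).2
    have a2 : ∀ y ∈ U', P y = 0 := fun y hy => by simpa using h.pair.symm.self hy
    have a3 := a2 _ ((a1 x).1 hx)
    rw [e] at a3
    simp only [map_add, map_sub, map_smul, a2 x hx, zero_add, smul_eq_mul, map_mul, C.σ_B x,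
      h.rd.σε, zero_mul, add_zero, sub_eq_zero, smul_smul] at a3
    rw [mul_comm θ, a3, mul_assoc]
  by_cases c1 : P (g w) = 0
  · refine .inl ?_
    rw [inf_comm]
    exact h.symm.mem_stab hg hw hw0 (by simpa [c1] using h.pair.sub (g w))
  by_cases c2 : P (g u) = 0
  · obtain ⟨s, hs, a1, a2⟩ := h.swap
    have a3 := h.mem_stab (mul_mem hs hg) hu hu0 (a2 ▸ ⟨g u, by simpa [c2] using h.pair.sub (g u),
      rfl⟩)
    have a4 := mem_glStab_iff_map.1 a3.1
    have a5 := mem_glStab_iff_map.1 a3.2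
    rw [map_mul_equiv] at a4 a5
    exact .inr ⟨map_injective_of_injective s.injective (a4.trans a2.symm),
      map_injective_of_injective s.injective (a5.trans a1.symm)⟩
  exfalso
  obtain ⟨x, hx, -, a1⟩ := h.pair.exists_dual hC (Z := ⊥) bot_le (h.pair.mem (g w)) (by simpa)
  rw [h.pair.B_proj hx] at a1
  have a2 := C.B_swap_ne (a1 ▸ one_ne_zero)
  obtain ⟨θ, hθ⟩ := h.h0
  have a3 := key 1 x hx
  rw [map_one, one_mul, one_mul] at a3
  have a4 : C.B (g u) x ≠ 0 := fun e => by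
    rw [e, zero_smul, eq_comm, smul_eq_zero] at a3
    exact a3.elim (mul_ne_zero T.ε_ne a2) c2
  have a5 : ∀ θ, T.σ θ = θ := fun θ => by
    have := key θ x hx
    rw [mul_smul, a3, smul_smul, ← sub_eq_zero, ← sub_smul, smul_eq_zero] at this
    have := this.resolve_right c2
    exact mul_right_cancel₀ (mul_ne_zero T.ε_ne a2) (by linear_combination -this)
  have a6 := congrArg (C.B x) a3
  rw [map_smul, map_smul, h.pair.B_proj hx, h.pair.B_proj hx, a1, C.symm x (g w), a1,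
    C.symm x (g u), a5, a5] at a6
  have a7 : C.B x (g u) ≠ 0 := C.B_swap_ne a4
  have a8 : T.ε = 1 := mul_right_cancel₀ a7 (by
    simp only [smul_eq_mul, mul_one] at a6
    linear_combination a6 + C.B x (g u) * h.rd.εε)
  exact hθ (by rw [a5, a8, one_mul])

end Lg3

theorem RhoData.isMaximalIn_lagPair' (hR : RhoData C G)
    (hc : ∀ c, T.τ (T.ε * c) = 0 → ∃ d, T.σ d - T.ε * d = c) (h0 : ∃ θ, T.σ θ ≠ T.ε * θ)
    (hd : 6 ≤ finrank F V)
    {D : Fin 2 → Submodule F V} {π : Fin 2 → V →ₗ[F] V} (hπ : IsProj D π) (hD : ∀ i, C.Lag (D i))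
    (hs : ∀ s ∈ C.isom, (D 0).map (s : V →ₗ[F] V) = D 1 →
      ∃ k ∈ glStab (D 0) ⊓ glStab (D 1), s * k ∈ G) :
    IsMaximalIn G (decStab D ⊓ G) := by
  have h := lagPair_of hπ hD
  have hC := hR.root.spec.nondeg
  have d0 := (hD 0).2
  have d1 := (hD 1).2
  refine isMaximalIn_of _ _ inf_le_right (fun hle => ?_) fun M h1 h2 g hg hg' => ?_
  · obtain ⟨u, hu, hu0⟩ := exists_mem_ne_zero_of_ne_bot
      (ne_bot_of_finrank_pos (W := D 0) (by omega))
    obtain ⟨w, hw, hw0⟩ := exists_mem_ne_zero_of_ne_bot (ne_bot_of_finrank_pos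
      (W := D 1 ⊓ C.perp (span F {u})) (by
        have := hC.finrank_inf_perp (D 1) (span F {u})
        have := finrank_span_singleton_le (F := F) u
        omega))
    have a1 := hπ.not_mem (i := 0) (j := 1) (x := u + w) (by simp)
      (by simpa [hπ.self hu, hπ.other 0 1 (by simp) w hw.1])
      (by simpa [hπ.self hw.1, hπ.other 1 0 (by simp) u hu])
    obtain ⟨g, hg, e⟩ := hR.root.spec.witt_one (by omega) hu0 (v := u + w)
      (fun e => a1 0 (e ▸ zero_mem _)) (by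
        rw [C.N_add_of_orth (C.mem_perp_singleton.1 hw.2), (hD 1).1.1 w hw.1, add_zero])
    exact hπ.not_mem_decStab hu (e ▸ a1) (hle hg).1
  obtain ⟨s₀, hs₀, a1, a2⟩ := h.exists_swap hC
  obtain ⟨k, hk, a3⟩ := hs s₀ hs₀ a1
  have a4 : (D 0).map ((s₀ * k : V ≃ₗ[F] V) : V →ₗ[F] V) = D 1 := by
    rw [map_mul_equiv, mem_glStab_iff_map.1 hk.1, a1]
  have a5 : (D 1).map ((s₀ * k : V ≃ₗ[F] V) : V →ₗ[F] V) = D 0 := by
    rw [map_mul_equiv, mem_glStab_iff_map.1 hk.2, a2]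
  have a6 : s₀ * k ∈ M := h1 ⟨⟨Equiv.swap 0 1, Fin.forall_fin_two.2 ⟨a4, a5⟩⟩, a3⟩
  by_contra hM
  have hL : Lg3 C G M (D 0) (D 1) (π 0) := ⟨h, hR, hc, h0, by omega, fun k hk =>
    h1 ⟨mem_decStab_of_stab (Fin.forall_fin_two.2 hk.1), hk.2⟩, h2, ⟨_, a6, a4, a5⟩, hM⟩
  rcases hL.main hg with e | e
  · exact hg' ⟨mem_decStab_of_stab (Fin.forall_fin_two.2 e), h2 hg⟩
  · exact hg' ⟨⟨Equiv.swap 0 1, Fin.forall_fin_two.2 e⟩, h2 hg⟩

end

theorem spl_lag' {F : Type*} [Field F] [Fintype F] {m : ℕ} (hm : 3 ≤ m)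
    (hodd : Odd (Fintype.card F))
    {D : Fin 2 → Submodule F (Fin m ⊕ Fin m → F)} (hD : IsMDecomposition m D)
    (hts : ∀ i, IsTotallySingularFor (sympForm m F) (D i)) :
    IsMaximalIn (spGL m F) (decompositionStabilizer D ⊓ spGL m F) := by
  have hC := spForm_nondeg (ι := Fin m) (F := F)
  have hd : finrank F (Fin m ⊕ Fin m → F) = m + m := by simp
  obtain ⟨π, hπ⟩ := exists_isProj hD.indep hD.iSup_eq_top
  have h2 := odd_card_iff.1 hodd
  rw [spGL_eq, decompositionStabilizer_eq, ← Subgroup.comap_inf]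
  refine isMaximalIn_comap _ ((rhoData_alt hC).isMaximalIn_lagPair' (fun c _ => ⟨c / 2, ?_⟩)
    ⟨1, fun e => h2 ?_⟩
    (by omega) hπ (fun i => ⟨⟨fun _ _ => rfl, fun x hx y hy => ?_⟩, by rw [hD.finrank_eq]; omega⟩)
    fun s hs _ => ⟨1, one_mem _, by simpa⟩)
  · change c / 2 - -1 * (c / 2) = c
    field_simp; ring
  · change (1 : F) = -1 * 1 at e
    linear_combination e
  · rw [spForm_B_eq]; exact hts i x hx y hy

theorem sul_lag' {F : Type*} [Field F] [Fintype F] {n q : ℕ} (hF : Fintype.card F = q ^ 2)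
    (hn : 6 ≤ n) {k : ℕ} (hk : 2 * k = n) {D : Fin 2 → Submodule F (Fin n → F)}
    (hD : IsMDecomposition k D) (hts : ∀ i, IsTotallySingularFor (hermForm n F q) (D i)) :
    IsMaximalIn (GU n F q ⊓ specialLinear (Fin n) F)
      (decompositionStabilizer D ⊓ (GU n F q ⊓ specialLinear (Fin n) F)) := by
  have hC := hermC_nondeg (ι := Fin n) hF
  have hd : finrank F (Fin n → F) = n := by simp
  obtain ⟨π, hπ⟩ := exists_isProj hD.indep hD.iSup_eq_top
  have hσ := frob_ne_id hF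
  have hσ2 := frob_frob hF
  have hL : ∀ i, (hermC (Fin n) hF).Lag (D i) := fun i => ⟨⟨fun x hx => hts i x hx x hx,
    fun x hx y hy => hts i y hy x hx⟩, by rw [hD.finrank_eq]; omega⟩
  obtain ⟨a, ha⟩ := exists_ne_of_ne_id hσ
  rw [SU_eq hF, decompositionStabilizer_eq, ← Subgroup.comap_inf]
  refine isMaximalIn_comap _ ((rhoData_herm hσ (exists_norm_of_finite hσ2 hσ) hC
    (by omega)).isMaximalIn_lagPair' (fun c hc => ?_) ⟨a, fun e => ha (e.trans (one_mul a))⟩
    (by omega) hπ hL fun g hg _ => ?_)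
  · have h1 : frob hF a - a ≠ 0 := sub_ne_zero.2 ha
    have h2 : frob hF c = -c := by
      have : 1 * c + frob hF (1 * c) = 0 := hc
      rw [one_mul] at this
      linear_combination this
    refine ⟨c / (frob hF a - a) * a, ?_⟩
    change frob hF _ - 1 * _ = c
    rw [map_mul, map_div₀, map_sub, hσ2, h2, ← neg_sub (frob hF a), neg_div_neg_eq]
    field_simp
  · have h := lagPair_of hπ hL
    obtain ⟨e, he, f, hf, hef⟩ := h.exists_hyp hC (by omega)
    have h1 := hC.σ_det_mul_det hg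
    obtain ⟨a, ha, e'⟩ := hilbert90 hσ hσ2
      (d := frob hF (LinearMap.det (g : (Fin n → F) →ₗ[F] (Fin n → F)))) (by rw [hσ2]; exact h1)
    obtain ⟨k, h2, h3, h4, h5⟩ := hef.exists_torus hC ha
    refine ⟨k.1, h.torus_mem he hf hef h2 h3 h4, mul_mem hg k.2, mem_SLV.2 ?_⟩
    rw [LinearEquiv.coe_toLinearMap_mul, map_mul, ← LinearEquiv.coe_det k.1, h5, mul_comm]
    exact (congrArg (· * _) e').trans h1

end H12
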