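import Cfsg.Agent.H12.WR12
import Cfsg.Agent.H12.TvBridge
import Cfsg.Agent.H12.SUList
import Cfsg.Agent.H12.SLList
import Cfsg.Agent.H13.C3Lin3

/-! Tensor-wreath rows without the dimension bound. -/

set_option autoImplicit false

open Cfsg Cfsg.Geo

namespace H12.N9

variable {F : Type*} [Field F] [Fintype F] {n q k t : ℕ}

theorem wr_lin (hm : 3 ≤ k) (ht : 2 ≤ t) (e : Fin n ≃ (Fin t → Fin k)) (P : GL (Fin n) F) :
    IsMaximalIn (specialLinear (Fin n) F) (tensorWreathSubgroup k t e P ⊓ specialLinear (Fin n) F) := by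
  obtain ⟨s, rfl⟩ : ∃ s, t = s + 1 := ⟨t - 1, by omega⟩
  have : NeZero k := ⟨by omega⟩
  obtain ⟨θ, π, H, ρ, h, e1, -⟩ := H12.exists_tpw e P
  rw [e1, H13.KL.specialLinear_eq_trE θ, ← Subgroup.comap_inf]
  refine H12.isMaximalIn_comap _ (h.isMax_lin (by simpa) ?_ ?_)
  · simpa using (Nat.le_self_pow (by omega) k).trans' (by omega : 2 ≤ k)
  · simpa using (Nat.even_or_odd k).imp_right Odd.pow

theorem wr_herm (hF : Fintype.card F = q ^ 2) (hk : 3 ≤ k) (ht : 2 ≤ t) (hex : ¬ (q = 2 ∧ k = 3))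
    (e : Fin n ≃ (Fin t → Fin k)) (P : GL (Fin n) F) (f₁ : (Fin k → F) → (Fin k → F) → F)
    (hf₁ : IsUnitaryFormPow q f₁)
    (hT : IsTensorPowerFormStructure (fun x : F => x ^ q) (hermForm n F q) f₁ e P) :
    IsMaximalIn (GU n F q ⊓ specialLinear (Fin n) F)
      (tensorWreathSubgroup k t e P ⊓ (GU n F q ⊓ specialLinear (Fin n) F)) := by
  obtain ⟨s, rfl⟩ : ∃ s, t = s + 1 := ⟨t - 1, by omega⟩
  have : NeZero k := ⟨by omega⟩
  have hσ := H11.frob_ne_id hF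
  have hN := H12.exists_norm_of_finite (H11.frob_frob hF) hσ
  obtain ⟨θ, π, H, ρ, h, e1, e2⟩ := H12.exists_tpw e P
  obtain ⟨c, e3⟩ := H12.tp_bridge (fun x => (Finset.prod_pow _ q x).symm)
    (H13.KL.formOfGram_herm hF hf₁) hT
  obtain ⟨C₂, d₂, e₂⟩ := H12.exists_cform_herm' hσ (H11.frob_frob hF) hf₁.add_left hf₁.smul_left
    hf₁.herm hf₁.nondegenerate
  rw [e1, H13.KL.SU_eq_trE hF θ, ← Subgroup.comap_inf]
  have h' : H12.TPF ((H11.hermC (Fin n) hF).comap θ.toLinearMap) C₂ H ρ 0 π c :=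
    ⟨h, H13.KL.comap_nondeg (H11.hermC_nondeg (ι := Fin n) hF) θ, d₂, fun _ => rfl, fun x y => by
      simp only [H12.CForm.comap_B, H11.hermC_B_eq, LinearEquiv.coe_coe, e2, e3, e₂],
      fun x y a => by rwa [H12.herm_B_self, H12.herm_B_self] at a⟩
  obtain ⟨C₁, h''⟩ := h'.tw_herm hσ hN (by simpa)
    (by simpa using (Nat.le_self_pow (by omega) k).trans' hk)
    (by simpa [Module.finrank_tensorProduct] using
      (Nat.even_or_odd k).imp_right fun a => a.pow.mul a)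
  refine H12.isMaximalIn_comap _ ?_
  by_cases h3 : k = 3
  · obtain ⟨l, a, b, c⟩ := H12.exists_fixed_ne hF fun a => hex ⟨a, h3⟩
    exact h''.isMax_herm3 hσ hN (by simpa) a b c
  · exact h''.isMax_herm hσ hN (by simp; omega)

end H12.N9
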