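import Cfsg.Agent.H12.OF5

/-!
# Non-degenerate planes over finite fields
-/

set_option autoImplicit false
set_option maxHeartbeats 400000

namespace H12

open Module H11 QuadraticMap Finset

section Field

variable {F : Type*} [Field F] [Fintype F] [DecidableEq F]

/-- The roots of a quadratic polynomial. -/
def qrts (a b c : F) : Finset F := univ.filter fun s => a * s * s + b * s + c = 0

theorem mem_qrts {a b c s : F} : s ∈ qrts a b c ↔ a * s * s + b * s + c = 0 := by simp [qrts]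

theorem card_qrts {a b c : F} (h : ¬ (a = 0 ∧ b = 0 ∧ c = 0)) : (qrts a b c).card ≤ 2 := by
  by_contra hc
  obtain ⟨x, y, z, hx, hy, hz, h1, h2, h3⟩ := two_lt_card_iff.1 (not_le.1 hc)
  rw [mem_qrts] at hx hy hz
  have e1 : a * (x + y) + b = 0 :=
    mul_left_cancel₀ (sub_ne_zero.2 h1) (by linear_combination hx - hy)
  have e2 : a * (x + z) + b = 0 :=
    mul_left_cancel₀ (sub_ne_zero.2 h2) (by linear_combination hx - hz)
  have e3 : a = 0 := mul_left_cancel₀ (sub_ne_zero.2 h3) (by linear_combination e1 - e2)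
  have e4 : b = 0 := by rw [e3] at e1; simpa using e1
  exact h ⟨e3, e4, by rw [e3, e4] at hx; simpa using hx⟩

theorem exists_notMem_card {s : Finset F} (h : s.card < Fintype.card F) : ∃ x, x ∉ s := by
  obtain ⟨x, -, hx⟩ := exists_mem_notMem_of_card_lt_card (s := s) (t := univ) (by rwa [card_univ])
  exact ⟨x, hx⟩

/-- The values of a quadratic polynomial. -/
def qval (a b c : F) : Finset F := univ.image fun s => a * s * s + b * s + c

theorem mem_qval {a b c x : F} : x ∈ qval a b c ↔ ∃ s, a * s * s + b * s + c = x := by simp [qval]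

theorem card_qval {a : F} (ha : a ≠ 0) (b c : F) : Fintype.card F ≤ 2 * (qval a b c).card := by
  refine card_le_mul_card_image _ _ fun x _ => (card_le_card fun s hs => ?_).trans
    (card_qrts (a := a) (b := b) (c := c - x) fun e => ha e.1)
  rw [mem_qrts]
  linear_combination (mem_filter.1 hs).2

theorem exists_qval_add {a a' : F} (ha : a ≠ 0) (ha' : a' ≠ 0) {b c b' c' : F}
    (h : ∀ s, a * s * s + b * s + c ≠ 0) (h' : ∀ s, a' * s * s + b' * s + c' ≠ 0) :
    ∃ s s', a * s * s + b * s + c + (a' * s' * s' + b' * s' + c') = 0 := by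
  by_contra hc
  push Not at hc
  have h1 := card_qval ha b c
  have h2 := card_qval (neg_ne_zero.2 ha') (-b') (-c')
  have h3 : Disjoint (qval a b c) (qval (-a') (-b') (-c')) := disjoint_left.2 fun x hx hx' => by
    obtain ⟨s, rfl⟩ := mem_qval.1 hx
    obtain ⟨s', e⟩ := mem_qval.1 hx'
    exact hc s s' (by linear_combination -e)
  have h4 : qval a b c ∪ qval (-a') (-b') (-c') ⊆ univ.erase 0 := fun x hx => by
    refine mem_erase.2 ⟨?_, mem_univ _⟩
    rintro rfl
    rcases mem_union.1 hx with e | e <;> obtain ⟨s, e⟩ := mem_qval.1 e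
    · exact h s e
    · exact h' s (by linear_combination -e)
  have h5 := card_le_card h4
  rw [card_union_of_disjoint h3, card_erase_of_mem (mem_univ _), card_univ] at h5
  have := Fintype.card_pos (α := F)
  omega

/-- A large subring of a finite field is everything. -/
theorem subring_eq_top (M : Subring F) {s : Finset F} (hs : ∀ x ∈ s, x ∈ M)
    (h : Fintype.card F ≤ 2 * s.card ∧ 5 ≤ Fintype.card F ∨ Fintype.card F + 2 ≤ 2 * s.card) :
    ∀ x, x ∈ M := by
  classical
  let K : Subfield F := { M with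
    inv_mem' := fun x hx => by
      by_cases h0 : x = 0
      · rw [h0, inv_zero]; exact M.zero_mem
      have h1 := FiniteField.pow_card_sub_one_eq_one x h0
      have h2 := Fintype.one_lt_card (α := F)
      rw [show x⁻¹ = x ^ (Fintype.card F - 2) from inv_eq_of_mul_eq_one_right (by
        rw [← pow_succ', ← h1]; congr 1; omega)]
      exact M.pow_mem hx _ }
  by_contra hc
  have h1 : s.card ≤ Fintype.card K := by
    rw [← card_univ, ← card_attach]
    exact card_le_card_of_injOn (fun x => ⟨x.1, hs _ x.2⟩) (fun _ _ => mem_univ _)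
      fun x _ y _ e => Subtype.ext (by simpa using e)
  have h2 := Module.card_eq_pow_finrank (K := K) (V := F)
  have h3 : 2 ≤ finrank K F := by
    by_contra h3
    have h4 : finrank K F = 1 := by have := finrank_pos (R := K) (M := F); omega
    rw [h4, pow_one] at h2
    refine hc fun x => ?_
    obtain ⟨y, rfl⟩ := ((Fintype.bijective_iff_injective_and_card (K.subtype)).2
      ⟨K.subtype.injective, h2.symm⟩).2 x
    exact y.2
  have h4 : Fintype.card K ^ 2 ≤ Fintype.card F := h2 ▸ Nat.pow_le_pow_right Fintype.card_pos h3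
  rcases h with ⟨h5, h6⟩ | h5 <;> nlinarith

omit [DecidableEq F] in
theorem exists_sq_pair {a b c : F} (ha : a ≠ 0) (hb : b ≠ 0) (hc : c ≠ 0) :
    IsSquare (a * b) ∨ IsSquare (a * c) ∨ IsSquare (b * c) := by
  rw [isSquare_mul_iff ha hb, isSquare_mul_iff ha hc, isSquare_mul_iff hb hc]
  rcases Int.units_eq_one_or (qsign a) with h | h <;>
    rcases Int.units_eq_one_or (qsign b) with h' | h' <;>
    rcases Int.units_eq_one_or (qsign c) with h'' | h'' <;> simp [h, h', h'']

omit [DecidableEq F] in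
theorem isSquare_of_not {a b c : F} (ha : a ≠ 0) (hb : b ≠ 0) (hc : c ≠ 0)
    (h1 : ¬ IsSquare (a * c)) (h2 : ¬ IsSquare (b * c)) : IsSquare (a * b) :=
  ((exists_sq_pair ha hb hc).resolve_right fun h => h.elim h1 h2)

omit [DecidableEq F] in
theorem isSquare_trans {a b c : F} (ha : a ≠ 0) (hb : b ≠ 0) (hc : c ≠ 0)
    (h1 : IsSquare (a * b)) (h2 : IsSquare (b * c)) : IsSquare (a * c) := by
  rw [isSquare_mul_iff ha hb] at h1
  rw [isSquare_mul_iff hb hc] at h2
  exact (isSquare_mul_iff ha hc).2 (h1.trans h2)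

end Field

variable {F : Type*} [Field F] {V : Type*} [AddCommGroup V] [Module F V]
  {Q : QuadraticForm F V} [FiniteDimensional F V]

local notation "𝓒" => CForm.ofQuad Q

omit [FiniteDimensional F V] in
theorem exists_map_eq_of_inj {A B : Submodule F V} [FiniteDimensional F B] (f : V →ₗ[F] V)
    (h1 : ∀ x ∈ A, f x ∈ B) (h2 : ∀ x ∈ A, f x = 0 → x = 0) (h3 : finrank F B ≤ finrank F A)
    {w : V} (hw : w ∈ B) : ∃ v ∈ A, f v = w := by
  have hi : Function.Injective (f.restrict h1) := (injective_iff_map_eq_zero _).2 fun x hx =>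
    Subtype.ext (h2 x x.2 (congrArg Subtype.val hx))
  have : LinearMap.range (f.restrict h1) = ⊤ := Submodule.eq_top_of_finrank_eq (le_antisymm
    (Submodule.finrank_le _) (by rwa [LinearMap.finrank_range_of_inj hi]))
  obtain ⟨v, hv⟩ := LinearMap.range_eq_top.1 this ⟨w, hw⟩
  exact ⟨v, v.2, congrArg Subtype.val hv⟩

variable (Q) in
/-- A non-degenerate plane with enough reflections. -/
structure Pl [Fintype F] (P : Submodule F V) : Prop where
  nd : (CForm.ofQuad Q).NondegOn P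
  two : finrank F P = 2
  big : (∀ x ∈ P, Q x = 0 → x = 0) ∧ Fintype.card F ≠ 3 ∨ 7 ≤ Fintype.card F

variable [Fintype F] {P : Submodule F V}

theorem Pl.eq_add (h : Pl Q P) {x y z : V} (hx : x ∈ P) (hy : y ∈ P) (hx0 : x ≠ 0)
    (hxy : y ∉ Submodule.span F {x}) (hz : z ∈ P) : ∃ a b : F, z = a • x + b • y := by
  have : Submodule.span F {x, y} = P := Submodule.eq_of_le_of_finrank_eq
    (Submodule.span_le.2 (by rintro _ (rfl | rfl) <;> assumption))
    (by rw [finrank_span_pair_of_not_mem hx0 hxy, h.two])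
  obtain ⟨a, b, e⟩ := Submodule.mem_span_pair.1 (this ▸ hz)
  exact ⟨a, b, e.symm⟩

theorem Pl.eq_zero (h : Pl Q P) {x y z : V} (hx : x ∈ P) (hy : y ∈ P) (hx0 : x ≠ 0)
    (hxy : y ∉ Submodule.span F {x}) (hz : z ∈ P) (h1 : polar Q x z = 0) (h2 : polar Q y z = 0) :
    z = 0 := h.nd.eq_zero hz ((𝓒).mem_perp.2 fun w hw => by
  obtain ⟨a, b, rfl⟩ := h.eq_add hx hy hx0 hxy hw
  rw [CForm.ofQuad_B, polar_add_left, polar_smul_left, polar_smul_left, h1, h2]; simp)

theorem Pl.exists_perp (hQ : QNondeg Q) (h : Pl Q P) (x : V) :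
    ∃ y ∈ P, y ≠ 0 ∧ polar Q x y = 0 := by
  have d1 := hQ.finrank_inf_perp P (Submodule.span F {x})
  have d2 := finrank_span_singleton_le (F := F) x
  have d3 := h.two
  obtain ⟨v, hv, hv0⟩ := Submodule.exists_mem_ne_zero_of_ne_bot
    (p := P ⊓ (𝓒).perp (Submodule.span F {x})) (by intro e; rw [e, finrank_bot] at d1; omega)
  exact ⟨v, hv.1, hv0, (𝓒).mem_perp_singleton.1 hv.2⟩

theorem Pl.ns_of_perp (h : Pl Q P) {x y : V} (hx : x ∈ P) (hx0 : Q x ≠ 0) (hy : y ∈ P)
    (hy0 : y ≠ 0) (hxy : polar Q x y = 0) : Q y ≠ 0 := fun e =>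
  hy0 (h.eq_zero hy hx hy0 (fun e' => by
    obtain ⟨c, rfl⟩ := Submodule.mem_span_singleton.1 e'
    exact hx0 (by rw [Q_smul, e, mul_zero])) hy (by rw [polar_self', e, mul_zero]) hxy)

theorem Pl.exists_perp_ns (hQ : QNondeg Q) (h : Pl Q P) {x : V} (hx : x ∈ P) (hx0 : Q x ≠ 0) :
    ∃ y ∈ P, Q y ≠ 0 ∧ polar Q x y = 0 :=
  let ⟨y, hy, h0, h1⟩ := h.exists_perp hQ x; ⟨y, hy, h.ns_of_perp hx hx0 hy h0 h1, h1⟩

omit [FiniteDimensional F V] [Fintype F] in
theorem ne_zero_of_Q {x : V} (h : Q x ≠ 0) : x ≠ 0 := fun e => h (by rw [e, map_zero])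

theorem Pl.exists_Q (hQ : QNondeg Q) (h : Pl Q P) {c : F} (hc : c ≠ 0) : ∃ w ∈ P, Q w = c :=
  exists_Q_eq_of_nondegOn hQ h.nd h.two.ge hc

/-- A second vector of the same norm. -/
theorem Pl.pair (hQ : QNondeg Q) (h : Pl Q P) {a : V} (ha : a ∈ P) (ha0 : Q a ≠ 0) :
    ∃ b ∈ P, Q b = Q a ∧ b ∉ Submodule.span F {a} ∧ polar Q a b ≠ 0 := by
  classical
  suffices k : ∃ c ∈ P, Q c ≠ 0 ∧ c ∉ Submodule.span F {a} ∧ polar Q c a ≠ 0 ∧
      2 * Q a * Q c ≠ polar Q c a * polar Q c a by
    obtain ⟨c, hc, h1, h2, h3, h4⟩ := k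
    refine ⟨(refl Q c).1 a, ?_, orth_Q _ _, fun e => h2 ?_, fun e => h4 ?_⟩
    · rw [refl_apply]; exact sub_mem ha (P.smul_mem _ hc)
    · rw [refl_apply] at e
      have := sub_mem (Submodule.mem_span_singleton_self a) e
      rwa [sub_sub_cancel, Submodule.smul_mem_iff _ (mul_ne_zero (inv_ne_zero h1) h3)] at this
    · rw [refl_apply, polar_sub_right, polar_smul_right, polar_self', polar_comm Q a c,
        smul_eq_mul] at e
      field_simp at e
      linear_combination e
  by_cases h2 : (2 : F) = 0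
  · obtain ⟨p, hp, h1⟩ := h.nd.exists_eq ha (ne_zero_of_Q ha0) 1
    rw [CForm.ofQuad_B] at h1
    have k1 : ∀ s : F, polar Q (p + s • a) a = 1 := fun s => by
      rw [polar_add_left, polar_smul_left, polar_self', h2, polar_comm, h1]; simp
    obtain ⟨s, hs⟩ : ∃ s : F, Q (p + s • a) ≠ 0 := by
      rcases h.big with h3 | h3
      · refine ⟨0, fun e => ?_⟩
        have := k1 0
        rw [h3.1 _ (add_mem hp (P.smul_mem _ ha)) e] at this
        simp at this
      · obtain ⟨s, hs⟩ := exists_notMem_card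
          ((card_qrts (a := Q a) (b := 1) (c := Q p) fun e => ha0 e.1).trans_lt (by omega))
        refine ⟨s, fun e => hs (mem_qrts.2 ?_)⟩
        rw [Q_add, Q_smul, polar_smul_right, polar_comm, h1, smul_eq_mul] at e
        linear_combination e
    refine ⟨_, add_mem hp (P.smul_mem s ha), hs, fun e => ?_, by rw [k1]; exact one_ne_zero,
      by rw [k1, h2]; simp⟩
    obtain ⟨c, hc⟩ := Submodule.mem_span_singleton.1 e
    have := k1 s
    rw [← hc, polar_smul_left, polar_self', h2] at this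
    simp at this
  obtain ⟨p, hp, hp0, h1⟩ := h.exists_perp_ns hQ ha ha0
  have k1 : ∀ s : F, polar Q (p + s • a) a = s * (2 * Q a) := fun s => by
    rw [polar_add_left, polar_smul_left, polar_self', polar_comm, h1]; simp
  have k2 : ∀ s : F, Q (p + s • a) = Q p + s * s * Q a := fun s => by
    rw [Q_add, Q_smul, polar_smul_right, polar_comm, h1]; simp
  have k3 : ∀ s : F, p + s • a ∉ Submodule.span F {a} := fun s e => by
    have := sub_mem e (Submodule.smul_mem _ s (Submodule.mem_span_singleton_self a))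
    rw [add_sub_cancel_right] at this
    obtain ⟨c, rfl⟩ := Submodule.mem_span_singleton.1 this
    rw [polar_smul_right, polar_self', smul_eq_mul, mul_eq_zero,
      or_iff_left (mul_ne_zero h2 ha0)] at h1
    exact hp0 (by rw [h1, zero_smul, map_zero])
  have c1 := card_qrts (a := Q a) (b := 0) (c := -Q p) fun e => ha0 e.1
  have c2 := card_qrts (a := Q a) (b := 0) (c := Q p) fun e => ha0 e.1
  obtain ⟨s, h3, h4, h5⟩ : ∃ s : F, s ≠ 0 ∧ s ∉ qrts (Q a) 0 (-Q p) ∧ Q (p + s • a) ≠ 0 := by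
    rcases h.big with h3 | h3
    · have h4 : Fintype.card F ≠ 2 := fun e => h2 (by
        have := FiniteField.cast_card_eq_zero F
        rwa [e] at this)
      have h5 := Fintype.one_lt_card (α := F)
      obtain ⟨s, hs⟩ := exists_notMem_card (s := insert 0 (qrts (Q a) 0 (-Q p)))
        ((card_insert_le _ _).trans_lt (by have := h3.2; omega))
      rw [mem_insert, not_or] at hs
      exact ⟨s, hs.1, hs.2, fun e => k3 s (h3.1 _ (add_mem hp (P.smul_mem _ ha)) e ▸ zero_mem _)⟩
    · obtain ⟨s, hs⟩ := exists_notMem_card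
        (s := insert 0 (qrts (Q a) 0 (-Q p) ∪ qrts (Q a) 0 (Q p)))
        ((card_insert_le _ _).trans_lt (by have := card_union_le (qrts (Q a) 0 (-Q p)) (qrts (Q a) 0 (Q p)); omega))
      rw [mem_insert, mem_union, not_or, not_or] at hs
      exact ⟨s, hs.1, hs.2.1, fun e => hs.2.2 (mem_qrts.2 (by rw [k2] at e; linear_combination e))⟩
  refine ⟨_, add_mem hp (P.smul_mem s ha), h5, k3 s, ?_, fun e => h4 (mem_qrts.2 ?_)⟩
  · rw [k1]; exact mul_ne_zero h3 (mul_ne_zero h2 ha0)
  · rw [k1, k2] at e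
    exact mul_left_cancel₀ (mul_ne_zero h2 ha0) (by linear_combination -e)

/-- A vector of given norm not orthogonal to a given vector. -/
theorem Pl.exists_ne (hQ : QNondeg Q) (h : Pl Q P) {c : F} (hc : c ≠ 0) {w : V} (hw : w ∈ P)
    (hw0 : w ≠ 0) : ∃ d ∈ P, Q d = c ∧ polar Q d w ≠ 0 := by
  obtain ⟨a, ha, e⟩ := h.exists_Q hQ hc
  obtain ⟨b, hb, e', h1, -⟩ := h.pair hQ ha (e.trans_ne hc)
  by_cases h2 : polar Q a w = 0
  · exact ⟨b, hb, e'.trans e, fun h3 =>
      hw0 (h.eq_zero ha hb (ne_zero_of_Q (e.trans_ne hc)) h1 hw h2 h3)⟩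
  · exact ⟨a, ha, e, h2⟩

theorem Pl.exists_ne' (hQ : QNondeg Q) (h : Pl Q P) {w : V} (hw : w ∈ P)
    (hw0 : w ≠ 0) : ∃ d ∈ P, Q d ≠ 0 ∧ polar Q d w ≠ 0 ∧ d ∉ Submodule.span F {w} := by
  by_cases h0 : Q w = 0
  · obtain ⟨d, hd, h1, h2⟩ := h.exists_ne hQ one_ne_zero hw hw0
    refine ⟨d, hd, h1.trans_ne one_ne_zero, h2, fun e => h2 ?_⟩
    obtain ⟨c, rfl⟩ := Submodule.mem_span_singleton.1 e
    rw [polar_smul_left, polar_self', h0]; simp
  · obtain ⟨b, hb, e, h1, h2⟩ := h.pair hQ hw h0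
    exact ⟨b, hb, e.trans_ne h0, by rwa [polar_comm], h1⟩

theorem Pl.exists_twin (hQ : QNondeg Q) (h : Pl Q P) {w : V} (hw : w ∈ P)
    (hw0 : w ≠ 0) : ∃ d ∈ P, Q d = Q w ∧ polar Q w d ≠ 0 ∧ d ∉ Submodule.span F {w} := by
  by_cases h0 : Q w = 0
  · obtain ⟨f, hf, h1⟩ := exists_hypPair_sub hQ h.nd hw hw0 h0
    have h2 : polar Q w f = 1 := h1.pair
    refine ⟨f, hf, h1.right.trans h0.symm, h2.trans_ne one_ne_zero, fun e => ?_⟩
    obtain ⟨c, rfl⟩ := Submodule.mem_span_singleton.1 e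
    rw [polar_smul_right, polar_self', h0] at h2
    simp at h2
  · obtain ⟨b, hb, e, h1, h2⟩ := h.pair hQ hw h0
    exact ⟨b, hb, e, h2, h1⟩

/-- The product of two independent reflections has no fixed points in the plane. -/
theorem Pl.fpf (h : Pl Q P) {a b x : V} (ha : a ∈ P) (hb : b ∈ P) (ha0 : Q a ≠ 0) (hb0 : Q b ≠ 0)
    (hab : b ∉ Submodule.span F {a}) (hx : x ∈ P) (e : (refl Q a).1 ((refl Q b).1 x) = x) :
    x = 0 := by
  have e1 : (refl Q b).1 x = (refl Q a).1 x := by
    conv_rhs => rw [← e, ← orth_mul_apply, refl_mul_self]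
    rfl
  rw [refl_apply, refl_apply, sub_right_inj] at e1
  have h1 : polar Q b x = 0 := by
    by_contra h1
    refine hab ((Submodule.smul_mem_iff _ (mul_ne_zero (inv_ne_zero hb0) h1)).1 ?_)
    rw [e1]
    exact Submodule.smul_mem _ _ (Submodule.mem_span_singleton_self a)
  rw [h1, mul_zero, zero_smul, eq_comm, smul_eq_zero, or_iff_left (ne_zero_of_Q ha0), mul_eq_zero,
    or_iff_right (inv_ne_zero ha0)] at e1
  exact h.eq_zero ha hb (ne_zero_of_Q ha0) hab hx e1 h1

/-- A rotation whose square has no fixed points in the plane. -/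
theorem Pl.exists_rot (hQ : QNondeg Q) (h : Pl Q P) :
    ∃ ρ ∈ subG 𝓒 (OmegaV Q) P, ∀ x ∈ P, ρ (ρ x) = x → x = 0 := by
  obtain ⟨a, ha, e⟩ := h.exists_Q hQ one_ne_zero
  have ha0 := e.trans_ne one_ne_zero
  obtain ⟨b, hb, e', h1, h2⟩ := h.pair hQ ha ha0
  have hb0 := e'.trans_ne ha0
  refine ⟨_, (rr_subG hQ ha hb ha0 hb0 ⟨Q a, by rw [e']⟩).2.2, fun x hx e => ?_⟩
  have hc : (refl Q b).1 a ∈ P := by rw [refl_apply]; exact sub_mem ha (P.smul_mem _ hb)
  refine h.fpf ha hc ha0 ((orth_Q _ _).trans_ne ha0) (fun e' => h1 ?_) hx ?_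
  · rw [refl_apply] at e'
    have := sub_mem (Submodule.mem_span_singleton_self a) e'
    rwa [sub_sub_cancel, Submodule.smul_mem_iff _ (mul_ne_zero (inv_ne_zero hb0)
      (by rwa [polar_comm]))] at this
  · rw [← refl_conj, refl_inv]
    exact e

theorem Pl.le_of_refl (hQ : QNondeg Q) (h : Pl Q P) {W : Submodule F V} {w : V} (hw : w ∈ P)
    (hw0 : w ≠ 0) (hW : w ∈ W) (hr : ∀ d ∈ P, Q d ≠ 0 → (refl Q d).1 w ∈ W) : P ≤ W := by
  obtain ⟨d, hd, h1, h2, h3⟩ := h.exists_ne' hQ hw hw0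
  have h4 := sub_mem hW (hr d hd h1)
  rw [refl_apply, sub_sub_cancel, Submodule.smul_mem_iff _ (mul_ne_zero (inv_ne_zero h1) h2)] at h4
  intro z hz
  obtain ⟨a, b, rfl⟩ := h.eq_add hw hd hw0 h3 hz
  exact add_mem (W.smul_mem _ hW) (W.smul_mem _ h4)

/-- An additive group invariant under the reflections of the plane contains full lines. -/
theorem Pl.smul_mem (hQ : QNondeg Q) (h : Pl Q P) {A : AddSubgroup V} {c : V} (hc : c ∈ P)
    (hc0 : Q c ≠ 0) (hA : c ∈ A) (hr : ∀ w ∈ A, w ∈ P → ∀ d ∈ P, Q d ≠ 0 → (refl Q d).1 w ∈ A)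
    (μ : F) : μ • c ∈ A := by
  classical
  let M : Subring F :=
    { carrier := {β | ∀ μ : F, μ • c ∈ A → (β * μ) • c ∈ A}
      mul_mem' := fun {a b} ha hb μ hμ => by rw [mul_assoc]; exact ha _ (hb μ hμ)
      one_mem' := fun μ hμ => by rwa [one_mul]
      add_mem' := fun {a b} ha hb μ hμ => by
        rw [add_mul, add_smul]; exact add_mem (ha μ hμ) (hb μ hμ)
      zero_mem' := fun μ _ => by rw [zero_mul, zero_smul]; exact zero_mem _
      neg_mem' := fun {a} ha μ hμ => by rw [neg_mul, neg_smul]; exact neg_mem (ha μ hμ) }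
  obtain ⟨p, hp, h1⟩ := h.nd.exists_eq hc (ne_zero_of_Q hc0) 1
  rw [CForm.ofQuad_B] at h1
  obtain ⟨p', hp', hp0, h2⟩ := h.exists_perp_ns hQ hc hc0
  have k1 : ∀ s : F, polar Q c (p + s • p') = 1 := fun s => by
    rw [polar_add_right, polar_smul_right, h1, h2]; simp
  have k2 : ∀ s : F, Q c * Q p' * s * s + Q c * polar Q p p' * s + Q c * Q p =
      Q c * Q (p + s • p') := fun s => by
    rw [Q_add, Q_smul, polar_smul_right, smul_eq_mul]; ring
  have k3 : ∀ s : F, (Q c * Q (p + s • p'))⁻¹ ∈ M := fun s => by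
    by_cases h0 : Q (p + s • p') = 0
    · rw [h0, mul_zero, inv_zero]; exact M.zero_mem
    intro μ hμ
    have hd := add_mem hp (P.smul_mem s hp')
    have a1 := sub_mem hμ (hr _ hμ (P.smul_mem μ hc) _ hd h0)
    rw [refl_apply, sub_sub_cancel] at a1
    have a2 := sub_mem a1 (hr _ a1 (P.smul_mem _ hd) _ hc hc0)
    rw [refl_apply, sub_sub_cancel, polar_smul_right, polar_smul_right, k1, polar_comm, k1] at a2
    convert a2 using 2
    simp only [smul_eq_mul]; field_simp
  have k4 := card_qval (mul_ne_zero hc0 hp0) (Q c * polar Q p p') (Q c * Q p)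
  set T := qval (Q c * Q p') (Q c * polar Q p p') (Q c * Q p) with hT
  have k5 : ∀ x ∈ (insert 0 T).image (·⁻¹), x ∈ M := fun x hx => by
    obtain ⟨y, hy, rfl⟩ := mem_image.1 hx
    rcases mem_insert.1 hy with rfl | hy
    · rw [inv_zero]; exact M.zero_mem
    · obtain ⟨s, rfl⟩ := mem_qval.1 hy
      rw [k2]; exact k3 s
  have k6 : ((insert 0 T).image (·⁻¹)).card = (insert 0 T).card :=
    card_image_of_injective _ inv_injective
  have := subring_eq_top M k5 (by
    rw [k6]
    rcases h.big with h3 | h3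
    · right
      rw [card_insert_of_notMem fun e => ?_]
      · omega
      obtain ⟨s, e⟩ := mem_qval.1 e
      rw [k2, mul_eq_zero, or_iff_right hc0] at e
      have := k1 s
      rw [h3.1 _ (add_mem hp (P.smul_mem s hp')) e] at this
      simp at this
    · left
      have := card_le_card (subset_insert 0 T)
      omega) μ 1 (by rwa [one_smul])
  rwa [mul_one] at this

end H12
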