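import Cfsg.Agent.H12.O2b

/-!
# Orthogonal decompositions into planes: supports and anisotropic planes
-/

set_option autoImplicit false
set_option maxHeartbeats 400000

namespace H12

open Module H11 QuadraticMap

variable {F : Type*} [Field F] [Fintype F] {V : Type*} [AddCommGroup V] [Module F V]
  {Q : QuadraticForm F V} [FiniteDimensional F V] {X : Subgroup (V ≃ₗ[F] V)}
  {κ : Type*} [Fintype κ] {D : κ → Submodule F V} {π : κ → V →ₗ[F] V}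

local notation "𝓒" => CForm.ofQuad Q

namespace PD

variable (h : PD Q X D π)
include h

theorem mv {y : V} (hy : Nw Q X D y) {l p : κ} (hp : π p y = 0) :
    ∃ y', RR Q X y' y ∧ π l y' = 0 ∧ (π l y ≠ 0 → π p y' ≠ 0) ∧
      ∀ r, r ≠ l → r ≠ p → π r y' = π r y := by
  obtain ⟨g, hg, e1, e2, e3⟩ := h.dec.exists_swap_isom h.nd l p
  refine ⟨g y, h.map_rr' hy hp hg.1 hg.2, by rw [h.proj_map hg.2 e2, hp, map_zero], fun h0 e => ?_,
    fun r a b => ?_⟩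
  · rw [h.proj_map hg.2 e1] at e
    exact h0 (g.injective (e.trans (map_zero g).symm))
  · rw [h.proj_map hg.2 (mem_glStab_iff_map.1 (mem_glStab_of_mapsTo fun x hx => by
      rwa [e3 r a b x hx])), e3 r a b _ (h.proj.mem r y)]

theorem tw {y : V} (hy : Nw Q X D y) {i o : κ} (ho : π o y = 0) (hi : π i y ≠ 0) :
    ∃ y', RR Q X y' y ∧ π i y' ∉ Submodule.span F {π i y} ∧ polar Q (π i y) (π i y') ≠ 0 ∧
      ∀ r, r ≠ i → π r y' = π r y := by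
  obtain ⟨d, hd, e, h1, h2⟩ := (h.pl i).exists_twin h.nd (h.proj.mem i y) hi
  obtain ⟨g, hg, -, h3⟩ := h.nd.witt_sub (h.pl i).nd bot_le (h.proj.mem i y) hd (by simpa)
    (fun e => h2 (((Submodule.mem_bot F).1 e).symm ▸ zero_mem _)) (by simp) e
  have h4 := h.proj_sub hg y
  rw [h3, sub_eq_iff_eq_add] at h4
  have h5 : π i (g y) = d := by
    rw [h4, map_add, map_sub, h.proj.self hd, h.proj.self (h.proj.mem i y), sub_add_cancel]
  refine ⟨g y, h.map_rr' hy ho (h.dec.subG_le h.nd i hg).1 hg.1, h5 ▸ h2, h5 ▸ h1, fun r hr => ?_⟩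
  rw [h4, map_add, map_sub, h.proj.other r i hr _ hd, h.proj.other r i hr _ (h.proj.mem i y),
    sub_self, zero_add]

theorem comb {y y' : V} (hy : Nw Q X D y) (h1 : RR Q X y' y) {i : κ} (hi : π i y ≠ 0)
    (h2 : π i y' ∉ Submodule.span F {π i y}) (h3 : polar Q (π i y) (π i y') ≠ 0)
    (h4 : ∀ r, r ≠ i → π r y = 0 ∨ π r y' = 0) :
    ∃ z, Nw Q X D z ∧ ∀ r, (π r y ≠ 0 ∨ π r y' ≠ 0) → π r z ≠ 0 := by
  refine ⟨_, h.nw_rr hy (h1.refl_apply (rr_self hy.1)), fun r hr e => ?_⟩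
  have h5 : (Q y)⁻¹ * polar Q y y' ≠ 0 := by
    rw [h.polar_eq_sum, Finset.sum_eq_single i (fun r _ hr => by
      rcases h4 r hr with e | e <;> simp [e]) (fun e => absurd (Finset.mem_univ _) e)]
    exact mul_ne_zero (inv_ne_zero hy.1) h3
  rw [refl_apply, map_sub, map_smul, sub_eq_zero] at e
  by_cases h6 : r = i
  · subst h6
    exact h2 (e ▸ Submodule.smul_mem _ _ (Submodule.mem_span_singleton_self _))
  rcases h4 r h6 with e' | e'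
  · rw [e', smul_zero] at e
    exact hr.elim (fun a => a e') fun a => a e
  · rw [e', eq_comm, smul_eq_zero, or_iff_right h5] at e
    exact hr.elim (fun a => a e) fun a => a e'

theorem grow3 {y : V} (hy : Nw Q X D y) (h0 : ∀ j, y ∉ D j) :
    ∃ z, Nw Q X D z ∧ ∃ i j k, i ≠ j ∧ i ≠ k ∧ j ≠ k ∧ π i z ≠ 0 ∧ π j z ≠ 0 ∧ π k z ≠ 0 := by
  obtain ⟨i, hi⟩ : ∃ l, π l y ≠ 0 := by
    by_contra hc
    push Not at hc
    exact ne_zero_of_Q hy.1 (h.proj.eq_zero hc)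
  obtain ⟨l, hli, hl⟩ : ∃ j, j ≠ i ∧ π j y ≠ 0 := by
    by_contra hc
    push Not at hc
    exact h0 i (h.proj.mem_iff.2 hc)
  by_cases h1 : ∃ r, r ≠ i ∧ r ≠ l ∧ π r y ≠ 0
  · obtain ⟨r, a, b, c⟩ := h1
    exact ⟨y, hy, i, l, r, hli.symm, a.symm, b.symm, hi, hl, c⟩
  push Not at h1
  obtain ⟨p, hp⟩ := h.fresh [i, l] (by simp)
  simp only [List.mem_cons, List.not_mem_nil, or_false, not_or] at hp
  obtain ⟨y₁, a1, a2, a3, a4⟩ := h.mv hy (l := l) (h1 p hp.1 hp.2)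
  have a5 := a4 i hli.symm (Ne.symm hp.1)
  obtain ⟨y₂, b1, b2, b3, b4⟩ := h.tw (h.nw_rr hy a1) a2 (a5 ▸ hi)
  rw [a5] at b2 b3
  obtain ⟨z, hz, c⟩ := h.comb hy (b1.trans a1) hi b2 b3 fun r hr => by
    by_cases e : r = l
    · exact Or.inr (by rw [b4 r hr, e, a2])
    · exact Or.inl (h1 r hr e)
  exact ⟨z, hz, i, l, p, hli.symm, Ne.symm hp.1, Ne.symm hp.2, c i (Or.inl hi), c l (Or.inl hl),
    c p (Or.inr (by rw [b4 p hp.1]; exact a3 hl))⟩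

theorem grow4 {y : V} (hy : Nw Q X D y) (h0 : ∀ j, y ∉ D j) :
    ∃ z, Nw Q X D z ∧ ∃ i j k m, i ≠ j ∧ i ≠ k ∧ i ≠ m ∧ j ≠ k ∧ j ≠ m ∧ k ≠ m ∧
      π i z ≠ 0 ∧ π j z ≠ 0 ∧ π k z ≠ 0 ∧ π m z ≠ 0 := by
  obtain ⟨y, hy, i, l, l', n1, n2, n3, hi, hl, hl'⟩ := h.grow3 hy h0
  by_cases h1 : ∃ r, r ≠ i ∧ r ≠ l ∧ r ≠ l' ∧ π r y ≠ 0
  · obtain ⟨r, a, b, c, d⟩ := h1
    exact ⟨y, hy, i, l, l', r, n1, n2, a.symm, n3, b.symm, c.symm, hi, hl, hl', d⟩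
  push Not at h1
  obtain ⟨p, hp⟩ := h.fresh [i, l, l'] (by simp)
  obtain ⟨p', hp'⟩ := h.fresh [i, l, l', p] (by simp)
  simp only [List.mem_cons, List.not_mem_nil, or_false, not_or] at hp hp'
  obtain ⟨y₁, a1, a2, a3, a4⟩ := h.mv hy (l := l) (h1 p hp.1 hp.2.1 hp.2.2)
  obtain ⟨y₂, c1, c2, -, c4⟩ := h.mv (h.nw_rr hy a1) (l := l') (p := p')
    ((a4 p' hp'.2.1 hp'.2.2.2).trans (h1 p' hp'.1 hp'.2.1 hp'.2.2.1))
  have a5 := (c4 i n2 (Ne.symm hp'.1)).trans (a4 i n1 (Ne.symm hp.1))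
  have a6 := (c4 l n3 (Ne.symm hp'.2.1)).trans a2
  obtain ⟨y₃, b1, b2, b3, b4⟩ := h.tw (h.nw_rr hy (c1.trans a1)) a6 (a5 ▸ hi)
  rw [a5] at b2 b3
  obtain ⟨z, hz, c⟩ := h.comb hy (b1.trans (c1.trans a1)) hi b2 b3 fun r hr => by
    by_cases e : r = l
    · exact Or.inr (by rw [b4 r hr, e, a6])
    by_cases e' : r = l'
    · exact Or.inr (by rw [b4 r hr, e', c2])
    · exact Or.inl (h1 r hr e e')
  exact ⟨z, hz, i, l, l', p, n1, n2, Ne.symm hp.1, n3, Ne.symm hp.2.1, Ne.symm hp.2.2,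
    c i (Or.inl hi), c l (Or.inl hl), c l' (Or.inl hl'),
    c p (Or.inr (by rw [b4 p hp.1, c4 p hp.2.2 (Ne.symm hp'.2.2.2)]; exact a3 hl))⟩

theorem refl_two {y a b : V} {i j : κ} (hij : i ≠ j) (ha : a ∈ D i) (hb : b ∈ D j)
    (h1 : polar Q a y = 1) (h2 : polar Q b y = 1) (h3 : Q a + Q b = 0) :
    (refl Q a).1 ((refl Q b).1 y) = y + (Q a)⁻¹ • (b - a) := by
  rw [refl_apply, refl_apply, polar_sub_right, polar_smul_right, h.o hij ha hb, h1, h2,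
    show Q b = -Q a by linear_combination h3, inv_neg]
  module

theorem two_aux {y a b : V} {i j : κ} (hij : i ≠ j) (ha : a ∈ D i) (hb : b ∈ D j)
    (h1 : polar Q a y = 1) (h2 : polar Q b y = 1) (h3 : Q a + Q b = 0) (ha0 : Q a ≠ 0) :
    Q ((Q a)⁻¹ • (b - a)) = 0 ∧ polar Q ((Q a)⁻¹ • (b - a)) y = 0 ∧
      π i ((Q a)⁻¹ • (b - a)) = (-(Q a)⁻¹) • a ∧ π j ((Q a)⁻¹ • (b - a)) = (Q a)⁻¹ • b ∧
      ∀ r, r ≠ i → r ≠ j → π r ((Q a)⁻¹ • (b - a)) = 0 := by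
  refine ⟨?_, ?_, ?_, ?_, fun r a1 a2 => ?_⟩
  · rw [Q_smul, Q_sub, h.o hij.symm hb ha]; linear_combination (Q a)⁻¹ * (Q a)⁻¹ * h3
  · rw [polar_smul_left, polar_sub_left, h1, h2, sub_self, smul_zero]
  · rw [map_smul, map_sub, h.proj.self ha, h.proj.other i j hij _ hb]; module
  · rw [map_smul, map_sub, h.proj.self hb, h.proj.other j i hij.symm _ ha, sub_zero]
  · rw [map_smul, map_sub, h.proj.other r i a1 _ ha, h.proj.other r j a2 _ hb, sub_self, smul_zero]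

theorem tan_two {y a b : V} (hy : Nw Q X D y) {i j m : κ} (hij : i ≠ j) (hmi : m ≠ i) (hmj : m ≠ j)
    (ha : a ∈ D i) (hb : b ∈ D j) (h1 : polar Q a y = 1) (h2 : polar Q b y = 1)
    (h3 : Q a + Q b = 0) (ha0 : Q a ≠ 0) (hm : π m y ≠ 0)
    (hr : RR Q X ((refl Q a).1 ((refl Q b).1 y)) y) : OmegaV Q ≤ X := by
  obtain ⟨o, ho⟩ := h.fresh [i, j, m] (by simp)
  simp only [List.mem_cons, List.not_mem_nil, or_false, not_or] at ho
  obtain ⟨a1, a2, a3, -, a5⟩ := h.two_aux hij ha hb h1 h2 h3 ha0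
  rw [h.refl_two hij ha hb h1 h2 h3] at hr
  refine h.tan (Ne.symm ho.2.2) hy hr (fun e => ?_) a1 a2 (a5 m hmi hmj) (a5 o ho.1 ho.2.1) hm
  rw [e, map_zero] at a3
  exact smul_ne_zero (neg_ne_zero.2 (inv_ne_zero ha0)) (ne_zero_of_Q ha0) a3.symm

theorem refl_any {y x d : V} (hy : Nw Q X D y) {o j : κ} (hx : x ∈ D o) (hx0 : Q x ≠ 0)
    (h1 : polar Q x y = 0) (h2 : ¬ IsSquare (Q x * Q y)) (hd : d ∈ D j) (hd0 : Q d ≠ 0) :
    RR Q X ((refl Q d).1 y) y := by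
  by_cases h3 : IsSquare (Q d * Q y)
  · exact (rr_self hy.1).refl_apply (hy.2 j d hd hd0 h3)
  · have := h.refl_rr hy hd hx (h.rr hd hx hd0 hx0 (isSquare_of_not hd0 hx0 hy.1 h3 h2))
    rwa [refl_apply_of_orth h1] at this

variable (han : ∀ i, ∀ x ∈ D i, Q x = 0 → x = 0)
include han

theorem pair_an {y : V} {i j : κ} (hi : π i y ≠ 0) (hj : π j y ≠ 0) :
    ∃ a ∈ D i, ∃ b ∈ D j, polar Q a y = 1 ∧ polar Q b y = 1 ∧ Q a + Q b = 0 ∧ Q a ≠ 0 := by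
  classical
  have k : ∀ i, π i y ≠ 0 → ∃ p ∈ D i, ∃ p' ∈ D i, Q p' ≠ 0 ∧
      (∀ s : F, polar Q (p + s • p') y = 1 ∧ Q (p + s • p') ≠ 0 ∧
        Q p' * s * s + polar Q p p' * s + Q p = Q (p + s • p')) := fun i hi => by
    obtain ⟨p, hp, h1⟩ := (h.pl i).nd.exists_eq (h.proj.mem i y) hi 1
    rw [CForm.ofQuad_B, polar_comm, h.bp hp] at h1
    obtain ⟨p', hp', h2, h3⟩ := (h.pl i).exists_perp h.nd y
    refine ⟨p, hp, p', hp', fun e => h2 (han i _ hp' e), fun s => ?_⟩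
    have h4 : polar Q (p + s • p') y = 1 := by
      rw [polar_add_left, polar_smul_left, h1, polar_comm, h3]; simp
    refine ⟨h4, fun e => ?_, by rw [Q_add, Q_smul, polar_smul_right, smul_eq_mul]; ring⟩
    rw [han i _ (add_mem hp ((D i).smul_mem s hp')) e] at h4
    simp at h4
  obtain ⟨p, hp, p', hp', a1, a2⟩ := k i hi
  obtain ⟨r, hr, r', hr', b1, b2⟩ := k j hj
  obtain ⟨s, s', e⟩ := exists_qval_add a1 b1 (fun s => (a2 s).2.2.trans_ne (a2 s).2.1)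
    fun s => (b2 s).2.2.trans_ne (b2 s).2.1
  rw [(a2 s).2.2, (b2 s').2.2] at e
  exact ⟨_, add_mem hp ((D i).smul_mem s hp'), _, add_mem hr ((D j).smul_mem s' hr'), (a2 s).1,
    (b2 s').1, e, (a2 s).2.1⟩

theorem free_case {y : V} (hy : Nw Q X D y) {i j m o : κ} (hij : i ≠ j) (hmi : m ≠ i)
    (hmj : m ≠ j) (hoj : o ≠ j) (hi : π i y ≠ 0) (hj : π j y ≠ 0) (hm : π m y ≠ 0)
    (hf : IsSquare (-1 : F) ∨
      ∃ x ∈ D o, Q x ≠ 0 ∧ polar Q x y = 0 ∧ ¬ IsSquare (Q x * Q y)) : OmegaV Q ≤ X := by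
  obtain ⟨a, ha, b, hb, h1, h2, h3, h4⟩ := h.pair_an han hi hj
  have h5 : Q b = -Q a := by linear_combination h3
  have h6 : Q b ≠ 0 := h5.trans_ne (neg_ne_zero.2 h4)
  refine h.tan_two hy hij hmi hmj ha hb h1 h2 h3 h4 hm ?_
  rcases hf with ⟨ι, hι⟩ | ⟨x, hx, x0, x1, x2⟩
  · exact h.refl_rr hy ha hb (h.rr ha hb h4 h6 ⟨ι * Q a, by rw [h5]; linear_combination Q a * Q a * hι⟩)
  · have h7 := h.refl_any hy hx x0 x1 x2 hb h6
    refine (h.refl_any (h.nw_rr hy h7) hx x0 ?_ (by rwa [orth_Q]) ha h4).trans h7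
    rw [refl_apply, polar_sub_right, polar_smul_right, x1, h.o hoj hx hb]; simp

theorem four_case (hn : ¬ IsSquare (-1 : F)) {y : V} (hy : Nw Q X D y) {i j k l m : κ} (n1 : i ≠ j)
    (n2 : i ≠ k) (n3 : i ≠ l) (n4 : j ≠ k) (n5 : j ≠ l) (n6 : k ≠ l) (m1 : m ≠ i) (m2 : m ≠ j)
    (m3 : m ≠ k) (m4 : m ≠ l) (hm : π m y ≠ 0) {a b c d : V} (ha : a ∈ D i) (hb : b ∈ D j)
    (hc : c ∈ D k) (hd : d ∈ D l) (a1 : polar Q a y = 1) (b1 : polar Q b y = 1)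
    (c1 : polar Q c y = 1) (d1 : polar Q d y = 1) (e1 : Q a + Q b = 0) (e2 : Q c + Q d = 0)
    (a0 : Q a ≠ 0) (c0 : Q c ≠ 0) (sa : IsSquare (Q a * Q y)) (sc : IsSquare (Q c * Q y)) :
    OmegaV Q ≤ X := by
  have b2 : Q b = -Q a := by linear_combination e1
  have d2 : Q d = -Q c := by linear_combination e2
  have b0 : Q b ≠ 0 := b2.trans_ne (neg_ne_zero.2 a0)
  have d0 : Q d ≠ 0 := d2.trans_ne (neg_ne_zero.2 c0)
  have k1 : ∀ α : F, α ≠ 0 → IsSquare (α * Q y) → ¬ IsSquare (-α * Q y) := by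
    rintro α h0 ⟨s, hs⟩ ⟨r, hr⟩
    have : s ≠ 0 := fun e => mul_ne_zero h0 hy.1 (by rw [hs, e, mul_zero])
    exact hn ⟨r / s, by field_simp; linear_combination hs + hr⟩
  have sb : ¬ IsSquare (Q b * Q y) := b2 ▸ k1 _ a0 sa
  have sd : ¬ IsSquare (Q d * Q y) := d2 ▸ k1 _ c0 sc
  have h1 := ((h.refl_rr hy hb hd (h.rr hb hd b0 d0
    (isSquare_of_not b0 d0 hy.1 sb sd))).refl_apply (hy.2 k c hc c0 sc)).refl_apply
      (hy.2 i a ha a0 sa)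
  obtain ⟨p1, p2, p3, p4, p5⟩ := h.two_aux n1 ha hb a1 b1 e1 a0
  obtain ⟨q1, q2, q3, q4, q5⟩ := h.two_aux n6 hc hd c1 d1 e2 c0
  have h2 : (refl Q a).1 ((refl Q c).1 ((refl Q b).1 ((refl Q d).1 y))) =
      y + ((Q a)⁻¹ • (b - a) + (Q c)⁻¹ • (d - c)) := by
    simp only [refl_apply, polar_sub_right, polar_smul_right, a1, b1, c1, d1, h.o n1 ha hb,
      h.o n2 ha hc, h.o n3 ha hd, h.o n4.symm hc hb, h.o n5 hb hd, h.o n6 hc hd, b2, d2, inv_neg]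
    module
  rw [h2] at h1
  obtain ⟨v, hv, t, t0, -, h3⟩ := h.tan_vec hy h1 (by
    rw [Q_add, p1, q1]
    simp only [polar_smul_left, polar_smul_right, polar_sub_left, polar_sub_right, h.o n2 ha hc,
      h.o n3 ha hd, h.o n4 hb hc, h.o n5 hb hd]
    simp) (by rw [polar_add_left, p2, q2, add_zero])
    (by rw [map_add, p5 m m1 m2, q5 m m3 m4, add_zero]) hm
  obtain ⟨x, hx, x0, x1⟩ := (h.pl j).exists_perp_ns h.nd hb b0
  have k2 : ∀ r, r ≠ m → π r (v + t • ((Q a)⁻¹ • (b - a) + (Q c)⁻¹ • (d - c))) =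
      t • (π r ((Q a)⁻¹ • (b - a)) + π r ((Q c)⁻¹ • (d - c))) := fun r hr => by
    rw [map_add, h.proj.other r m hr _ hv, zero_add, map_smul, map_add]
  refine h.free_case han (h.nw_rr hy h3) n6 n2 n3 n5 ?_ ?_ ?_ (Or.inr ⟨x, hx, x0, ?_, fun hs => ?_⟩)
  · rw [k2 k m3.symm, p5 k n2.symm n4.symm, q3, zero_add]
    exact smul_ne_zero t0 (smul_ne_zero (neg_ne_zero.2 (inv_ne_zero c0)) (ne_zero_of_Q c0))
  · rw [k2 l m4.symm, p5 l n3.symm n5.symm, q4, zero_add]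
    exact smul_ne_zero t0 (smul_ne_zero (inv_ne_zero c0) (ne_zero_of_Q d0))
  · rw [k2 i m1.symm, p3, q5 i n2 n3, add_zero]
    exact smul_ne_zero t0 (smul_ne_zero (neg_ne_zero.2 (inv_ne_zero a0)) (ne_zero_of_Q a0))
  · rw [← h.bp hx, k2 j m2.symm, p4, q5 j n4 n5, add_zero, polar_smul_right, polar_smul_right,
      polar_comm, x1, smul_zero, smul_zero]
  · obtain ⟨s, hs⟩ := isSquare_trans x0 h3.1 hy.1 hs (h3.isSquare h.nd h.ne h.le)
    obtain ⟨r, hr⟩ := sa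
    have h4 : Q (r • x + s • b) = 0 := mul_right_cancel₀ hy.1 (by
      rw [Q_add, Q_smul, Q_smul, polar_smul_left, polar_smul_right, polar_comm, x1, b2]
      simp only [smul_eq_mul]
      linear_combination r * r * hs - s * s * hr)
    have h5 := congrArg (polar Q b) (han j _ (add_mem ((D j).smul_mem r hx) ((D j).smul_mem s hb)) h4)
    rw [polar_add_right, polar_smul_right, polar_smul_right, x1, polar_self', polar_zero_right,
      smul_zero, zero_add, smul_eq_mul, mul_eq_zero, mul_eq_zero, or_iff_left b0] at h5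
    rcases h5 with e | e
    · exact mul_ne_zero x0 hy.1 (by rw [hs, e, mul_zero])
    · exact hn ⟨1, by linear_combination -e⟩

theorem an_case {y : V} (hy : Nw Q X D y) (h0 : ∀ j, y ∉ D j) : OmegaV Q ≤ X := by
  obtain ⟨y, hy, i, j, k, l, n1, n2, n3, n4, n5, n6, hi, hj, hk, hl⟩ := h.grow4 hy h0
  by_cases hn : IsSquare (-1 : F)
  · exact h.free_case han hy n1 n2.symm n4.symm n1 hi hj hk (Or.inl hn)
  obtain ⟨m, hm⟩ := h.fresh [i, j, k, l] (by simp)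
  simp only [List.mem_cons, List.not_mem_nil, or_false, not_or] at hm
  obtain ⟨m1, m2, m3, m4⟩ := hm
  by_cases h1 : π m y = 0
  · obtain ⟨x, hx, e⟩ := (h.pl m).exists_Q h.nd (neg_ne_zero.2 hy.1)
    refine h.free_case han hy n1 n2.symm n4.symm m2 hi hj hk
      (Or.inr ⟨x, hx, e.trans_ne (neg_ne_zero.2 hy.1), h.b0 hx h1, fun ⟨s, hs⟩ => hn ⟨s / Q y, ?_⟩⟩)
    have := hy.1
    rw [e] at hs
    field_simp
    linear_combination hs
  obtain ⟨a, ha, b, hb, a1, b1, e1, a0⟩ := h.pair_an han hi hj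
  obtain ⟨c, hc, d, hd, c1, d1, e2, c0⟩ := h.pair_an han hk hl
  have k1 : ∀ α β : F, α ≠ 0 → α + β = 0 →
      IsSquare (α * Q y) ∨ (β ≠ 0 ∧ IsSquare (β * Q y)) := fun α β h0 e => by
    have e' : β = -α := by linear_combination e
    have h2 : β ≠ 0 := e'.trans_ne (neg_ne_zero.2 h0)
    refine (exists_sq_pair h0 h2 hy.1).elim (fun ⟨s, hs⟩ => absurd ⟨s / α, ?_⟩ hn)
      fun h3 => h3.imp id fun h4 => ⟨h2, h4⟩
    rw [e'] at hs
    field_simp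
    linear_combination hs
  rcases k1 _ _ a0 e1 with s1 | ⟨b0, s1⟩ <;> rcases k1 _ _ c0 e2 with s2 | ⟨d0, s2⟩
  · exact h.four_case han hn hy n1 n2 n3 n4 n5 n6 m1 m2 m3 m4 h1 ha hb hc hd a1 b1 c1 d1 e1 e2
      a0 c0 s1 s2
  · exact h.four_case han hn hy n1 n3 n2 n5 n4 n6.symm m1 m2 m4 m3 h1 ha hb hd hc a1 b1 d1 c1 e1
      ((add_comm _ _).trans e2) a0 d0 s1 s2
  · exact h.four_case han hn hy n1.symm n4 n5 n2 n3 n6 m2 m1 m3 m4 h1 hb ha hc hd b1 a1 c1 d1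
      ((add_comm _ _).trans e1) e2 b0 c0 s1 s2
  · exact h.four_case han hn hy n1.symm n5 n4 n3 n2 n6.symm m2 m1 m4 m3 h1 hb ha hd hc b1 a1 d1 c1
      ((add_comm _ _).trans e1) ((add_comm _ _).trans e2) b0 d0 s1 s2

end PD

end H12
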