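import Cfsg.Agent.H12.O2c

/-!
# Orthogonal decompositions into planes: hyperbolic planes
-/

set_option autoImplicit false
set_option maxHeartbeats 400000

namespace H12

open Module H11 QuadraticMap

theorem exists_good_param {F : Type*} [Field F] [Fintype F] (hq : 7 ≤ Fintype.card F)
    (h2 : (2 : F) ≠ 0) {ν N : F} (hν : ν ≠ 0) :
    ∃ x, x ≠ 0 ∧ x ≠ ν ∧ x + ν ≠ 0 ∧ N * x ≠ (x + ν) * (x + ν) ∧
      N * x ≠ 2 * ((x + ν) * (x + ν)) := by
  classical
  rcases hq.eq_or_lt with h7 | h8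
  · have e7 : (7 : F) = 0 := by
      have := FiniteField.cast_card_eq_zero F
      rwa [← h7] at this
    have k : ∀ c : F, c * ν = 0 → (∃ a b : F, a * c + b * 7 = 1) → False := by
      rintro c hc ⟨a, b, e⟩
      exact hν (by linear_combination a * hc + b * ν * e7 - ν * e)
    by_contra hc
    push Not at hc
    have a1 := hc (-2 * ν) (fun e => k 2 (by linear_combination -e) ⟨4, -1, by norm_num⟩)
      (fun e => k 3 (by linear_combination -e) ⟨5, -2, by norm_num⟩)
      (fun e => k 1 (by linear_combination -e) ⟨1, 0, by norm_num⟩)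
    have a2 := hc (-3 * ν) (fun e => k 3 (by linear_combination -e) ⟨5, -2, by norm_num⟩)
      (fun e => k 4 (by linear_combination -e) ⟨2, -1, by norm_num⟩)
      (fun e => k 2 (by linear_combination -e) ⟨4, -1, by norm_num⟩)
    have b1 : -2 * N = ν ∨ -2 * N = 2 * ν := by
      by_cases e : N * (-2 * ν) = (-2 * ν + ν) * (-2 * ν + ν)
      · exact Or.inl (mul_right_cancel₀ hν (by linear_combination e))
      · exact Or.inr (mul_right_cancel₀ hν (by linear_combination a1 e))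
    have b2 : -3 * N = 4 * ν ∨ -3 * N = 8 * ν := by
      by_cases e : N * (-3 * ν) = (-3 * ν + ν) * (-3 * ν + ν)
      · exact Or.inl (mul_right_cancel₀ hν (by linear_combination e))
      · exact Or.inr (mul_right_cancel₀ hν (by linear_combination a2 e))
    rcases b1 with b1 | b1 <;> rcases b2 with b2 | b2
    · exact k 5 (by linear_combination 3 * b1 - 2 * b2) ⟨3, -2, by norm_num⟩
    · exact k 13 (by linear_combination 3 * b1 - 2 * b2) ⟨-1, 2, by norm_num⟩
    · exact k 2 (by linear_combination 3 * b1 - 2 * b2) ⟨4, -1, by norm_num⟩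
    · exact k 10 (by linear_combination 3 * b1 - 2 * b2) ⟨-2, 3, by norm_num⟩
  · have c1 := card_qrts (a := (1 : F)) (b := 2 * ν - N) (c := ν * ν) fun e => one_ne_zero e.1
    have c2 := card_qrts (a := (2 : F)) (b := 4 * ν - N) (c := 2 * (ν * ν)) fun e => h2 e.1
    have c3 := Finset.card_union_le (qrts 1 (2 * ν - N) (ν * ν)) (qrts 2 (4 * ν - N) (2 * (ν * ν)))
    have c4 := Finset.card_union_le ({0, ν, -ν} : Finset F)
      (qrts 1 (2 * ν - N) (ν * ν) ∪ qrts 2 (4 * ν - N) (2 * (ν * ν)))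
    have c5 := Finset.card_le_three (a := (0 : F)) (b := ν) (c := -ν)
    obtain ⟨x, hx⟩ := exists_notMem_card (c4.trans_lt (by omega))
    simp only [Finset.mem_union, Finset.mem_insert, Finset.mem_singleton, mem_qrts, not_or] at hx
    exact ⟨x, hx.1.1, hx.1.2.1, fun e => hx.1.2.2 (by linear_combination e),
      fun e => hx.2.1 (by linear_combination -e), fun e => hx.2.2 (by linear_combination -e)⟩

variable {F : Type*} [Field F] [Fintype F] {V : Type*} [AddCommGroup V] [Module F V]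
  {Q : QuadraticForm F V} [FiniteDimensional F V] {X : Subgroup (V ≃ₗ[F] V)}
  {κ : Type*} [Fintype κ] {D : κ → Submodule F V} {π : κ → V →ₗ[F] V}

local notation "𝓒" => CForm.ofQuad Q

omit [Fintype F] [FiniteDimensional F V] in
theorem exists_swp {p r : V} (hp : Q p = 0) (hr : Q r = 0) (hpr : polar Q p r = 2) :
    ∃ s : orth Q, s⁻¹ = s ∧ ∀ x, s.1 x = x - polar Q r x • p - polar Q p x • r := by
  let s : V →ₗ[F] V :=
    LinearMap.id - (polarBilin Q r).smulRight p - (polarBilin Q p).smulRight r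
  have e : ∀ x, s x = x - polar Q r x • p - polar Q p x • r := fun x => rfl
  have hi : Function.Involutive s := fun x => by
    simp only [e, polar_sub_right, polar_smul_right, polar_self', hp, hr, hpr, polar_comm Q r p,
      smul_eq_mul]
    module
  refine ⟨⟨LinearEquiv.ofInvolutive s hi, mem_orth.2 fun x => ?_⟩,
    inv_eq_of_mul_eq_one_right (orth_ext fun x => hi x), e⟩
  change Q (s x) = Q x
  simp only [e, Q_sub, Q_smul, polar_sub_left, polar_smul_right, polar_smul_left, hp, hr, hpr,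
    polar_comm Q x, smul_eq_mul]
  ring

namespace PD

variable (h : PD Q X D π)
include h

theorem mem_dec {k : V ≃ₗ[F] V} (hk : ∀ l, ∃ j, ∀ v ∈ D l, k v ∈ D j) : k ∈ decStab D :=
  mem_decStab_of_exists h.dec.injective fun l =>
    let ⟨j, hj⟩ := hk l
    ⟨j, Submodule.eq_of_le_of_finrank_eq (Submodule.map_le_iff_le_comap.2 hj)
      (by rw [finrank_map_equiv, (h.pl l).two, (h.pl j).two])⟩

theorem hyp_add {i : κ} {e f x : V} (he : e ∈ D i) (hf : f ∈ D i) (h1 : Q e = 0)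
    (h2 : polar Q e f = 1) (hx : x ∈ D i) : ∃ a b : F, x = a • e + b • f :=
  (h.pl i).eq_add he hf (fun e' => by rw [e'] at h2; simp at h2) (fun e' => by
    obtain ⟨c, rfl⟩ := Submodule.mem_span_singleton.1 e'
    rw [polar_smul_right, polar_self', h1] at h2
    simp at h2) hx

theorem exists_sw {i j : κ} (hij : i ≠ j) {e f e' f' : V} (he : e ∈ D i) (hf : f ∈ D i)
    (he' : e' ∈ D j) (hf' : f' ∈ D j) (a1 : Q e = 0) (a2 : Q f = 0) (a3 : polar Q e f = 1)
    (b1 : Q e' = 0) (b2 : Q f' = 0) (b3 : polar Q e' f' = 1) :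
    ∃ s : H12.orth Q, s.1 ∈ decStab D ∧ s⁻¹ = s ∧
      ∀ x, s.1 x = x - polar Q (f - f') x • (e - e') - polar Q (e - e') x • (f - f') := by
  obtain ⟨s, h1, h2⟩ := exists_swp (Q := Q) (p := e - e') (r := f - f')
    (by rw [Q_sub, a1, b1, h.o hij he he']; simp) (by rw [Q_sub, a2, b2, h.o hij hf hf']; simp)
    (by simp only [polar_sub_left, polar_sub_right, a3, b3, h.o hij he hf', h.o hij.symm he' hf]
        ring)
  refine ⟨s, h.mem_dec fun l => ?_, h1, h2⟩
  by_cases c1 : l = i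
  · refine ⟨j, fun v hv => ?_⟩
    obtain ⟨a, b, rfl⟩ := h.hyp_add he hf a1 a3 (c1 ▸ hv)
    convert add_mem ((D j).smul_mem a he') ((D j).smul_mem b hf') using 1
    simp only [h2, polar_sub_left, polar_add_right, polar_smul_right, polar_self', a1, a2, a3,
      polar_comm Q f e, h.o hij.symm he' he, h.o hij.symm he' hf, h.o hij.symm hf' he,
      h.o hij.symm hf' hf, smul_eq_mul]
    module
  by_cases c2 : l = j
  · refine ⟨i, fun v hv => ?_⟩
    obtain ⟨a, b, rfl⟩ := h.hyp_add he' hf' b1 b3 (c2 ▸ hv)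
    convert add_mem ((D i).smul_mem a he) ((D i).smul_mem b hf) using 1
    simp only [h2, polar_sub_left, polar_add_right, polar_smul_right, polar_self', b1, b2, b3,
      polar_comm Q f' e', h.o hij he he', h.o hij he hf', h.o hij hf he', h.o hij hf hf',
      smul_eq_mul]
    module
  refine ⟨l, fun v hv => ?_⟩
  rwa [h2, polar_sub_left, polar_sub_left, h.o (Ne.symm c1) he hv, h.o (Ne.symm c1) hf hv,
    h.o (Ne.symm c2) he' hv, h.o (Ne.symm c2) hf' hv, sub_self, zero_smul, zero_smul, sub_zero,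
    sub_zero]

variable (hq : 7 ≤ Fintype.card F)
include hq

theorem torus {j : κ} {e f : V} (he : e ∈ D j) (hf : f ∈ D j) (a1 : Q e = 0) (a2 : Q f = 0)
    (a3 : polar Q e f = 1) : ∃ τ ∈ decStab D, τ ∈ X ∧ ∃ c : F, c ≠ 0 ∧ c ≠ 1 ∧
      ∀ x, τ x = x + ((c - 1) * polar Q f x) • e + ((c⁻¹ - 1) * polar Q e x) • f := by
  obtain ⟨μ, h0, h1⟩ := exists_mul_self_ne_one (F := F) (by omega)
  have m1 := add_mem he ((D j).smul_mem 1 hf)
  have m2 := add_mem he ((D j).smul_mem (μ * μ) hf)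
  have q1 := Q_hyp' a1 a2 a3 1
  have q2 := Q_hyp' a1 a2 a3 (μ * μ)
  refine ⟨_, mul_mem (h.refl_mem m1) (h.refl_mem m2), (h.rr m1 m2 (q1.trans_ne one_ne_zero)
    (q2.trans_ne (mul_ne_zero h0 h0)) ⟨μ, by rw [q1, q2, one_mul]⟩).2.2, μ * μ,
    mul_ne_zero h0 h0, h1, fun x => ?_⟩
  have := refl_hyp_mul a1 a2 a3 one_ne_zero (mul_ne_zero h0 h0) x
  rwa [div_one, one_div] at this

theorem sing_case {y : V} (hy : Nw Q X D y) {i m : κ} (hmi : m ≠ i) (hi : π i y ≠ 0)
    (hm : π m y ≠ 0) (h0 : Q (π i y) = 0) : OmegaV Q ≤ X := by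
  have he := h.proj.mem i y
  obtain ⟨f, hf, h1⟩ := exists_hypPair_sub h.nd (h.pl i).nd he hi h0
  have h2 : polar Q (π i y) f = 1 := h1.pair
  obtain ⟨τ, t1, t2, c, -, c1, e⟩ := h.torus hq he hf h0 h1.right h2
  have h3 : polar Q (π i y) y = 0 := by rw [← h.bp he, polar_self', h0, mul_zero]
  have h4 := h.map_rr hy t1 t2
  rw [e, h3, ← h.bp hf, polar_comm, h2, mul_zero, zero_smul, add_zero, mul_one] at h4
  obtain ⟨o, ho⟩ := h.fresh [i, m] (by simp)
  simp only [List.mem_cons, List.not_mem_nil, or_false, not_or] at ho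
  exact h.tan (Ne.symm ho.2) hy h4 (smul_ne_zero (sub_ne_zero.2 c1) hi)
    (by rw [Q_smul, h0, mul_zero]) (by rw [polar_smul_left, h3, smul_zero])
    (by rw [map_smul, h.proj.other m i hmi _ he, smul_zero])
    (by rw [map_smul, h.proj.other o i ho.1 _ he, smul_zero]) hm

variable (hh : ∀ i, ∃ e ∈ D i, e ≠ 0 ∧ Q e = 0)
include hh

omit hq in
theorem norm_pair (y : V) {l : κ} (hx : Q (π l y) ≠ 0) : ∃ e ∈ D l, ∃ f ∈ D l, Q e = 0 ∧ Q f = 0 ∧
    polar Q e f = 1 ∧ π l y = Q (π l y) • e + f ∧ polar Q e y = 1 ∧ polar Q f y = Q (π l y) := by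
  obtain ⟨e, he, e0, e1⟩ := hh l
  obtain ⟨f, hf, h1⟩ := exists_hypPair_sub h.nd (h.pl l).nd he e0 e1
  have h2 : polar Q e f = 1 := h1.pair
  have h3 : Q f = 0 := h1.right
  obtain ⟨a, b, h4⟩ := h.hyp_add he hf e1 h2 (h.proj.mem l y)
  have h5 := Q_hyp e1 h3 h2 a b
  rw [← h4] at h5
  have hb : b ≠ 0 := fun e => hx (by rw [h5, e, mul_zero])
  refine ⟨b⁻¹ • e, (D l).smul_mem _ he, b • f, (D l).smul_mem _ hf, by rw [Q_smul, e1, mul_zero],
    by rw [Q_smul, h3, mul_zero], ?_, ?_, ?_, ?_⟩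
  · rw [polar_smul_left, polar_smul_right, h2]; simp [hb]
  · rw [h5, smul_smul, mul_inv_cancel_right₀ hb, h4]
  · rw [polar_smul_left, ← h.bp he, h4, polar_add_right, polar_smul_right, polar_smul_right, h2,
      polar_self', e1]
    simp [hb]
  · rw [polar_smul_left, ← h.bp hf, h5, h4, polar_add_right, polar_smul_right, polar_smul_right,
      polar_comm, h2, polar_self', h3]
    simp [mul_comm]

theorem uneq {y : V} (hy : Nw Q X D y) {i j k m : κ} (n1 : i ≠ j) (n2 : i ≠ k) (n3 : i ≠ m)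
    (n4 : j ≠ k) (n5 : j ≠ m) (n6 : k ≠ m) (hi : π i y ≠ 0) (hj : π j y ≠ 0) (hk : π k y ≠ 0)
    (hm : π m y ≠ 0) (hne : Q (π i y) ≠ Q (π j y)) : OmegaV Q ≤ X := by
  by_cases s1 : Q (π i y) = 0
  · exact h.sing_case hq hy n3.symm hi hm s1
  by_cases s2 : Q (π j y) = 0
  · exact h.sing_case hq hy n5.symm hj hm s2
  by_cases s3 : Q (π k y) = 0
  · exact h.sing_case hq hy n6.symm hk hm s3
  obtain ⟨e₁, he₁, f₁, hf₁, a1, a2, a3, -, a5, a6⟩ := h.norm_pair hh y s1
  obtain ⟨e₂, he₂, f₂, hf₂, b1, b2, b3, -, b5, b6⟩ := h.norm_pair hh y s2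
  obtain ⟨e₃, he₃, f₃, hf₃, c1, c2, c3, -, c5, c6⟩ := h.norm_pair hh y s3
  obtain ⟨s, hs, s4, s5⟩ := h.exists_sw n1 he₁ hf₁ he₂ hf₂ a1 a2 a3 b1 b2 b3
  obtain ⟨t, ht, t4, t5⟩ := h.exists_sw n4 he₂ hf₂ he₃ hf₃ b1 b2 b3 c1 c2 c3
  have h1 : (s * t * s * t).1 ∈ decStab D := mul_mem (mul_mem (mul_mem hs ht) hs) ht
  have h2 := h.map_rr hy h1 (h.ge ⟨h1, mem_OmegaV.2 (by
    have := Subgroup.commutator_mem_commutator (Subgroup.mem_top s) (Subgroup.mem_top t)
    rwa [commutatorElement_def, s4, t4] at this)⟩)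
  generalize Q (π i y) = α at *
  generalize Q (π j y) = β at *
  generalize Q (π k y) = γ at *
  have o12 := h.o n1 he₁ he₂
  have o13 := h.o n2 he₁ he₃
  have o23 := h.o n4 he₂ he₃
  have kk : ∀ a b c : F, s.1 (y + (a • e₁ + b • e₂ + c • e₃)) =
      y + ((β - α + b) • e₁ + (α - β + a) • e₂ + c • e₃) ∧
      t.1 (y + (a • e₁ + b • e₂ + c • e₃)) =
      y + (a • e₁ + (γ - β + c) • e₂ + (β - γ + b) • e₃) := fun a b c => by
    constructor
    · simp only [s5, polar_sub_left, polar_add_right, polar_smul_right, a5, a6, b5, b6, polar_self',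
        a1, b1, o12, o13, o23, polar_comm Q e₂ e₁, polar_comm Q f₁ e₁, polar_comm Q f₂ e₂, a3, b3,
        h.o n1 hf₁ he₂, h.o n2 hf₁ he₃, h.o n1.symm hf₂ he₁, h.o n4 hf₂ he₃, smul_eq_mul]
      module
    · simp only [t5, polar_sub_left, polar_add_right, polar_smul_right, c5, c6, b5, b6, polar_self',
        c1, b1, o12, o13, o23, polar_comm Q e₂ e₁, polar_comm Q e₃ e₁, polar_comm Q e₃ e₂,
        polar_comm Q f₃ e₃, polar_comm Q f₂ e₂, c3, b3, h.o n1.symm hf₂ he₁, h.o n4 hf₂ he₃,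
        h.o n2.symm hf₃ he₁, h.o n4.symm hf₃ he₂, smul_eq_mul]
      module
  have h3 : (s * t * s * t).1 y = y + ((β - α) • e₁ + (γ - β) • e₂ + (α - γ) • e₃) := by
    have e0 : y = y + ((0 : F) • e₁ + (0 : F) • e₂ + (0 : F) • e₃) := by simp
    rw [orth_mul_apply, orth_mul_apply, orth_mul_apply]
    conv_lhs => rw [e0, (kk _ _ _).2, (kk _ _ _).1, (kk _ _ _).2, (kk _ _ _).1]
    module
  rw [h3] at h2
  obtain ⟨o, ho⟩ := h.fresh [i, j, k, m] (by simp)
  simp only [List.mem_cons, List.not_mem_nil, or_false, not_or] at ho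
  have k2 : ∀ r, r ≠ i → r ≠ j → r ≠ k →
      π r ((β - α) • e₁ + (γ - β) • e₂ + (α - γ) • e₃) = 0 := fun r r1 r2 r3 => by
    simp only [map_add, map_smul, h.proj.other r i r1 _ he₁, h.proj.other r j r2 _ he₂,
      h.proj.other r k r3 _ he₃, smul_zero, add_zero]
  refine h.tan (Ne.symm ho.2.2.2) hy h2 (fun e => ?_) ?_ ?_ (k2 m n3.symm n5.symm n6.symm)
    (k2 o ho.1 ho.2.1 ho.2.2.1) hm
  · have := congrArg (polar Q f₁) e
    simp only [polar_add_right, polar_smul_right, polar_comm Q f₁ e₁, a3, h.o n1 hf₁ he₂,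
      h.o n2 hf₁ he₃, polar_zero_right, smul_eq_mul] at this
    exact hne (by linear_combination -this)
  · simp only [Q_add, Q_smul, polar_add_left, polar_smul_left, polar_smul_right, a1, b1, c1, o12,
      o13, o23, smul_eq_mul]
    ring
  · simp only [polar_add_left, polar_smul_left, a5, b5, c5, smul_eq_mul]
    ring

theorem hyp_case {y : V} (hy : Nw Q X D y) (h0 : ∀ j, y ∉ D j) : OmegaV Q ≤ X := by
  obtain ⟨y, hy, i, j, k, m, n1, n2, n3, n4, n5, n6, hi, hj, hk, hm⟩ := h.grow4 hy h0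
  by_cases s1 : Q (π i y) = 0
  · exact h.sing_case hq hy n3.symm hi hm s1
  by_cases s2 : Q (π i y) = Q (π j y)
  swap
  · exact h.uneq hq hh hy n1 n2 n3 n4 n5 n6 hi hj hk hm s2
  by_cases s3 : Q (π i y) = Q (π k y)
  swap
  · exact h.uneq hq hh hy n2 n1 n3 n4.symm n6 n5 hi hk hj hm s3
  obtain ⟨e₁, he₁, f₁, hf₁, a1, a2, a3, a4, a5, a6⟩ := h.norm_pair hh y s1
  obtain ⟨e₂, he₂, f₂, hf₂, b1, b2, b3, b4, b5, b6⟩ := h.norm_pair hh y (s2 ▸ s1)
  rw [← s2] at b4 b6
  generalize Q (π i y) = ν at *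
  by_cases h2 : (2 : F) = 0
  · obtain ⟨z, z0, z1⟩ := exists_ne_ne (F := F) (by omega) ν⁻¹
    have z2 : 1 - z * ν ≠ 0 := fun e => z1 (eq_inv_of_mul_eq_one_left (by linear_combination -e))
    have m1 := add_mem ((D i).smul_mem (1 - z * ν) he₁) ((D i).smul_mem z hf₁)
    have m2 := add_mem ((D j).smul_mem (1 - z * ν) he₂) ((D j).smul_mem z hf₂)
    have q1 := Q_hyp a1 a2 a3 (1 - z * ν) z
    have q2 := Q_hyp b1 b2 b3 (1 - z * ν) z
    have q3 := q1.trans_ne (mul_ne_zero z2 z0)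
    refine h.tan_two hy n1 n3.symm n5.symm m1 m2 ?_ ?_ ?_ q3 hm
      (h.refl_rr hy m1 m2 (h.rr' m1 m2 q3 (q2.trans q1.symm)))
    · rw [polar_add_left, polar_smul_left, polar_smul_left, a5, a6]; simp
    · rw [polar_add_left, polar_smul_left, polar_smul_left, b5, b6]; simp
    · rw [q1, q2, ← two_mul, h2, zero_mul]
  obtain ⟨x, x0, x1, x2, x3, x4⟩ := exists_good_param hq h2 (N := Q y) s1
  have m1 := add_mem ((D i).smul_mem x he₁) ((D i).smul_mem 1 hf₁)
  have m2 := add_mem ((D j).smul_mem x he₂) ((D j).smul_mem 1 hf₂)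
  have q1 := Q_hyp a1 a2 a3 x 1
  have q2 := Q_hyp b1 b2 b3 x 1
  rw [mul_one] at q1 q2
  have p1 : polar Q (x • e₁ + (1 : F) • f₁) y = x + ν := by
    rw [polar_add_left, polar_smul_left, polar_smul_left, a5, a6]; simp
  have p2 : polar Q (x • e₂ + (1 : F) • f₂) y = x + ν := by
    rw [polar_add_left, polar_smul_left, polar_smul_left, b5, b6]; simp
  have h3 := (h.refl_rr hy m1 m2 (h.rr' m1 m2 (q1.trans_ne x0) (q2.trans q1.symm))).refl_apply
    (rr_self hy.1)
  have hN := hy.1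
  set c := 2 * (x + ν) * (x + ν) / (x * Q y) - 1 with hc
  have h4 : (refl Q y).1 ((refl Q (x • e₁ + (1 : F) • f₁)).1 ((refl Q (x • e₂ + (1 : F) • f₂)).1 y)) =
      c • y - ((x + ν) / x) • (x • e₁ + (1 : F) • f₁) - ((x + ν) / x) • (x • e₂ + (1 : F) • f₂) := by
    generalize x • e₁ + (1 : F) • f₁ = d₁ at *
    generalize x • e₂ + (1 : F) • f₂ = d₂ at *
    simp only [refl_apply, polar_sub_right, polar_smul_right, p1, p2, q1, q2, h.o n1 m1 m2,
      polar_comm Q y d₁, polar_comm Q y d₂, polar_self', smul_eq_mul, hc]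
    match_scalars <;> field_simp <;> ring
  rw [h4] at h3
  have c0 : c ≠ 0 := fun e => x4 (by rw [hc] at e; field_simp at e; linear_combination -e)
  have c1 : c ≠ 1 := fun e => x3 (by
    rw [hc] at e; field_simp at e
    exact mul_left_cancel₀ h2 (by linear_combination -e))
  have k1 : ∀ {e f : V}, Q e = 0 → Q f = 0 → polar Q e f = 1 →
      (c * ν - (x + ν)) • e + (c - (x + ν) / x) • f ≠ 0 := fun {e f} a1 a2 a3 e' => by
    have b1 := congrArg (polar Q e) e'
    have b2 := congrArg (polar Q f) e'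
    simp only [polar_add_right, polar_smul_right, polar_self', a1, a2, a3, polar_comm Q f e,
      polar_zero_right, smul_eq_mul] at b1 b2
    field_simp at b1
    exact x1 (mul_left_cancel₀ c0 (by linear_combination b1 - b2))
  have k2 : ∀ r, r ≠ i → r ≠ j → π r (c • y - ((x + ν) / x) • (x • e₁ + (1 : F) • f₁) -
      ((x + ν) / x) • (x • e₂ + (1 : F) • f₂)) = c • π r y := fun r r1 r2 => by
    rw [map_sub, map_sub, map_smul, map_smul, map_smul, h.proj.other r i r1 _ m1,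
      h.proj.other r j r2 _ m2, smul_zero, sub_zero, sub_zero]
  have k3 : π i (c • y - ((x + ν) / x) • (x • e₁ + (1 : F) • f₁) -
      ((x + ν) / x) • (x • e₂ + (1 : F) • f₂)) = (c * ν - (x + ν)) • e₁ + (c - (x + ν) / x) • f₁ := by
    rw [map_sub, map_sub, map_smul, map_smul, map_smul, h.proj.self m1,
      h.proj.other i j n1 _ m2, a4]
    match_scalars <;> field_simp <;> ring
  have k4 : π j (c • y - ((x + ν) / x) • (x • e₁ + (1 : F) • f₁) -
      ((x + ν) / x) • (x • e₂ + (1 : F) • f₂)) = (c * ν - (x + ν)) • e₂ + (c - (x + ν) / x) • f₂ := by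
    rw [map_sub, map_sub, map_smul, map_smul, map_smul, h.proj.self m2,
      h.proj.other j i n1.symm _ m1, b4]
    match_scalars <;> field_simp <;> ring
  refine h.uneq hq hh (h.nw_rr hy h3) n2 n1 n3 n4.symm n6 n5 (k3 ▸ k1 a1 a2 a3) ?_
    (k4 ▸ k1 b1 b2 b3) ?_ ?_
  · rw [k2 k n2.symm n4.symm]; exact smul_ne_zero c0 hk
  · rw [k2 m n3.symm n5.symm]; exact smul_ne_zero c0 hm
  · rw [k3, k2 k n2.symm n4.symm, Q_hyp a1 a2 a3, Q_smul, ← s3]
    intro e
    field_simp at e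
    exact mul_ne_zero (sub_ne_zero.2 c1) (mul_ne_zero x2 x2) (by linear_combination -e)

end PD

end H12
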