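import Cfsg.Agent.H12.O2d

/-!
# Maximality of the stabiliser of an orthogonal decomposition into planes
-/

set_option autoImplicit false
set_option maxHeartbeats 400000

namespace H12

open Module H11 QuadraticMap

theorem exists_avoid_three {F : Type*} [Field F] [Fintype F] [DecidableEq F]
    (hq : 7 ≤ Fintype.card F) {A B C E : Finset F} (hA : A.card ≤ 2) (hB : B.card ≤ 2)
    (hC : C.card ≤ 2) (hE : E.card ≤ 2) : ∃ s, s ≠ 0 ∧ s ∉ A ∧
      (s ∉ B ∧ s ∉ C ∨ s ∉ B ∧ s ∉ E ∨ s ∉ C ∧ s ∉ E) := by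
  have c1 := Finset.card_union_le A B
  have c2 := Finset.card_insert_le 0 (A ∪ B)
  obtain ⟨s, hs⟩ := exists_notMem_card (s := insert 0 (A ∪ B)) (by omega)
  have c3 := Finset.card_insert_le s (insert 0 (A ∪ B))
  obtain ⟨r, hr⟩ := exists_notMem_card (s := insert s (insert 0 (A ∪ B))) (by omega)
  have c4 := Finset.card_union_le A C
  have c5 := Finset.card_insert_le 0 (A ∪ C)
  obtain ⟨t, ht⟩ := exists_notMem_card (s := insert 0 (A ∪ C)) (by omega)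
  simp only [Finset.mem_insert, Finset.mem_union, not_or] at hs hr ht
  by_cases s1 : s ∈ C ∧ s ∈ E
  swap
  · exact ⟨s, hs.1, hs.2.1, by tauto⟩
  by_cases s2 : r ∈ C ∧ r ∈ E
  swap
  · exact ⟨r, hr.2.1, hr.2.2.1, by tauto⟩
  refine ⟨t, ht.1, ht.2.1, Or.inr (Or.inr ⟨ht.2.2, fun e => ?_⟩)⟩
  exact absurd (Finset.two_lt_card_iff.2 ⟨r, s, t, s2.2, s1.2, e, hr.1,
    fun e' => ht.2.2 (e' ▸ s2.1), fun e' => ht.2.2 (e' ▸ s1.1)⟩) (by omega)

variable {F : Type*} [Field F] [Fintype F] {V : Type*} [AddCommGroup V] [Module F V]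
  {Q : QuadraticForm F V} [FiniteDimensional F V] {X : Subgroup (V ≃ₗ[F] V)}
  {κ : Type*} [Fintype κ] {D : κ → Submodule F V} {π : κ → V →ₗ[F] V}

local notation "𝓒" => CForm.ofQuad Q

namespace PD

variable (h : PD Q X D π)
include h

theorem cases : (∀ i, ∀ x ∈ D i, Q x = 0 → x = 0) ∨
    7 ≤ Fintype.card F ∧ ∀ i, ∃ e ∈ D i, e ≠ 0 ∧ Q e = 0 := by
  by_cases h1 : ∀ i, ∀ x ∈ D i, Q x = 0 → x = 0
  · exact Or.inl h1
  push Not at h1
  obtain ⟨i, x, hx, h2, h3⟩ := h1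
  refine Or.inr ⟨(h.pl i).big.resolve_left fun e => h3 (e.1 x hx h2), fun j => ?_⟩
  obtain ⟨g, hg, e, -⟩ := h.dec.exists_swap_isom h.nd i j
  exact ⟨g x, e ▸ ⟨x, hx, rfl⟩, fun e => h3 (g.injective (e.trans (map_zero g).symm)),
    (orth_Q ⟨g, hg.2⟩ x).trans h2⟩

theorem omega_le {y : V} (hy : Nw Q X D y) (h0 : ∀ j, y ∉ D j) : OmegaV Q ≤ X :=
  h.cases.elim (fun a => h.an_case a hy h0) fun a => h.hyp_case a.1 a.2 hy h0

variable (hN : ∀ y, Nw Q X D y → ∃ j, y ∈ D j)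
include hN

theorem f1 {g : V ≃ₗ[F] V} (hg : g ∈ X) {l m : κ} {a : V} (ha : a ∈ D l) (ha0 : Q a ≠ 0)
    (hm : g a ∈ D m) : g ∈ decStab D := by
  have hg' := h.orth hg
  have k : ∀ i, ∀ b ∈ D i, Q b = Q a → ∃ j, g b ∈ D j := fun i b hb e =>
    hN _ (h.nw_rr (h.nw_mem hm ((orth_Q ⟨g, hg'⟩ a).trans_ne ha0))
      ((h.rr' hb ha (e.trans_ne ha0) e.symm).conj hg hg'))
  refine h.mem_dec fun i => ?_
  obtain ⟨b, hb, e⟩ := (h.pl i).exists_Q h.nd ha0
  obtain ⟨c, hc, e', h1, h2⟩ := (h.pl i).pair h.nd hb (e.trans_ne ha0)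
  obtain ⟨j, hj⟩ := k i b hb e
  obtain ⟨j', hj'⟩ := k i c hc (e'.trans e)
  obtain rfl : j = j' := by
    by_contra hc
    exact h2 ((orth_polar ⟨g, hg'⟩ b c).symm.trans (h.o hc hj hj'))
  refine ⟨j, fun v hv => ?_⟩
  obtain ⟨α, β, rfl⟩ := (h.pl i).eq_add hb hc (ne_zero_of_Q (e.trans_ne ha0)) h1 hv
  rw [map_add, map_smul, map_smul]
  exact add_mem ((D j).smul_mem _ hj) ((D j).smul_mem _ hj')

theorem f2 {s : V ≃ₗ[F] V} (hs : s ∈ X) {j : κ} {e : V} (he : e ∈ D j) (he0 : e ≠ 0)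
    (h1 : s e = e) : s ∈ decStab D := by
  by_cases h2 : Q e = 0
  swap
  · exact h.f1 hN hs he h2 (h1.symm ▸ he)
  have hq : 7 ≤ Fintype.card F := (h.pl j).big.resolve_left fun a => he0 (a.1 e he h2)
  have hs' := h.orth hs
  obtain ⟨f, hf, h3⟩ := exists_hypPair_sub h.nd (h.pl j).nd he he0 h2
  have h4 : polar Q e f = 1 := h3.pair
  by_cases h5 : s f ∈ D j
  · refine h.f1 hN hs (add_mem he ((D j).smul_mem 1 hf)) (m := j)
      ((Q_hyp' h2 h3.right h4 1).trans_ne one_ne_zero) ?_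
    rw [map_add, map_smul, h1]
    exact add_mem he ((D j).smul_mem 1 h5)
  exfalso
  obtain ⟨k, hkj, hk⟩ : ∃ k, k ≠ j ∧ π k (s f) ≠ 0 := by
    by_contra hc
    push Not at hc
    exact h5 (h.proj.mem_iff.2 hc)
  obtain ⟨τ, -, t2, c, c0, c1, t3⟩ := h.torus hq he hf h2 h3.right h4
  have hσ : s * τ * s⁻¹ ∈ X := mul_mem (mul_mem hs t2) (inv_mem hs)
  have s1 : ∀ x, polar Q e x = 0 → (s * τ * s⁻¹) x = x + ((c - 1) * polar Q (s f) x) • e :=
    fun x hx => by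
      have a1 : polar Q e (s⁻¹ x) = 0 := by
        rw [← orth_polar ⟨s, hs'⟩]
        exact (congrArg₂ _ h1 (apply_inv_apply s x)).trans hx
      have a2 : polar Q f (s⁻¹ x) = polar Q (s f) x := by
        rw [← orth_polar ⟨s, hs'⟩]
        exact congrArg _ (apply_inv_apply s x)
      rw [LinearEquiv.mul_apply, LinearEquiv.mul_apply, t3, a1, a2, mul_zero, zero_smul, add_zero,
        map_add, map_smul, h1, apply_inv_apply]
  have s0 : polar Q (s f) e = 1 := by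
    rw [← h4, polar_comm Q e, ← orth_polar ⟨s, hs'⟩ f e]
    exact congrArg _ h1.symm
  generalize s * τ * s⁻¹ = σ at hσ s1
  generalize s f = f' at s0 s1 hk
  have s2 : ∀ x, polar Q e x = 0 → σ⁻¹ x = x + ((c⁻¹ - 1) * polar Q f' x) • e := fun x hx => by
    apply σ.injective
    rw [apply_inv_apply, s1 _ (by rw [polar_add_right, polar_smul_right, hx, polar_self', h2]; simp),
      polar_add_right, polar_smul_right, s0]
    simp only [smul_eq_mul]
    match_scalars <;> field_simp <;> ring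
  obtain ⟨ρ, hρ, r1⟩ := (h.pl k).exists_rot h.nd
  have hρe : ρ e = e := hρ.2.2 e (h.dec.orth k j hkj he)
  have hw : σ * ρ * σ⁻¹ * ρ⁻¹ ∈ X :=
    mul_mem (mul_mem (mul_mem hσ (h.subX hρ)) (inv_mem hσ)) (inv_mem (h.subX hρ))
  have w1 : ∀ l, l ≠ j → ∀ n ∈ D l, polar Q e (ρ⁻¹ n) = 0 → (σ * ρ * σ⁻¹ * ρ⁻¹) n =
      n + ((c - 1) * polar Q f' (n - ρ⁻¹ n)) • e := fun l hl n hn h6 => by
    have h7 : polar Q e e = 0 := by rw [polar_self', h2, mul_zero]
    rw [LinearEquiv.mul_apply, LinearEquiv.mul_apply, LinearEquiv.mul_apply, s2 _ h6, map_add,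
      apply_inv_apply, map_smul, hρe, map_add, map_smul, s1 n (h.o hl.symm he hn), s1 e h7, s0,
      polar_sub_right]
    match_scalars <;> field_simp <;> ring
  obtain ⟨o, ho⟩ := h.fresh [j, k] (by simp)
  simp only [List.mem_cons, List.not_mem_nil, or_false, not_or] at ho
  obtain ⟨a, ha, a1⟩ := (h.pl o).exists_Q h.nd one_ne_zero
  have a2 : ρ⁻¹ a = a := (inv_mem hρ).2.2 a (h.dec.orth k o (Ne.symm ho.2) ha)
  have w2 := h.f1 hN hw ha (a1.trans_ne one_ne_zero) (m := o) (by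
    rwa [w1 o ho.1 a ha (by rw [a2, h.o (Ne.symm ho.1) he ha]), a2, sub_self, polar_zero_right,
      mul_zero, zero_smul, add_zero])
  obtain ⟨d, hd, -, d1⟩ := (h.pl k).exists_ne h.nd one_ne_zero (h.proj.mem k f') hk
  rw [h.bp hd, polar_comm] at d1
  obtain ⟨n, hn, e1⟩ := exists_map_eq_of_inj (A := D k) (B := D k)
    (LinearMap.id - (ρ⁻¹ : V ≃ₗ[F] V).toLinearMap)
    (fun x hx => Submodule.sub_mem _ hx (h.sub_mem (inv_mem hρ) hx)) (fun x hx e => r1 x hx (by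
      have : ρ x = x := by
        conv_lhs => rw [(sub_eq_zero.1 e : x = ρ⁻¹ x)]
        exact apply_inv_apply ρ x
      rw [this, this])) le_rfl hd
  change n - ρ⁻¹ n = d at e1
  refine h.proj.not_mem_decStab hn (h.proj.not_mem hkj ?_ ?_) w2 <;>
    rw [w1 k hkj n hn (h.o hkj.symm he (h.sub_mem (inv_mem hρ) hn)), e1, map_add, map_smul]
  · rw [h.proj.self hn, h.proj.other k j hkj _ he, smul_zero, add_zero]
    rintro rfl
    exact d1 (by rw [← e1]; simp)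
  · rw [h.proj.self he, h.proj.other j k hkj.symm _ hn, zero_add]
    exact smul_ne_zero (mul_ne_zero (sub_ne_zero.2 c1) d1) he0

theorem b1 {g : V ≃ₗ[F] V} (hg : g ∈ X) {i l : κ} {c : V} (hc : c ∈ D l) (hc0 : c ≠ 0)
    (h1 : ∀ v ∈ D i, polar Q (g v) c = 0) : g ∈ decStab D := by
  by_contra hn
  have hg' := h.orth hg
  obtain ⟨ρ, hρ, r1⟩ := (h.pl i).exists_rot h.nd
  have hs : g * ρ * g⁻¹ ∈ X := mul_mem (mul_mem hg (h.subX hρ)) (inv_mem hg)
  obtain ⟨τ, hτ⟩ := h.f2 hN hs hc hc0 (by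
    rw [LinearEquiv.mul_apply, LinearEquiv.mul_apply, hρ.2.2 _ ((𝓒).mem_perp.2 fun v hv => by
      rw [CForm.ofQuad_B, ← orth_polar ⟨g, hg'⟩]
      exact (congrArg _ (apply_inv_apply g c)).trans (h1 v hv)), apply_inv_apply])
  set P := (D i).map (g : V →ₗ[F] V) with hP
  have p1 : ∀ x, (g * ρ * g⁻¹) x - x ∈ P := fun x => by
    refine ⟨ρ (g⁻¹ x) - g⁻¹ x, ?_, ?_⟩
    · rw [h.proj_sub hρ]
      exact Submodule.sub_mem _ (h.sub_mem hρ (h.proj.mem i _)) (h.proj.mem i _)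
    · rw [LinearEquiv.coe_coe, map_sub, apply_inv_apply]; rfl
  have p2 : ∀ x ∈ P, (g * ρ * g⁻¹) ((g * ρ * g⁻¹) x) = x → x = 0 := by
    rintro _ ⟨x, hx, rfl⟩ e
    simp only [LinearEquiv.mul_apply, LinearEquiv.coe_coe, inv_apply_apply] at e
    rw [r1 x hx (g.injective e), map_zero]
  have p3 : ∀ x ∈ P, ∀ j, x ∈ D j → Q x = 0 := by
    rintro _ ⟨x, hx, rfl⟩ j hj
    by_contra e
    exact hn (h.f1 hN hg hx ((orth_Q ⟨g, hg'⟩ x).symm.trans_ne e) hj)
  have p4 : finrank F P = 2 := by rw [hP, finrank_map_equiv, (h.pl i).two]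
  have hs' := h.orth hs
  generalize g * ρ * g⁻¹ = s at *
  have q1 : ∀ j, ∀ x ∈ D j, s x ∈ D (τ j) := fun j x hx => hτ j ▸ ⟨x, hx, rfl⟩
  by_cases h2 : ∀ j, τ j = j
  · obtain ⟨a, ha, a1⟩ := (h.pl i).exists_Q h.nd one_ne_zero
    obtain ⟨v, -, e⟩ := exists_map_eq_of_inj (A := P) (B := P) (s.toLinearMap - LinearMap.id)
      (fun x _ => p1 x) (fun x hx e => p2 x hx (by
        have : s x = x := sub_eq_zero.1 e
        rw [this, this])) le_rfl (⟨a, ha, rfl⟩ : g a ∈ P)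
    change s v - v = g a at e
    have e2 : ∀ j, Q (π j (g a)) = 0 := fun j => by
      have b1 := hτ j
      have b2 := q1 j _ (h.proj.mem j v)
      rw [h2 j] at b1 b2
      rw [← e, map_sub, h.proj_map hs' b1]
      exact p3 _ (p1 _) j (Submodule.sub_mem _ b2 (h.proj.mem j v))
    have e3 := quad_ts_iff.1 (CForm.ts_span (C := 𝓒) (s := Set.range fun l => π l (g a)) (by
      rintro _ ⟨l, rfl⟩; exact e2 l) (by
      rintro _ ⟨l, rfl⟩ _ ⟨j, rfl⟩
      by_cases e : l = j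
      · subst e; exact (𝓒).B_self_of_zero (e2 l)
      · exact h.o e (h.proj.mem _ _) (h.proj.mem _ _))) (g a) (by
      conv_rhs => rw [← h.proj.sum (g a)]
      exact Submodule.sum_mem _ fun l _ => Submodule.subset_span ⟨l, rfl⟩)
    exact one_ne_zero (a1.symm.trans ((orth_Q ⟨g, hg'⟩ a).symm.trans e3))
  push Not at h2
  obtain ⟨j, hj⟩ := h2
  have q2 : ∀ w ∈ P, ∃ x ∈ D j, s x - x = w := fun w hw =>
    exists_map_eq_of_inj (A := D j) (B := P) (s.toLinearMap - LinearMap.id) (fun x _ => p1 x)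
      (fun x hx e => by
        by_contra h0
        exact hj (h.proj.eq_of_mem h0 ((sub_eq_zero.1 e : s x = x) ▸ q1 j x hx) hx))
      (by rw [p4, (h.pl j).two]) hw
  obtain ⟨x, hx, hx0⟩ := Submodule.exists_mem_ne_zero_of_ne_bot (h.dec.ne_bot j)
  have n1 : τ (τ j) ≠ τ j := fun e => hj (τ.injective e)
  have q3 : s (s x) ∈ D j := by
    obtain ⟨z, hz, e⟩ := q2 _ (p1 (s x))
    by_cases n2 : τ (τ j) = j
    · exact n2 ▸ q1 _ _ (q1 j x hx)
    have := congrArg (π (τ (τ j))) e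
    rw [map_sub, map_sub, h.proj.other _ _ n1 _ (q1 j z hz), h.proj.other _ _ n2 _ hz,
      h.proj.self (q1 _ _ (q1 j x hx)), h.proj.other _ _ n1 _ (q1 j x hx), sub_zero, sub_zero] at this
    rw [← this]; exact zero_mem _
  have q4 : s (s x) = x := by
    obtain ⟨z, hz, e⟩ := q2 _ (add_mem (p1 (s x)) (p1 x))
    have := congrArg (π (τ j)) e
    rw [sub_add_sub_cancel, map_sub, map_sub, h.proj.self (q1 j z hz), h.proj.other _ _ hj _ hz,
      h.proj.other _ _ hj _ q3, h.proj.other _ _ hj _ hx, sub_zero, sub_zero,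
      map_eq_zero_iff _ s.injective] at this
    rw [this, map_zero, sub_zero, sub_add_sub_cancel, eq_comm, sub_eq_zero] at e
    exact e
  have q5 := p2 _ (p1 x) (by rw [map_sub, map_sub, q4])
  exact hj (h.proj.eq_of_mem hx0 ((sub_eq_zero.1 q5 : s x = x) ▸ q1 j x hx) hx)

theorem b2 {g : V ≃ₗ[F] V} (hg : g ∈ X) {i : κ}
    (h1 : ∀ l, ∀ c ∈ D l, (∀ v ∈ D i, polar Q (g v) c = 0) → c = 0) : False := by
  classical
  have hg' := h.orth hg
  have k1 : ∀ l, ∀ v ∈ D i, π l (g v) = 0 → v = 0 := fun l v hv e => by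
    by_contra h0
    obtain ⟨w, hw, -, -, w1⟩ := (h.pl i).exists_twin h.nd hv h0
    obtain ⟨c, hc, c0, c1⟩ := (h.pl l).exists_perp h.nd (g w)
    refine c0 (h1 l c hc fun x hx => ?_)
    obtain ⟨α, β, rfl⟩ := (h.pl i).eq_add hv hw h0 w1 hx
    rw [map_add, map_smul, map_smul, polar_add_left, polar_smul_left, polar_smul_left, c1,
      polar_comm, h.b0 hc e]
    simp
  have k2 : ∀ a ∈ D i, Q a ≠ 0 → ∀ j k, j ≠ k → ∀ x ∈ D j, ∀ z ∈ D k, Q x ≠ 0 → Q z ≠ 0 →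
      polar Q x (g a) = 0 → polar Q z (g a) = 0 → ¬ IsSquare (Q x * Q z) := by
    intro a ha a0 j k hjk x hx z hz x0 z0 x1 z1 hs
    have hr := (h.rr hx hz x0 z0 hs).2.2
    have h2 : (g⁻¹ * (refl Q x * refl Q z).1 * g) a = a := by
      rw [LinearEquiv.mul_apply, LinearEquiv.mul_apply, orth_mul_apply, refl_apply_of_orth z1,
        refl_apply_of_orth x1, inv_apply_apply]
    obtain ⟨τ, hτ⟩ := h.f1 hN (mul_mem (mul_mem (inv_mem hg) hr) hg) ha a0 (h2.symm ▸ ha)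
    have h3 : τ i = i := h.proj.eq_of_mem (ne_zero_of_Q a0) (hτ i ▸ ⟨a, ha, h2⟩) ha
    obtain ⟨o, ho⟩ := h.fresh [j, k] (by simp)
    simp only [List.mem_cons, List.not_mem_nil, or_false, not_or] at ho
    refine ne_zero_of_Q x0 (h1 j x hx fun v hv => ?_)
    have h4 : (g⁻¹ * (refl Q x * refl Q z).1 * g) v ∈ D i := h3 ▸ hτ i ▸ ⟨v, hv, rfl⟩
    have h5 : g ((g⁻¹ * (refl Q x * refl Q z).1 * g) v - v) =
        -(((Q x)⁻¹ * polar Q x (g v)) • x) - ((Q z)⁻¹ * polar Q z (g v)) • z := by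
      rw [map_sub, LinearEquiv.mul_apply, LinearEquiv.mul_apply, apply_inv_apply, orth_mul_apply,
        refl_apply, refl_apply, polar_sub_right, polar_smul_right, h.o hjk hx hz]
      module
    have h6 := k1 o _ (Submodule.sub_mem _ h4 hv) (by
      rw [h5, map_sub, map_neg, map_smul, map_smul, h.proj.other o j ho.1 _ hx,
        h.proj.other o k ho.2 _ hz]; simp)
    rw [h6, map_zero] at h5
    have h7 := congrArg (π j) h5
    rw [map_zero, map_sub, map_neg, map_smul, map_smul, h.proj.self hx,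
      h.proj.other j k hjk _ hz, smul_zero, sub_zero, eq_comm, neg_eq_zero, smul_eq_zero,
      or_iff_left (ne_zero_of_Q x0), mul_eq_zero, or_iff_right (inv_ne_zero x0)] at h7
    rwa [polar_comm]
  have k3 : ∀ a ∈ D i, Q a ≠ 0 → ∀ j k l, j ≠ k → j ≠ l → k ≠ l → Q (π j (g a)) ≠ 0 →
      Q (π k (g a)) ≠ 0 → Q (π l (g a)) ≠ 0 → False := by
    intro a ha a0 j k l n1 n2 n3 a1 a2 a3
    obtain ⟨x, hx, x0, x1⟩ := (h.pl j).exists_perp_ns h.nd (h.proj.mem j _) a1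
    obtain ⟨y, hy, y0, y1⟩ := (h.pl k).exists_perp_ns h.nd (h.proj.mem k _) a2
    obtain ⟨z, hz, z0, z1⟩ := (h.pl l).exists_perp_ns h.nd (h.proj.mem l _) a3
    rw [polar_comm, h.bp hx] at x1
    rw [polar_comm, h.bp hy] at y1
    rw [polar_comm, h.bp hz] at z1
    rcases exists_sq_pair x0 y0 z0 with e | e | e
    · exact k2 a ha a0 j k n1 x hx y hy x0 y0 x1 y1 e
    · exact k2 a ha a0 j l n2 x hx z hz x0 z0 x1 z1 e
    · exact k2 a ha a0 k l n3 y hy z hz y0 z0 y1 z1 e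
  obtain ⟨j, k, l, m, n1, n2, n3, n4, n5, n6⟩ := exists_four (κ := κ) (by have := h.five; omega)
  rcases h.cases with han | ⟨hq, hh⟩
  · obtain ⟨a, ha, a1⟩ := (h.pl i).exists_Q h.nd one_ne_zero
    have a0 := a1.trans_ne one_ne_zero
    have : ∀ j, Q (π j (g a)) ≠ 0 := fun j e =>
      ne_zero_of_Q a0 (k1 j a ha (han j _ (h.proj.mem j _) e))
    exact k3 a ha a0 j k l n1 n2 n4 (this j) (this k) (this l)
  obtain ⟨e, he, e0, e1⟩ := hh i
  obtain ⟨f, hf, h2⟩ := exists_hypPair_sub h.nd (h.pl i).nd he e0 e1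
  have h3 : polar Q e f = 1 := h2.pair
  let B : κ → Finset F := fun j =>
    qrts (Q (π j (g f))) (polar Q (π j (g e)) (π j (g f))) (Q (π j (g e)))
  have c1 : ∀ j, (B j).card ≤ 2 := fun j => card_qrts fun ⟨_, a2, a3⟩ => e0 (k1 j e he (by
    refine (h.pl j).nd.eq_zero (h.proj.mem j _) ((𝓒).mem_perp.2 fun x hx => ?_)
    obtain ⟨v, hv, rfl⟩ := exists_map_eq_of_inj (A := D i) (B := D j) (π j ∘ₗ g.toLinearMap)
      (fun x _ => h.proj.mem j _) (k1 j) (by rw [(h.pl i).two, (h.pl j).two]) hx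
    obtain ⟨α, β, rfl⟩ := h.hyp_add he hf e1 h3 hv
    rw [CForm.ofQuad_B, LinearMap.comp_apply, LinearEquiv.coe_coe, map_add, map_add, map_smul,
      map_smul, map_smul, map_smul, polar_add_left, polar_smul_left, polar_smul_left, polar_self',
      a3, polar_comm, a2]
    simp))
  have c2 : ∀ j s, s ∉ B j → Q (π j (g (e + s • f))) ≠ 0 := fun j s hs e' => hs (mem_qrts.2 (by
    rw [map_add, map_add, map_smul, map_smul, Q_add, Q_smul, polar_smul_right, smul_eq_mul] at e'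
    linear_combination e'))
  obtain ⟨s, s0, s1, s2⟩ := exists_avoid_three hq (c1 j) (c1 k) (c1 l) (c1 m)
  have m1 := add_mem he ((D i).smul_mem s hf)
  have m2 := (Q_hyp' e1 h2.right h3 s).trans_ne s0
  rcases s2 with ⟨a, b⟩ | ⟨a, b⟩ | ⟨a, b⟩
  · exact k3 _ m1 m2 j k l n1 n2 n4 (c2 j s s1) (c2 k s a) (c2 l s b)
  · exact k3 _ m1 m2 j k m n1 n3 n5 (c2 j s s1) (c2 k s a) (c2 m s b)
  · exact k3 _ m1 m2 j l m n2 n3 n6 (c2 j s s1) (c2 l s a) (c2 m s b)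

end PD

theorem OrthDec.isMaximalIn_planes (hD : OrthDec 𝓒 D) (hQ : QNondeg Q)
    (h5 : 5 ≤ Fintype.card κ) (hp : ∀ i, Pl Q (D i)) :
    Cfsg.Geo.IsMaximalIn (OmegaV Q) (decStab D ⊓ OmegaV Q) := by
  obtain ⟨π, hπ⟩ := hD.exists_isProj
  have h0 : PD Q _ D π := ⟨hQ, hD, hπ, hp, h5, le_rfl, inf_le_right⟩
  have : Nontrivial κ := Fintype.one_lt_card_iff_nontrivial.1 (by omega)
  refine isMaximalIn_of _ _ inf_le_right
    (fun e => h0.spec.not_le_decStab (by have := h0.dim; omega) hD (e.trans inf_le_left))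
    fun M h2 h3 g hg hg' => ?_
  have h : PD Q M D π := ⟨hQ, hD, hπ, hp, h5, h2, h3⟩
  by_contra hc
  have hN : ∀ y, Nw Q M D y → ∃ j, y ∈ D j := fun y hy => by
    by_contra hx
    push Not at hx
    exact hc (h.omega_le hy hx)
  obtain ⟨i⟩ : Nonempty κ := inferInstance
  refine h.b2 hN hg (i := i) fun l c hc h1 => ?_
  by_contra h4
  exact hg' ⟨h.b1 hN hg hc h4 h1, h3 hg⟩

end H12
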