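import Cfsg.Agent.H12.SubG
import Cfsg.Agent.H5.Frobenius
import Cfsg.Agent.H10.Dihedral

/-!
# Trivial intersection subgroups attached to a totally singular subspace
-/

set_option autoImplicit false
set_option maxHeartbeats 400000

namespace H12

open Module H11 Submodule

variable {F : Type*} [Field F] {T : FormType F} {V : Type*} [AddCommGroup V] [Module F V]
  {C : CForm T V} {X H Y : Subgroup (V ≃ₗ[F] V)} {L : Submodule F V}

/-- The elements with commutator space inside `L`. -/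
def cen (L : Submodule F V) : Subgroup (V ≃ₗ[F] V) where
  carrier := {g | ∀ x, g x - x ∈ L}
  one_mem' x := by simp
  mul_mem' {a b} ha hb x := by
    simpa [LinearEquiv.mul_apply] using add_mem (ha (b x)) (hb x)
  inv_mem' {a} ha x := by
    have := neg_mem (ha (a⁻¹ x))
    rwa [apply_inv_apply, neg_sub] at this

theorem mem_cen {g : V ≃ₗ[F] V} : g ∈ cen L ↔ ∀ x, g x - x ∈ L := Iff.rfl

theorem cen_mono {L' : Submodule F V} (h : L ≤ L') : cen L ≤ cen L' := fun _ hg x => h (hg x)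

theorem cen_le_glStab : cen L ≤ glStab L := fun g hg x =>
  ⟨fun h => by simpa using add_mem (hg x) h, fun h => by simpa using sub_mem h (hg x)⟩

theorem conj_mem_cen {g k : V ≃ₗ[F] V} (hg : g ∈ cen L) :
    k * g * k⁻¹ ∈ cen (L.map (k : V →ₗ[F] V)) := fun x =>
  ⟨g (k⁻¹ x) - k⁻¹ x, hg _, by simp [LinearEquiv.mul_apply]⟩

theorem conj_mem_cen' {g k : V ≃ₗ[F] V} (hg : g ∈ cen L) (hk : ∀ l ∈ L, k l ∈ L) :
    k * g * k⁻¹ ∈ cen L := cen_mono (by rintro _ ⟨l, hl, rfl⟩; exact hk l hl) (conj_mem_cen hg)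

theorem CForm.Nondeg.cen_fix (hC : C.Nondeg) {g : V ≃ₗ[F] V} (hg : g ∈ C.isom) (hL : g ∈ cen L)
    {x : V} (hx : x ∈ C.perp L) : g x = x := by
  refine hC.ext' fun z => ?_
  have := C.mem_perp.1 hx _ (inv_mem hL z)
  rw [CForm.isom_B_right hg]
  rw [C.B_sub_left, sub_eq_zero] at this
  exact this

theorem CForm.Nondeg.mem_cen_of_fix [FiniteDimensional F V] (hC : C.Nondeg) {g : V ≃ₗ[F] V}
    (hg : g ∈ C.isom) (h : ∀ x ∈ C.perp L, g x = x) : g ∈ cen L := fun y => by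
  rw [← hC.perp_perp L]
  refine C.mem_perp.2 fun x hx => ?_
  rw [map_sub, ← h x hx, CForm.isom_B hg, h x hx, sub_self]

theorem sq_of_sub {g : V ≃ₗ[F] V} (h2 : (2 : F) = 0) (h : ∀ x, g (g x - x) = g x - x) :
    g * g = 1 := by
  ext x
  have := h x
  rw [map_sub, sub_eq_iff_eq_add] at this
  rw [LinearEquiv.mul_apply, this, LinearEquiv.coe_one, id,
    show g x - x + g x = (2 : F) • g x - x by module, h2, zero_smul, zero_sub, ← sub_eq_zero,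
    show -x - x = -((2 : F) • x) by module, h2, zero_smul, neg_zero]

theorem sub_of_sq {g : V ≃ₗ[F] V} (h2 : (2 : F) = 0) (h : g * g = 1) (x : V) :
    g (g x - x) = g x - x := by
  have : g (g x) = x := by rw [← LinearEquiv.mul_apply, h]; rfl
  rw [map_sub, this, ← sub_eq_zero, show x - g x - (g x - x) = (2 : F) • (x - g x) by module, h2,
    zero_smul]

/-- The dihedral trick. -/
theorem exists_dihedral {G : Type*} [Group G] [Finite G] {Y : Subgroup G} {t e : G} (ht : t ∈ Y)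
    (he : e ∈ Y) (ht2 : t * t = 1) (he2 : e * e = 1) (h : ∀ x ∈ Y, x * t * x⁻¹ ≠ e) :
    ∃ z ∈ Y, z ≠ 1 ∧ z * z = 1 ∧ z * t = t * z ∧ z * e = e * z := by
  rcases Nat.even_or_odd (orderOf (t * e)) with h1 | h1
  · obtain ⟨a1, a2, a3⟩ := H10.exists_central_invol_of_even ht2 he2 (orderOf_pos _).ne' h1
    exact ⟨_, pow_mem (mul_mem ht he) _, H10.ne_one_of_orderOf_two a1,
      H10.mul_self_of_orderOf_two a1, a2, a3⟩
  · obtain ⟨k, hk⟩ := H10.exists_zpow_conj_of_odd ht2 he2 h1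
    exact absurd hk (h _ (zpow_mem (mul_mem ht he) _))

variable (C X H L) in
/-- The elements of `X` with commutator space in `L` form a trivial intersection set. -/
structure TI : Prop where
  nd : C.Nondeg
  le : X ≤ C.isom
  ts : L ≤ C.perp L
  hZ : ∀ s ∈ X, s ∈ cen L → s ≠ 1 → ∀ l ∈ L, ∃ x, s x - x = l
  hZH : ∀ s ∈ X, s ∈ cen L → s ∈ H
  hR : ∀ k ∈ X, ∀ s ∈ X, s ∈ cen L → s ≠ 1 → k⁻¹ * s * k ∈ H → k ∈ H
  ex : ∃ s ∈ X, s ∈ cen L ∧ s ≠ 1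

variable (X H L) in
/-- An element outside `H` moving `L` as little as possible. -/
structure MaxK (k : V ≃ₗ[F] V) : Prop where
  mem : k ∈ X
  nm : k ∉ H
  max : ∀ k' ∈ X, k' ∉ H → finrank F ↥(L ⊓ L.map (k' : V →ₗ[F] V)) ≤
    finrank F ↥(L ⊓ L.map (k : V →ₗ[F] V))

theorem exists_maxK [FiniteDimensional F V] (h : ¬ X ≤ H) : ∃ k, MaxK X H L k := by
  obtain ⟨k₀, h1, h2⟩ := SetLike.not_le_iff_exists.1 h
  have : ∃ n, ∃ k ∈ X, k ∉ H ∧ finrank F V - finrank F ↥(L ⊓ L.map (k : V →ₗ[F] V)) = n :=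
    ⟨_, k₀, h1, h2, rfl⟩
  classical
  obtain ⟨k, a1, a2, a3⟩ := Nat.find_spec this
  refine ⟨k, a1, a2, fun k' b1 b2 => ?_⟩
  have h3 := Nat.find_min' this ⟨k', b1, b2, rfl⟩
  have h4 := Submodule.finrank_le (L ⊓ L.map (k' : V →ₗ[F] V))
  have h5 := Submodule.finrank_le (L ⊓ L.map (k : V →ₗ[F] V))
  omega

theorem MaxK.of_eq {k k' : V ≃ₗ[F] V} (h : MaxK X H L k) (h1 : k' ∈ X) (h2 : k' ∉ H)
    (h0 : L ⊓ L.map (k : V →ₗ[F] V) = ⊥) [FiniteDimensional F V] :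
    MaxK X H L k' ∧ L ⊓ L.map (k' : V →ₗ[F] V) = ⊥ := by
  have h3 := h.max k' h1 h2
  rw [h0, finrank_bot, Nat.le_zero] at h3
  exact ⟨⟨h1, h2, fun k'' a b => by
    have := h.max k'' a b
    rw [h0, finrank_bot] at this; omega⟩, finrank_eq_zero.1 h3⟩

theorem MaxK.mem_of_lt [FiniteDimensional F V] {k t : V ≃ₗ[F] V} (h : MaxK X H L k) (ht : t ∈ X)
    {Z : Submodule F V} (h1 : Z ≤ L.map (k : V →ₗ[F] V))
    (h2 : ∀ z ∈ Z, t z ∈ L.map (k : V →ₗ[F] V))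
    (h3 : finrank F ↥(L ⊓ L.map (k : V →ₗ[F] V)) < finrank F Z) : k⁻¹ * t * k ∈ H := by
  by_contra hc
  have h4 := h.max _ (mul_mem (mul_mem (inv_mem h.mem) ht) h.mem) hc
  have h5 : Z.map ((k⁻¹ * t : V ≃ₗ[F] V) : V →ₗ[F] V) ≤
      L ⊓ L.map ((k⁻¹ * t * k : V ≃ₗ[F] V) : V →ₗ[F] V) := by
    rintro _ ⟨z, hz, rfl⟩
    obtain ⟨l, hl, e⟩ := h2 z hz
    obtain ⟨l', hl', e'⟩ := h1 hz
    refine ⟨?_, l', hl', by simp [← e', LinearEquiv.mul_apply]⟩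
    change k⁻¹ (t z) ∈ L
    rw [← e]; simpa using hl
  have h6 := Submodule.finrank_mono h5
  rw [finrank_map_equiv] at h6
  omega

namespace TI

variable (h : TI C X H L)
include h

theorem fix {s : V ≃ₗ[F] V} (hs : s ∈ X) (hs' : s ∈ cen L) {x : V} (hx : x ∈ C.perp L) : s x = x :=
  h.nd.cen_fix (h.le hs) hs' hx

theorem sq {s : V ≃ₗ[F] V} (hs : s ∈ X) (hs' : s ∈ cen L) (x : V) : s (s x - x) = s x - x :=
  h.fix hs hs' (h.ts (hs' x))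

theorem stab {g : V ≃ₗ[F] V} (hg : g ∈ X) (hL : g ∈ glStab L) : g ∈ H := by
  obtain ⟨s, h1, h2, h3⟩ := h.ex
  refine h.hR g hg s h1 h2 h3 (h.hZH _ (mul_mem (mul_mem (inv_mem hg) h1) hg) ?_)
  simpa using conj_mem_cen' (k := g⁻¹) h2 fun l hl => (inv_mem hL l).1 hl

theorem conj_not_mem {k s : V ≃ₗ[F] V} (hk : k ∈ X) (hk' : k ∉ H) (hs : s ∈ X) (hs' : s ∈ cen L)
    (h1 : s ≠ 1) : k * s * k⁻¹ ∉ H := fun e =>
  hk' ((inv_mem_iff).1 (h.hR k⁻¹ (inv_mem hk) s hs hs' h1 (by simpa using e)))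

theorem maps_of_conj {x s : V ≃ₗ[F] V} (hs : s ∈ X) (hs' : s ∈ cen L) (h1 : s ≠ 1)
    {L' : Submodule F V} (e : x * s * x⁻¹ ∈ cen L') {l : V} (hl : l ∈ L) : x l ∈ L' := by
  obtain ⟨y, rfl⟩ := h.hZ s hs hs' h1 l hl
  simpa [LinearEquiv.mul_apply] using e (x y)

variable [FiniteDimensional F V]

theorem caseII {k s : V ≃ₗ[F] V} (hk : MaxK X H L k) (hs : s ∈ X) (hs' : s ∈ cen L) (h1 : s ≠ 1)
    {x : V} (hx : x ∈ L.map (k : V →ₗ[F] V)) (hx' : s x - x ∈ L.map (k : V →ₗ[F] V)) : x ∈ L := by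
  by_contra hc
  refine hk.nm (h.hR k hk.mem s hs hs' h1 (hk.mem_of_lt hs
    (Z := (L ⊓ L.map (k : V →ₗ[F] V)) ⊔ span F {x})
    (sup_le inf_le_right ((span_singleton_le_iff_mem _ _).2 hx)) (fun z hz => ?_)
    (finrank_lt_finrank_of_lt (SetLike.lt_iff_le_and_exists.2 ⟨le_sup_left, x,
      mem_sup_right (mem_span_singleton_self x), fun e => hc e.1⟩))))
  obtain ⟨c, hc⟩ := mem_sup_span_singleton.1 hz
  have : s z = (z - c • x) + c • (s x - x) + c • x := by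
    rw [← h.fix hs hs' (h.ts hc.1)]; simp [smul_sub]
  rw [this]
  exact add_mem (add_mem hc.2 (smul_mem _ _ hx')) (smul_mem _ _ hx)

theorem mem_of_perp {k : V ≃ₗ[F] V} (hk : MaxK X H L k) {x : V}
    (hx : x ∈ L.map (k : V →ₗ[F] V)) (hx' : x ∈ C.perp L) : x ∈ L :=
  let ⟨_, h1, h2, h3⟩ := h.ex
  h.caseII hk h1 h2 h3 hx (by simp [h.fix h1 h2 hx'])

theorem mem_of_sup_perp {k : V ≃ₗ[F] V} (hk : MaxK X H L k) {x : V}
    (hx : x ∈ L ⊔ L.map (k : V →ₗ[F] V)) (hx' : x ∈ C.perp L) : x ∈ L := by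
  obtain ⟨l, hl, m, hm, rfl⟩ := mem_sup.1 hx
  exact add_mem hl (h.mem_of_perp hk hm ((add_mem_cancel_left (h.ts hl)).1 hx'))

/-- The Frobenius argument. -/
theorem fr [Finite Y] (hY : Y ≤ X) {s₁ s₂ t : V ≃ₗ[F] V} (h1 : s₁ ∈ Y) (h1' : s₁ ∈ cen L)
    (h2 : s₂ ∈ Y) (h2' : s₂ ∈ cen L) (n1 : s₁ ≠ 1) (n2 : s₂ ≠ 1) (n12 : s₁ ≠ s₂) (ht : t ∈ Y)
    (ht' : t ∉ H) : ∃ g ∈ Y, g ∈ glStab L ∧ g ∉ cen L := by
  by_contra hc
  push Not at hc
  obtain ⟨N, -, hN, hN'⟩ := H5.frobenius_kernel ((cen L).subgroupOf Y) fun x hx s hs e => by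
    by_contra h0
    exact hx (hc x x.2 (mem_glStab_of_mapsTo fun l hl =>
      h.maps_of_conj (hY s.2) hs (fun e => h0 (Subtype.ext e)) e hl))
  have key : ∀ n ∈ N, ∀ s : Y, s.1 ∈ cen L → s.1 ≠ 1 → ∀ y,
      n.1 (s.1 y) + s.1⁻¹ (n.1⁻¹ y) = (2 : F) • y := fun n hn s hs h0 y => by
    have : n * s ∉ N := fun e => by
      rcases (hN s).1 ((mul_mem_cancel_left hn).1 e) with e | e
      exacts [h0 (congrArg Subtype.val e), e 1 (by simpa [Subgroup.mem_subgroupOf] using hs)]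
    rw [hN, not_or, not_forall] at this
    obtain ⟨-, x, hx⟩ := this
    have h3 := h.sq (hY (x * (n * s) * x⁻¹).2) (not_not.1 hx) (x.1 (s.1⁻¹ (n.1⁻¹ y)))
    simp only [Subgroup.coe_mul, Subgroup.coe_inv, LinearEquiv.mul_apply, inv_apply_apply,
      apply_inv_apply, ← map_sub, EmbeddingLike.apply_eq_iff_eq] at h3
    simp only [map_sub, apply_inv_apply] at h3
    linear_combination (norm := module) h3
  have hN1 : ∀ n ∈ N, n = 1 := fun n hn => by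
    have h3 : n.1 ∈ glStab L := mem_glStab_of_mapsTo fun l hl => by
      obtain ⟨y, rfl⟩ := h.hZ _ (hY (mul_mem h1 (inv_mem h2))) (mul_mem h1' (inv_mem h2'))
        (fun e => n12 (mul_inv_eq_one.1 e)) l hl
      have a1 := key n hn ⟨s₁, h1⟩ h1' n1 (s₂⁻¹ y)
      have a2 := key n hn ⟨s₂, h2⟩ h2' n2 (s₂⁻¹ y)
      simp only [apply_inv_apply] at a1 a2
      convert sub_mem (inv_mem h2' (n.1⁻¹ (s₂⁻¹ y))) (inv_mem h1' (n.1⁻¹ (s₂⁻¹ y))) using 1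
      rw [map_sub, LinearEquiv.mul_apply]
      linear_combination (norm := module) a1 - a2
    rcases (hN n).1 hn with e | e
    exacts [e, absurd (by simpa [Subgroup.mem_subgroupOf] using hc n n.2 h3) (e 1)]
  obtain ⟨⟨n, s⟩, e⟩ := hN'.2 ⟨t, ht⟩
  have : s.1 = ⟨t, ht⟩ := by simpa [hN1 n n.2] using e
  exact ht' (h.hZH t (hY ht) (by simpa [this, Subgroup.mem_subgroupOf] using s.2))

/-- The standard output of the Frobenius argument. -/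
theorem fr' [Finite V] {k s₁ s₂ : V ≃ₗ[F] V} (hk : MaxK X H L k) (h1 : s₁ ∈ X) (h1' : s₁ ∈ cen L)
    (h2 : s₂ ∈ X) (h2' : s₂ ∈ cen L) (n1 : s₁ ≠ 1) (n2 : s₂ ≠ 1) (n12 : s₁ ≠ s₂) :
    ∃ g ∈ X, g ∈ H ∧ g ∈ glStab L ∧ g ∈ cen (L ⊔ L.map (k : V →ₗ[F] V)) ∧ g ∉ cen L ∧
      ∀ x ∈ C.perp L, g x - x ∈ L := by
  have : Finite (V ≃ₗ[F] V) := DFunLike.finite _
  obtain ⟨g, a1, a2, a3⟩ := h.fr (Y := X ⊓ cen (L ⊔ L.map (k : V →ₗ[F] V))) (t := k * s₁ * k⁻¹)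
    inf_le_left ⟨h1, cen_mono le_sup_left h1'⟩ h1' ⟨h2, cen_mono le_sup_left h2'⟩ h2' n1 n2 n12
    ⟨X.mul_mem (X.mul_mem hk.mem h1) (X.inv_mem hk.mem), cen_mono le_sup_right (conj_mem_cen h1')⟩
    (h.conj_not_mem hk.mem hk.nm h1 h1' n1)
  refine ⟨g, a1.1, h.stab a1.1 a2, a2, a1.2, a3, fun x hx => h.mem_of_sup_perp hk (a1.2 x)
    (sub_mem (C.mem_perp.2 fun l hl => ?_) hx)⟩
  rw [CForm.isom_B_right (h.le a1.1)]
  exact C.mem_perp.1 hx _ ((inv_mem a2 l).1 hl)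

omit [FiniteDimensional F V] in
/-- The standard output of the dihedral trick. -/
theorem dih [Finite V] (h2 : (2 : F) = 0) {k e : V ≃ₗ[F] V} (hk : k ∈ X) (he : e ∈ X)
    (he2 : e * e = 1) (he' : ∀ x ∈ X, e ∉ cen (L.map (x : V →ₗ[F] V)))
    (hC : ∀ z ∈ X, z * e = e * z → z ∈ H) :
    ∃ z ∈ X, z ∈ H ∧ z ≠ 1 ∧ z * z = 1 ∧ z * e = e * z ∧ ∀ m ∈ L.map (k : V →ₗ[F] V),
      z m ∈ L.map (k : V →ₗ[F] V) := by
  have : Finite (V ≃ₗ[F] V) := DFunLike.finite _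
  obtain ⟨s, a1, a2, a3⟩ := h.ex
  have a4 := sq_of_sub h2 (h.sq a1 a2)
  obtain ⟨z, b1, b2, b3, b4, b5⟩ := exists_dihedral (mul_mem (mul_mem hk a1) (inv_mem hk)) he
    (by rw [show k * s * k⁻¹ * (k * s * k⁻¹) = k * (s * s) * k⁻¹ by group, a4]; simp) he2
    fun x hx e' => he' (x * k) (mul_mem hx hk) (by
      rw [← e', show x * (k * s * k⁻¹) * x⁻¹ = (x * k) * s * (x * k)⁻¹ by group]
      exact conj_mem_cen a2)
  refine ⟨z, b1, hC z b1 b5, b2, b3, b5, ?_⟩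
  rintro _ ⟨l, hl, rfl⟩
  refine h.maps_of_conj (x := z * k) a1 a2 a3 ?_ hl
  rw [show z * k * s * (z * k)⁻¹ = z * (k * s * k⁻¹) * z⁻¹ by group, b4, mul_inv_cancel_right]
  exact conj_mem_cen a2

end TI

end H12
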