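import Cfsg.Agent.H12.RatFin
import Cfsg.Agent.H12.TI
import Cfsg.Agent.H12.LagPair

/-!
# Rational structures: rational elements, forms of Witt index three
-/

set_option autoImplicit false
set_option maxHeartbeats 400000

namespace H12

open Module H11 Submodule

section Form

variable {F : Type*} [Field F] {T : FormType F} {V : Type*} [AddCommGroup V] [Module F V]
  {C : CForm T V} {X : Subgroup (V ≃ₗ[F] V)}

theorem Rq.smul_left' {v y : V} {a c : F} (h : Rq C X (c • v) y a) :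
    Rq C X v (T.σ c • y) (a * (c * T.σ c)) := by
  obtain ⟨g, hg, e⟩ := h
  refine ⟨g, hg, fun x => ?_⟩
  rw [e]
  simp only [C.B_smul_left, map_smul, smul_eq_mul, map_mul, T.σσ]
  module

variable (C) in
/-- Every totally singular line lies in a totally singular plane. -/
def Ix3 : Prop := ∀ v c, TSP C v c → ∃ d, C.N d = 0 ∧ C.B v d = 0 ∧ C.B c d = 0 ∧ d ∉ span F {v, c}

theorem TSP.symm {v c : V} (h : TSP C v c) : TSP C c v :=
  ⟨h.hc, h.hv, C.B_swap_zero h.hB, ne_zero_of_not_mem h.nm,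
    not_mem_span_of_not_mem h.ne h.nm (ne_zero_of_not_mem h.nm)⟩

theorem TSP.ind {v c : V} (h : TSP C v c) {s t : F} (e : s • v + t • c = 0) : s = 0 ∧ t = 0 :=
  have h1 : t = 0 := by_contra fun ht => h.nm (mem_span_singleton.2 ⟨-s / t,
    smul_right_injective V ht (by
      simp only [smul_smul, mul_div_cancel₀ _ ht]; linear_combination (norm := module) -e)⟩)
  ⟨by simpa [h1, h.ne] using e, h1⟩

theorem TSP.ts {v c : V} (h : TSP C v c) : C.TS (span F {v, c}) :=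
  CForm.ts_span (by simp [h.hv, h.hc]) (by simp [h.hB, C.B_swap_zero h.hB, C.B_self_of_zero h.hv,
    C.B_self_of_zero h.hc])

theorem TSP.finrank_eq {v c : V} (h : TSP C v c) : finrank F (span F {v, c}) = 2 :=
  finrank_span_pair_of_not_mem h.ne h.nm

theorem mem_pair_left (v c : V) : v ∈ span F {v, c} := subset_span (by simp)

theorem mem_pair_right (v c : V) : c ∈ span F {v, c} := subset_span (by simp)

theorem not_mem_left {v c d : V} (h : d ∉ span F {v, c}) : d ∉ span F {v} :=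
  fun e => h (span_mono (by simp) e)

theorem not_mem_right {v c d : V} (h : d ∉ span F {v, c}) : d ∉ span F {c} :=
  fun e => h (span_mono (by simp) e)

theorem not_mem_pair_swap {v c d : V} (hc : c ∉ span F {v}) (h : d ∉ span F {v, c}) :
    c ∉ span F {v, d} := not_mem_span_pair_swap hc h

theorem exists_perp_in_pair (C : CForm T V) {a b : V} (hb : b ∉ span F {a}) (ha : a ≠ 0) (x : V) :
    ∃ l ∈ span F {a, b}, l ≠ 0 ∧ C.B x l = 0 := by
  by_cases h : C.B x a = 0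
  · exact ⟨a, mem_pair_left a b, ha, h⟩
  · exact ⟨b - (C.B x b / C.B x a) • a, sub_mem (mem_pair_right a b) (smul_mem _ _
      (mem_pair_left a b)), fun e => hb (mem_span_singleton.2 ⟨_, (sub_eq_zero.1 e).symm⟩),
      by simp [h]⟩

variable [FiniteDimensional F V]

theorem Iso3.exists_tsp (h : Iso3 C) (hC : C.Nondeg) (hd : 5 ≤ finrank F V) {v : V}
    (hv : C.N v = 0) (hv0 : v ≠ 0) : ∃ c, TSP C v c := by
  obtain ⟨c, c1, c2, c3⟩ := h.exists_perpL hC [v] [v] (by simpa)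
  exact ⟨c, hv, c3, c1 v (by simp), hv0, not_mem_span_of_spanL c2 (by simp)⟩

theorem Iso3.ix3 (h : Iso3 C) (hC : C.Nondeg) (hd : 7 ≤ finrank F V) : Ix3 C := fun v c _ => by
  obtain ⟨d, c1, c2, c3⟩ := h.exists_perp hC (span F {v, c}) (span F {v, c})
    (by have := finrank_span_pair_le (F := F) v c; omega)
  exact ⟨d, c3, (C.mem_perp_pair.1 c1).1, (C.mem_perp_pair.1 c1).2, c2⟩

theorem ix3_alt {C : CForm (altType F) V} (hC : C.Nondeg) (hd : 5 ≤ finrank F V) : Ix3 C :=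
  fun v c _ => by
  have h1 := hC.finrank_add_finrank_perp (span F {v, c})
  have h2 := finrank_span_pair_le (F := F) v c
  obtain ⟨d, c1, c2⟩ := exists_mem_not_mem_of_finrank_lt (W := span F {v, c})
    (W' := C.perp (span F {v, c})) (by omega)
  exact ⟨d, alt_N d, (C.mem_perp_pair.1 c1).1, (C.mem_perp_pair.1 c1).2, c2⟩

theorem ix3_herm {σ : F →+* F} {hσ2 : ∀ a, σ (σ a) = a} (hN : ∀ a, σ a = a → ∃ b, b * σ b = a)
    {C : CForm (hermType σ hσ2) V} (hC : C.Nondeg) (hd : 6 ≤ finrank F V) : Ix3 C :=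
  fun v c _ => by
  have h1 := hC.finrank_add_finrank_perp (span F {v, c})
  have h2 := finrank_span_pair_le (F := F) v c
  obtain ⟨Y, a1, a2, a3, -⟩ := exists_le_disjoint (C.perp (span F {v, c})) (span F {v, c})
  have h3 := Submodule.finrank_mono (inf_le_right : C.perp (span F {v, c}) ⊓ span F {v, c} ≤ _)
  obtain ⟨d, c1, c2, c3⟩ := herm_exists_iso hN C (W := Y) (by omega)
  exact ⟨d, c3, (C.mem_perp_pair.1 (a1 c1)).1, (C.mem_perp_pair.1 (a1 c1)).2,
    fun e => c2 ((disjoint_def.1 a2) d c1 e)⟩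

theorem TSP.perp_add {v c : V} (h : TSP C v c) (hC : C.Nondeg) (S : AddSubgroup V)
    (hS : ∀ u, TSP C v u → u ∈ S) {x : V} (hx : C.B v x = 0) : x ∈ S := by
  obtain ⟨p, -, hp, hp'⟩ := hC.exists_partner (Z := ⊥) (x := v) (by simpa using h.ne) h.hv
    (by simp [C.perp_bot])
  have hh : IsHypPair C v p := ⟨h.hv, hp, hp'⟩
  have h1 : ∀ y, C.B v y = 0 → y - (C.B p y / T.ε) • v ∈ C.perp (span F {v, p}) := fun y hy =>
    C.mem_perp_pair.2 ⟨by simp [hy, hh.B_ee], by simp [hh.B_fe, T.ε_ne]⟩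
  have h2 : ∀ t : F, TSP C v (c + t • v) := fun t => ⟨h.hv, by
    rw [C.N_add_of_orth (by simp [C.B_swap_zero h.hB]), h.hc, C.N_smul_of_zero h.hv, add_zero],
    by simp [h.hB, hh.B_ee], h.ne, fun e => h.nm ((add_mem_cancel_right
      (smul_mem _ _ (mem_span_singleton_self v))).1 e)⟩
  have h3 := mem_of_singular_sub (hC.nondegOn_perp hh.nondegOn) (h1 c h.hB)
    (fun e => h.nm (mem_span_singleton.2 ⟨_, (sub_eq_zero.1 e).symm⟩))
    (by simpa [sub_eq_add_neg] using (h2 (-(C.B p c / T.ε))).hc) S (fun y hy hy' => by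
      by_cases h0 : y = 0
      · simp [h0]
      refine hS y ⟨h.hv, hy', (C.mem_perp_pair.1 hy).1, h.ne, fun e => ?_⟩
      obtain ⟨t, rfl⟩ := mem_span_singleton.1 e
      have := (C.mem_perp_pair.1 hy).2
      simp [hh.B_fe, T.ε_ne] at this
      simp [this] at h0) (h1 x hx)
  simpa using add_mem h3 (sub_mem (hS _ (h2 (C.B p x / T.ε))) (hS c h))

theorem TSP.exists_dual {a b : V} (h : TSP C a b) (hC : C.Nondeg) :
    ∃ a' b', C.B a a' = 1 ∧ C.B b a' = 0 ∧ C.B a b' = 0 ∧ C.B b b' = 1 := by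
  obtain ⟨a', a1, a2⟩ := hC.exists_perp_eq h.symm.nm 1
  obtain ⟨b', b1, b2⟩ := hC.exists_perp_eq h.nm 1
  exact ⟨a', b', a2, C.mem_perp_singleton.1 a1, C.mem_perp_singleton.1 b1, b2⟩

theorem Ix3.exists_perp_two (h : Ix3 C) (hi : Iso3 C) (hC : C.Nondeg) (hd : 5 ≤ finrank F V)
    {x x' : V} (hx : C.N x = 0) (hx' : C.N x' = 0) (h0 : x ≠ 0) (h0' : x' ≠ 0) :
    ∃ z, C.N z = 0 ∧ C.B x z = 0 ∧ C.B x' z = 0 ∧ z ∉ span F {x} ∧ z ∉ span F {x'} := by
  by_cases h1 : C.B x x' = 0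
  · by_cases h2 : x' ∈ span F {x}
    · obtain ⟨c, hc⟩ := hi.exists_tsp hC hd hx h0
      obtain ⟨t, rfl⟩ := mem_span_singleton.1 h2
      exact ⟨c, hc.hc, hc.hB, by simp [hc.hB], hc.nm, fun e => hc.nm
        ((span_singleton_le_iff_mem _ _).2 h2 e)⟩
    · obtain ⟨d, a1, a2, a3, a4⟩ := h x x' ⟨hx, hx', h1, h0, h2⟩
      exact ⟨d, a1, a2, a3, not_mem_left a4, not_mem_right a4⟩
  · obtain ⟨z, a1, a2, a3⟩ := hi.exists_perpL hC [x, x'] [] (by simpa)
    have a4 := ne_zero_of_not_mem a2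
    refine ⟨z, a3, a1 x (by simp), a1 x' (by simp), fun e => ?_, fun e => ?_⟩ <;>
      obtain ⟨t, rfl⟩ := mem_span_singleton.1 e
    · simpa [C.B_swap_ne h1, left_ne_zero_of_smul a4] using a1 x' (by simp)
    · simpa [h1, left_ne_zero_of_smul a4] using a1 x (by simp)

end Form

variable {K F : Type*} [Field K] [Field F] [Algebra K F] {V₀ V : Type*} [AddCommGroup V₀]
  [Module K V₀] [AddCommGroup V] [Module F V] [Module K V] [IsScalarTower K F V]
  {ι : V₀ →ₗ[K] V} {X : Subgroup (V ≃ₗ[F] V)}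

local notation "𝔣" => algebraMap K F

variable (ι) in
/-- `g` maps rational vectors to rational vectors. -/
def IsRat (g : V ≃ₗ[F] V) : Prop := ∀ x, ∃ y, g (ι x) = ι y

variable (ι) in
/-- `g` maps the point of `x` to a rational point. -/
def Good (g : V ≃ₗ[F] V) (x : V₀) : Prop := ∃ (c : F) (y : V₀), g (ι x) = c • ι y

theorem Rat.inj (h : Rat F ι) : Function.Injective ι := fun x y e => by_contra fun h' =>
  h.ne_zero (sub_ne_zero.2 h') (by rw [map_sub, e, sub_self])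

theorem Rat.exists_lin (h : Rat F ι) {g : V ≃ₗ[F] V} (hg : IsRat ι g) :
    ∃ g₀ : V₀ →ₗ[K] V₀, ∀ x, g (ι x) = ι (g₀ x) := by
  choose y hy using hg
  exact ⟨⟨⟨y, fun a b => h.inj (by rw [← hy, map_add, map_add, map_add, hy, hy])⟩, fun c a => h.inj
    (by rw [← hy, RingHom.id_apply, ι_smul (F := F), ι_smul (F := F), map_smul, hy])⟩, hy⟩

theorem Rat.isRat_of_sub (h : Rat F ι) {g : V ≃ₗ[F] V} (hg : g ∈ ratStab F ι)
    {Z : Submodule K V₀} {x : V₀} (hx : x ∉ Z) (e : g (ι x) - ι x ∈ span F (ι '' Z)) :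
    IsRat ι g := by
  obtain ⟨c, hc, h1, -⟩ := hg
  obtain ⟨φ₀, φ, a1, a2, a3⟩ := h.exists_one_zero hx
  obtain ⟨y, hy⟩ := h1 x
  have := map_eq_zero_of_span a2 e
  rw [map_sub, a3, hy, map_smul, a1, smul_eq_mul, sub_eq_zero] at this
  intro z
  obtain ⟨w, hw⟩ := h1 z
  exact ⟨(φ₀ y)⁻¹ • w, by rw [hw, ι_smul (F := F), map_inv₀, eq_inv_of_mul_eq_one_left this]⟩

theorem Rat.isRat_of_unip [Finite F] (h : Rat F ι) {g : V ≃ₗ[F] V} (hg : g ∈ ratStab F ι)
    (e : ∀ x, g (g x - x) = g x - x) : IsRat ι g := by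
  have := Finite.of_injective _ (𝔣).injective
  obtain ⟨c, hc, h1, -⟩ := hg
  obtain ⟨p, hp⟩ := CharP.exists F
  have := (𝔣).charP_iff_charP p |>.2 hp
  have : Fact p.Prime := ⟨CharP.char_is_prime F p⟩
  have h2 : ∀ n : ℕ, ∀ x, (g ^ n) x = x + (n : F) • (g x - x) := fun n => by
    induction n with
    | zero => simp
    | succ n ih =>
      intro x
      rw [pow_succ', LinearEquiv.mul_apply, ih, map_add, map_smul, e]; push_cast; module
  have h3 : ∀ n : ℕ, ∀ x, ∃ y, (g ^ n) (ι x) = c ^ n • ι y := fun n => by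
    induction n with
    | zero => exact fun x => ⟨x, by simp⟩
    | succ n ih =>
      intro x
      obtain ⟨y, hy⟩ := ih x
      obtain ⟨z, hz⟩ := h1 y
      exact ⟨z, by rw [pow_succ', LinearEquiv.mul_apply, hy, map_smul, hz, smul_smul, pow_succ]⟩
  intro z
  by_cases hz : z = 0
  · exact ⟨0, by simp [hz]⟩
  obtain ⟨φ₀, φ, a1, -, a3⟩ := h.exists_one_zero (Z := ⊥) (x := z) (by simpa)
  obtain ⟨y, hy⟩ := h3 p z
  rw [h2, CharP.cast_eq_zero, zero_smul, add_zero] at hy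
  have h4 := congrArg φ hy
  rw [a3, map_smul, a1, smul_eq_mul] at h4
  obtain ⟨k, hk⟩ := (Finite.surjective_of_injective (frobenius K p).injective) (φ₀ y)⁻¹
  obtain rfl : c = 𝔣 k := (frobenius F p).injective (by
    rw [frobenius_def] at hk
    rw [frobenius_def, frobenius_def, ← map_pow, hk, map_inv₀]
    exact eq_inv_of_mul_eq_one_left h4.symm)
  obtain ⟨w, hw⟩ := h1 z
  exact ⟨k • w, by rw [hw, ι_smul (F := F)]⟩

theorem Rat.mem_cen (h : Rat F ι) {g : V ≃ₗ[F] V} {L : Submodule F V}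
    (e : ∀ x, g (ι x) - ι x ∈ L) : g ∈ cen L := fun x =>
  h.mem (Z := L.comap ((g : V →ₗ[F] V) - (LinearMap.id : V →ₗ[F] V))) (fun y => e y) x

theorem Rat.mem_of_span (h : Rat F ι) {s : Set V₀} {x : V₀} (hx : ι x ∈ span F (ι '' s)) :
    x ∈ span K s := by_contra fun h' => h.not_mem_span h' hx

theorem Rat.mem_pair (h : Rat F ι) {a b x : V₀} (hx : ι x ∈ span F {ι a, ι b}) :
    x ∈ span K {a, b} := h.mem_of_span (by rwa [Set.image_pair])

theorem ι_mem_pair {a b x : V₀} (hx : x ∈ span K {a, b}) : ι x ∈ span F {ι a, ι b} := by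
  obtain ⟨s, t, rfl⟩ := mem_span_pair.1 hx
  rw [map_add, ι_smul (F := F), ι_smul (F := F)]
  exact add_mem (smul_mem _ _ (mem_pair_left _ _)) (smul_mem _ _ (mem_pair_right _ _))

theorem Rat.good_of_two (h : Rat F ι) {g : V ≃ₗ[F] V} {x p q : V₀} (hp : p ∉ span K {x})
    (hq : q ∉ span K {x, p}) (gp : Good ι g p) (gq : Good ι g q)
    (h1 : ∃ (c μ : F) (y : V₀), g (ι x) = c • ι y + μ • g (ι p))
    (h2 : ∃ (c μ : F) (y : V₀), g (ι x) = c • ι y + μ • g (ι q)) : Good ι g x := by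
  have key : ∀ p, p ∉ span K {x} → Good ι g p →
      (∃ (c μ : F) (y : V₀), g (ι x) = c • ι y + μ • g (ι p)) → Good ι g x ∨
        ∃ y z, ι y ∈ span F {g (ι x), g (ι p)} ∧ ι z ∈ span F {g (ι x), g (ι p)} ∧
          g (ι x) ∈ span F {ι y, ι z} := fun p hp ⟨c, z, e⟩ ⟨c', μ, y, e'⟩ => by
    by_cases hc' : c' = 0
    · exact Or.inl ⟨μ * c, z, by rw [e', e, hc', zero_smul, zero_add, smul_smul]⟩
    have hc : c ≠ 0 := by
      rintro rfl
      exact h.ne_zero (ne_zero_of_not_mem hp) (g.injective (by simpa using e))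
    refine Or.inr ⟨y, z, mem_span_pair.2 ⟨c'⁻¹, -(c'⁻¹ * μ), ?_⟩, mem_span_pair.2 ⟨0, c⁻¹, ?_⟩,
      mem_span_pair.2 ⟨c', μ * c, by rw [e', e, smul_smul]⟩⟩
    · rw [e', smul_add, inv_smul_smul₀ hc']; module
    · rw [e, inv_smul_smul₀ hc, zero_smul, zero_add]
  rcases key p hp gp h1 with a | a
  · exact a
  rcases key q (not_mem_left hq) gq h2 with b | b
  · exact b
  have := h.not_irr_of_lines (fun e => h.not_mem_span_singleton hp (by
    obtain ⟨c, hc⟩ := mem_span_singleton.1 e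
    exact mem_span_singleton.2 ⟨c, g.injective (by rw [map_smul, hc])⟩)) (fun e => hq (h.mem_pair (by
    obtain ⟨c, d, hc⟩ := mem_span_pair.1 e
    exact mem_span_pair.2 ⟨c, d, g.injective (by rw [map_add, map_smul, map_smul, hc])⟩))) a b
  simpa [Irrat, Good] using this

variable (ι X) in
/-- The rational automorphisms induced by elements of `X`. -/
def ratG : Subgroup (V₀ ≃ₗ[K] V₀) where
  carrier := {g | ∃ k ∈ X, ∀ x, k (ι x) = ι (g x)}
  one_mem' := ⟨1, one_mem _, fun _ => rfl⟩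
  mul_mem' := fun ⟨k, hk, e⟩ ⟨k', hk', e'⟩ => ⟨k * k', mul_mem hk hk', fun x => by
    rw [LinearEquiv.mul_apply, e', e, LinearEquiv.mul_apply]⟩
  inv_mem' := fun {g} ⟨k, hk, e⟩ => ⟨k⁻¹, inv_mem hk, fun x => by
    rw [← apply_inv_apply g x, ← e, inv_apply_apply, apply_inv_apply]⟩

theorem Rat.exists_extend (h : Rat F ι) (g : V₀ ≃ₗ[K] V₀) :
    ∃ k : V ≃ₗ[F] V, ∀ x, k (ι x) = ι (g x) := by
  have key : ∀ g : V₀ →ₗ[K] V₀, ∃ k : V →ₗ[F] V, ∀ x, k (ι x) = ι (g x) := fun g => by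
    obtain ⟨n, b₀, b, e⟩ := h
    refine ⟨b.constr F fun i => ι (g (b₀ i)), fun x => ?_⟩
    conv => lhs; rw [← b₀.sum_repr x]
    conv => rhs; rw [← b₀.sum_repr x]
    simp only [map_sum]
    refine Finset.sum_congr rfl fun i _ => ?_
    rw [ι_smul (F := F), map_smul, e, Basis.constr_basis, map_smul, ι_smul (F := F)]
  obtain ⟨k, hk⟩ := key g
  obtain ⟨k', hk'⟩ := key g.symm
  refine ⟨LinearEquiv.ofLinear k k' (LinearMap.ext fun x => sub_eq_zero.1
    (h.map_eq_zero (φ := k ∘ₗ k' - LinearMap.id) (fun y => by simp [hk, hk']) x))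
    (LinearMap.ext fun x => sub_eq_zero.1
    (h.map_eq_zero (φ := k' ∘ₗ k - LinearMap.id) (fun y => by simp [hk, hk']) x)), hk⟩

end H12
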