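import Cfsg.Agent.H12.RQ4
import Cfsg.Agent.H12.NonMax
import Cfsg.Agent.H12.RatU

/-!
# Stabilisers of decompositions of six-dimensional orthogonal spaces into two three-spaces
-/

set_option autoImplicit false
set_option maxHeartbeats 400000

namespace H12

open Module H11 QuadraticMap

variable {F : Type*} [Field F] {V : Type*} [AddCommGroup V] [Module F V]
  {Q : QuadraticForm F V} {X : Subgroup (V ≃ₗ[F] V)} [FiniteDimensional F V] [Fintype F]
  {S : Submodule F V}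

local notation "𝓒" => CForm.ofQuad Q

variable (Q S) in
/-- A non-degenerate three-space in a six-dimensional space. -/
structure D33 : Prop where
  nd : QNondeg Q
  two : (2 : F) ≠ 0
  on : (CForm.ofQuad Q).NondegOn S
  d3 : finrank F S = 3
  d6 : finrank F V = 6

variable (Q S) in
/-- Vectors in one of the two members. -/
def InS (x : V) : Prop := x ∈ S ∨ x ∈ (𝓒).perp S

variable (Q S) in
/-- Maps permuting the two members. -/
def SwS (k : V ≃ₗ[F] V) : Prop := (∀ x ∈ S, k x ∈ S) ∨ ∀ x ∈ S, k x ∈ (𝓒).perp S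

omit [Fintype F] in
theorem map_perp_of {T U : Submodule F V} {t : V ≃ₗ[F] V} (ht : t ∈ orth Q)
    (h : ∀ x ∈ T, t x ∈ U) (hd : finrank F T = finrank F U) : ∀ x ∈ (𝓒).perp T, t x ∈ (𝓒).perp U :=
  fun x hx => by
    rw [← Submodule.eq_of_le_of_finrank_eq (Submodule.map_le_iff_le_comap.2 h :
      T.map (t : V →ₗ[F] V) ≤ U) (by rw [finrank_map_equiv, hd]), ← CForm.map_perp ht]
    exact ⟨x, hx, rfl⟩

theorem mem_RS3 (hq : Fintype.card F = 3) {u w : V} (h : Ei Q X u w) : w ∈ RS Q X u := fun _ c => by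
  by_cases hc : c = 0
  · rw [hc, zero_smul]; exact ei_zero_right h.1
  rcases f3_cases hq hc with rfl | rfl
  · rwa [one_smul]
  · rw [neg_one_smul]; exact h.neg

namespace D33

variable (h : D33 Q S)
include h

omit [Fintype F] in
theorem perp : D33 Q ((𝓒).perp S) :=
  ⟨h.nd, h.two, h.nd.nondegOn_perp h.on, by
    have := h.nd.finrank_add_finrank_perp S
    have := h.d3
    have := h.d6
    omega, h.d6⟩

omit [Fintype F] in
theorem ne : NotExc F V := notExc_of_two_ne_zero h.two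

omit [Fintype F] in
theorem inS_perp {x : V} : InS Q ((𝓒).perp S) x ↔ InS Q S x := by
  rw [InS, h.nd.perp_perp, or_comm]; rfl

omit [Fintype F] in
theorem dep {y y' : V} (hy : y ∈ S) (hy' : y' ∈ S) (h0 : Q y = 0) (h0' : Q y' = 0)
    (e : polar Q y y' = 0) : y = 0 ∨ ∃ c : F, y' = c • y := by
  by_contra hc
  push Not at hc
  have h1 : y' ∉ Submodule.span F {y} := fun e =>
    let ⟨c, e'⟩ := Submodule.mem_span_singleton.1 e; hc.2 c e'.symm
  have h2 := finrank_span_pair_of_not_mem hc.1 h1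
  have h3 : Submodule.span F {y, y'} ≤ S := Submodule.span_le.2 (by rintro _ (rfl | rfl) <;> assumption)
  have h4 := ((CForm.restrict_nondeg_iff _).2 h.on).two_mul_finrank_le
    (W := (Submodule.span F {y, y'}).comap S.subtype) fun x hx => (CForm.mem_perp _).2 fun z hz =>
      (TSP.ts (C := 𝓒) ⟨h0, h0', e, hc.1, h1⟩).2 _ hz _ hx
  rw [(Submodule.comapSubtypeEquivOfLe h3).finrank_eq, h2, h.d3] at h4
  omega

theorem omega_le_of_RS (hX : glStab S ⊓ OmegaV Q ≤ X) {u r : V} (hu : u ∈ S) (hu0 : u ≠ 0)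
    (hu1 : Q u = 0) (hr : r ∈ (𝓒).perp S) (hr0 : r ≠ 0) (e : r ∈ RS Q X u) : OmegaV Q ≤ X := by
  have hQ := h.nd
  have h1 : (𝓒).perp S ≤ RS Q X u := le_of_eich_inv hQ h.perp.on h.perp.d3.ge
    (fun v hv b hb e1 e2 w hw => by
      have hk := eich_mem_subG hQ h.ne hv hb e1 e2
      have := RS.conj hw (hX ⟨subG_le_glStab hQ (Or.inl ((𝓒).le_perp_perp S)) hk, hk.1⟩) hk.2.1
      rwa [hk.2.2 u ((𝓒).le_perp_perp S hu)] at this) e
    fun e' => hr0 (h.perp.on.eq_zero hr e')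
  exact omega_le_of_perp_le hQ h.ne h.on h.d3.ge
    ((le_inf (subG_le_glStab hQ (Or.inr le_rfl)) (subG_le _)).trans hX) hu hu0 hu1
    fun r hr => RS.ei (h1 hr) hu1

theorem omega_le5 (hq : 5 ≤ Fintype.card F) (hX : glStab S ⊓ OmegaV Q ≤ X) {a x : V}
    (ha : InS Q S a) (hr : RR Q X x a) (he : IsSquare (Q x * Q a)) (hx : ¬ InS Q S x) :
    OmegaV Q ≤ X := by
  have key : ∀ {S}, D33 Q S → glStab S ⊓ OmegaV Q ≤ X → InS Q S a → ∀ s ∈ S, ∀ n ∈ (𝓒).perp S,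
      s ≠ 0 → Q n ≠ 0 → x = s + n → OmegaV Q ≤ X := by
    rintro S h hX ha s hs n hn hs0 hn0 rfl
    obtain ⟨u, hu, hu0, hu1, h9⟩ := RR.mem_RS_of_ne h.nd h.two (by omega) h.on h.d3.ge
      ((le_inf (subG_le_glStab h.nd (Or.inr le_rfl)) (subG_le _)).trans hX) hs hs0 hn hr ha
      (fun y hy e => rr_of_stab h.nd hX (Or.inl hy) ha (e.trans_ne hr.1) hr.2.1 (e ▸ he)) hn0
    exact h.omega_le_of_RS hX hu hu0 hu1 hn (fun e => hn0 (by rw [e, map_zero])) h9
  obtain ⟨s, hs, n, hn, rfl⟩ := h.nd.exists_add h.on x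
  have hs0 : s ≠ 0 := by rintro rfl; exact hx (Or.inr (by simpa))
  have hn0 : n ≠ 0 := by rintro rfl; exact hx (Or.inl (by simpa))
  by_cases h0 : Q n = 0
  · refine key h.perp (by rwa [glStab_perp_inf h.nd OmegaV_le]) (h.inS_perp.2 ha) n hn s
      ((𝓒).le_perp_perp S hs) hn0 (fun e => hr.1 ?_) (add_comm _ _)
    rw [Q_add, e, h0, show polar Q s n = 0 from (𝓒).mem_perp.1 hn s hs]; simp
  · exact key h hX ha s hs n hn hs0 h0 rfl

theorem not_iso (hq : Fintype.card F = 3) (hT : (𝓒).HasTS 3) (v : Fin 6 → V)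
    (h1 : ∀ i j, i ≠ j → polar Q (v i) (v j) = 0) : ∏ i, Q (v i) ≠ 1 := fun e => by
  have h2 : ((𝓒).gram v).det = 1 := by
    rw [det_gram_of_orth h1]
    simp only [CForm.ofQuad_N, e, Fintype.card_fin]
    linear_combination 21 * f3_three hq
  have h3 := CForm.linearIndependent_of_det_gram (h2.trans_ne one_ne_zero)
  obtain ⟨r, hr⟩ := (quad_hasTS_iff_disc h.two h.nd (m := 3) h.d6
    (basisOfLinearIndependentOfCardEqFinrank h3 (by simp [h.d6]))).1 hT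
  rw [coe_basisOfLinearIndependentOfCardEqFinrank, h2] at hr
  have h4 : r ≠ 0 := by rintro rfl; simp at hr
  exact h.two (by linear_combination -hr - mul_self_eq_one_of_card hq.le h4)

theorem not_iso' (hq : Fintype.card F = 3) (hT : (𝓒).HasTS 3) {a b c a' b' c' : V} (ha : a ∈ S)
    (hb : b ∈ S) (hc : c ∈ S) (ha' : a' ∈ (𝓒).perp S) (hb' : b' ∈ (𝓒).perp S)
    (hc' : c' ∈ (𝓒).perp S) (p1 : polar Q a b = 0) (p2 : polar Q a c = 0) (p3 : polar Q b c = 0)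
    (p4 : polar Q a' b' = 0) (p5 : polar Q a' c' = 0) (p6 : polar Q b' c' = 0) :
    Q a * Q b * Q c * Q a' * Q b' * Q c' ≠ 1 := fun e => by
  have o : ∀ x ∈ S, ∀ y ∈ (𝓒).perp S, polar Q x y = 0 := fun x hx y hy => (𝓒).mem_perp.1 hy x hx
  have o' : ∀ y ∈ (𝓒).perp S, ∀ x ∈ S, polar Q y x = 0 := fun y hy x hx => by
    rw [polar_comm, o x hx y hy]
  refine h.not_iso hq hT ![a, b, c, a', b', c'] (fun i j hij => ?_) ?_
  · fin_cases i <;> fin_cases j <;> first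
      | exact absurd rfl hij
      | simp [polar_comm Q b a, polar_comm Q c a, polar_comm Q c b, polar_comm Q b' a',
          polar_comm Q c' a', polar_comm Q c' b', *]
  · rw [Fin.prod_univ_six]; exact e

theorem exists_an (hq : Fintype.card F = 3) {s : V} (hs : s ∈ S) (h0 : Q s ≠ 0)
    (hn : ∀ u ∈ S, Q u = 0 → polar Q u s = 0 → u = 0) :
    ∃ a ∈ S, ∃ b ∈ S, polar Q s a = 0 ∧ polar Q s b = 0 ∧ polar Q a b = 0 ∧ Q a * Q b = 1 := by
  have hT := nondegOn_inf_perp_singleton (C := 𝓒) h.on hs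
    (by rw [CForm.ofQuad_B, polar_self']; exact mul_ne_zero h.two h0)
  have d1 := finrank_span_singleton_le (F := F) s
  have d2 := h.nd.finrank_inf_perp S (Submodule.span F {s})
  have d3 := h.d3
  obtain ⟨a, ha, ha0⟩ := exists_nonsingular hT (by intro e; rw [e, finrank_bot] at d2; omega)
  obtain ⟨b, hb, hb0, e⟩ := exists_orth_nonsingular h.nd h.two hT (by omega) ha ha0
  have a1 : polar Q s a = 0 := (𝓒).mem_perp_singleton.1 ha.2
  have a2 : polar Q s b = 0 := (𝓒).mem_perp_singleton.1 hb.2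
  refine ⟨a, ha.1, b, hb.1, a1, a2, e, (f3_cases hq (mul_ne_zero ha0 hb0)).resolve_right fun e' => ?_⟩
  have := congrArg (polar Q a) (hn (a + b) (add_mem ha.1 hb.1) (mul_left_cancel₀ ha0 (by
    rw [Q_add, e]; linear_combination e' + mul_self_eq_one_of_card hq.le ha0))
    (by rw [polar_comm, polar_add_right, a1, a2, add_zero]))
  rw [polar_add_right, e, polar_self', add_zero, polar_zero_right] at this
  exact mul_ne_zero h.two ha0 this

theorem good_or (hq : Fintype.card F = 3) (hT : (𝓒).HasTS 3) {s n : V} (hs : s ∈ S)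
    (hn : n ∈ (𝓒).perp S) (h0 : Q s ≠ 0) (e : Q n = Q s) :
    (∃ u ∈ S, u ≠ 0 ∧ Q u = 0 ∧ polar Q u s = 0) ∨
      ∃ u ∈ (𝓒).perp S, u ≠ 0 ∧ Q u = 0 ∧ polar Q u n = 0 := by
  by_contra hc
  push Not at hc
  obtain ⟨a, a1, b, b1, c1, c2, c3, c4⟩ := h.exists_an hq hs h0 fun u a b c =>
    by_contra fun d => hc.1 u a d b c
  obtain ⟨a', a2, b', b2, d1, d2, d3, d4⟩ := h.perp.exists_an hq hn (e.trans_ne h0) fun u a b c =>
    by_contra fun d => hc.2 u a d b c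
  refine h.not_iso' hq hT hs a1 b1 hn a2 b2 c1 c2 c3 d1 d2 d3 ?_
  rw [e]
  linear_combination (Q a * Q b * Q a' * Q b') * mul_self_eq_one_of_card hq.le h0 +
    Q a' * Q b' * c4 + d4

theorem omega_le3 (hq : Fintype.card F = 3) (hT : (𝓒).HasTS 3) (hX : glStab S ⊓ OmegaV Q ≤ X)
    {a x : V} (ha : InS Q S a) (hr : RR Q X x a) (he : IsSquare (Q x * Q a)) (hx : ¬ InS Q S x) :
    OmegaV Q ≤ X := by
  have key : ∀ {S}, D33 Q S → glStab S ⊓ OmegaV Q ≤ X → InS Q S a → ∀ s ∈ S, ∀ n ∈ (𝓒).perp S,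
      s ≠ 0 → n ≠ 0 → x = s + n → (Q s = 0 ∨ Q s ≠ 0 ∧ ∃ u ∈ S, u ≠ 0 ∧ Q u = 0 ∧ polar Q u s = 0) →
      OmegaV Q ≤ X := by
    rintro S h hX ha s hs n hn hs0 hn0 rfl (h0 | ⟨h0, u, hu, hu0, hu1, hu2⟩)
    · have h4 : polar Q s n = 0 := (𝓒).mem_perp.1 hn s hs
      have e : Q (s + n) = Q n := by rw [Q_add, h0, h4]; simp
      have h5 := hr.trans (rr_of_stab h.nd hX (Or.inr hn) ha (e ▸ hr.1) hr.2.1 (e ▸ he)).symm
      rw [add_comm] at h5
      have h6 := h5.ei h0 h4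
      exact h.omega_le_of_RS hX (S.smul_mem _ hs) (smul_ne_zero (inv_ne_zero h5.2.1) hs0) h6.1 hn hn0
        (mem_RS3 hq h6)
    · have hSX := (le_inf (subG_le_glStab h.nd (Or.inr le_rfl)) (subG_le _)).trans hX
      have h1 : polar Q u ((2 * Q s)⁻¹ • s) = 0 := by rw [polar_smul_right, hu2, smul_zero]
      have hk := eich_mem_subG h.nd h.ne hu (S.smul_mem _ hs) hu1 h1
      have h4 := (hr.map_subG h.nd hSX ha hk).trans hr.symm
      rw [map_add, hk.2.2 n hn, eich_apply hu1 h1, hu2, polar_smul_left, polar_self', smul_eq_mul,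
        inv_mul_cancel₀ (mul_ne_zero h.two h0)] at h4
      simp only [one_smul, zero_smul, mul_zero, sub_zero] at h4
      have h6 := h4.ei_perp h.nd h.ne hSX hs hn hu hu1 hu2
      exact h.omega_le_of_RS hX (S.smul_mem _ hu) (smul_ne_zero (inv_ne_zero hr.1) hu0) h6.1 hn hn0
        (mem_RS3 hq h6)
  obtain ⟨s, hs, n, hn, rfl⟩ := h.nd.exists_add h.on x
  have hs0 : s ≠ 0 := by rintro rfl; exact hx (Or.inr (by simpa))
  have hn0 : n ≠ 0 := by rintro rfl; exact hx (Or.inl (by simpa))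
  have k1 := key h hX ha s hs n hn hs0 hn0 rfl
  have k2 := key h.perp (by rwa [glStab_perp_inf h.nd OmegaV_le]) (h.inS_perp.2 ha) n hn s
    ((𝓒).le_perp_perp S hs) hn0 hs0 (add_comm _ _)
  by_cases h0 : Q s = 0
  · exact k1 (Or.inl h0)
  by_cases h1 : Q n = 0
  · exact k2 (Or.inl h1)
  have h3 := hr.1
  rw [Q_add, show polar Q s n = 0 from (𝓒).mem_perp.1 hn s hs, add_zero] at h3
  refine (h.good_or hq hT hs hn h0 ?_).elim (fun e => k1 (Or.inr ⟨h0, e⟩)) fun e => k2 (Or.inr ⟨h1, e⟩)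
  rcases f3_cases hq h0 with e | e <;> rcases f3_cases hq h1 with e' | e' <;> simp_all

omit [Fintype F] in
theorem root_map {U : Submodule F V} {n u : V} (hn : n ∈ S) (h0 : Q n ≠ 0) (hu : u ∈ S)
    (hu0 : u ≠ 0) (hu1 : Q u = 0) (hu2 : polar Q u n = 0) {t : V ≃ₗ[F] V} (ht : t ∈ orth Q)
    (hb : ∀ b ∈ S, Q b = Q n → InS Q U (t b)) : (∀ x ∈ S, t x ∈ U) ∨ ∀ x ∈ S, t x ∈ (𝓒).perp U := by
  have hnn : polar Q n n ≠ 0 := by rw [polar_self']; exact mul_ne_zero h.two h0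
  have hP := nondegOn_inf_perp_singleton (C := 𝓒) h.on hn hnn
  obtain ⟨f, hf, e⟩ := exists_hypPair_sub h.nd hP
    ⟨hu, (𝓒).mem_perp_singleton.2 (by rwa [CForm.ofQuad_B, polar_comm])⟩ hu0 hu1
  have f1 : polar Q n f = 0 := (𝓒).mem_perp_singleton.1 hf.2
  have f2 : Q f = 0 := e.right
  have f3 : polar Q u f = 1 := e.pair
  have n1 : polar Q n u = 0 := by rwa [polar_comm]
  have key : ∀ {W : Submodule F V}, (∀ b, InS Q U b → polar Q (t n) b ≠ 0 → b ∈ W) →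
      ∀ x ∈ S, t x ∈ W := fun {W} hW => by
    have k : ∀ z ∈ S, Q z = 0 → polar Q n z = 0 → t (n + z) ∈ W := fun z hz a b =>
      hW _ (hb _ (add_mem hn hz) (by rw [Q_add, a, b]; simp))
        (by rw [show polar Q (t n) (t (n + z)) = _ from orth_polar ⟨t, ht⟩ _ _, polar_add_right, b,
          add_zero]; exact hnn)
    have k0 : t n ∈ W := by simpa using k 0 (zero_mem _) (map_zero Q) (polar_zero_right _ _)
    have k1 : ∀ z ∈ S, Q z = 0 → polar Q n z = 0 → t z ∈ W := fun z hz a b => by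
      simpa using sub_mem (k z hz a b) k0
    have hd : ((𝓒).gram ![n, u, f]).det ≠ 0 := by
      rw [Matrix.det_fin_three]
      simp [CForm.gram_apply, n1, f1, f3, hu2, polar_self', hu1, f2, polar_comm Q f, h.two, h0]
    have : Submodule.span F (Set.range ![n, u, f]) = S := Submodule.eq_of_le_of_finrank_eq
      (Submodule.span_le.2 (by
        rintro _ ⟨i, rfl⟩; fin_cases i
        exacts [hn, hu, hf.1]))
      (by rw [finrank_span_eq_card (CForm.linearIndependent_of_det_gram hd), h.d3]; simp)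
    rw [← this]
    refine (Submodule.span_le (p := W.comap (t : V →ₗ[F] V))).2 ?_
    rintro _ ⟨i, rfl⟩; fin_cases i
    exacts [k0, k1 u hu hu1 n1, k1 f hf.1 f2 f1]
  exact (hb n hn rfl).imp (fun e => key fun b hb' c => hb'.resolve_right fun e' =>
    c ((𝓒).mem_perp.1 e' _ e)) fun e => key fun b hb' c => hb'.resolve_left fun e' =>
    c ((𝓒).mem_perp'.1 e _ e')

theorem no_star (hq : Fintype.card F = 3) (hT : (𝓒).HasTS 3) {A : Submodule F V} (hA : D33 Q A)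
    (star : ∀ T, T = S ∨ T = (𝓒).perp S → ∀ w ∈ T, Q w = 0 → ∀ y ∈ (𝓒).perp T,
      InS Q A (w + y) → Q (w + y) = 0) : False := by
  have h3 := f3_three hq
  have s1 := star _ (Or.inr rfl)
  rw [h.nd.perp_perp] at s1
  have s2 : ∀ y ∈ (𝓒).perp S, InS Q A y → Q y = 0 := fun y hy e => by
    simpa using star _ (Or.inl rfl) 0 (zero_mem _) (map_zero Q) y hy (by simpa)
  obtain ⟨T, hT', hTA, h0⟩ : ∃ T, D33 Q T ∧ (∀ x ∈ T, InS Q A x) ∧ ∀ x ∈ T, x ∈ S → x = 0 := by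
    by_contra hc
    push Not at hc
    obtain ⟨u, u1, u2, u3⟩ := hc A hA fun _ => Or.inl
    obtain ⟨v, v1, v2, v3⟩ := hc _ hA.perp fun _ => Or.inr
    have k : ∀ y ∈ S, InS Q A y → Q y = 0 := fun y hy e => by
      simpa using s1 0 (zero_mem _) (map_zero Q) y hy (by simpa)
    obtain ⟨c, rfl⟩ := (h.dep u2 v2 (k u u2 (Or.inl u1)) (k v v2 (Or.inr v1))
      ((𝓒).mem_perp.1 v1 u u1)).resolve_left u3
    exact v3 (hA.on.eq_zero (A.smul_mem c u1) v1)
  have top : ∀ w : V, ∃ y ∈ S, w + y ∈ T := fun w => by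
    have d := Submodule.finrank_sup_add_finrank_inf_eq T S
    rw [show T ⊓ S = ⊥ from (Submodule.eq_bot_iff _).2 fun x hx => h0 x hx.1 hx.2, finrank_bot,
      hT'.d3, h.d3] at d
    obtain ⟨x, hx, y, hy, rfl⟩ := Submodule.mem_sup.1
      ((Submodule.eq_top_of_finrank_eq (S := T ⊔ S) (by rw [h.d6]; omega)).ge (Submodule.mem_top (x := w)))
    exact ⟨-y, neg_mem hy, by simpa⟩
  obtain ⟨η, η0, w₁, a1, w₂, a2, w₃, a3, q1, q2, q3, p1, p2, p3⟩ : ∃ η : F, η ≠ 0 ∧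
      ∃ w₁ ∈ (𝓒).perp S, ∃ w₂ ∈ (𝓒).perp S, ∃ w₃ ∈ (𝓒).perp S, Q w₁ = 0 ∧ Q w₂ = 0 ∧ Q w₃ = 0 ∧
        polar Q w₁ w₂ = η ∧ polar Q w₁ w₃ = η ∧ polar Q w₂ w₃ = η := by
    obtain ⟨e, he, he0, he1⟩ := iso3_quad Q _ h.perp.d3.ge
    obtain ⟨f, hf, hp⟩ := exists_hypPair_sub h.nd h.perp.on he he0 he1
    obtain ⟨n, hn, n0, n1, n2, -⟩ := exists_ns_perp_hyp h.nd h.perp.on h.perp.d3.ge he hf hp
    have f2 : Q f = 0 := hp.right
    have f3 : polar Q e f = 1 := hp.pair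
    replace he1 : Q e = 0 := he1
    refine ⟨-Q n, neg_ne_zero.2 n0, (-Q n) • e, Submodule.smul_mem _ _ he, f, hf,
      (-Q n) • e + f + n, add_mem (add_mem (Submodule.smul_mem _ _ he) hf) hn, ?_, f2, ?_, ?_, ?_, ?_⟩ <;>
      simp [Q_add, Q_smul, he1, f2, f3, n1, n2, polar_self', polar_comm Q f e]
  have o : ∀ {w y}, w ∈ (𝓒).perp S → y ∈ S → polar Q w y = 0 ∧ polar Q y w = 0 := fun a b =>
    ⟨(𝓒).mem_perp'.1 a _ b, (𝓒).mem_perp.1 a _ b⟩
  obtain ⟨y₁, b1, c1⟩ := top w₁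
  obtain ⟨y₂, b2, c2⟩ := top w₂
  obtain ⟨y₃, b3, c3⟩ := top w₃
  have k1 : ∀ {w y}, w ∈ (𝓒).perp S → y ∈ S → Q w = 0 → w + y ∈ T → Q y = 0 := fun a b c d => by
    simpa [Q_add, c, o a b] using s1 _ a c _ b (hTA _ d)
  have r1 := k1 a1 b1 q1 c1
  have r2 := k1 a2 b2 q2 c2
  have r3 := k1 a3 b3 q3 c3
  have r4 := k1 (add_mem (add_mem a1 a2) a3) (add_mem (add_mem b1 b2) b3) (by
    simp only [Q_add, q1, q2, q3, p1, p2, p3, polar_add_left]; linear_combination η * h3) (by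
    convert add_mem (add_mem c1 c2) c3 using 1; abel)
  simp only [Q_add, r1, r2, r3, polar_add_left, zero_add, add_zero] at r4
  have k2 : ∀ {w w' y y'}, w ∈ (𝓒).perp S → w' ∈ (𝓒).perp S → y ∈ S → y' ∈ S → Q w = 0 → Q w' = 0 →
      Q y = 0 → Q y' = 0 → w + y ∈ T → w' + y' ∈ T → polar Q w w' = η →
      polar Q y y' = 0 ∨ polar Q y y' = η := fun {w w' y y'} a a' b b' c c' d d' e e' p => by
    by_cases h1 : polar Q y y' = 0
    · exact Or.inl h1
    refine Or.inr (by_contra fun h2 => ?_)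
    have h4 : polar Q y y' = -η := by
      rcases f3_cases hq h1 with i | i <;> rcases f3_cases hq η0 with j | j <;> simp_all
    rcases hT'.dep e e' (by simp [Q_add, c, d, o a b]) (by simp [Q_add, c', d', o a' b'])
      (by simp [p, h4, o a b', o a' b]) with i | ⟨κ, i⟩
    · have := congrArg (polar Q w') i
      simp [o a' b, polar_comm Q w' w, p, η0] at this
    · have := congrArg (polar Q w) i
      simp [o a b, o a b', p, η0, polar_self', c] at this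
  have k3 : ∀ {w w' y y'}, w ∈ (𝓒).perp S → w' ∈ (𝓒).perp S → y ∈ S → y' ∈ S → Q w = 0 → Q w' = 0 →
      Q y = 0 → Q y' = 0 → w + y ∈ T → w' + y' ∈ T → polar Q w w' = η → polar Q y y' = 0 →
      (y = 0 ↔ y' ≠ 0) := fun {w w' y y'} a a' b b' c c' d d' e e' p p' => by
    have k : ∀ κ : F, y' = κ • y → κ = 0 := fun κ i => by
      have := s2 (w' - κ • w) (sub_mem a' (Submodule.smul_mem _ _ a)) (hTA _ (by
        convert sub_mem e' (T.smul_mem κ e) using 1; rw [i]; module))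
      simpa [Q_sub, Q_smul, c, c', polar_comm Q w' w, p, η0] using this
    refine ⟨fun i j => ?_, fun j => (h.dep b b' d d' p').resolve_right fun ⟨κ, i⟩ => j ?_⟩
    · exact one_ne_zero (k 1 (by rw [i, j, smul_zero]))
    · rw [i, k κ i, zero_smul]
  have m1 := k2 a1 a2 b1 b2 q1 q2 r1 r2 c1 c2 p1
  have m2 := k2 a1 a3 b1 b3 q1 q3 r1 r3 c1 c3 p2
  have m3 := k2 a2 a3 b2 b3 q2 q3 r2 r3 c2 c3 p3
  have h2 := h.two
  by_cases z : polar Q y₁ y₂ = 0 ∧ polar Q y₁ y₃ = 0 ∧ polar Q y₂ y₃ = 0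
  · have := k3 a1 a2 b1 b2 q1 q2 r1 r2 c1 c2 p1 z.1
    have := k3 a1 a3 b1 b3 q1 q3 r1 r3 c1 c3 p2 z.2.1
    have := k3 a2 a3 b2 b3 q2 q3 r2 r3 c2 c3 p3 z.2.2
    tauto
  obtain ⟨n1, n2, n3⟩ : polar Q y₁ y₂ = η ∧ polar Q y₁ y₃ = η ∧ polar Q y₂ y₃ = η := by
    rcases m1 with i | i <;> rcases m2 with j | j <;> rcases m3 with k | k <;>
      simp_all [← two_mul]
  have e3 : η + (η + η) = 0 := by linear_combination η * h3
  have e4 : η + η + η = 0 := by linear_combination η * h3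
  refine h.not_iso' hq hT (add_mem b1 b2) (add_mem b1 b3) (add_mem b2 b3) (add_mem a1 a2)
    (add_mem a1 a3) (add_mem a2 a3) ?_ ?_ ?_ ?_ ?_ ?_ ?_
  iterate 6 simp [polar_comm Q w₂ w₁, polar_comm Q w₃ w₁, polar_comm Q w₃ w₂, polar_comm Q y₂ y₁,
    polar_comm Q y₃ y₁, polar_comm Q y₃ y₂, polar_self', q1, q2, q3, r1, r2, r3, p1, p2, p3, n1, n2,
    n3, e3, e4]
  simp only [Q_add, q1, q2, q3, r1, r2, r3, p1, p2, p3, n1, n2, n3, zero_add, add_zero]
  linear_combination (η ^ 4 + η ^ 2 + 1) * mul_self_eq_one_of_card hq.le η0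

theorem sw3 (hq : Fintype.card F = 3) (hT : (𝓒).HasTS 3) (hX : glStab S ⊓ OmegaV Q ≤ X)
    (hX' : X ≤ orth Q) (hN : ∀ a x, InS Q S a → RR Q X x a → InS Q S x) {g : V ≃ₗ[F] V}
    (hg : g ∈ X) : SwS Q S g := by
  have c1 : ∀ t ∈ X, ∀ c, InS Q S c → Q c ≠ 0 → InS Q S (t c) → SwS Q S t := fun t ht c a1 a2 a3 => by
    have k : ∀ b, InS Q S b → Q b = Q c → InS Q S (t b) := fun b b1 b2 => hN _ _ a3
      ((rr_of_stab h.nd hX b1 a1 (b2.trans_ne a2) a2 ⟨Q c, by rw [b2]⟩).conj ht (hX' ht))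
    obtain ⟨s, hs, e⟩ := exists_Q_eq_of_nondegOn h.nd h.on (by rw [h.d3]; omega) a2
    obtain ⟨n, hn, e'⟩ := exists_Q_eq_of_nondegOn h.nd h.perp.on (by rw [h.perp.d3]; omega) a2
    rcases h.good_or hq hT hs hn (e.trans_ne a2) (e'.trans e.symm) with
      ⟨u, u1, u2, u3, u4⟩ | ⟨u, u1, u2, u3, u4⟩
    · exact h.root_map hs (e.trans_ne a2) u1 u2 u3 u4 (hX' ht) fun b b1 b2 =>
        k b (Or.inl b1) (b2.trans e)
    · rcases h.perp.root_map (U := S) hn (e'.trans_ne a2) u1 u2 u3 u4 (hX' ht) fun b b1 b2 =>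
        k b (Or.inr b1) (b2.trans e') with i | i
      · exact Or.inr fun x hx => map_perp_of (hX' ht) i (by rw [h.perp.d3, h.d3]) x
          ((𝓒).le_perp_perp S hx)
      · exact Or.inl fun x hx => h.nd.perp_perp S ▸ map_perp_of (hX' ht) i rfl x
          ((𝓒).le_perp_perp S hx)
  by_contra hc
  have g' := hX' hg
  refine h.no_star hq hT (A := S.map ((g⁻¹ : V ≃ₗ[F] V) : V →ₗ[F] V)) ⟨h.nd, h.two,
    h.on.map (inv_mem g'), by rw [finrank_map_equiv, h.d3], h.d6⟩ fun T hT w hw w0 y hy hA => ?_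
  have tT : D33 Q T := by rcases hT with rfl | rfl; exacts [h, h.perp]
  have iT : ∀ x ∈ T, InS Q S x := by rcases hT with rfl | rfl; exacts [fun _ => Or.inl, fun _ => Or.inr]
  replace hA : InS Q S (g (w + y)) := by
    rw [InS, ← CForm.map_perp (inv_mem g')] at hA
    exact hA.imp (fun ⟨z, a, b⟩ => by rwa [← b, LinearEquiv.coe_coe, apply_inv_apply])
      fun ⟨z, a, b⟩ => by rwa [← b, LinearEquiv.coe_coe, apply_inv_apply]
  by_contra h0
  obtain ⟨u, hu, hu0, hu1, e⟩ : ∃ u ∈ T, u ≠ 0 ∧ Q u = 0 ∧ (w = 0 ∨ w = u) := by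
    by_cases e : w = 0
    · obtain ⟨u, hu, hu0, hu1⟩ := iso3_quad Q T tT.d3.ge
      exact ⟨u, hu, hu0, hu1, Or.inl e⟩
    · exact ⟨w, hw, e, w0, Or.inr rfl⟩
  obtain ⟨f, hf, hp⟩ := exists_hypPair_sub h.nd tT.on hu hu0 hu1
  obtain ⟨a, ha, a0, a1, -⟩ := exists_ns_perp_hyp h.nd tT.on tT.d3.ge hu hf hp
  have e1 : Q (a + u) = Q a := by rw [Q_add, hu1, polar_comm, a1]; simp
  have hr := (rr_of_stab h.nd hX (iT _ ha) (iT _ (add_mem ha hu)) a0 (e1.trans_ne a0)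
    ⟨Q a, by rw [e1]⟩).conj hg g'
  have o : ∀ z ∈ T, polar Q u z = 0 → polar Q (g z) (g (w + y)) = 0 := fun z hz b => by
    rw [show polar Q (g z) (g (w + y)) = _ from orth_polar ⟨g, g'⟩ _ _, polar_add_right,
      show polar Q z y = 0 from (𝓒).mem_perp.1 hy z hz, add_zero, polar_comm]
    rcases e with rfl | rfl
    exacts [polar_zero_left _ _, b]
  have fx : (refl Q (g a) * refl Q (g (a + u))).1 (g (w + y)) = g (w + y) := by
    rw [orth_mul_apply, refl_apply_of_orth (o _ (add_mem ha hu) (by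
      rw [polar_add_right, a1, polar_self', hu1]; simp)), refl_apply_of_orth (o a ha a1)]
  have q0 : Q (g (w + y)) ≠ 0 := (orth_Q ⟨g, g'⟩ _).trans_ne h0
  have n0 : g (w + y) ≠ 0 := fun e => q0 (by rw [e, map_zero])
  have sw := (c1 _ hr.2.2 _ hA q0 (fx.symm ▸ hA)).resolve_right fun i => n0 (hA.elim
    (fun j => h.on.eq_zero j (fx ▸ i _ j)) fun j => h.on.eq_zero (by
      have := map_perp_of (refl Q (g a) * refl Q (g (a + u))).2 i (by rw [h.perp.d3, h.d3]) _ j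
      rwa [fx, h.nd.perp_perp] at this) j)
  obtain ⟨κ, k1, k2⟩ := exists_ns_of_stab h.nd h.on hr.1 hr.2.1 (fun e => not_mem_span_add a0 hu1 hu0 (by
    obtain ⟨c, hc⟩ := Submodule.mem_span_singleton.1 e
    rw [← map_smul] at hc
    exact Submodule.mem_span_singleton.2 ⟨c, g.injective hc⟩))
    (fun i => hc (c1 g hg a (iT a ha) a0 (Or.inl i))) (fun i => hc (c1 g hg a (iT a ha) a0 (Or.inr i))) sw
  rw [← map_smul, ← map_add] at k1 k2
  exact hc (c1 g hg _ (iT _ (add_mem (add_mem ha hu) (T.smul_mem κ ha)))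
    ((orth_Q ⟨g, g'⟩ _).symm.trans_ne k2) (Or.inl k1))

theorem isMaximalIn (hq : 5 ≤ Fintype.card F ∨ Fintype.card F = 3 ∧ (𝓒).HasTS 3)
    {H : Subgroup (V ≃ₗ[F] V)} (hH : ∀ k ∈ OmegaV Q, k ∈ H ↔ SwS Q S k) :
    Cfsg.Geo.IsMaximalIn (OmegaV Q) (H ⊓ OmegaV Q) := by
  refine isMaximalIn_of _ _ inf_le_right (fun e => ?_) fun M h2 h3 g hg hg' => ?_
  · obtain ⟨s, hs, hs0, hs1⟩ := iso3_quad Q S h.d3.ge
    obtain ⟨n, hn, hn0, hn1⟩ := iso3_quad Q _ h.perp.d3.ge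
    have a1 : s + n ∉ S := fun i => hn0 (h.on.eq_zero (by simpa using sub_mem i hs) hn)
    have a2 : s + n ∉ (𝓒).perp S := fun i => hs0 (h.on.eq_zero hs (by simpa using sub_mem i hn))
    obtain ⟨k, hk, e'⟩ := (spec_quad h.nd h.ne).witt_one (by rw [h.d6]; omega) hs0 (v := s + n)
      (fun i => a1 (i ▸ zero_mem _))
      (by rw [(𝓒).N_add_of_orth ((𝓒).mem_perp.1 hn s hs), hn1, add_zero])
    exact ((hH k hk).1 (e hk).1).elim (fun i => a1 (e' ▸ i s hs)) fun i => a2 (e' ▸ i s hs)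
  have hX : glStab S ⊓ OmegaV Q ≤ M := fun k hk => h2 ⟨(hH k hk.2).2
    (Or.inl fun x hx => (hk.1 x).1 hx), hk.2⟩
  by_contra hc
  refine hg' ⟨(hH g (h3 hg)).2 ?_, h3 hg⟩
  rcases hq with hq | ⟨hq, hT⟩
  swap
  · exact h.sw3 hq hT hX (h3.trans OmegaV_le) (fun a x ha hr => by_contra fun hx =>
      hc (h.omega_le3 hq hT hX ha hr (hr.isSquare h.nd h.ne h3) hx)) hg
  let D : Bool → Submodule F V := fun b => cond b S ((𝓒).perp S)
  have m : ∀ i a, a ∈ D i → InS Q S a := by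
    rintro (_ | _) a ha
    exacts [Or.inr ha, Or.inl ha]
  have hb : Big Q S := ⟨h.on, Or.inr ⟨h.d3.ge, h.two, hq⟩, by omega⟩
  have hN : NoNew Q M D := ⟨h3.trans OmegaV_le, by
    rintro (_ | _)
    exacts [h.perp.on, h.on], by
    rintro (_ | _) (_ | _) e
    exacts [absurd rfl e, (𝓒).le_perp_perp S, le_rfl, absurd rfl e],
    fun i j a ha b hb' => rr_of_stab h.nd hX (m i a ha) (m j b hb'), fun i a ha x hr => by
    by_contra hx
    push Not at hx
    exact hc (h.omega_le5 hq hX (m i a ha) hr (hr.isSquare h.nd h.ne h3)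
      fun e => e.elim (hx true) (hx false))⟩
  obtain ⟨_ | _, hj⟩ := hN.exists_map_le h.nd (fun x hx => ⟨true, hb, hx false⟩) hg (i := true) hb
  exacts [Or.inr hj, Or.inl hj]

end D33

end H12
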