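import Cfsg.Agent.H12.X3f

/-!
# Overgroups of the three-dimensional orthogonal group over a quadratic extension: root elements
-/

set_option autoImplicit false
set_option maxHeartbeats 400000

namespace H12.X2

open Module H11 H13.KL QuadraticMap X3

variable {F E V : Type*} [Field F] [Field E] [Algebra F E] [AddCommGroup V] [Module F V]
  [Module E V] [IsScalarTower F E V] {Q : QuadraticForm F V} {R : QuadraticForm E V}
  {X : Subgroup (V ≃ₗ[F] V)} {g β : V ≃ₗ[F] V} {z n f x y u v w : V} {σ : E →+* E} {θ : E}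

local notation "𝓒" => CForm.ofQuad Q
local notation "𝓓" => CForm.ofQuad R
local notation "tr" => Algebra.trace F E
local notation "𝔣" => algebraMap F E

variable (Q R X σ θ) in
/-- An overgroup of the orthogonal group of dimension three over a quadratic extension. -/
structure E2 : Prop where
  eq : ∀ x, Q x = tr (R x)
  nd : QNondeg R
  two : (2 : F) ≠ 0
  le' : X ≤ OmegaV Q
  ge : semiStab F E V ⊓ OmegaV Q ≤ X
  res : ∀ g ∈ OmegaV R, res F E V g ∈ X
  dim : finrank E V = 3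
  deg : finrank F E = 2
  tσ : ∀ x, 𝔣 (tr x) = x + σ x
  θ0 : θ ≠ 0
  σθ : σ θ = -θ

namespace E2

variable (h : E2 Q R X σ θ)
include h

theorem le : X ≤ orth Q := h.le'.trans OmegaV_le

theorem pol (x y : V) : polar Q x y = tr (polar R x y) := by simp [polar, h.eq]

theorem twoE : (2 : E) ≠ 0 := by
  rw [← map_ofNat 𝔣 2]; exact (map_ne_zero _).2 h.two

theorem fd : FiniteDimensional E V := FiniteDimensional.of_finrank_pos (by have := h.dim; omega)

theorem fdE : FiniteDimensional F E := FiniteDimensional.of_finrank_pos (by have := h.deg; omega)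

theorem ne' : NotExc E V := have := h.fd; notExc_of_two_ne_zero h.twoE

theorem σF (c : F) : σ (𝔣 c) = 𝔣 c := by
  have := h.fdE
  have := h.tσ (𝔣 c)
  rw [Algebra.trace_algebraMap, h.deg, map_nsmul] at this
  linear_combination -this

theorem σσ (x : E) : σ (σ x) = x := by
  have := h.σF (tr x)
  rw [h.tσ, map_add] at this
  linear_combination this

theorem fix {x : E} (e : σ x = x) : ∃ c, 𝔣 c = x :=
  ⟨tr x / 2, by rw [map_div₀, h.tσ, e, map_ofNat]; have := h.twoE; field_simp; ring⟩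

theorem tr0 {x : E} : tr x = 0 ↔ σ x = -x := by
  rw [← (algebraMap F E).injective.eq_iff, h.tσ, map_zero, eq_neg_iff_add_eq_zero, add_comm]

theorem dec (e : E) : ∃ a b : F, e = 𝔣 a + 𝔣 b * θ := by
  have h2 := h.twoE
  have h0 := h.θ0
  obtain ⟨a, ha⟩ := h.fix (x := (e + σ e) / 2) (by simp [map_ofNat, h.σσ, add_comm])
  obtain ⟨b, hb⟩ := h.fix (x := (e - σ e) / (2 * θ)) (by
    simp only [map_div₀, map_sub, map_mul, map_ofNat, h.σσ, h.σθ]; field_simp; ring)
  exact ⟨a, b, by rw [ha, hb]; field_simp; ring⟩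

theorem θF (c : F) : 𝔣 c ≠ θ := fun e => mul_ne_zero h.twoE h.θ0 (by
  have := h.σF c
  rw [e, h.σθ] at this
  linear_combination -this)

theorem sqθ (c : F) : 𝔣 c ≠ (1 + θ) * (1 + θ) := fun e =>
  mul_ne_zero (mul_ne_zero h.twoE h.twoE) h.θ0 (by
    have := h.σF c
    rw [e, map_mul, map_add, map_one, h.σθ] at this
    linear_combination -this)

theorem eL_le {W : Submodule F V} (hv : v ∈ W) {a : E} (ha : ∀ c, 𝔣 c ≠ a) (e : a • v ∈ W) (k : E) :
    k • v ∈ W := by
  obtain ⟨p, q, rfl⟩ := h.dec a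
  obtain ⟨r, s, rfl⟩ := h.dec k
  have q0 : q ≠ 0 := by rintro rfl; exact ha p (by simp)
  have : θ • v ∈ W := (W.smul_mem_iff q0).1 (by
    simpa [add_smul, mul_smul] using sub_mem e (W.smul_mem p hv))
  simpa [add_smul, mul_smul] using add_mem (W.smul_mem r hv) (W.smul_mem s this)

theorem ts (hz : R z = 0) (hx : x ∈ eL F E z) (hy : y ∈ eL F E z) : polar Q x y = 0 := by
  obtain ⟨a, rfl⟩ := mem_eL.1 hx
  obtain ⟨b, rfl⟩ := mem_eL.1 hy
  simp [h.pol, polar_self', hz]

theorem q0 (hz : R z = 0) (a : E) : Q (a • z) = 0 := by simp [h.eq, Q_smul, hz]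

theorem q1 (hz : R z = 0) : Q z = 0 := by simp [h.eq, hz]

theorem q2 (hz : R z = 0) (a : E) : polar Q z (a • z) = 0 :=
  h.ts hz (self_mem_eL z) (smul_mem_eL a z)

theorem eich_z (hz : R z = 0) (s : E) (x : V) :
    (eich Q z (s • z)).1 x = x + ((σ s - s) * σ (polar R z x)) • z := by
  rw [eich_apply (h.q1 hz) (h.q2 hz s), h.q0 hz, h.pol, h.pol]
  simp only [← algebraMap_smul E (_ : F), h.tσ, polar_smul_left, smul_eq_mul, map_mul, map_zero, zero_mul]
  module

theorem pol_map (hg : g ∈ X) (x y : V) : polar Q (g x) (g y) = polar Q x y :=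
  orth_polar ⟨g, h.le hg⟩ x y

theorem u_mem (fr : X3.Fr R z n f) (k : Multiplicative E) : fr.u F k ∈ X :=
  have := h.fd; h.res _ (eich_mem_OmegaV h.nd h.ne' fr.z0 (by simp [fr.zn]))

theorem rr {a b : V} (ha : R a ≠ 0) (hb : R b ≠ 0) (e : IsSquare (R a * R b)) :
    H13.KL.res F E V (refl R a * refl R b).1 ∈ X :=
  have := h.fd; h.res _ (mem_OmegaV.2 (refl_mul_refl_mem_commutator h.nd ha hb e))

theorem tt (fr : X3.Fr R z n f) {a : E} (ha : a ≠ 0) : ∃ t ∈ X, ∀ x,
    t x = x + ((a * a - 1) * polar R f x) • z + (((a * a)⁻¹ - 1) * polar R z x) • f :=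
  ⟨_, h.rr (a := z + (1 : E) • f) (b := z + (a * a) • f) (by simp [Q_add, fr.s])
    (by simp [Q_add, Q_smul, fr.s, ha]) (by simp [Q_add, Q_smul, fr.s]), fun x => by
      rw [res_apply, refl_hyp_mul fr.z0 fr.f0 fr.zf one_ne_zero (mul_ne_zero ha ha)]; simp⟩

theorem fr_of (hz : R z = 0) (hf : R f = 0) (e : polar R z f = 1) : ∃ n, X3.Fr R z n f := by
  have := h.fd
  have hP := nondegOn_pair hz hf e
  have a1 := h.nd.finrank_add_finrank_perp (Submodule.span E {z, f})
  have a2 := finrank_span_pair_le (F := E) z f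
  have := h.dim
  obtain ⟨n, n1, n2⟩ := exists_nonsingular (h.nd.nondegOn_perp hP) (ne_bot_of_finrank_pos (by omega))
  obtain ⟨n3, n4⟩ := (𝓓).mem_perp_pair.1 n1
  refine ⟨n, hz, hf, e, n3, n4, n2, fun x => ?_⟩
  have a3 := finrank_span_pair_of_not_mem (F := E) (u := z) (w := f) (by rintro rfl; simp at e) fun c => by
    obtain ⟨c, rfl⟩ := Submodule.mem_span_singleton.1 c
    simp [polar_self', hz] at e
  obtain ⟨b, hb⟩ := Submodule.mem_span_singleton.1 ((Submodule.eq_of_le_of_finrank_eq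
    ((Submodule.span_singleton_le_iff_mem _ _).2 n1) (by
      rw [finrank_span_singleton (by rintro rfl; simp at n2)]; omega)).ge
    (show x - polar R f x • z - polar R z x • f ∈ _ from (𝓓).mem_perp_pair.2 (by
      simp [polar_self', hz, hf, e, polar_comm R f z])))
  exact ⟨polar R f x, b, polar R z x, by rw [hb]; abel⟩

theorem exists_fr (hz : R z = 0) (z0 : z ≠ 0) : ∃ n f, X3.Fr R z n f :=
  have := h.fd
  let ⟨f, a, b⟩ := exists_hyp_partner h.nd z0 hz
  let ⟨n, c⟩ := h.fr_of hz a b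
  ⟨n, f, c⟩

theorem line (hz : R z = 0) (z0 : z ≠ 0) (hx : R x = 0) (x0 : x ≠ 0) :
    ∃ k : V ≃ₗ[E] V, H13.KL.res F E V k ∈ X ∧ k z ∈ eL F E x := by
  by_cases e : polar R z x = 0
  · obtain ⟨n, f, fr⟩ := h.exists_fr hz z0
    exact ⟨1, one_mem _, eL_eq (fr.mem (F := F) e hx) x0 ▸ self_mem_eL (F := F) (E := E) z⟩
  obtain ⟨n, fr⟩ := h.fr_of hz (f := (polar R z x)⁻¹ • x) (by simp [Q_smul, hx]) (by simp [e])
  have a1 := Q_hyp' fr.z0 fr.f0 fr.zf (R n)
  refine ⟨_, h.rr fr.n0 (a1 ▸ fr.n0) ⟨R n, by rw [a1]⟩, ?_⟩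
  have a2 := smul_mem_eL (F := F) (polar R z x)⁻¹ x
  generalize (polar R z x)⁻¹ • x = f at *
  rw [orth_mul_apply, refl_apply, refl_apply, a1]
  simp [fr.s, fr.n0, eL_smul, a2]

theorem orth3 (hu : R u ≠ 0) (hv : R v ≠ 0) (e : polar R u v = 0) : ∃ n, R n ≠ 0 ∧ polar R u n = 0 ∧
    polar R v n = 0 ∧ ∀ x, polar R u x = 0 → ∃ a b : E, x = a • v + b • n := by
  have := h.fd
  have h2 := h.twoE
  obtain ⟨hP, a3⟩ := nondegOn_pair_of_det (Q := R) (u := u) (w := v) (by
    simp [e, hu, hv, show (4 : E) = 2 * 2 by norm_num, h2])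
  have a1 := h.nd.finrank_add_finrank_perp (Submodule.span E {u, v})
  have := h.dim
  obtain ⟨n, n1, n2⟩ := exists_nonsingular (h.nd.nondegOn_perp hP) (ne_bot_of_finrank_pos (by omega))
  obtain ⟨n3, n4⟩ := (𝓓).mem_perp_pair.1 n1
  refine ⟨n, n2, n3, n4, fun x hx => ?_⟩
  obtain ⟨b, hb⟩ := Submodule.mem_span_singleton.1 ((Submodule.eq_of_le_of_finrank_eq
    ((Submodule.span_singleton_le_iff_mem _ _).2 n1) (by
      rw [finrank_span_singleton (by rintro rfl; simp at n2)]; omega)).ge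
    (show x - (polar R v x / (2 * R v)) • v ∈ _ from (𝓓).mem_perp_pair.2 (by
      simp [polar_self', e, hx, hv, h2])))
  exact ⟨_, b, by rw [hb]; abel⟩

theorem ei_norm (hu : R u = 0) {b s : E} (e : Ei Q X (b • u) (s • b • u)) :
    Ei Q X u ((b * σ b * s) • u) :=
  ⟨h.q1 hu, h.q2 hu _, by
    convert e.2.2 using 1
    refine LinearEquiv.ext fun x => ?_
    rw [h.eich_z hu, h.eich_z (by simp [Q_smul, hu])]
    simp only [map_mul, h.σσ, polar_smul_left, smul_eq_mul]
    module⟩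

variable [Finite E] [Finite F]

theorem trans {u v : V} (hu : R u ≠ 0) (e : R v = R u) : ∃ k ∈ X, k u = v := by
  have := h.fd
  obtain ⟨g, g1, g2⟩ := h.nd.witt_one (u := u) (v := v) (by rintro rfl; simp at hu)
    (by rintro rfl; simp [← e] at hu) e
  obtain ⟨s, -, s1, s2⟩ := (spec_quad h.nd h.ne').plane _ (h.nd.nondegOn_perp (nondegOn_singleton h.twoE hu))
    (by
      have := h.nd.finrank_add_finrank_perp (Submodule.span E {u})
      have := finrank_span_singleton_le (F := E) u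
      have := h.dim
      omega) g g1
  exact ⟨_, h.res _ s2, by
    simp [s1 u (by rw [h.nd.perp_perp]; exact Submodule.mem_span_singleton_self u), g2]⟩

theorem ne : tr ≠ 0 := have := h.fdE; Algebra.trace_ne_zero F E

theorem perp_iff : polar R x y = 0 ↔ ∀ k : E, polar Q (k • x) y = 0 :=
  ⟨fun e k => by simp [h.pol, e], fun e => eq_zero_of_dual h.ne fun k => by
    simpa [h.pol] using e k⟩

theorem ndQ : QNondeg Q := fun x hx => h.nd x fun y => by
  rw [CForm.ofQuad_B, polar_comm, h.perp_iff]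
  exact fun k => by rw [polar_comm]; exact hx _

theorem skew (hz : R z = 0) (hβ : β ∈ X) (hS : ∀ x, β x - x ∈ eL F E z) (x y : V) :
    polar Q (β x - x) y = -polar Q x (β y - y) := by
  have a1 := h.pol_map hβ x y
  have a2 := h.ts hz (hS x) (hS y)
  simp only [polar_sub_left, polar_sub_right] at a2 ⊢
  linear_combination a1 - a2

theorem zfix (hz : R z = 0) (hβ : β ∈ X) (hS : ∀ x, β x - x ∈ eL F E z) (hx : polar R z x = 0) :
    β x = x := sub_eq_zero.1 (h.ndQ _ fun y => by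
  obtain ⟨a, ha⟩ := mem_eL.1 (hS y)
  rw [CForm.ofQuad_B, h.skew hz hβ hS, ← ha, h.pol]; simp [polar_comm R x, hx])

omit [Finite E] in
theorem sqE (c : F) : IsSquare (𝔣 c) := by
  obtain ⟨δ, hδ⟩ := h.fix (x := θ * θ) (by simp [h.σθ])
  by_cases e : IsSquare c
  · exact e.map _
  have c0 : c ≠ 0 := by rintro rfl; simp at e
  have δ0 : δ ≠ 0 := by rintro rfl; simp [h.θ0, eq_comm] at hδ
  obtain ⟨r, hr⟩ := (isSquare_mul_iff c0 δ0).2 ((qsign_eq_neg_one.2 e).trans
    (qsign_eq_neg_one.2 fun ⟨r, hr⟩ => by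
      rw [hr, map_mul] at hδ
      rcases mul_self_eq_mul_self_iff.1 hδ with e | e
      exacts [h.θF r e, h.θF (-r) (by simp [e])]).symm)
  have := h.θ0
  refine ⟨𝔣 r / θ, ?_⟩
  field_simp
  rw [pow_two, pow_two, ← hδ, ← map_mul, ← map_mul, hr]

theorem ei_of_z (fr : X3.Fr R z n f) (hβ : β ∈ X) (hS : ∀ x, β x - x ∈ eL F E z) (h1 : β ≠ 1) :
    ∃ c : F, c ≠ 0 ∧ Ei Q X z ((𝔣 c * θ) • z) := by
  have h2 := h.twoE
  have h0 := h.θ0
  obtain ⟨κ, k1⟩ := mem_eL.1 (hS f)
  obtain ⟨μ, m1⟩ := mem_eL.1 (hS (θ • f))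
  have a1 := h.skew fr.z0 hβ hS f f
  have a2 := h.skew fr.z0 hβ hS (θ • f) (θ • f)
  have a3 := h.skew fr.z0 hβ hS f (θ • f)
  simp only [← k1, ← m1, h.pol, polar_smul_left, polar_smul_right, fr.s, smul_eq_mul, mul_one] at a1 a2 a3
  replace a1 : σ κ = -κ := h.tr0.1 (mul_left_cancel₀ h.two (by linear_combination a1))
  replace a2 : σ (θ * μ) = -(θ * μ) := h.tr0.1 (mul_left_cancel₀ h.two (by
    rw [mul_comm μ] at a2; linear_combination a2))
  replace a3 := congrArg 𝔣 a3
  rw [map_neg, h.tσ, h.tσ, map_mul, a1, h.σθ] at a3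
  rw [map_mul, h.σθ] at a2
  replace a2 : σ μ = μ := mul_left_cancel₀ h0 (by linear_combination -a2)
  replace a3 : μ = -(κ * θ) := mul_left_cancel₀ h2 (by linear_combination a3 - a2)
  have a4 : ∀ x, β x = x + (κ * σ (polar R z x)) • z := fun x => by
    obtain ⟨p, q, e⟩ := h.dec (polar R z x)
    have := h.zfix fr.z0 hβ hS (x := x - p • f - q • θ • f) (by
      rw [← algebraMap_smul E p, ← algebraMap_smul E q]; simp [-algebraMap_smul, fr.s, e])
    rw [map_sub, map_sub, map_smul, map_smul, eq_add_of_sub_eq' k1.symm, eq_add_of_sub_eq' m1.symm] at this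
    rw [e, map_add, map_mul, h.σF, h.σF, h.σθ]
    simp only [← algebraMap_smul E (_ : F), a3] at this
    linear_combination (norm := module) this
  obtain ⟨c, hc⟩ := h.fix (x := -κ / (2 * θ)) (by
    simp only [map_div₀, map_neg, map_mul, map_ofNat, a1, h.σθ]; field_simp)
  refine ⟨c, fun e => h1 (LinearEquiv.ext fun x => ?_), h.q1 fr.z0, h.q2 fr.z0 _, ?_⟩
  · rw [e, map_zero, eq_comm] at hc
    simp [a4, show κ = 0 by simpa [h2, h0] using hc]
  convert hβ using 1
  refine LinearEquiv.ext fun x => ?_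
  rw [h.eich_z fr.z0, a4, map_mul, h.σF, h.σθ, hc]
  congr 2
  field_simp; ring

theorem rs_all (fr : X3.Fr R z n f) {c : F} (c0 : c ≠ 0) (e : Ei Q X z ((𝔣 c * θ) • z)) (hu : u ≠ 0)
    (hu0 : R u = 0) : θ • u ∈ RS Q X u := fun q d => by
  obtain ⟨δ, hδ⟩ := h.fix (x := θ * θ) (by simp [h.σθ])
  have δ0 : -δ ≠ 0 := by rw [neg_ne_zero]; rintro rfl; simp [h.θ0, eq_comm] at hδ
  obtain ⟨k, k1, k2⟩ := h.line fr.z0 fr.ne hu0 hu
  obtain ⟨b, hb⟩ := mem_eL.1 k2
  have b0 : b ≠ 0 := by rintro rfl; simp [fr.ne, eq_comm (a := (0 : V))] at hb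
  obtain ⟨m, hm⟩ := h.fix (x := b * σ b) (by simp [h.σσ, mul_comm])
  have m0 : m * c ≠ 0 := mul_ne_zero (by
    rintro rfl; exact mul_ne_zero b0 ((map_ne_zero σ).2 b0) (by rw [← hm, map_zero])) c0
  have key : ∀ a : F, Ei Q X u ((a * a * (m * c)) • θ • u) := fun a => by
    by_cases a0 : a = 0
    · simpa [a0] using ei_zero_right q
    obtain ⟨r, s, e'⟩ := exists_sq_add_sq h.two one_ne_zero δ0 a
    have n1 : (𝔣 r + 𝔣 s * θ) * σ (𝔣 r + 𝔣 s * θ) = 𝔣 a := by
      simp only [← e', map_add, map_mul, h.σF, h.σθ, map_neg, hδ, map_one]; ring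
    generalize 𝔣 r + 𝔣 s * θ = α at n1
    obtain ⟨t, t1, t2⟩ := h.tt fr (a := α) (by
      rintro rfl; exact a0 ((map_eq_zero 𝔣).1 (by rw [← n1, zero_mul])))
    have := (e.conj t1 (h.le t1)).conj k1 (h.le k1)
    rw [show t z = (α * α) • z by simp [t2, fr.s]; module, show t ((𝔣 c * θ) • z) =
      (𝔣 c * θ) • (α * α) • z by simp [t2, fr.s]; module] at this
    simp only [res_apply, map_smul, ← hb, smul_smul (α * α)] at this
    convert h.ei_norm hu0 this using 1
    rw [← algebraMap_smul E, smul_smul]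
    simp only [map_mul, ← n1, hm]
    congr 1; ring
  obtain ⟨x, y, e⟩ := exists_sq_add_sq h.two m0 m0 d
  rw [← e, add_smul]
  exact (key x).add (key y)

theorem mem_of_inv (hA : ∀ u, u ≠ 0 → R u = 0 → θ • u ∈ RS Q X u) (hu : R u ≠ 0) (hy : R y ≠ 0)
    (e : polar R u y = 0) {W : Submodule F V} (hW : ∀ t ∈ X, t u = u → ∀ r ∈ W, t r ∈ W)
    (h1 : y ∈ W) (hx : polar R u x = 0) : x ∈ W := by
  have h2 := h.twoE
  have h4 : (4 : E) ≠ 0 := by simpa [show (4 : E) = 2 * 2 by norm_num]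
  have h0 := h.θ0
  obtain ⟨n, n0, n1, n2, n3⟩ := h.orth3 hu hy e
  obtain ⟨a, b, rfl⟩ := n3 x hx
  by_cases hl : IsSquare (-(R y / R n))
  · obtain ⟨l, hl⟩ := hl
    replace hl : l * l * R n = -R y := by rw [← hl]; field_simp
    have l0 : l ≠ 0 := by rintro rfl; simp [hy, eq_comm] at hl
    have B : ∀ e, e ≠ 0 → R e = 0 → polar R e u = 0 → ∀ x ∈ W, (θ * σ (polar R e x)) • e ∈ W :=
      fun e e0 e1 e2 x hx => by
      have b := (hA e e0 e1 (h.q1 e1) (-2⁻¹)).2.2
      rw [← algebraMap_smul E, smul_smul] at b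
      convert sub_mem (hW _ b (by rw [h.eich_z e1, e2]; simp) x hx) hx using 1
      rw [h.eich_z e1, map_mul, h.σF, h.σθ, add_sub_cancel_left]
      simp only [map_neg, map_inv₀, map_ofNat]
      congr 1; field_simp; ring
    have T : ∀ {e f}, R e = 0 → R f = 0 → polar R e f ≠ 0 → polar R e u = 0 → polar R f u = 0 →
        e ∈ W → ∀ k : E, k • e ∈ W := fun {e f} e1 f1 p e2 f2 he => by
      obtain ⟨m, fr⟩ := h.fr_of e1 (f := (polar R e f)⁻¹ • f) (by simp [Q_smul, f1]) (by simp [p])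
      obtain ⟨t, t1, t2⟩ := h.tt fr (a := 1 + θ) (fun c => h.sqθ 0 (by simp [c]))
      refine h.eL_le he h.sqθ ?_
      convert hW t t1 (by simp [t2, e2, f2]) e he using 1
      rw [t2, fr.s.2.2.2.2.2.2.2.1, fr.s.2.2.2.2.2.1]; module
    have e1 : R (y + l • n) = 0 := by simp [Q_add, Q_smul, n2, hl]
    have f1 : R (y - l • n) = 0 := by simp [Q_sub, Q_smul, n2, hl]
    have e2 : polar R (y + l • n) u = 0 := by simp [polar_comm R _ u, e, n1]
    have f2 : polar R (y - l • n) u = 0 := by simp [polar_comm R _ u, e, n1]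
    have e3 : polar R (y + l • n) y = 2 * R y := by simp [polar_comm R n, polar_self', n2]
    have p : polar R (y - l • n) (y + l • n) = 4 * R y := by
      simp [polar_comm R n y, polar_self', n2]; linear_combination -2 * hl
    have p' := p ▸ mul_ne_zero h4 hy
    have b1 := B _ (by rintro c; simp [c] at p') f1 f2 _ (B _ (by rintro c; simp [c] at p') e1 e2 y h1)
    obtain ⟨m, hm⟩ := h.fix (x := -8 * (θ * θ) * (R y * σ (R y))) (by
      simp [h.σθ, h.σσ, map_ofNat, mul_comm])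
    rw [e3, polar_smul_right, p, show θ * σ ((θ * σ (2 * R y)) • (4 * R y)) = 𝔣 m by
      simp only [hm, smul_eq_mul, map_mul, h.σθ, h.σσ, map_ofNat]; ring, algebraMap_smul,
      W.smul_mem_iff (by
        rintro rfl
        replace hm := hm.symm
        simp [show (8 : E) = 4 * 2 by norm_num, h2, h4, h0, hy] at hm)] at b1
    have b2 := T f1 e1 p' f2 e2 b1
    have b3 := T e1 f1 (by rwa [polar_comm]) e2 f2 (by
      convert sub_mem (add_mem h1 h1) b1 using 1; abel)
    convert add_mem (b3 ((a + b / l) / 2)) (b2 ((a - b / l) / 2)) using 1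
    match_scalars <;> field_simp <;> ring
  have l0 : R y + R n ≠ 0 := fun c => hl ⟨1, by field_simp; linear_combination -c⟩
  obtain ⟨α, γ, a1, a2⟩ : ∃ α γ : E, (∀ c : F, 𝔣 c ≠ α * α) ∧ R (α • y + γ • n) = R y :=
    ⟨(R y - R n) / (R y + R n), 2 * R y / (R y + R n), fun c e => by
      have s0 : σ (R y) + σ (R n) ≠ 0 := by rw [← map_add]; exact (map_ne_zero σ).2 l0
      have s1 : σ (R n) ≠ 0 := (map_ne_zero σ).2 n0
      have := h.σF c
      rw [e, map_mul, mul_self_eq_mul_self_iff] at this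
      simp only [map_div₀, map_sub, map_add] at this
      rcases this with e | e
      · obtain ⟨d, hd⟩ := h.fix (x := -(R y / R n)) (by
          rw [map_neg, map_div₀, neg_inj, div_eq_div_iff s1 n0]
          field_simp at e
          exact mul_left_cancel₀ h2 (by linear_combination e))
        exact hl (hd ▸ h.sqE d)
      · obtain ⟨d, hd⟩ := h.fix (x := -((R y + R n) * (σ (R y) + σ (R n)) * (R n * σ (R n)))) (by
          simp only [map_neg, map_mul, map_add, h.σσ]; ring)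
        obtain ⟨r, hr⟩ := h.sqE d
        refine hl ⟨r / (R n * (σ (R y) + σ (R n))), ?_⟩
        field_simp at e ⊢
        rw [pow_two r, ← hr, hd]
        exact mul_left_cancel₀ h2 (by linear_combination (-(R n * (σ (R y) + σ (R n)))) * e), by
      simp only [Q_add, Q_smul, n2, polar_smul_left, polar_smul_right, smul_zero]
      obtain ⟨D, hD⟩ : ∃ D, D = R y + R n := ⟨_, rfl⟩
      rw [← hD] at l0 ⊢
      field_simp; rw [hD]; ring⟩
  have α0 : α ≠ 0 := by rintro rfl; exact a1 0 (by simp)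
  have γ0 : γ ≠ 0 := by
    rintro rfl
    refine a1 1 (mul_right_cancel₀ hy ?_)
    simpa [Q_smul] using a2.symm
  have b0 := a2 ▸ hy
  have b1 : polar R (α • y + γ • n) u = 0 := by simp [polar_comm R _ u, e, n1]
  have b2 := (polar_comm R y u).trans e
  have t1 := hW _ (h.rr hy b0 ⟨R y, by rw [a2]⟩) (by
    rw [res_apply, orth_mul_apply, refl_apply_of_orth b1, refl_apply_of_orth b2])
  have t2 := hW _ (h.rr b0 hy ⟨R y, by rw [a2]⟩) (by
    rw [res_apply, orth_mul_apply, refl_apply_of_orth b2, refl_apply_of_orth b1])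
  simp only [res_apply, orth_mul_apply, refl_apply, a2] at t1 t2
  have c1 := h.eL_le h1 (a := 4 * (α * α) - 2) (fun d hd => a1 ((d + 2) / 4) (by
    simp only [map_div₀, map_add, hd, map_ofNat]; field_simp; ring)) (by
      convert add_mem (t1 _ h1) (t2 _ h1) using 1
      simp [polar_self', n2, polar_comm R n y]
      match_scalars <;> field_simp <;> ring)
  refine add_mem (c1 _) ?_
  convert add_mem (t2 _ (c1 (b / (2 * α * γ)))) (c1 (b / (2 * α * γ) * (1 - 2 * α * α))) using 1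
  simp [polar_self', n2, polar_comm R n y]
  match_scalars <;> field_simp <;> ring

variable [FiniteDimensional F V]

theorem omega_le (hA : ∀ u, u ≠ 0 → R u = 0 → θ • u ∈ RS Q X u) : OmegaV Q ≤ X := by
  have := h.fd
  have hd := h.dim
  have h2 := h.twoE
  have h0 := h.θ0
  have := Fintype.ofFinite E
  obtain ⟨w, hw, hw0⟩ := (iso3_quad R).exists_iso (by omega)
  replace hw0 : R w = 0 := hw0
  obtain ⟨d, d1⟩ : ∃ d, d = (2 * θ)⁻¹ := ⟨_, rfl⟩
  have d0 : d ≠ 0 := by simp [d1, h2, h0]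
  have d2 : σ d = -d := by simp [d1, h.σθ, map_ofNat]
  obtain ⟨f, f1, f2⟩ := exists_hyp_partner h.nd hw hw0
  obtain ⟨p, p1, p2⟩ : ∃ p, R p = 0 ∧ polar R p w = d :=
    ⟨d • f, by rw [Q_smul, f1, mul_zero], by simp [polar_comm R f, f2]⟩
  have p0 : p ≠ 0 := by rintro rfl; simp [d0.symm] at p2
  have g3 := (RS.ei (hA p p0 p1) (h.q1 p1)).2.2
  have a2 := RS.conj (hA w hw hw0) g3 (h.le g3)
  rw [show (eich Q p (θ • p)).1 w = w + p by
    rw [h.eich_z p1, p2, d2, h.σθ, show (-θ - θ) * -d = 1 by rw [d1]; field_simp; ring, one_smul],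
    show (eich Q p (θ • p)).1 (θ • w) = θ • (w - p) by
      rw [h.eich_z p1, polar_smul_right, p2, smul_eq_mul, map_mul, d2, h.σθ,
        show (-θ - θ) * (-θ * -d) = -θ by rw [d1]; field_simp; ring]; module] at a2
  have u1 : R (w + p) = d := by rw [Q_add, hw0, p1, polar_comm, p2]; ring
  have u2 : Q (w + p) = 0 := by rw [h.eq, u1, h.tr0.2 d2]
  have a3 : ∀ x, polar R (w + p) x = 0 → x ∈ RS Q X (w + p) := fun x hx =>
    h.mem_of_inv hA (u1 ▸ d0) (by simp [Q_smul, Q_sub, hw0, p1, polar_comm R w p, p2, d0, h0]) (by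
      simp [polar_self', hw0, p1, p2, polar_comm R w p]) (fun t t1 t2 r hr => by
        simpa only [t2] using RS.conj hr t1 (h.le t1)) a2 hx
  generalize w + p = u at u1 u2 a3
  have a4 : Fu Q X ⊤ u := fun x _ hx => by
    obtain ⟨c, hc⟩ := h.fix (x := polar R u x / (2 * d)) (by
      rw [map_div₀, h.tr0.1 (h.pol u x ▸ hx), map_mul, d2, map_ofNat]; field_simp)
    have := add_mem (show c • u ∈ RS Q X u from fun _ a => by rw [smul_smul]; exact ei_smul_self u2 _)
      (a3 (x - c • u) (by rw [← algebraMap_smul E]; simp [hc, polar_self', u1, h2, d0]))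
    exact RS.ei (by simpa using this) u2
  obtain ⟨n, -, n1, n2⟩ := exists_Q_eq_perp_ns h.nd h2 ((𝓓).nondegOn_top.2 h.nd) (by simp [hd])
    (s := u) trivial (u1 ▸ d0) (d - θ * θ * d)
  obtain ⟨k, k1, k2⟩ := h.trans (u1 ▸ d0) (v := θ • u + n) (by simp [Q_add, Q_smul, n1, n2, u1])
  refine a4.omega_le h.ndQ (notExc_of_two_ne_zero h.two) ?_ u2 k1 (h.le k1) ?_
  · have := finrank_mul_finrank F E V
    rw [h.deg, hd] at this
    omega
  · rw [k2, h.pol, Ne, h.tr0]
    simp only [polar_add_right, polar_smul_right, polar_self', n1, u1, smul_eq_mul, add_zero,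
      show θ * (2 * d) = 1 by rw [d1]; field_simp, map_one]
    exact fun e => h2 (by linear_combination e)

theorem le_of_z (fr : X3.Fr R z n f) (hβ : β ∈ X) (hS : ∀ x, β x - x ∈ eL F E z) (h1 : β ≠ 1) :
    OmegaV Q ≤ X :=
  let ⟨_, c0, e⟩ := h.ei_of_z fr hβ hS h1
  h.omega_le fun _ => h.rs_all fr c0 e

end E2

end H12.X2
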