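import Cfsg.Agent.H12.O4b

/-!
# Overgroups of the three-dimensional orthogonal group over a quadratic extension: line stabilisers
-/

set_option autoImplicit false
set_option maxHeartbeats 400000

namespace H12.X2

open Module H11 H13.KL QuadraticMap Multiplicative X3

variable {F E V : Type*} [Field F] [Field E] [Algebra F E] [AddCommGroup V] [Module F V]
  [Module E V] [IsScalarTower F E V] {Q : QuadraticForm F V} {R : QuadraticForm E V}
  {X : Subgroup (V ≃ₗ[F] V)} {g β t : V ≃ₗ[F] V} {z n f x y : V} {σ : E →+* E} {θ : E}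

local notation "tr" => Algebra.trace F E
local notation "𝔣" => algebraMap F E

theorem cent (fr : X3.Fr R z n f) (h2 : (2 : E) ≠ 0) {s : E} (s0 : s ≠ 0) (s5 : s * s - 1 ≠ 0)
    (φ : V →ₗ[F] V) (hu : ∀ k x, φ (fr.u F k x) = fr.u F k (φ x))
    (ht : ∀ a : E, a ≠ 0 → ∃ t : V ≃ₗ[F] V, (∀ x, t x = x + ((a * a - 1) * polar R f x) • z +
      (((a * a)⁻¹ - 1) * polar R z x) • f) ∧ ∀ x, φ (t x) = t (φ x)) :
    ∃ (l : E) (c : E →ₗ[F] E), (∀ x, φ x = l • x + c (polar R z x) • z) ∧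
      ∀ a b, a ≠ 0 → c b = a * a * c (a * a * b) := by
  have n0 := mul_ne_zero h2 fr.n0
  have a1 : ∀ b : E, ∃ c : E, φ (b • n) = c • n := fun b => by
    obtain ⟨t, t1, t2⟩ := ht s s0
    obtain ⟨p, q, r, e⟩ := fr.sp (φ (b • n))
    have b1 := t2 (b • n)
    rw [show t (b • n) = b • n by simp [t1, fr.s], t1, e] at b1
    have b2 := congrArg (polar R f) b1
    have b3 := congrArg (polar R z) b1
    simp [fr.s, s5, sub_eq_zero, sub_ne_zero.1 s5, -mul_inv_rev] at b2 b3
    exact ⟨q, by simp [e, b2, b3]⟩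
  choose γ hγ using a1
  have a2 : ∀ k b : E, φ ((k * (b * (2 * R n))) • z) = (k * (γ b * (2 * R n))) • z := fun k b => by
    have := hu (ofAdd k) (b • n)
    rw [hγ, fr.u_perp _ (by simp [fr.s]), fr.u_perp _ (by simp [fr.s]), map_add, hγ] at this
    simpa [fr.s] using this
  have a3 : ∀ c : E, φ (c • z) = γ 1 • c • z := fun c => by
    obtain ⟨c, rfl⟩ := mul_right_surjective₀ n0 c
    have := a2 c 1
    rw [one_mul] at this
    rw [this]; module
  have a4 : ∀ x, polar R z x = 0 → φ x = γ 1 • x := fun x hx => by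
    obtain ⟨a, b, rfl⟩ := fr.perp hx
    have := smul_left_injective E fr.ne ((a2 1 b).symm.trans ((a3 _).trans (smul_smul _ _ _)))
    rw [map_add, a3, hγ, show γ b = γ 1 * b from mul_right_cancel₀ n0 (by linear_combination this)]
    module
  have a5 : ∀ b : E, ∃ c : E, φ (b • f) = γ 1 • b • f + c • z := fun b => by
    obtain ⟨c, hc⟩ := mem_eL.1 (fr.fix (F := F) h2 (k := ofAdd 1) (x := φ (b • f) - γ 1 • b • f)
      (by simp) (by
        rw [map_sub, ← hu, fr.u_smul _ (γ 1), sub_eq_sub_iff_sub_eq_sub, ← map_sub, a4 _ (fr.z_u _ _), smul_sub]))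
    exact ⟨c, by rw [hc]; abel⟩
  let c : E →ₗ[F] E := (polarBilin R f).restrictScalars F ∘ₗ (φ - (LinearMap.lsmul E V (γ 1)).restrictScalars F)
    ∘ₗ (LinearMap.toSpanSingleton E V f).restrictScalars F
  have hc : ∀ b : E, φ (b • f) = γ 1 • b • f + c b • z := fun b => by
    obtain ⟨d, hd⟩ := a5 b
    simp [c, hd, fr.s]
  refine ⟨γ 1, c, fun x => ?_, fun a b ha => smul_left_injective E fr.ne ?_⟩
  · obtain ⟨p, q, b, rfl⟩ := fr.sp x
    rw [map_add, a4 _ (by simp [fr.s]), hc]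
    simp only [polar_add_right, polar_smul_right, fr.s, smul_eq_mul, mul_zero, zero_add, mul_one]
    module
  obtain ⟨t, t1, t2⟩ := ht a ha
  have b1 := t2 ((a * a * b) • f)
  rw [show t ((a * a * b) • f) = b • f by
    simp only [t1]; simp [fr.s]; match_scalars; field_simp; ring, hc, hc, t1] at b1
  generalize c b = p at *
  generalize c (a * a * b) = q at *
  simp [fr.s] at b1
  linear_combination (norm := skip) b1
  match_scalars <;> field_simp <;> ring

namespace E2

variable (h : E2 Q R X σ θ) [Finite E] [Finite F]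
include h

theorem fixperp (hg : g ∈ X) (e : ∀ c : E, g (c • y) = c • y) (x : V) : polar R y (g x - x) = 0 :=
  h.perp_iff.2 fun c => by rw [polar_sub_right, ← h.pol_map hg _ x, e, sub_self]

variable (fr : X3.Fr R z n f) (hZ : ∀ β ∈ X, (∀ x, β x - x ∈ eL F E z) → β = 1)
include fr hZ

theorem ru (hg : g ∈ X) (h1 : ∀ v ∈ eL F E z, g v = v)
    (h2 : ∀ x, polar R z x = 0 → g x - x ∈ eL F E z) : ∃ k, g = fr.u F k := by
  have p := h.fixperp hg fun c => h1 _ (smul_mem_eL c z)
  have a1 : ∀ k x, g (fr.u F k x) = fr.u F k (g x) := fun k x => by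
    have := hZ _ (mul_mem (mul_mem hg (h.u_mem fr k)) (inv_mem (mul_mem (h.u_mem fr k) hg))) fun y => by
      obtain ⟨x, rfl⟩ := (fr.u F k * g).surjective y
      rw [LinearEquiv.mul_apply, inv_apply_apply]
      convert sub_mem (h2 _ (fr.z_u (F := F) k x)) (smul_mem_eL (k.toAdd * polar R n (g x - x)) z) using 1
      rw [← sub_eq_of_eq_add' (fr.u_perp (F := F) k (p x))]
      simp; abel
    exact LinearEquiv.congr_fun (mul_inv_eq_one.1 this) x
  obtain ⟨c, ρ, e⟩ := fr.perp (p f)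
  have a2 : ∀ k : E, g (k • n) = k • n - (k * (ρ * (2 * R n))) • z := fun k => by
    have := a1 (ofAdd k) f
    rw [eq_add_of_sub_eq e] at this
    simp [fr.u_apply, fr.s, h1 _ (smul_mem_eL _ z), eq_add_of_sub_eq e] at this
    linear_combination (norm := module) -this
  have b := mul_mem hg (h.u_mem fr (ofAdd ρ))
  refine ⟨(ofAdd ρ)⁻¹, (eq_inv_of_mul_eq_one_left (hZ _ b fun x => fr.mem' h.twoE
    (h.fixperp b (fun c => ?_) x) (h.fixperp b (fun c => ?_) x))).trans (map_inv _ _).symm⟩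
  · rw [LinearEquiv.mul_apply, fr.u_fix _ (smul_mem_eL c z), h1 _ (smul_mem_eL c z)]
  · rw [LinearEquiv.mul_apply, fr.u_perp _ (by simp [fr.s]), map_add, h1 _ (smul_mem_eL _ z), a2]
    simp [fr.s]; module

theorem stab [FiniteDimensional F V] (hg : g ∈ X) (hL : ∀ v ∈ eL F E z, g v ∈ eL F E z) :
    g ∈ semiStab F E V := by
  have : Nontrivial V := ⟨⟨z, 0, fr.ne⟩⟩
  have hL' : ∀ v ∈ eL F E z, g⁻¹ v ∈ eL F E z := fun v hv => mem_map_iff.1
    ((Submodule.eq_of_le_of_finrank_eq (Submodule.map_le_iff_le_comap.2 hL)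
      (LinearEquiv.finrank_map_eq g _)).ge hv)
  have hp : ∀ x, polar R z x = 0 → polar R z (g⁻¹ x) = 0 := fun x hx => h.perp_iff.2 fun c => by
    rw [← h.pol_map hg, apply_inv_apply, fr.of_mem (hL _ (smul_mem_eL c z))]
    exact h.perp_iff.1 hx _
  have cj : ∀ {t : V ≃ₗ[F] V}, (∀ x, polar R z x = 0 → t x - x ∈ eL F E z) →
      ∀ x, polar R z x = 0 → (g * t * g⁻¹) x - x ∈ eL F E z := fun ht x hx => by
    simpa [apply_inv_apply] using hL _ (ht _ (hp x hx))
  choose κ hκ using fun k : E => h.ru fr hZ (mul_mem (mul_mem hg (h.u_mem fr (ofAdd k))) (inv_mem hg))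
    (fun v hv => by
      rw [LinearEquiv.mul_apply, LinearEquiv.mul_apply, fr.u_fix _ (hL' v hv), apply_inv_apply])
    (cj fun x hx => by simp [fr.u_perp _ hx, smul_mem_eL])
  have k0 : ∀ k, k ≠ 0 → (κ k).toAdd ≠ 0 := fun k hk e => by
    have := hκ k
    rw [show κ k = 1 from e, map_one, mul_inv_eq_one, mul_eq_left] at this
    simpa [fr.u_apply, fr.s, fr.ne, fr.n0, hk, h.twoE] using LinearEquiv.congr_fun this n
  have gu : ∀ k x, g (fr.u F (ofAdd k) (g⁻¹ x)) = fr.u F (κ k) x := fun k => LinearEquiv.congr_fun (hκ k)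
  have nn : ∀ k k' x, fr.u F k (fr.u F k' x - x) - (fr.u F k' x - x) =
      -(k.toAdd * k'.toAdd * (polar R z x * (2 * R n))) • z := fun k k' x => by
    rw [fr.u_perp _ (fr.z_u _ _)]; simp [fr.u_apply, fr.s]; congr 1; ring
  have a1 : ∀ k k', g ((k * k' * (polar R z (g⁻¹ f) * (2 * R n))) • z) =
      ((κ k).toAdd * (κ k').toAdd * (2 * R n)) • z := fun k k' => by
    have b1 := congrArg g (nn (ofAdd k) (ofAdd k') (g⁻¹ f))
    have b2 := nn (κ k) (κ k') f
    rw [← gu k, ← gu k', map_sub, inv_apply_apply] at b2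
    simp only [map_sub, apply_inv_apply, neg_smul, map_neg, toAdd_ofAdd, fr.zf, one_mul] at b1 b2
    exact neg_injective (b1.symm.trans b2)
  have n0 := mul_ne_zero h.twoE fr.n0
  have k1 := k0 1 one_ne_zero
  have d0 : polar R z (g⁻¹ f) * (2 * R n) ≠ 0 := fun e => by
    have := a1 1 1
    rw [e] at this
    simpa [k1, fr.ne, n0] using this.symm
  have a2 : ∀ a k, (κ (a * k)).toAdd * (κ 1).toAdd = (κ a).toAdd * (κ k).toAdd := fun a k =>
    mul_right_cancel₀ n0 (smul_left_injective E fr.ne (by beta_reduce; rw [← a1, ← a1, mul_one]))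
  have s1 : ∀ c : F, (1 + θ) * (1 + θ) - 𝔣 c ≠ 0 := fun c e => h.sqθ c (sub_eq_zero.1 e).symm
  let φ : V →ₗ[F] V := g⁻¹.toLinearMap ∘ₗ (LinearMap.lsmul E V θ).restrictScalars F ∘ₗ g.toLinearMap
  obtain ⟨l, c, hl, hc⟩ := cent fr h.twoE (s := 1 + θ) (fun e => s1 0 (by simp [e])) (by simpa using s1 1)
    φ (fun k x => g.injective (by
      obtain ⟨x, rfl⟩ := g⁻¹.surjective x
      change g (g⁻¹ (θ • g (fr.u F (ofAdd k.toAdd) _))) = g (fr.u F (ofAdd k.toAdd) (g⁻¹ (θ • g _)))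
      rw [gu, gu, apply_inv_apply, apply_inv_apply, fr.u_smul])) fun a ha => by
    obtain ⟨t, t1, t2⟩ := h.tt fr ha
    have b0 := div_ne_zero (k0 a ha) k1
    obtain ⟨t', t3, t4⟩ := h.tt fr b0
    have t5 : ∀ v ∈ eL F E z, (g * t * g⁻¹) v = t' v := fun v hv => by
      obtain ⟨k, hk⟩ := mem_eL.1 (hL' v hv)
      obtain ⟨k, rfl⟩ := mul_right_surjective₀ d0 k
      have b1 := a1 k 1
      have b2 := a1 (a * k) a
      rw [mul_one, hk, apply_inv_apply] at b1
      rw [LinearEquiv.mul_apply, LinearEquiv.mul_apply, ← hk, t2, t4, b1]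
      simp only [fr.s, polar_smul_right, smul_eq_mul, mul_zero, zero_smul, add_zero, mul_one, ← add_smul]
      convert b2 using 2
      · congr 1; ring
      · rw [eq_div_of_mul_eq k1 (a2 a k)]; field_simp; ring
    obtain ⟨m, hm⟩ := h.ru fr hZ (mul_mem (inv_mem t3) (mul_mem (mul_mem hg t1) (inv_mem hg)))
      (fun v hv => by rw [LinearEquiv.mul_apply, t5 v hv, inv_apply_apply]) fun x hx => by
        obtain ⟨p, hp⟩ := mem_eL.1 (sub_mem (cj (t := t) (fun x hx => by simp [t2, hx, smul_mem_eL]) x hx)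
          (show t' x - x ∈ _ by simp [t4, hx, smul_mem_eL]))
        rw [sub_sub_sub_cancel_right, eq_sub_iff_add_eq] at hp
        rw [LinearEquiv.mul_apply, ← hp, map_add, inv_apply_apply, add_sub_cancel_right]
        generalize (κ a).toAdd / (κ 1).toAdd = b at *
        rw [show p • z = t' ((p / (b * b)) • z) by
          simp only [t4]; simp [fr.s, ← add_smul]; congr 1; field_simp; ring, inv_apply_apply]
        exact smul_mem_eL _ _
    refine ⟨t, t2, fun x => g.injective ?_⟩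
    obtain ⟨x, rfl⟩ := g⁻¹.surjective x
    change g (g⁻¹ (θ • (g * t * g⁻¹) x)) = (g * t * g⁻¹) (θ • g (g⁻¹ x))
    rw [eq_mul_of_inv_mul_eq hm]
    simp only [apply_inv_apply, LinearEquiv.mul_apply, fr.u_smul, t4]
    simp only [polar_smul_right, smul_eq_mul]
    module
  have φ1 : ∀ x, g (φ x) = θ • g x := fun x => apply_inv_apply _ _
  obtain ⟨δ, hδ⟩ := h.fix (x := θ * θ) (by simp [h.σθ])
  have cl : ∀ p q : F, c (𝔣 p + 𝔣 q * θ) = 𝔣 p * c 1 + 𝔣 q * c θ := fun p q => by
    rw [← Algebra.smul_def, ← Algebra.smul_def, ← Algebra.smul_def, ← map_smul, ← map_smul, ← map_add,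
      Algebra.algebraMap_eq_smul_one]
  have c1 : c θ = -(θ * c 1) := by
    have s0 : 1 + θ ≠ 0 := fun e => s1 0 (by simp [e])
    have b1 := hc _ 1 s0
    have b2 := hc _ θ s0
    rw [show (1 + θ) * (1 + θ) * 1 = 𝔣 (1 + δ) + 𝔣 2 * θ by simp [hδ, map_ofNat]; ring, cl] at b1
    rw [show (1 + θ) * (1 + θ) * θ = 𝔣 (2 * δ) + 𝔣 (1 + δ) * θ by simp [hδ, map_ofNat]; ring, cl] at b2
    simp only [map_add, map_mul, map_one, map_ofNat, hδ] at b1 b2
    refine mul_left_cancel₀ (mul_ne_zero (s1 1) (s1 (-1))) ?_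
    simp only [map_neg, map_one]
    linear_combination -θ * b1 - b2
  have c2 : ∀ b, c b = c 1 * σ b := fun b => by
    obtain ⟨p, q, rfl⟩ := h.dec b
    rw [cl, c1, map_add, map_mul, h.σF, h.σF, h.σθ]; ring
  have c3 : σ (c 1) = c 1 := by
    have : polar Q (φ f) (θ • f) = polar Q f (φ (θ • f)) := by
      rw [← h.pol_map hg, ← h.pol_map hg f, φ1, φ1, h.pol, h.pol, polar_smul_left, polar_smul_right]
    rw [hl, hl, h.pol, h.pol] at this
    simp only [polar_add_left, polar_add_right, polar_smul_left, polar_smul_right, fr.s, smul_eq_mul,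
      mul_one, mul_zero, zero_add, c1, map_neg] at this
    have := h.tr0.1 (mul_left_cancel₀ h.two (show 2 * tr (θ * c 1) = 2 * 0 by linear_combination this))
    rw [map_mul, h.σθ, neg_mul, neg_inj] at this
    exact mul_left_cancel₀ h.θ0 this
  have l1 : l * l = θ * θ := smul_left_injective E fr.ne (g.injective (by
    have : φ (l • z) = (l * l) • z := by simp [hl, fr.s, smul_smul]
    beta_reduce
    rw [← this, φ1, show l • z = φ z by simp [hl, fr.s], φ1, smul_smul, ← hδ, algebraMap_smul,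
      algebraMap_smul, map_smul]))
  have l2 : σ l = -l ∧ l ≠ 0 := by
    rcases mul_self_eq_mul_self_iff.1 l1 with rfl | rfl <;> simp [h.σθ, h.θ0]
  have b0 := eich_mem_OmegaV h.ndQ (notExc_of_two_ne_zero h.two) (h.q1 fr.z0) (h.q2 fr.z0 (-c 1 / (4 * l)))
  have b1 := h.eich_z fr.z0 (-c 1 / (4 * l))
  generalize (eich Q z ((-c 1 / (4 * l)) • z)).1 = β at b0 b1
  have b2 : ∀ x, (β * g⁻¹) (θ • x) = l • (β * g⁻¹) x := fun x => by
    obtain ⟨x, rfl⟩ := g.surjective x
    rw [← φ1, LinearEquiv.mul_apply, LinearEquiv.mul_apply, inv_apply_apply, inv_apply_apply, b1, b1, hl, c2]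
    have := l2.2
    have : (4 : E) ≠ 0 := by simpa [show (4 : E) = 2 * 2 by norm_num] using h.twoE
    simp only [polar_add_right, polar_smul_right, fr.s, smul_eq_mul, mul_zero, add_zero, map_mul, map_div₀,
      map_neg, c3, l2.1, map_ofNat]
    match_scalars <;> field_simp <;> ring
  have b3 : β * g⁻¹ ∈ semiStab F E V := mem_semiStab fun a => by
    obtain ⟨p, q, rfl⟩ := h.dec a
    exact ⟨𝔣 p + 𝔣 q * l, fun v => by simp only [add_smul, mul_smul, algebraMap_smul, map_add, map_smul, b2]⟩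
  rw [hZ β (by simpa using mul_mem (h.ge ⟨b3, (OmegaV Q).mul_mem b0 ((OmegaV Q).inv_mem (h.le' hg))⟩) hg)
    fun x => by simp [b1, smul_mem_eL], one_mul] at b3
  exact inv_mem_iff.1 b3

end E2

end H12.X2
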