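import Cfsg.Agent.H12.O4c
import Cfsg.Agent.H12.EA8
import Cfsg.Agent.H12.KL2

/-!
# Maximality of the three-dimensional orthogonal group over a quadratic extension
-/

set_option autoImplicit false
set_option maxHeartbeats 400000

namespace H12.X2

open Module H11 H13.KL QuadraticMap Multiplicative Finset X3

variable {F E V : Type*} [Field F] [Field E] [Algebra F E] [AddCommGroup V] [Module F V]
  [Module E V] [IsScalarTower F E V] {Q : QuadraticForm F V} {R : QuadraticForm E V}
  {X : Subgroup (V ≃ₗ[F] V)} {g β t : V ≃ₗ[F] V} {z n f x y : V} {σ : E →+* E} {θ : E}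

local notation "tr" => Algebra.trace F E
local notation "𝔣" => algebraMap F E

namespace E2

variable (h : E2 Q R X σ θ) [Finite E] [Finite F]
include h

theorem aut (hg : g ∈ X) {τ : E ≃ₐ[F] E} (e : ∀ a v, g (a • v) = τ a • g v) (x y : V) :
    polar R (g x) (g y) = τ (polar R x y) := eq_of_dual h.ne fun k => by
  obtain ⟨k, rfl⟩ := τ.surjective k
  have := h.pol_map hg (k • x) y
  rw [e, h.pol, h.pol] at this
  rw [← map_mul, Algebra.trace_eq_of_algEquiv]
  simpa using this

variable [FiniteDimensional F V]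

theorem free (fr : X3.Fr R z n f) (hZ : ∀ β ∈ X, (∀ x, β x - x ∈ eL F E z) → β = 1) (hg : g ∈ X)
    {k : Multiplicative E} (hk : k ≠ 1) (e : g⁻¹ * fr.u F k * g ∈ linG F E V) : g ∈ semiStab F E V := by
  have a1 : ∀ v ∈ eL F E (g⁻¹ z), g v ∈ eL F E z := fun v hv => by
    obtain ⟨a, rfl⟩ := mem_eL.1 hv
    refine fr.fix h.twoE hk (g⁻¹.injective ?_)
    rw [inv_apply_apply]
    refine (e a _).trans ?_
    rw [LinearEquiv.mul_apply, LinearEquiv.mul_apply, apply_inv_apply, fr.u_fix _ (self_mem_eL z)]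
  obtain ⟨m, m1, m2⟩ := h.line fr.z0 fr.ne (x := g⁻¹ z) (mul_left_cancel₀ h.twoE (by
    rw [← polar_self', mul_zero, h.perp_iff]
    exact fun c => by
      rw [← h.pol_map hg, h.ts fr.z0 (a1 _ (smul_mem_eL _ _)) (a1 _ (self_mem_eL _))]))
    (by simpa using fr.ne)
  exact (mul_mem_cancel_right (res_mem_semiStab m)).1 (h.stab fr hZ (mul_mem hg m1) fun v hv => by
    obtain ⟨a, rfl⟩ := mem_eL.1 hv
    exact a1 _ (by simpa using eL_smul a m2))

theorem le_semi (hq : 4 ≤ Nat.card F)
    (hZ : ∀ z n f, X3.Fr R z n f → ∀ β ∈ X, (∀ x, β x - x ∈ eL F E z) → β = 1) (hg : g ∈ X) :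
    g ∈ semiStab F E V := by
  classical
  have := h.fd
  have := h.fdE
  have hd := h.dim
  have : Finite V := Module.finite_of_finite F
  have : Finite (V ≃ₗ[F] V) := DFunLike.finite _
  have := Fintype.ofFinite E
  have := Fintype.ofFinite F
  obtain ⟨z, z0, z1⟩ := (iso3_quad R).exists_iso (by omega)
  obtain ⟨n, f, fr⟩ := h.exists_fr z1 z0
  have : Nontrivial V := ⟨⟨z, 0, z0⟩⟩
  let H := linG F E V ⊓ X
  have := Fintype.ofFinite ((V ≃ₗ[F] V) ⧸ H)
  have l1 : linG F E V ≤ semiStab F E V := fun _ => mem_semiStab_of_linear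
  have l2 : H ≤ semiStab F E V := inf_le_left.trans l1
  obtain ⟨W, hW⟩ : ∃ W : E → (V ≃ₗ[F] V) ⧸ H → V → V → V → V → F, ∀ c s x y v w, W c s x y v w =
    tr (c * (polar R (s.out⁻¹ x) (s.out⁻¹ y) * polar R (s.out⁻¹ v) (s.out⁻¹ w))) := ⟨_, fun _ _ _ _ _ _ => rfl⟩
  have w1 : ∀ (g : V ≃ₗ[F] V) c s x y v w, W c (g • s) x y v w = W c s (g⁻¹ x) (g⁻¹ y) (g⁻¹ v) (g⁻¹ w) :=
    fun g c s x y v w => by
    obtain ⟨k, hk⟩ := QuotientGroup.mk_out_eq_mul H (g * s.out)
    have := h.aut (inv_mem k.2).2 (τ := 1) (inv_mem k.2).1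
    rw [← MulAction.Quotient.mk_smul_out, smul_eq_mul, hW, hW, hk]
    simp only [mul_inv_rev, LinearEquiv.mul_apply, this, AlgEquiv.one_apply]
  let T₁ := univ.filter fun s : (V ≃ₗ[F] V) ⧸ H => s.out ∈ X
  let T := T₁.filter fun s => s.out ∉ semiStab F E V
  have key : ∀ {z n f} (fr : X3.Fr R z n f) c {x y v w d₁ d₂ d₃ d₄}, VP F d₁ (fun k : E => fr.u F (ofAdd k) x) →
      VP F d₂ (fun k : E => fr.u F (ofAdd k) y) → VP F d₃ (fun k : E => fr.u F (ofAdd k) v) →
      VP F d₄ (fun k : E => fr.u F (ofAdd k) w) → d₁ + d₂ + (d₃ + d₄) ≤ 5 → ∑ s ∈ T, W c s x y v w = 0 :=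
    fun {z n f} fr c x y v w d₁ d₂ d₃ d₄ a1 a2 a3 a4 a5 => by
    let _ := MulAction.compHom ((V ≃ₗ[F] V) ⧸ H) (fr.u F)
    refine sum_free (A := Multiplicative E) T (fun a s hs => ?_) (fun a s hs e => by_contra fun c => ?_) _
      fun s => ?_
    · simp only [T, T₁, mem_filter, mem_univ, true_and, MulAction.compHom_smul_def] at hs ⊢
      rwa [smul_out_mem inf_le_right (h.u_mem fr a), smul_out_mem l2 (l1 (fr.u_smul a))]
    · obtain ⟨b1, b2⟩ := mem_filter.1 hs
      exact b2 (h.free fr (hZ _ _ _ fr) (mem_filter.1 b1).2 c (mul_assoc _ _ s.out ▸ (QuotientGroup.eq.1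
        (s.out_eq'.trans (e.symm.trans (MulAction.Quotient.mk_smul_out ..).symm))).1))
    let P := ((polarBilin R).restrictScalars₁₂ F F).compl₁₂ s.out⁻¹.toLinearMap s.out⁻¹.toLinearMap
    have := ((a1.bil a2 P).bil (a3.bil a4 P) ((LinearMap.mul F E).compr₂ (tr ∘ₗ LinearMap.mulLeft F c))).sum
      (a5.trans_lt (by
        rw [Nat.card_eq_fintype_card] at hq
        rw [h.deg]; omega))
    rw [← this]
    exact Fintype.sum_equiv ((Equiv.inv _).trans toAdd) _ _ fun a => by
      rw [MulAction.compHom_smul_def, w1, ← map_inv, hW]; rfl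
  have D0 : ∀ c x y v w, ∑ s ∈ T, W c s x y v w = 0 := fun c x y v w => by
    refine (iso3_quad R).mem_of_iso h.nd (by omega)
      { carrier := {x | ∑ s ∈ T, W c s x y v w = 0}
        add_mem' := fun a b => by simp_all [add_mul, mul_add, sum_add_distrib]
        zero_mem' := by simp [hW]
        neg_mem' := fun a => by simp_all } (fun z hz => ?_) x
    by_cases z0 : z = 0
    · simp [z0, hW]
    obtain ⟨n, f, fr⟩ := h.exists_fr hz z0
    have dc : ∀ x, ∃ p, ∃ q ∈ eL F E f, polar R z p = 0 ∧ x = p + q := fun x =>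
      ⟨x - polar R z x • f, _, smul_mem_eL (polar R z x) f, by simp [fr.s], by simp⟩
    obtain ⟨y, y', y1, y2, rfl⟩ := dc y
    obtain ⟨v, v', v1, v2, rfl⟩ := dc v
    obtain ⟨w, w', w1, w2, rfl⟩ := dc w
    have b0 := fr.vp0 (F := F) (self_mem_eL z)
    have b1 := key fr c b0 (fr.vp1 y2) (fr.vp2 (v + v')) (fr.vp2 (w + w')) le_rfl
    have b2 := key fr c b0 (fr.vp2 y') (fr.vp1 v2) (fr.vp2 (w + w')) le_rfl
    have b3 := key fr c b0 (fr.vp2 y') (fr.vp2 v') (fr.vp1 w2) le_rfl
    have b4 := key fr.symm c (fr.symm.vp2 z) (fr.symm.vp0 y1) (fr.symm.vp0 v1) (fr.symm.vp2 w') (by omega)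
    change ∑ s ∈ T, _ = 0
    simp only [sum_add_distrib, hW, map_add, polar_add_left, polar_add_right, mul_add, add_mul] at b1 b2 b3 b4 ⊢
    linear_combination b1 + b2 + b3 + b4
  let T₀ := T₁.filter fun s => s.out ∈ semiStab F E V
  choose τ s1 using fun s : T₀ => exists_aut (mem_filter.1 s.2).2
  have sx := fun s : T₀ => (mem_filter.1 (mem_filter.1 s.2).1).2
  obtain ⟨c, hc⟩ : ∃ c, ∑ s : T₀, τ s c ≠ 0 := by
    by_contra! H'
    exact one_ne_zero (Fintype.linearIndependent_iff.1 ((linearIndependent_algHom_toLinearMap F E E).comp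
      (fun s : T₀ => (τ s).toAlgHom) fun s s' e => Subtype.ext (by
        rw [← s.1.out_eq', ← s'.1.out_eq', QuotientGroup.eq]
        refine ⟨fun a v => s.1.out.injective ?_, X.mul_mem (X.inv_mem (sx s)) (sx s')⟩
        simp only [LinearEquiv.mul_apply, apply_inv_apply, s1]
        exact congrArg (· • _) (DFunLike.congr_fun e a).symm)) 1 (LinearMap.ext (by simpa using H'))
      ⟨((1 : V ≃ₗ[F] V) : _ ⧸ H), by simp [T₀, T₁, out_mem l2, out_mem (inf_le_right : H ≤ X)]⟩)
  have M : ∀ x y v w, ∑ s ∈ T₁, W c s x y v w = tr ((∑ s : T₀, τ s c) * (polar R x y * polar R v w)) :=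
    fun x y v w => by
    rw [← sum_filter_add_sum_filter_not T₁ fun s => s.out ∈ semiStab F E V, D0, add_zero, ← sum_coe_sort,
      sum_mul, map_sum]
    refine sum_congr rfl fun s _ => ?_
    rw [hW, ← Algebra.trace_eq_of_algEquiv (τ s), map_mul (τ s), map_mul (τ s), ← h.aut (sx s) (s1 s),
      ← h.aut (sx s) (s1 s)]
    simp only [apply_inv_apply]
  generalize ∑ s : T₀, τ s c = d at M hc
  refine mem_semiStab fun a => ⟨d * polar R (g z) (g ((a / d) • f)), fun v => sub_eq_zero.1
    (h.ndQ _ fun w => ?_)⟩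
  obtain ⟨w, rfl⟩ := g.surjective w
  have := (M _ _ _ _).symm.trans ((sum_equiv (MulAction.toPerm g) (fun s => by
    simp [T₁, smul_out_mem (inf_le_right : H ≤ X) hg]) fun s _ => by
      rw [MulAction.toPerm_apply, w1]).trans
        (M (g z) (g ((a / d) • f)) (g v) (g w)))
  rw [CForm.ofQuad_B, polar_sub_left, h.pol_map hg, h.pol, h.pol, polar_smul_left, polar_smul_left,
    smul_eq_mul, smul_eq_mul, mul_assoc, ← this]
  simp [fr.s, ← mul_assoc, mul_div_cancel₀ _ hc]

omit [Finite E] [Finite F] in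
theorem sq_mem [Nontrivial V] (hg : g ∈ semiStab F E V) : g * g ∈ linG F E V := fun a v => by
  have := h.fdE
  obtain ⟨τ, e⟩ := exists_aut hg
  obtain ⟨δ, hδ⟩ := h.fix (x := θ * θ) (by simp [h.σθ])
  obtain ⟨p, q, rfl⟩ := h.dec a
  have : τ (τ θ) = θ := by
    rcases mul_self_eq_mul_self_iff.1 (show τ θ * τ θ = θ * θ by
      rw [← map_mul, ← hδ, AlgEquiv.commutes]) with e | e <;> simp [e]
  simp [LinearEquiv.mul_apply, -algebraMap_smul, e, this, -add_smul]

theorem index_mod (hZ : ∀ z n f, X3.Fr R z n f → ∀ β ∈ X, (∀ x, β x - x ∈ eL F E z) → β = 1) :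
    ∃ m, (semiStab F E V).relIndex X = Nat.card E * m + 1 := by
  classical
  have := h.fd
  have hd := h.dim
  have : Finite V := Module.finite_of_finite F
  have : Finite (V ≃ₗ[F] V) := DFunLike.finite _
  have := Fintype.ofFinite E
  obtain ⟨z, z0, z1⟩ := (iso3_quad R).exists_iso (by omega)
  obtain ⟨n, f, fr⟩ := h.exists_fr z1 z0
  have : Nontrivial V := ⟨⟨z, 0, z0⟩⟩
  let H := (semiStab F E V).subgroupOf X
  have := Fintype.ofFinite (X ⧸ H)
  let u : Multiplicative E →* X := (fr.u F).codRestrict X (h.u_mem fr)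
  let _ := MulAction.compHom (X ⧸ H) u
  have u1 : ∀ a, u a ∈ H := fun a => mem_semiStab_of_linear (fr.u_smul a)
  have := sum_free (A := Multiplicative E) (univ.erase ((1 : X) : X ⧸ H)) (fun a s hs => ?_)
    (fun a s hs e => by_contra fun c => ?_) (fun _ => (1 : ZMod (Nat.card E)))
    fun _ => by
      rw [sum_const, card_univ, Fintype.card_multiplicative, ← Nat.card_eq_fintype_card, nsmul_one,
        ZMod.natCast_self]
  · obtain ⟨m, hm⟩ := (ZMod.natCast_eq_zero_iff _ _).1 (by simpa only [sum_const, nsmul_one] using this)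
    refine ⟨m, ?_⟩
    rw [← hm, card_erase_add_one (mem_univ _), card_univ, ← Nat.card_eq_fintype_card]; rfl
  · obtain ⟨s, rfl⟩ := QuotientGroup.mk_surjective s
    simp only [mem_erase, mem_univ, and_true, MulAction.compHom_smul_def, MulAction.Quotient.smul_mk,
      smul_eq_mul, Ne, QuotientGroup.eq, mul_one, inv_mem_iff] at hs ⊢
    rwa [mul_mem_cancel_left (u1 a)]
  · obtain ⟨s, rfl⟩ := QuotientGroup.mk_surjective s
    simp only [mem_erase, mem_univ, and_true, MulAction.compHom_smul_def, MulAction.Quotient.smul_mk,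
      smul_eq_mul, Ne, QuotientGroup.eq, mul_one, inv_mem_iff] at hs e
    refine hs (h.free fr (hZ _ _ _ fr) s.2 (k := a⁻¹ * a⁻¹) (fun e => c ?_) ?_)
    · have := congrArg toAdd e
      rw [toAdd_mul, ← two_mul] at this
      exact inv_eq_one.1 (show toAdd a⁻¹ = 0 by simpa [h.twoE] using this)
    · convert h.sq_mem e using 1
      simp [u, mul_assoc]

theorem le_semi3 [Fintype F] (hq : Fintype.card F = 3) (hT : (CForm.ofQuad Q).HasTS 3)
    (hZ : ∀ z n f, X3.Fr R z n f → ∀ β ∈ X, (∀ x, β x - x ∈ eL F E z) → β = 1) :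
    X ≤ semiStab F E V := by
  have := h.fd
  have := h.fdE
  have := Fintype.ofFinite E
  have : Finite V := Module.finite_of_finite F
  have : Finite (V ≃ₗ[F] V) := DFunLike.finite _
  have hE : Fintype.card E = 9 := by rw [Module.card_eq_pow_finrank (K := F), hq, h.deg]; rfl
  obtain ⟨m, hm⟩ := h.index_mod hZ
  rw [Nat.card_eq_fintype_card, hE] at hm
  have a1 : Nat.card (OmegaV Q) = 6065280 := by
    obtain ⟨c, e, e'⟩ := K4.card_omega_six h.ndQ (by rw [← finrank_mul_finrank F E V, h.deg, h.dim])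
    rw [e'.resolve_right fun e => e.2 hT, hq] at e
    rw [OmegaV, Subgroup.card_map_of_injective Subtype.val_injective]
    norm_num at e
    omega
  let ρ := (H13.KL.res F E V).comp (orth R).subtype
  let K := X.comap ρ
  have a2 : Nat.card (orth R) = 1440 := by
    have := EA.card_orth_odd h.nd h.twoE (m := 1) h.dim
    rw [hE] at this
    norm_num at this
    exact_mod_cast this
  have a3 : commutator (orth R) ≤ K := fun g hg => h.res _ (mem_OmegaV.2 hg)
  obtain ⟨a, ha⟩ := FiniteField.exists_nonsquare (ringChar_ne_two_iff.2 h.twoE)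
  obtain ⟨v, -, hv⟩ := exists_Q_eq_of_nondegOn h.nd ((CForm.ofQuad R).nondegOn_top.2 h.nd)
    (by simp [h.dim]) (c := a) (by rintro rfl; simp at ha)
  have v0 : R v ≠ 0 := by rw [hv]; rintro rfl; simp at ha
  have a4 : refl R v ∈ K := by
    obtain ⟨b1, b2⟩ := EA.spinor_res h.eq h.two h.deg h.ndQ v0
    rw [hv, qsign_eq_neg_one.2 ha, neg_neg] at b2
    exact h.ge ⟨res_mem_semiStab _, mem_OmegaV (g := EA.resO h.eq (refl R v)) |>.2
      ((mem_commutator_iff h.ndQ (notExc_of_two_ne_zero h.two) _).2 ⟨b1, b2⟩)⟩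
  have a5 : K.index ∣ 2 := by
    have b1 := Subgroup.relIndex_mul_index a3
    rw [index_commutator_odd h.nd h.twoE (by rw [h.dim]; omega)] at b1
    have b2 : (commutator (orth R)).relIndex K ≠ 1 := fun e => by
      have := ((mem_commutator_iff h.nd h.ne' _).1 (Subgroup.relIndex_eq_one.1 e a4)).1
      rw [dickson_refl h.nd h.ne' v0] at this
      simp at this
    have b3 := Nat.le_of_dvd (by norm_num) (Dvd.intro _ b1)
    generalize (commutator (orth R)).relIndex K = r at *
    generalize K.index = i at *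
    obtain rfl | rfl : i = 1 ∨ i = 2 := by interval_cases r <;> omega
    all_goals norm_num
  have a6 : 720 ∣ Nat.card ((semiStab F E V).subgroupOf X) := by
    have b1 := K.card_mul_index
    have b2 : 720 ∣ Nat.card K := by
      rw [a2] at b1
      rcases (Nat.dvd_prime Nat.prime_two).1 a5 with e | e <;> rw [e] at b1 <;> omega
    refine b2.trans (Subgroup.card_dvd_of_injective (((ρ.comp K.subtype).codRestrict X fun g => g.2).codRestrict
      _ fun g => res_mem_semiStab _) fun a b e => Subtype.ext (Subtype.ext (LinearEquiv.ext fun x => ?_)))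
    exact LinearEquiv.congr_fun (congrArg (fun g => g.1.1) e) x
  have a7 := Subgroup.card_dvd_of_le h.le'
  rw [a1, ← ((semiStab F E V).subgroupOf X).card_mul_index, ← Subgroup.relIndex, hm] at a7
  have a8 : 9 * m + 1 ∣ 104 := (Nat.Coprime.pow_right 2 (show Nat.Coprime (9 * m + 1) 9 by
    simp)).dvd_of_dvd_mul_left (Nat.dvd_of_mul_dvd_mul_left (by norm_num : 0 < 720)
      ((mul_dvd_mul_right a6 _).trans a7))
  have a9 := Nat.le_of_dvd (by norm_num) a8
  obtain rfl : m = 0 := by
    have : m < 12 := by omega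
    interval_cases m <;> simp_all
  exact Subgroup.relIndex_eq_one.1 hm

end E2

theorem isMaximalIn_ext [Fintype F] [FiniteDimensional F V] (hQ : QNondeg Q)
    (h2 : (2 : F) ≠ 0) (hr : finrank F E = 2) (hd : finrank F V = 6)
    (hq : 5 ≤ Fintype.card F ∨ Fintype.card F = 3 ∧ (CForm.ofQuad Q).HasTS 3)
    (hsa : ∀ (k : E) x y, polar Q (k • x) y = polar Q x (k • y)) :
    Cfsg.Geo.IsMaximalIn (OmegaV Q) (semiStab F E V ⊓ OmegaV Q) := by
  have : FiniteDimensional F E := FiniteDimensional.of_finrank_pos (by omega)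
  have : Finite E := Module.finite_of_finite F
  have := Fintype.ofFinite E
  have hE : Fintype.card E = Fintype.card F ^ 2 := hr ▸ Module.card_eq_pow_finrank
  obtain ⟨θ, θ0, θ1⟩ := exists_trace_zero hE
  have : Module.Finite E V := Module.Finite.of_restrictScalars_finite F E V
  have h2' : (2 : E) ≠ 0 := by rw [← map_ofNat (algebraMap F E) 2]; exact (map_ne_zero _).2 h2
  have hl0 : tr ≠ 0 := Algebra.trace_ne_zero F E
  obtain ⟨D, hD⟩ := exists_ext_bilin hl0 (polarBilin Q) hsa
  have hs : ∀ x y, D x y = D y x := fun x y => eq_of_dual hl0 fun k => by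
    have := (hD (k • x) y).symm.trans ((polar_comm Q _ _).trans (hD y (k • x)))
    simpa using this
  let R : QuadraticForm E V := (2 : E)⁻¹ • LinearMap.BilinMap.toQuadraticMap D
  have hR : ∀ x, Q x = tr (R x) := fun x => mul_left_cancel₀ h2 (by
    rw [← polar_self', ← smul_eq_mul, ← map_smul, ← algebraMap_smul E, map_ofNat]
    simpa [R, h2'] using hD x x)
  have hp : ∀ x y, polar R x y = D x y := fun x y => by
    simp [R, polar, hs y x]; field_simp; ring
  let f : orth R →* orth Q := ((res F E V).comp (orth R).subtype).codRestrict _ fun g =>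
    mem_orth.2 fun x => by rw [hR, hR]; exact congrArg tr (orth_Q g x)
  have key : ∀ X, semiStab F E V ⊓ OmegaV Q ≤ X → X ≤ OmegaV Q → E2 Q R X (frob hE) θ := fun X a b =>
    ⟨hR, fun x hx => hQ x fun y => (hD x y).trans (by
      rw [← hp, show polar R x y = 0 from hx y, map_zero]), h2, b, a, by
        rintro _ ⟨g, hg, rfl⟩
        refine a ⟨res_mem_semiStab _, mem_OmegaV (g := f g) |>.2 ?_⟩
        have : (commutator (orth R)).map f ≤ commutator (orth Q) := by
          rw [commutator_def, Subgroup.map_commutator]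
          exact Subgroup.commutator_mono le_top le_top
        exact this ⟨g, hg, rfl⟩, by
      have := finrank_mul_finrank F E V
      rw [hr, hd] at this
      omega, hr, fun x => by simp [FiniteField.algebraMap_trace_eq_sum_pow, hr, Finset.sum_range_succ],
      θ0, eq_neg_of_add_eq_zero_right θ1⟩
  refine isMaximalIn_of _ _ inf_le_right (fun e => ?_) fun M a1 a2 g a3 a4 => by_contra fun c => a4 ⟨?_, a2 a3⟩
  swap
  · have h := key M a1 a2
    have hZ : ∀ z n f, X3.Fr R z n f → ∀ β ∈ M, (∀ x, β x - x ∈ eL F E z) → β = 1 :=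
      fun _ _ _ fr β a b => by_contra fun e => c (h.le_of_z fr a b e)
    exact hq.elim (fun hq => h.le_semi (by rw [Nat.card_eq_fintype_card]; omega) hZ a3)
      fun hq => h.le_semi3 hq.1 hq.2 hZ a3
  have h := key _ inf_le_right le_rfl
  obtain ⟨u, u0, u1⟩ := (iso3_quad R).exists_iso (by have := h.dim; omega)
  obtain ⟨n, f, fr⟩ := h.exists_fr u1 u0
  obtain ⟨b, hb⟩ := (e (eich_mem_OmegaV hQ (notExc_of_two_ne_zero h2) (h.q1 u1) (h.q2 u1 θ))).1.1 θ
  have b1 := hb u
  have b2 := congrArg (polar R f) (hb f)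
  simp only [h.eich_z u1, polar_smul_right, fr.s, smul_zero, map_zero, mul_zero, zero_smul, add_zero] at b1
  obtain rfl := smul_left_injective E u0 b1
  simp only [h.eich_z u1, polar_smul_right, polar_add_right, fr.s, smul_eq_mul, mul_one, h.σθ, map_one] at b2
  exact mul_ne_zero (mul_ne_zero h2' h2') (mul_ne_zero θ0 θ0) (by linear_combination b2)

end H12.X2
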