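import Cfsg.Agent.H12.O4a
import Cfsg.Agent.H12.O4d
import Cfsg.Agent.H12.KL4

/-!
# Orthogonal subgroups of `SL₄` and `SU₄`
-/

set_option autoImplicit false
set_option maxHeartbeats 400000

namespace H12

open Module H11 Matrix QuadraticMap Cfsg Cfsg.Geo H13.KL

section

variable {F : Type*} [Field F] {V : Type*} [AddCommGroup V] [Module F V] {Q : QuadraticForm F V}

local notation "𝓒" => CForm.ofQuad Q

/-- The maps commuting or anticommuting with a given endomorphism. -/
def antiC (τ : V →ₗ[F] V) : Subgroup (V ≃ₗ[F] V) where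
  carrier := {k | (∀ x, τ (k x) = k (τ x)) ∨ ∀ x, τ (k x) = -k (τ x)}
  one_mem' := Or.inl fun _ => rfl
  mul_mem' := by rintro a b (h | h) (h' | h') <;> simp [h, h']
  inv_mem' {k} := by
    rintro (h | h)
    · exact Or.inl fun x => k.injective (by rw [← h, apply_inv_apply, apply_inv_apply])
    · exact Or.inr fun x => k.injective (by
        rw [map_neg, apply_inv_apply, ← neg_eq_iff_eq_neg, ← h, apply_inv_apply])

open QuadraticAlgebra in
theorem isMaximalIn_antiC [Fintype F] [FiniteDimensional F V] (hQ : QNondeg Q) (h2 : (2 : F) ≠ 0)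
    (hd : finrank F V = 6) (hq : 5 ≤ Fintype.card F ∨ Fintype.card F = 3 ∧ (𝓒).HasTS 3)
    {τ : V →ₗ[F] V} {d : F} (d0 : d ≠ 0) (hτ : ∀ x, τ (τ x) = d • x)
    (sa : ∀ x y, polar Q (τ x) y = polar Q x (τ y))
    (h3 : ∀ r : F, r ≠ 0 → finrank F (End.eigenspace τ r) ≤ 3) :
    IsMaximalIn (OmegaV Q) (antiC τ ⊓ OmegaV Q) := by
  by_cases hs : ∃ r, r ^ 2 = d + 0 * r
  · obtain ⟨r, hr⟩ := hs
    replace hr : r * r = d := by linear_combination hr
    have r0 : r ≠ 0 := by rintro rfl; simp [d0.symm] at hr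
    have m : ∀ {s x}, x ∈ End.eigenspace τ s ↔ τ x = s • x := End.mem_eigenspace_iff
    generalize hS : End.eigenspace τ r = S
    generalize hT : End.eigenspace τ (-r) = T
    have mS : ∀ {x}, x ∈ S ↔ τ x = r • x := hS ▸ m
    have mT : ∀ {x}, x ∈ T ↔ τ x = -r • x := hT ▸ m
    have dec : ∀ x, ∃ s ∈ S, ∃ t ∈ T, x = s + t := fun x =>
      ⟨(2 * r)⁻¹ • (r • x + τ x), mS.2 (by simp only [map_smul, map_add, hτ, ← hr]; module),
        (2 * r)⁻¹ • (r • x - τ x), mT.2 (by simp only [map_smul, map_sub, hτ, ← hr]; module), by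
          match_scalars <;> field_simp <;> ring⟩
    have o : T ≤ (𝓒).perp S := fun t ht => (𝓒).mem_perp.2 fun s hs => mul_left_cancel₀
      (mul_ne_zero h2 r0) (by
        have := sa s t
        rw [mS.1 hs, mT.1 ht, polar_smul_left, polar_smul_right] at this
        change _ * polar Q s t = _
        linear_combination this)
    have on : (𝓒).NondegOn S := fun x hx e => hQ x fun y => by
      obtain ⟨s, hs, t, ht, rfl⟩ := dec y
      rw [map_add, e s hs, (𝓒).mem_perp.1 (o ht) x hx, add_zero]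
    have pe : (𝓒).perp S = T := le_antisymm (fun x hx => by
      obtain ⟨s, hs, t, ht, rfl⟩ := dec x
      rwa [on.eq_zero hs (by simpa using sub_mem hx (o ht)), zero_add]) o
    have a1 := h3 r r0
    have a2 := h3 (-r) (neg_ne_zero.2 r0)
    have a3 := hQ.finrank_add_finrank_perp S
    rw [hS] at a1
    rw [hT, ← pe] at a2
    have D : D33 Q S := ⟨hQ, h2, on, by omega, hd⟩
    refine D.isMaximalIn hq fun k hk => ⟨fun e => e.imp (fun e x hx => mS.2 (by
      rw [e, mS.1 hx, map_smul])) fun e x hx => pe ▸ mT.2 (by rw [e, mS.1 hx, map_smul, neg_smul]),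
      fun e => e.imp (fun e x => ?_) fun e x => ?_⟩
    · obtain ⟨s, hs, t, ht, rfl⟩ := dec x
      have := map_perp_of (OmegaV_le hk) e rfl t (o ht)
      simp [mS.1 hs, mT.1 ht, mS.1 (e s hs), mT.1 (pe ▸ this)]
    · obtain ⟨s, hs, t, ht, rfl⟩ := dec x
      have := map_perp_of (OmegaV_le hk) e (by rw [D.d3, D.perp.d3]) t (o ht)
      rw [hQ.perp_perp] at this
      simp [mS.1 hs, mT.1 ht, mS.1 this, mT.1 (pe ▸ e s hs), add_comm]
  have : Fact (∀ r, r ^ 2 ≠ d + 0 * r) := ⟨fun r e => hs ⟨r, e⟩⟩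
  let φ : QuadraticAlgebra F d 0 →ₐ[F] End F V := lift ⟨τ, LinearMap.ext (by simpa using hτ)⟩
  let _ := Module.compHom V (φ : QuadraticAlgebra F d 0 →+* End F V)
  have e : ∀ (z : QuadraticAlgebra F d 0) (v : V), z • v = z.re • v + z.im • τ v := fun _ _ => rfl
  have : IsScalarTower F (QuadraticAlgebra F d 0) V := ⟨fun c z v => by simp [e, smul_smul]⟩
  have : Nontrivial V := nontrivial_of_finrank_pos (R := F) (by omega)
  have : Finite (QuadraticAlgebra F d 0) := Module.finite_of_finite F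
  convert X2.isMaximalIn_ext (E := QuadraticAlgebra F d 0) hQ h2 (finrank_eq_two _ _) hd hq
    fun k x y => by simp [e, sa] using 2
  refine le_antisymm (fun k hk => mem_semiStab fun a => ?_) fun k hk => ?_
  · exact hk.elim (fun h => ⟨a, fun v => by simp [e, h]⟩) fun h => ⟨⟨a.re, -a.im⟩, fun v => by simp [e, h]⟩
  obtain ⟨b, hb⟩ := (inv_mem hk).1 ω
  obtain ⟨v, hv⟩ := exists_ne (0 : V)
  have h1 : b * b = ω * ω := smul_left_injective _ ((k⁻¹).map_ne_zero_iff.2 hv) (by
    beta_reduce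
    rw [mul_smul, ← hb, ← hb, smul_smul, omega_mul_omega_eq_mk, e, e]; simp)
  have h4 : ∀ v, (ω : QuadraticAlgebra F d 0) • v = τ v := fun v => by simp [e]
  refine (mul_self_eq_mul_self_iff.1 h1).imp (fun h x => ?_) fun h x => ?_
  · rw [← h4, ← h4, ← apply_inv_apply k (_ • _), hb, inv_apply_apply, h]
  · rw [← h4, ← h4, ← apply_inv_apply k (_ • _), hb, inv_apply_apply, h, neg_smul, map_neg]

end

namespace K4

section

variable {F : Type*} [Field F] {M : Matrix (Fin 4) (Fin 4) F}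

local notation "𝔮" => qPlus 3 F

theorem hd_act_act {g : Matrix (Fin 4) (Fin 4) F} (hg : g.det = 1) (a : A6 F) :
    hd (act M (act g a)) = act g (hd (act (gᵀ * M * g) a)) := by
  have := act_hd_act gᵀ (act M (act g a))
  rw [det_transpose, hg, one_smul, transpose_transpose] at this
  rw [act_mul, act_mul, this]

theorem sim_sym_iff (hM : M.det ≠ 0) {g : GL (Fin 4) F} (hg : g.1.det = 1) :
    (∃ c : F, c ≠ 0 ∧ g.1ᵀ * M * g.1 = c • M) ↔
      (∀ a, hd (act M (act g.1 a)) = act g.1 (hd (act M a))) ∨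
        ∀ a, hd (act M (act g.1 a)) = -act g.1 (hd (act M a)) := by
  simp only [hd_act_act hg]
  refine ⟨fun ⟨c, _, h⟩ => ?_, fun h => ?_⟩
  · have := congrArg det h
    simp only [det_mul, det_transpose, hg, det_smul, Fintype.card_fin] at this
    refine (mul_self_eq_one_iff.1 (show c * c * (c * c) = 1 from mul_right_cancel₀ hM (by
      linear_combination -this))).imp (fun e a => ?_) fun e a => ?_ <;> simp [h, act_smul, e]
  obtain ⟨ε, ε0, h⟩ : ∃ ε : F, ε ≠ 0 ∧ ∀ a, act (g.1ᵀ * M * g.1) a = ε • act M a := by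
    have i := act_inj (hg.trans_ne one_ne_zero)
    rcases h with h | h
    · exact ⟨1, one_ne_zero, fun a => hd.injective (i (by simp [h]))⟩
    · exact ⟨-1, by simp, fun a => hd.injective (i (by simp [h]))⟩
  obtain ⟨c, hc⟩ := scalar_of_act (h := M⁻¹ * (g.1ᵀ * M * g.1)) ε0 fun a => by
    rw [act_mul, h, map_smul, ← act_mul, nonsing_inv_mul _ (IsUnit.mk0 _ hM), act_one]
  replace hc := congrArg (M * ·) hc
  simp only [← mul_assoc, mul_nonsing_inv _ (IsUnit.mk0 _ hM), one_mul, mul_smul_comm, mul_one] at hc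
  refine ⟨c, fun e => hM ?_, hc⟩
  simpa [e, hg] using congrArg det hc

theorem polar_hd_act (hM : M.det ≠ 0) (hs : Mᵀ = M) (a b : A6 F) :
    polar 𝔮 (hd (act M a)) b = polar 𝔮 a (hd (act M b)) := mul_left_cancel₀ hM (by
  have := act_hd_act M b
  rw [hs] at this
  rw [← polar_act M a, this]
  simp only [polar_q, Pi.smul_apply, smul_eq_mul, hd_inl, hd_inr]
  ring)

theorem finrank_eig (h2 : (2 : F) ≠ 0) (hM : M.det ≠ 0) (hs : Mᵀ = M) {l : F} (hl : l ≠ 0) :
    finrank F (End.eigenspace (hd.toLinearMap ∘ₗ act M) l) ≤ 3 := by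
  obtain ⟨u, hu⟩ : ∃ u, u ⬝ᵥ M *ᵥ u ≠ 0 := by
    by_contra! H
    refine hM ?_
    rw [show M = 0 from Matrix.ext fun i j => mul_left_cancel₀ h2 (by
      have a := H (Pi.single i 1 + Pi.single j 1)
      have b := congrFun (congrFun hs i) j
      simp only [mulVec_add, add_dotProduct, dotProduct_add, H] at a
      simp at a b
      rw [Matrix.zero_apply]
      linear_combination a - b), det_zero]
  have u0 : u ≠ 0 := by rintro rfl; simp at hu
  have a1 := (wedge u).finrank_range_add_finrank_ker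
  have a2 := (Submodule.finrank_mono (show LinearMap.ker (wedge u) ≤ _ from
    fun v hv => mem_span_of_wedge u0 hv)).trans (finrank_span_singleton_le u)
  have a3 := Submodule.finrank_add_finrank_le_of_disjoint (show Disjoint (End.eigenspace
    (hd.toLinearMap ∘ₗ act M) l) (LinearMap.range (wedge u)) from Submodule.disjoint_def.2 (by
      rintro _ h ⟨x, rfl⟩
      have b1 : wedge (M *ᵥ u) (M *ᵥ x) = l • hd (wedge u x) := by
        rw [← act_wedge, ← map_smul, ← End.mem_eigenspace_iff.1 h]; exact (hd_hd _).symm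
      have b2 := emb_wedge_mulVec (M *ᵥ u) (M *ᵥ x) u
      rw [b1, map_smul, smul_mulVec, show o6Emb F (hd (wedge u x)) *ᵥ u = 0 by
        ext i; fin_cases i <;> simp [emb_hd, hodge, emb_wedge, mulVec, dotProduct, Fin.sum_univ_four,
          vecMulVec_apply, altM] <;> ring, smul_zero, ← mulVec_smul, ← mulVec_smul, ← mulVec_sub] at b2
      have b3 := sub_eq_zero.1 (eq_zero_of_mulVec_eq_zero hM b2.symm)
      have b4 := congrArg (wedge u) b3
      rw [map_smul, map_smul, wedge_self, smul_zero, dotProduct_comm] at b4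
      exact (smul_eq_zero.1 b4.symm).resolve_left hu))
  simp only [finrank_fintype_fun_eq_card, Fintype.card_fin, Fintype.card_sum] at a1 a3
  omega

end

variable {K F : Type*} [Field K] [Field F] [Algebra K F] {W : Type*} [AddCommGroup W] [Module K W]
  {ι : W →ₗ[K] A6 F} {Q : QuadraticForm K W} {G : Subgroup (GL (Fin 4) F)} {δ : F}

theorem KL.sym [Fintype K] (h : KL ι Q G δ) (h2 : (2 : K) ≠ 0)
    (hq : 5 ≤ Fintype.card K ∨ Fintype.card K = 3 ∧ (CForm.ofQuad Q).HasTS 3)
    {H : Subgroup (GL (Fin 4) F)} {M : Matrix (Fin 4) (Fin 4) F} (hM : M.det ≠ 0) (hs : Mᵀ = M) {κ : F}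
    (hκ : κ ≠ 0) (hT : ∀ w, ∃ w', ι w' = κ • hd (act M (ι w)))
    (hH : ∀ g ∈ G, g ∈ H ↔ ∃ c : F, c ≠ 0 ∧ g.1ᵀ * M * g.1 = c • M) : IsMaximalIn G (H ⊓ G) := by
  have := h.fin
  have i := h.rat.inj
  have h2' : (2 : F) ≠ 0 := by rw [← map_ofNat (algebraMap K F) 2]; exact (map_ne_zero _).2 h2
  choose t ht using hT
  let τ : W →ₗ[K] W :=
    { toFun := t
      map_add' := fun x y => i (by simp [ht])
      map_smul' := fun c x => i (by
        rw [ht, RingHom.id_apply, ι_smul (F := F) c x, ι_smul (F := F) c (t x), ht, map_smul, map_smul,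
          smul_comm]) }
  replace ht : ∀ w, ι (τ w) = κ • hd (act M (ι w)) := ht
  have T2 : ∀ a, hd (act M (hd (act M a))) = M.det • a := fun a => by
    have := act_hd_act M a
    rw [hs] at this
    rw [this, map_smul, hd_hd]
  have a1 : ∀ w, ι (τ (τ w)) = (κ * κ * M.det) • ι w := fun w => by
    simp only [ht, map_smul, T2, smul_smul, mul_assoc]
  have : Nontrivial W := nontrivial_of_finrank_pos (R := K) (by rw [h.dim]; omega)
  obtain ⟨v, hv⟩ := exists_ne (0 : W)
  obtain ⟨d, hd'⟩ := h.rat.mem_of_smul hv (a1 v)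
  refine h.isMaximalIn (fun g hg k c => ?_) (isMaximalIn_antiC h.nd h2 h.dim hq (τ := τ) (d := d)
    (fun e => mul_ne_zero (mul_ne_zero hκ hκ) hM (by rw [hd', e, map_zero]))
    (fun x => i (by rw [a1, hd', ι_smul (F := F)])) (fun x y => (algebraMap K F).injective
      (mul_left_cancel₀ h.δ0 (by rw [← h.polar, ← h.polar, ht, ht, polar_smul_left, polar_smul_right,
        polar_hd_act hM hs])))
    fun r r0 => ?_)
  · rw [hH g hg, sim_sym_iff hM (h.det g hg)]
    have e : ∀ ε : K, (∀ a, hd (act M (act g.1 a)) = algebraMap K F ε • act g.1 (hd (act M a))) ↔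
        ∀ x, τ (k x) = ε • k (τ x) := fun ε => by
      refine ⟨fun e x => i (by rw [ht, ι_smul (F := F) ε, c, c, e, ht, map_smul, smul_comm]),
        fun e a => sub_eq_zero.1 (h.rat.map_eq_zero (φ := hd.toLinearMap ∘ₗ act M ∘ₗ act g.1 -
          algebraMap K F ε • act g.1 ∘ₗ hd.toLinearMap ∘ₗ act M) (fun x => ?_) a)⟩
      have := congrArg ι (e x)
      rw [ht, ι_smul (F := F) ε, c, c, ht, map_smul, smul_comm] at this
      exact sub_eq_zero.2 (smul_right_injective _ hκ this)
    have e1 := e 1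
    have e2 := e (-1)
    simp only [one_smul, neg_smul, map_neg, map_one] at e1 e2
    rw [e1, e2]; rfl
  refine le_trans (Submodule.finrank_mono fun x hx => ?_) ((h.rat.finrank_le _).trans
    (finrank_eig h2' hM hs (l := κ⁻¹ * algebraMap K F r) (by simp [hκ, r0])))
  rw [mem_ratPts, End.mem_eigenspace_iff, mul_smul, eq_inv_smul_iff₀ hκ, ← ι_smul,
    ← End.mem_eigenspace_iff.1 hx, ht]
  rfl

theorem sl4_quad {F : Type*} [Field F] [Fintype F] (hq : Odd (Fintype.card F))
    (Q : (Fin 4 → F) → F) (hQ : IsNondegenerateQuadraticForm Q) :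
    IsMaximalIn (specialLinear (Fin 4) F) (quadSimilarityGroup Q ⊓ specialLinear (Fin 4) F) := by
  obtain ⟨M, h1, h2, h3⟩ := exists_gram hQ.polar_bilinear hQ.nondegenerate
  have t := odd_card_iff.1 hq
  have e : ∀ v, polar Q v v = 2 * Q v := fun v => by
    rw [polar, ← two_smul F v, hQ.smul]; ring
  refine (kl_SL F).sym t ?_ h1 (Matrix.ext fun i j => by rw [transpose_apply, h2, h2, polar_comm])
    one_ne_zero (fun w => ⟨_, rfl⟩) fun g _ => ?_
  · have := Fintype.one_lt_card (α := F)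
    obtain ⟨k, hk⟩ := hq
    exact (show 5 ≤ Fintype.card F ∨ Fintype.card F = 3 by omega).imp_right fun e => ⟨e, qPlus_hasTS 3⟩
  rw [← mem_sim_iff h3]
  exact exists_congr fun c => ⟨fun h u v => by simp only [polar, ← mulVec_add, h]; ring,
    fun h v => mul_left_cancel₀ t (by rw [← e, h, e]; ring)⟩

theorem su4_quad {F : Type*} [Field F] [Fintype F] {q : ℕ} (hF : Fintype.card F = q ^ 2) (ho : Odd q)
    (hq : 5 ≤ q) {F₀ : Subfield F} {P : GL (Fin 4) F} (hcard : Fintype.card F = Nat.card F₀ ^ 2)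
    (hP : IsFormRationalStructure (hermForm 4 F q) F₀ 1 P) :
    IsMaximalIn (GU 4 F q ⊓ specialLinear (Fin 4) F)
      (subfieldSubgroup F₀ P ⊓ (GU 4 F q ⊓ specialLinear (Fin 4) F)) := by
  have h1 := gram_mul_map hF P
  have h2 : (P.1.map (frob hF) * (P⁻¹).1)ᵀ = P.1.map (frob hF) * (P⁻¹).1 := by
    rw [gram_eq hF P, transpose_mul, transpose_mul, transpose_transpose, mul_assoc]
    congr 2
    ext i j
    have := (mem_subfield_two hF hcard _).1 (hP _ _ (single_mem hF i) (single_mem hF j))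
    rw [one_mul] at this
    rw [transpose_apply, of_apply, of_apply, ← this]
    simp only [hermForm, map_sum, map_mul, ← frob_apply hF, frob_frob, mul_comm]
  have h3 := fun g => su_subfield_iff hF hcard P (g := g)
  generalize P.1.map (frob hF) * (P⁻¹).1 = M at h1 h2 h3
  have h4 := congrArg det h1
  rw [det_mul, det_one, ← RingHom.mapMatrix_apply, ← RingHom.map_det] at h4
  obtain ⟨κ, hκ, e⟩ := hilbert90 (frob_ne_id hF) (frob_frob hF) (d := frob hF M.det) (by
    rw [frob_frob, mul_comm, h4])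
  refine (kl_SU hF).sym (odd_card_iff.1 (by rwa [card_fixF])) (Or.inl (by rwa [card_fixF]))
    (left_ne_zero_of_mul_eq_one h4) h2 hκ (fun w => ⟨⟨κ • hd (act M w.1), ?_⟩, rfl⟩) h3
  have a1 := congrArg (act M) (act_hd_act (M.map (frob hF)) (hd w.1))
  rw [← transpose_map, h2, ← act_mul, h1, act_one, hd_hd, ← RingHom.mapMatrix_apply, ← RingHom.map_det,
    map_smul, RingHom.mapMatrix_apply] at a1
  rw [mem_Wσ, map_smul, hd_hd, show frob hF ∘ (κ • hd (act M w.1)) = frob hF κ • frob hF ∘ hd (act M w.1) from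
    funext fun i => map_mul _ _ _, map_hd, map_act,
    ← mem_Wσ.1 w.2, a1, ← e, smul_smul, mul_comm κ, mul_inv_cancel_left₀ ((map_ne_zero _).2 hκ)]

end K4

end H12
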