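/-
S5815: the pieces `EN` and `NM`.
-/
import Cfsg.Agent.H26.O7J
import Cfsg.Agent.H12.OF5

set_option autoImplicit false
set_option linter.unusedSectionVars false

open Module QuadraticMap H11 H12 Cfsg H26.O7
namespace H12.O7
universe u

section
variable {F : Type*} [Field F] {V : Type*} [AddCommGroup V] [Module F V]
  {Q : QuadraticForm F V} {X : Subgroup (V ≃ₗ[F] V)} [FiniteDimensional F V] [Fintype F]

local notation "𝓒" => CForm.ofQuad Q

/-- The enlargement step over an arbitrary field. -/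
theorem enlarge (hQ : QNondeg Q) (h2 : (2 : F) ≠ 0) {S : Submodule F V} (hS : (𝓒).NondegOn S) (h3 : 3 ≤ finrank F S)
    (h4 : 4 ≤ Fintype.card F) (hSX : subG 𝓒 (OmegaV Q) S ≤ X) {a s n s' n' : V}
    (ha : a ∈ S) (hs : s ∈ S) (hs' : s' ∈ S) (hn : n ∈ (𝓒).perp S) (hn' : n' ∈ (𝓒).perp S)
    (hs0 : s ≠ 0) (hs0' : s' ≠ 0) (h : RR Q X (s + n) a) (h' : RR Q X (s' + n') a)
    (e : Q (s + n) = Q a) (e' : Q (s' + n') = Q a) (hb : polar Q n n' ≠ 0) :
    ∃ S', S < S' ∧ (𝓒).NondegOn S' ∧ subG 𝓒 (OmegaV Q) S' ≤ X := by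
  have hne : NotExc F V := notExc_of_two_ne_zero h2
  have hy : ∀ y ∈ S, Q y = Q a → RR Q X y a := fun y hy e =>
    (rr_subG hQ hy ha (e.trans_ne h.2.1) h.2.1 ⟨Q a, by rw [e]⟩).mono hSX
  have A : ∀ s ∈ S, ∀ n ∈ (𝓒).perp S, s ≠ 0 → RR Q X (s + n) a → Q (s + n) = Q a → Q n ≠ 0 →
      ∃ S', S < S' ∧ (𝓒).NondegOn S' ∧ subG 𝓒 (OmegaV Q) S' ≤ X := by
    intro s hs n hn hs0 h e h0
    obtain ⟨u, hu, hu0, hu1, h5⟩ := h.mem_RS_of_ne hQ h2 h4 hS h3 hSX hs hs0 hn (Or.inl ha)
      (fun y h1 h2 => hy y h1 (h2.trans e)) h0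
    have h6 := (Submodule.span_singleton_le_iff_mem _ _).2 hn
    exact ⟨_, lt_sup_of_not_mem (Submodule.mem_span_singleton_self n) fun h => h0 (by
      rw [hS.eq_zero h hn, map_zero]), nondegOn_sup hS (nondegOn_singleton h2 h0) h6,
      subG_sup_le hQ hne hS h3 hSX (nondegOn_singleton h2 h0) h6 (notExc_of_two_ne_zero h2) hu hu0
        hu1 ((Submodule.span_singleton_le_iff_mem _ _).2 h5)⟩
  by_cases h0 : Q n = 0
  swap
  · exact A s hs n hn hs0 h e h0
  by_cases h0' : Q n' = 0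
  swap
  · exact A s' hs' n' hn' hs0' h' e' h0'
  obtain ⟨u, hu, hu0, hu1⟩ := iso3_quad Q S h3
  have B : ∀ s ∈ S, ∀ n ∈ (𝓒).perp S, s ≠ 0 → RR Q X (s + n) a → Q (s + n) = Q a → Q n = 0 →
      n ∈ RS Q X u := by
    intro s hs n hn hs0 h e h0
    have o : ∀ y ∈ S, polar Q n y = 0 := (𝓒).mem_perp'.1 hn
    rw [Q_add, h0, polar_comm, o s hs, add_zero, add_zero] at e
    have h5 := ((h.trans (hy s hs e).symm).ei h0 (o s hs)).smul_right h0 (o s hs)
    have c0 : (Q s)⁻¹ ≠ 0 := inv_ne_zero (e.trans_ne h.2.1)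
    generalize (Q s)⁻¹ = c at h5 c0
    obtain ⟨v, hv, v0, v1⟩ := exists_singular_not_mem hS ⟨u, hu, hu0, hu1⟩
      (S := (𝓒).perp (Submodule.span F {s})) fun h => hs0 (hS _ hs fun z hz => (𝓒).mem_perp_singleton.1 (h hz))
    rw [CForm.mem_perp_singleton, CForm.ofQuad_B, polar_comm] at v1
    have v2 : v ≠ 0 := by rintro rfl; exact v1 (polar_zero_left _ _)
    obtain ⟨f, hf, h1⟩ := exists_hypPair_sub hQ hS hv v2 v0
    obtain ⟨b, hb, b0, b1, -⟩ := exists_ns_perp_hyp hQ hS h3 hv hf h1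
    have k : ∀ d : F, Ei Q X n ((eich Q v (d • b)).1 (c • s)) := fun d => by
      have hk := eich_mem_subG hQ hne hv (S.smul_mem d hb) v0 (by rw [polar_smul_right, b1, smul_zero])
      have := h5.conj (hSX hk) hk.2.1
      rwa [hk.2.2 n hn] at this
    have k2 : ∀ d : F, Ei Q X n ((d * d * (-2 * Q b * c * polar Q v s)) • v) := fun d => by
      have := ((k d).add (k (-d))).sub (h5.add h5)
      rw [eich_apply v0 (by rw [polar_smul_right, b1, smul_zero]),
        eich_apply v0 (by rw [polar_smul_right, b1, smul_zero])] at this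
      convert this using 1
      simp only [Q_smul, polar_smul_left, polar_smul_right, smul_eq_mul]
      module
    have k0 : -2 * Q b * c * polar Q v s ≠ 0 := mul_ne_zero (mul_ne_zero (mul_ne_zero (neg_ne_zero.2 h2) b0) c0) v1
    have h6 : S ≤ RS Q X n := le_of_eich_inv hQ hS h3 (fun v hv b hb e1 e2 w hw => by
      have hk := eich_mem_subG hQ hne hv hb e1 e2
      have := RS.conj hw (hSX hk) hk.2.1
      rwa [hk.2.2 n hn] at this) (r := v) (fun _ d => by
        obtain ⟨x, y, e⟩ := exists_sq_add_sq h2 k0 k0 d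
        rw [← e, add_smul]
        exact (k2 x).add (k2 y)) fun h => v2 (hS.eq_zero hv h)
    exact fun _ d => ((h6 hu h0 d).swap (by rw [Q_smul, show Q u = 0 from hu1, mul_zero])).smul_right hu1
      (by rw [polar_comm, o u hu])
  have h5 := (nondegOn_pair_of_det (Q := Q) (u := n) (w := n') (by simpa [h0])).1
  have h6 : Submodule.span F {n, n'} ≤ (𝓒).perp S :=
    Submodule.span_le.2 (by rintro _ (rfl | rfl); exacts [hn, hn'])
  exact ⟨_, lt_sup_of_not_mem (Submodule.subset_span (Or.inl rfl)) fun h => hb (by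
    rw [hS.eq_zero h hn, polar_zero_left]), nondegOn_sup hS h5 h6,
    subG_sup_le hQ hne hS h3 hSX h5 h6 (notExc_of_two_ne_zero h2) hu hu0 hu1
      (Submodule.span_le.2 (by
        rintro _ (rfl | rfl); exacts [B s hs _ hn hs0 h e h0, B s' hs' _ hn' hs0' h' e' h0']))⟩
end

section
variable {F : Type u} [Field F] {Y : Subgroup (Au F (V F))} {δ : F} {R : Set (V F)} (h : Rt Y δ R)
include h

theorem rt_q0 {x : V F} (hx : x ∈ R) : Q F x ≠ 0 := (h.norm x hx).trans_ne h.ne

/-- a subspace invariant under the reflections -/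
theorem rt_irr (W : Submodule F (V F)) (hW : ∀ x ∈ R, ∀ y ∈ W, (refl (Q F) x).1 y ∈ W) : W = ⊥ ∨ W = ⊤ :=
  h.irr W fun g hg x hx => (h.gen (glStab W) (fun r hr => mem_glStab_iff_map.2 (map_eq_of_le (by
    rintro _ ⟨y, hy, rfl⟩; exact hW r hr y hy))) (fun v => (W.neg_mem_iff (x := v)).symm) hg x).1 hx

/-- the roots outside a perp span everything -/
theorem rt_span (S : Submodule F (V F)) {a : V F} (ha : a ∈ R) (h1 : a ∉ (CForm.ofQuad (Q F)).perp S) :
    Submodule.span F {x | x ∈ R ∧ x ∉ (CForm.ofQuad (Q F)).perp S} = ⊤ := by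
  refine (rt_irr h _ fun r hr y hy => ?_).resolve_left fun e => h1 ?_
  · by_cases h2 : r ∈ (CForm.ofQuad (Q F)).perp S
    · refine (?_ : Submodule.map ((refl (Q F) r).1 : V F →ₗ[F] V F) _ ≤ _) ⟨y, hy, rfl⟩
      rw [Submodule.map_span]
      refine Submodule.span_mono ?_
      rintro _ ⟨x, hx, rfl⟩
      refine ⟨h.inv _ (h.rf r hr) x hx.1, fun e => hx.2 ?_⟩
      have := add_mem e (Submodule.smul_mem _ ((Q F r)⁻¹ * polar (Q F) r x) h2)
      rwa [LinearEquiv.coe_coe, refl_apply, sub_add_cancel] at this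
    · rw [refl_apply]
      exact sub_mem hy (Submodule.smul_mem _ _ (Submodule.subset_span ⟨hr, h2⟩))
  · rw [(Submodule.eq_bot_iff _).1 e a (Submodule.subset_span ⟨ha, h1⟩)]; exact zero_mem _

theorem rt_ne {n : V F} (n0 : n ≠ 0) : ∃ a ∈ R, polar (Q F) n a ≠ 0 := by
  by_contra! hc
  obtain ⟨a, ha⟩ := h.ex
  have := rt_span h ⊤ ha fun e => rt_q0 h ha (by
    rw [Q_nd h.two a fun y => (CForm.ofQuad (Q F)).mem_perp'.1 e y trivial, map_zero])
  refine n0 (Q_nd h.two n fun y => (CForm.ofQuad (Q F)).mem_perp_singleton.1 (?_ : y ∈ _))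
  exact (this.ge.trans (Submodule.span_le.2 fun x hx => (CForm.ofQuad (Q F)).mem_perp_singleton.2 (hc x hx.1))) trivial
end

theorem en : EN.{u} := by
  intro F _ _ Y δ R h h5 n w n0 w0 hE
  have hQ := Q_nd h.two
  have e1 : Ei (Q F) Y n w := by simpa using hE 1
  obtain ⟨a, ha, hi⟩ := rt_ne h n0
  have q5 : Q F (w - (polar (Q F) a w / polar (Q F) n a) • n) ≠ 0 := by
    rwa [H12.Q_sub, Q_smul, e1.1, polar_smul_right, polar_comm _ w, e1.2.1, smul_zero, mul_zero, add_zero, sub_zero]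
  have h6 := finrank_span_singleton (K := F) (ne_of_apply_ne (Q F) (q5.trans_eq (map_zero (Q F)).symm))
  obtain ⟨S₀, k1, k2, k3, k4⟩ := subG_start hQ h.two e1.1 (rt_q0 h ha) hi (h.rf a ha)
    (nondegOn_singleton h.two q5) (by rintro e; rw [e, finrank_bot] at h6; omega)
    (fun y hy => (CForm.ofQuad (Q F)).mem_perp'.1 ((CForm.ofQuad (Q F)).mem_perp_singleton.2 (by
      rw [CForm.ofQuad_B, polar_comm, polar_sub_right, polar_smul_right, smul_eq_mul, polar_comm _ a n,
        div_mul_cancel₀ _ hi, sub_self])) y hy)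
    ((Submodule.span_singleton_le_iff_mem _ _).2 (sub_mem (fun _ => hE) fun _ c => by
      rw [smul_smul]; exact ei_smul_self e1.1 _))
  obtain ⟨S, ⟨l1, hS, l3⟩, hmax⟩ := (wellFounded_gt (α := Submodule F (V F))).has_min
    {S | S₀ ≤ S ∧ (CForm.ofQuad (Q F)).NondegOn S ∧ subG (CForm.ofQuad (Q F)) (OmegaV (Q F)) S ≤ Y} ⟨S₀, le_rfl, k1, k4⟩
  have hd := Submodule.finrank_mono l1
  choose s hs m hm hsn using hQ.exists_add hS
  have rr : ∀ x ∈ R, RR (Q F) Y x a := fun x hx => rr_of_mem (rt_q0 h hx) (rt_q0 h ha) (h.rf x hx) (h.rf a ha)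
  have T := rt_span h S ha fun e => rt_q0 h ha (by rw [hS.eq_zero (l1 k3) e, map_zero])
  have A : ∀ x ∈ R, x ∉ (CForm.ofQuad (Q F)).perp S → ∀ y ∈ R, y ∉ (CForm.ofQuad (Q F)).perp S →
      polar (Q F) (m x) y = 0 := by
    intro x hx h7 y hy h8
    rw [hsn y, polar_add_right, show polar (Q F) _ _ = 0 from (CForm.ofQuad (Q F)).mem_perp'.1 (hm x) _ (hs y), zero_add]
    by_contra hc
    obtain ⟨S', e1, e2, e3⟩ := enlarge hQ h.two hS (by omega) (by omega) l3 (l1 k3) (hs x)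
      (hs y) (hm x) (hm y) (fun e => h7 (by rw [hsn x, e, zero_add]; exact hm x))
      (fun e => h8 (by rw [hsn y, e, zero_add]; exact hm y)) (hsn x ▸ rr x hx)
      (hsn y ▸ rr y hy) (by rw [← hsn, h.norm x hx, h.norm a ha]) (by rw [← hsn, h.norm y hy, h.norm a ha]) hc
    exact hmax S' ⟨l1.trans e1.le, e2, e3⟩ e1
  have : S = ⊤ := eq_top_iff.2 (T.ge.trans (Submodule.span_le.2 fun x hx => by
    have : m x = 0 := hQ _ fun y => (CForm.ofQuad (Q F)).mem_perp_singleton.1 ((T.ge.trans (Submodule.span_le.2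
      fun z hz => (CForm.ofQuad (Q F)).mem_perp_singleton.2 (A x hx.1 hx.2 z hz.1 hz.2))) (trivial : y ∈ ⊤))
    rw [hsn x, this, add_zero]; exact hs x))
  rwa [this, hQ.subG_top OmegaV_le] at l3

open Pointwise in
theorem nm : NM.{u} := by
  intro F _ _ H P h R c c0 hc hn hH hR x hx y hy
  have hQ := Q_nd h.two
  have hne : NotExc F (V F) := notExc_of_two_ne_zero h.two
  let M : Subgroup (GL ι F) := Geo.omegaGL (quadFormOdd 3 F) ⊓
    (MulAction.stabilizer (Au F (V F)) (R : Set (V F))).comap (glHom ι F)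
  have e : ∀ g : Au F (V F), g ∈ MulAction.stabilizer (Au F (V F)) (R : Set (V F)) ↔ ∀ x ∈ R, g x ∈ R := fun g => by
    rw [MulAction.mem_stabilizer_set_iff_smul_set_subset R.finite_toSet, Set.smul_set_subset_iff]; rfl
  have o : ∀ g ∈ OmegaV (Q F), (H12.glEquiv ι F).symm g ∈ Geo.omegaGL (quadFormOdd 3 F) := fun g hg => by
    rw [← H11.coe_qOdd, omegaGL_eq]
    change H12.glEquiv ι F _ ∈ OmegaV (Q F)
    rwa [MulEquiv.apply_symm_apply]
  have x0 := (hn x hx).trans_ne c0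
  rcases h.mx.2 M (le_inf h.mx.1.le fun g hg => (e _).2 (hH g hg)) inf_le_left with k | k
  · refine ⟨_, k.le ⟨o _ (rr_of_isSquare hQ x0 ((hn y hy).trans_ne c0) ⟨c, by rw [hn x hx, hn y hy]⟩).2.2, (e _).2 ?_⟩,
      (H12.glEquiv ι F).apply_symm_apply _⟩
    intro z hz
    change H12.glEquiv ι F _ z ∈ R
    rw [MulEquiv.apply_symm_apply]
    exact hR x hx _ (hR y hy z hz)
  exfalso
  obtain ⟨n, -, n0, n1⟩ := exists_singular_not_mem ((CForm.ofQuad (Q F)).nondegOn_top.2 hQ)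
    (iso3_quad (Q F) ⊤ (by rw [finrank_top, finrank_V]; omega)) (S := (CForm.ofQuad (Q F)).perp (Submodule.span F {x}))
    fun h => x0 (by rw [hQ x fun z => (CForm.ofQuad (Q F)).mem_perp_singleton.1 (h trivial), map_zero])
  rw [CForm.mem_perp_singleton, CForm.ofQuad_B, polar_comm] at n1
  obtain ⟨f, -, hf⟩ := exists_hypPair_sub hQ ((CForm.ofQuad (Q F)).nondegOn_top.2 hQ) (e := n) trivial
    (by rintro rfl; exact n1 (polar_zero_left _ _)) n0
  have d1 := hQ.finrank_add_finrank_perp (Submodule.span F {n, f})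
  have d2 := finrank_span_pair_le (F := F) n f
  have p := fun w : (CForm.ofQuad (Q F)).perp (Submodule.span F {n, f}) => (CForm.ofQuad (Q F)).mem_perp_pair.1 w.2
  have := Nat.card_le_card_of_injective (fun w : (CForm.ofQuad (Q F)).perp (Submodule.span F {n, f}) =>
    (⟨(eich (Q F) n w).1 x, by
      have := (e _).1 (k.ge (o _ (eich_mem_OmegaV hQ hne n0 (p w).1))).2 x hx
      rwa [show glHom ι F _ = _ from (H12.glEquiv ι F).apply_symm_apply _] at this⟩ : R)) fun w w' e => by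
    have e1 := congrArg Subtype.val e
    simp only [eich_apply n0 (p _).1] at e1
    have e2 := congrArg (polar (Q F) f) e1
    simp only [polar_add_right, polar_sub_right, polar_smul_right, show polar (Q F) f w = 0 from (p w).2,
      show polar (Q F) f w' = 0 from (p w').2,
      polar_comm _ f n, show polar (Q F) n f = 1 from hf.pair, smul_eq_mul] at e2
    refine Subtype.ext (smul_right_injective _ n1 ?_)
    linear_combination (norm := module) -e1 + e2 • n
  rw [Module.natCard_eq_pow_finrank (K := F), Nat.card_eq_fintype_card, Nat.card_eq_fintype_card, Fintype.card_coe] at this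
  rw [finrank_V] at d1
  obtain ⟨m, hm⟩ := h.odd
  have := Fintype.one_lt_card (α := F)
  have := Nat.pow_le_pow_right (n := Fintype.card F) (by omega) (by omega : 5 ≤ finrank F ((CForm.ofQuad (Q F)).perp
    (Submodule.span F {n, f})))
  have := Nat.pow_le_pow_left (by omega : 3 ≤ Fintype.card F) 5
  omega

end H12.O7
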