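/-
S5815: three-dimensional subspaces and `PGL₂`; the piece `DK`.
-/
import Cfsg.Agent.H12.O7a

set_option autoImplicit false
set_option linter.unusedSectionVars false

open Module QuadraticMap H11 H12 H27 Cfsg H26.O7 Subgroup
namespace H12.O7
universe u

section
variable {F : Type*} [Field F]

theorem pg_pow {g : GL (Fin 2) F} (h1 : (pgm g : PG F) ≠ 1) {n : ℕ} {A B : F}
    (h : (g ^ n).1 = A • g.1 + B • 1) : (pgm g : PG F) ^ n = 1 ↔ A = 0 := by
  rw [← map_pow, pg_mk_eq_one_iff, h]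
  rw [Ne, pg_mk_eq_one_iff] at h1
  simp only [Matrix.add_apply, Matrix.smul_apply, smul_eq_mul, Matrix.one_apply_eq, ne_eq, zero_ne_one,
    not_false_eq_true, Matrix.one_apply_ne, one_ne_zero, mul_zero, add_zero, add_left_inj, mul_eq_zero]
  refine ⟨fun k => by_contra fun e => h1 ⟨k.1.resolve_left e, k.2.1.resolve_left e, mul_left_cancel₀ e k.2.2⟩, fun e => ?_⟩
  simp [e]

theorem ch2 (g : GL (Fin 2) F) : g.1 * g.1 = tc g • g.1 + -dt g • 1 := by
  ext i j
  fin_cases i <;> fin_cases j <;> simp [Matrix.mul_apply, Fin.sum_univ_two, tc, dt] <;> ring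

theorem ch_succ {g : GL (Fin 2) F} {n : ℕ} {A B : F}
    (h : (g ^ n).1 = A • g.1 + B • 1) : (g ^ (n + 1)).1 = (A * tc g + B) • g.1 + (-A * dt g) • 1 := by
  rw [pow_succ, Units.val_mul, h, add_mul, smul_mul_assoc, smul_mul_assoc, ch2, one_mul]
  module

/-- orders in terms of `tr² / det` -/
theorem pg_ord {g : GL (Fin 2) F} (h1 : (pgm g : PG F) ≠ 1) {a : F} (ha : tc g ^ 2 = a * dt g) :
    ((pgm g : PG F) ^ 2 = 1 ↔ a = 0) ∧ ((pgm g : PG F) ^ 3 = 1 ↔ a = 1) ∧ ((pgm g : PG F) ^ 4 = 1 ↔ a = 0 ∨ a = 2) ∧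
      ((pgm g : PG F) ^ 5 = 1 ↔ a ^ 2 - 3 * a + 1 = 0) := by
  have d := dt_ne g
  have e1 : (g ^ 1).1 = (1 : F) • g.1 + (0 : F) • 1 := by simp
  have e2 := ch_succ e1
  have e3 := ch_succ e2
  have e4 := ch_succ e3
  have e5 := ch_succ e4
  have t : tc g = 0 ↔ a = 0 := by rw [← pow_eq_zero_iff two_ne_zero, ha, mul_eq_zero, or_iff_left d]
  rw [pg_pow h1 e2, pg_pow h1 e3, pg_pow h1 e4, pg_pow h1 e5]
  refine ⟨by simpa using t, ?_, ?_, ?_⟩
  · rw [← sub_eq_zero (a := a), ← mul_eq_zero_iff_right (a := a - 1) d]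
    exact Eq.congr_left (by linear_combination ha)
  · rw [← sub_eq_zero (b := 2), ← mul_eq_zero_iff_right (a := a - 2) d, ← t, ← mul_eq_zero]
    exact Eq.congr_left (by linear_combination tc g * ha)
  · rw [← mul_eq_zero_iff_right (a := a ^ 2 - 3 * a + 1) (pow_ne_zero 2 d)]
    exact Eq.congr_left (by linear_combination (tc g ^ 2 + (a - 3) * dt g) * ha)

/-- `tr² / det` lies in the subfield -/
theorem tr_mem {F₀ : Subfield F} {c : PG F} {g : GL (Fin 2) F} (h : c⁻¹ * pgm g * c ∈ pglOf F₀) {a : F}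
    (ha : tc g ^ 2 = a * dt g) : a ∈ F₀ := by
  obtain ⟨c, rfl⟩ := Matrix.ProjGenLinGroup.mk_surjective c
  obtain ⟨k, e, hk⟩ := mem_pglOf_iff.1 h
  rw [← map_inv, ← map_mul, ← map_mul, pg_mk_eq_mk_iff] at e
  obtain ⟨s, s0, e⟩ := e
  have e1 := tc_conj c⁻¹ g
  have e2 := dt_conj c⁻¹ g
  rw [inv_inv] at e1 e2
  rw [← e1, ← e2] at ha
  simp only [tc, dt, e] at ha
  have d := gl_det_ne k
  have : a = (k 0 0 + k 1 1) ^ 2 / (k 0 0 * k 1 1 - k 0 1 * k 1 0) := by
    rw [eq_div_iff d]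
    exact mul_left_cancel₀ (pow_ne_zero 2 s0) (by linear_combination -ha)
  rw [this]
  exact div_mem (pow_mem (add_mem (hk _ _) (hk _ _)) _) (sub_mem (mul_mem (hk _ _) (hk _ _)) (mul_mem (hk _ _) (hk _ _)))

variable {V : Type*} [AddCommGroup V] [Module F V] {Q : QuadraticForm F V} {Y : Subgroup (V ≃ₗ[F] V)} {u f w : V}
  [Fintype F] (h : H3 Q u f w)

variable (Y) in
/-- the matrices induced by `Y` -/
def HG : Subgroup (GL (Fin 2) F) where
  carrier := {M | ∃ y ε, y ∈ Y ∧ ε * ε = 1 ∧ Rel3 Q u f w M y ε}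
  one_mem' := ⟨1, 1, one_mem _, one_mul _, fun x => by simp⟩
  mul_mem' := by
    rintro _ _ ⟨y, ε, h1, h2, h3⟩ ⟨y', ε', h1', h2', h3'⟩
    exact ⟨y * y', ε * ε', mul_mem h1 h1', by linear_combination ε' * ε' * h2 + h2', h.rel_mul h3 h3'⟩
  inv_mem' := by
    rintro M ⟨y, ε, h1, h2, h3⟩
    have : ∀ n : ℕ, Rel3 Q u f w (M ^ n) (y ^ n) (ε ^ n) := fun n => by
      induction n with
      | zero => exact fun x => by simp
      | succ n ih => rw [pow_succ, pow_succ, pow_succ]; exact h.rel_mul ih h3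
    refine ⟨_, ε ^ (orderOf M - 1), pow_mem h1 (orderOf M - 1), by rw [← mul_pow, h2, one_pow], ?_⟩
    rw [show M⁻¹ = M ^ (orderOf M - 1) from inv_eq_of_mul_eq_one_left (by
      rw [← pow_succ, Nat.sub_add_cancel (orderOf_pos M), pow_orderOf_eq_one])]
    exact this _

theorem hg_of_pg {M : GL (Fin 2) F} (hM : pgm M ∈ (HG Y h).map pgm) : M ∈ HG Y h := by
  obtain ⟨M', h1, e⟩ := hM
  obtain ⟨s, rfl⟩ := Matrix.ProjGenLinGroup.mk_eq_mk_iff.1 e
  refine mul_mem h1 ⟨1, 1, one_mem _, one_mul _, fun x => ?_⟩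
  rw [show (Matrix.GeneralLinearGroup.scalar (Fin 2) s).1 * ph Q u f w x =
    ph Q u f w x * (Matrix.GeneralLinearGroup.scalar (Fin 2) s).1 from
      (Matrix.scalar_commute s.1 (fun _ => Commute.all _ _) _).eq, Units.mul_inv_cancel_right]
  simp

theorem hg_odd {M : GL (Fin 2) F} (hM : M ∈ HG Y h) {p : ℕ} (hp : Odd p) (e : M ^ p = 1) :
    ∃ y ∈ Y, Rel3 Q u f w M y 1 := by
  obtain ⟨y, ε, h1, h2, h3⟩ := hM
  have : ∀ n : ℕ, Rel3 Q u f w (M ^ n) (y ^ n) (ε ^ n) := fun n => by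
    induction n with
    | zero => exact fun x => by simp
    | succ n ih => rw [pow_succ, pow_succ, pow_succ]; exact h.rel_mul ih h3
  obtain ⟨k, hk⟩ := hp.add_one
  have := this (p + 1)
  rw [pow_succ, e, one_mul, hk, pow_add ε, ← mul_pow, h2, one_pow] at this
  exact ⟨_, pow_mem h1 _, this⟩

include h
theorem lift {x : V} (h1 : th Q u f w (ph Q u f w x) = x) (h2 : Q x ≠ 0) : ∃ X : GL (Fin 2) F,
    (X : Matrix _ _ F) = ph Q u f w x ∧ tc X = 0 ∧ dt X = -(Q w * Q x) ∧ ((refl Q x).1 ∈ Y → X ∈ HG Y h) ∧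
    ∀ y, ∀ Z : GL (Fin 2) F, (Z : Matrix _ _ F) = ph Q u f w y → tc (X * Z) = Q w * polar Q x y := by
  have e := h.Q_th (ph Q u f w x)
  rw [h1] at e
  obtain ⟨X, hX⟩ : ∃ X : GL (Fin 2) F, (X : Matrix _ _ F) = ph Q u f w x :=
    ⟨Matrix.GeneralLinearGroup.mkOfDetNeZero (ph Q u f w x) (by
      rw [Matrix.det_fin_two, ph_tr]
      exact fun e' => mul_ne_zero h.qw h2 (by linear_combination e - e')), rfl⟩
  refine ⟨X, hX, by rw [tc, hX, ph_tr, add_neg_cancel], by rw [dt, hX, ph_tr, e]; ring,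
    fun k => ⟨_, -1, k, by simp, h.rel_refl h1 h2 hX⟩, fun y Z hZ => ?_⟩
  have e' := h.polar_th (ph Q u f w x) y
  rw [h1] at e'
  rw [e', tc, gl_mul_apply, gl_mul_apply, hZ, hX, ph_tr, ph_tr]
  ring

theorem rel_upT (t : F) : Rel3 Q u f w (upT t) (eich Q u (-t • w)).1 1 := by
  intro x
  have := h.qw
  have := h.two
  rw [eich_apply h.qu (by rw [polar_smul_right, h.uw, smul_zero]), ← upT_neg]
  simp only [th_apply, Matrix.mul_apply, Fin.sum_univ_two, upT, gl2_00, gl2_01, gl2_10, gl2_11, ph00, ph01, ph10, ph11,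
    polar_smul_left, Q_smul, smul_eq_mul]
  match_scalars <;> field_simp <;> ring

theorem upT_iff (t : F) : upT t ∈ HG Y h ↔ Ei Q Y u (t • w) := by
  have o : ∀ t : F, polar Q u (t • w) = 0 := fun t => by rw [polar_smul_right, h.uw, smul_zero]
  refine ⟨fun k => ?_, fun k => ⟨_, 1, by simpa using k.neg.2.2, one_mul _, rel_upT h t⟩⟩
  obtain ⟨p, hp⟩ := CharP.exists F
  obtain ⟨y, hy, e⟩ := hg_odd h k (p := p) ((CharP.char_is_prime F p).odd_of_ne_two (by
    rintro rfl; exact h.two (CharP.cast_eq_zero F 2))) (by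
    have : ∀ n : ℕ, upT t ^ n = upT (n * t) := fun n => by
      induction n with
      | zero => simp [upT_zero]
      | succ n ih => rw [pow_succ, ih, ← upT_add]; congr 1; push_cast; ring
    rw [this, CharP.cast_eq_zero, zero_mul, upT_zero])
  have : Ei Q Y u (-t • w) := ⟨h.qu, o _, by
    rwa [show (eich Q u (-t • w)).1 = y from LinearEquiv.ext fun x => (rel_upT h t x).trans (e x).symm]⟩
  simpa using this.neg

set_option maxRecDepth 100000 in
omit h in
theorem s5_three : ∀ a : Equiv.Perm (Fin 5), a ^ 3 = 1 → a ≠ 1 → ∀ b : Equiv.Perm (Fin 5), b ^ 3 = 1 → a * b = b * a →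
    b = 1 ∨ b = a ∨ b * a = 1 := by decide +kernel

/-- the Eichler maps with a given axis form a subfield -/
theorem dk_core {x : V} (h1 : th Q u f w (ph Q u f w x) = x) (h2 : Q x ≠ 0) (h3 : (refl Q x).1 ∈ Y) (h4 : polar Q u x ≠ 0)
    (e1 : Ei Q Y u w) {c : F} (hc : Ei Q Y u (c • w)) (c0 : c ≠ 0) (c1 : c ≠ 1) (c2 : c ≠ -1) :
    ∃ F₀ : Subfield F, (∀ c, c ∈ F₀ ↔ Ei Q Y u (c • w)) ∧ polar Q u x ^ 2 * Q w / Q x ∈ F₀ := by
  obtain ⟨p, hp⟩ := CharP.exists F
  have hp' : Fact p.Prime := ⟨CharP.char_is_prime F p⟩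
  obtain ⟨X, x1, x2, x3, x4, -⟩ := lift (Y := Y) h h1 h2
  have m : ∀ t, Ei Q Y u (t • w) → pgm (upT t) ∈ (HG Y h).map pgm := fun t k => ⟨_, (upT_iff h t).2 k, rfl⟩
  have m1 := m 1 (by simpa using e1)
  have mX : pgm X ∈ (HG Y h).map pgm := ⟨_, x4 h3, rfl⟩
  have up : ∀ t : F, (pgm (upT t) : PG F) ^ p = 1 := fun t => ((unip_inf_iff p _).2 ⟨t, rfl⟩).2
  have u1 : (pgm (upT 1) : PG F) ≠ 1 := fun e => one_ne_zero (mk_upT_inj (e.trans (by rw [upT_zero, map_one])))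
  have o : orderOf (⟨_, m1⟩ : (HG Y h).map pgm) = p := orderOf_eq_prime (Subtype.ext (up 1)) fun e => u1 (congrArg Subtype.val e)
  have d := o ▸ orderOf_dvd_natCard (⟨_, m1⟩ : (HG Y h).map pgm)
  have x10 : X 1 0 = Q w * polar Q u x := by rw [x1, ph10]
  rcases dickson_hom p ((HG Y h).map pgm).subtype (subtype_injective _) with ⟨-, k⟩ | ⟨-, z, k⟩ | ⟨z, k1, -, k⟩ | ⟨k, -⟩ |
    ⟨rfl, ⟨e⟩⟩ | ⟨g, F₀, -, -, k1, k2⟩
  · exact absurd d k
  · have := (fix_unip_of_fixed p u1 (up 1) ((smul_inf_eq_inf _).2 rfl) z).1 (k ⟨_, m1⟩)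
    subst this
    exact absurd (x10.symm.trans ((smul_inf_eq_inf X).1 (k ⟨_, mX⟩))) (mul_ne_zero h.qw h4)
  · have := orderOf_dvd_of_pow_eq_one ((pow_two _).trans (k ⟨_, m1⟩ fun e => k1 (o ▸ orderOf_dvd_of_mem_zpowers e)))
    rw [o, Nat.prime_dvd_prime_iff_eq hp'.out Nat.prime_two] at this
    subst this
    exact absurd (CharP.cast_eq_zero F 2) h.two
  · exact absurd d k
  · let φ := (alternatingGroup (Fin 5)).subtype.comp e.toMonoidHom
    have hφ : Function.Injective φ := Subtype.val_injective.comp e.injective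
    have := s5_three (φ ⟨_, m1⟩) (by rw [← map_pow, ← map_one φ]; exact congrArg φ (Subtype.ext (up 1)))
      (fun e => u1 (congrArg Subtype.val (hφ (e.trans (map_one φ).symm)))) (φ ⟨_, m c hc⟩)
      (by rw [← map_pow, ← map_one φ]; exact congrArg φ (Subtype.ext (up c))) (by
        rw [← map_mul, ← map_mul]
        exact congrArg φ (Subtype.ext (by
          change pgm _ * pgm _ = pgm _ * pgm _
          rw [← map_mul, ← map_mul, ← upT_add, ← upT_add, add_comm])))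
    rw [← map_one φ, ← map_mul, hφ.eq_iff, hφ.eq_iff, hφ.eq_iff, Subtype.ext_iff, Subtype.ext_iff, Subtype.ext_iff] at this
    change pgm _ = pgm 1 ∨ pgm _ = pgm _ ∨ pgm _ * pgm _ = pgm 1 at this
    rw [← map_mul, ← upT_add, ← upT_zero] at this
    rcases this with e | e | e
    exacts [absurd (mk_upT_inj e) c0, absurd (mk_upT_inj e) c1, absurd (eq_neg_of_add_eq_zero_left (mk_upT_inj e)) c2]
  have t : ∀ t, Ei Q Y u (t • w) → -(t ^ 2 * (polar Q u x ^ 2 * Q w / Q x)) ∈ F₀ := fun t k =>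
    tr_mem (g := X * upT t) (k2 ⟨_, mul_mem mX (m t k)⟩) (by
      rw [dt_mul, x3]
      simp only [tc, dt, gl_mul_apply, upT, gl2_00, gl2_01, gl2_10, gl2_11, x10] at x2 ⊢
      field_simp
      linear_combination (X 0 0 + X 1 1 + 2 * Q w * polar Q u x * t) * x2)
  have t1 := neg_mem (t 1 (by simpa using e1))
  rw [neg_neg, one_pow, one_mul] at t1
  have κ0 : polar Q u x ^ 2 * Q w / Q x ≠ 0 := div_ne_zero (mul_ne_zero (pow_ne_zero 2 h4) h.qw) h2
  refine ⟨F₀, fun s => ⟨fun hs => ?_, fun hs => ?_⟩, t1⟩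
  · obtain ⟨g, rfl⟩ := Matrix.ProjGenLinGroup.mk_surjective g
    obtain ⟨k, e, hk⟩ := mem_pglOf_iff.1 (k2 ⟨_, m1⟩)
    change _ = _ * pgm _ * _ at e
    rw [← map_inv, ← map_mul, ← map_mul, pg_mk_eq_mk_iff] at e
    obtain ⟨l, -, e⟩ := e
    have e2 := tc_conj g⁻¹ (upT 1)
    rw [inv_inv] at e2
    have l0 : l ∈ F₀ := by
      simp only [tc, e] at e2
      have e3 : l * (k 0 0 + k 1 1) = 2 := by rw [mul_add, e2]; simp [upT]; norm_num
      rw [eq_div_of_mul_eq (right_ne_zero_of_mul (e3.trans_ne h.two)) e3]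
      exact div_mem (by exact_mod_cast natCast_mem F₀ 2) (add_mem (hk _ _) (hk _ _))
    have e3 : ∀ i j, (g⁻¹ * upT s * g).1 i j = s * (g⁻¹ * upT 1 * g).1 i j + (1 - s) * (1 : Matrix _ _ F) i j := by
      have : (upT s).1 = s • (upT (1 : F)).1 + (1 - s) • 1 := by
        ext i j; fin_cases i <;> fin_cases j <;> simp [upT]
      intro i j
      rw [Units.val_mul, Units.val_mul, this, mul_add, add_mul, Matrix.mul_smul, Matrix.mul_smul, Matrix.smul_mul,
        Matrix.smul_mul, mul_one, Units.inv_mul]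
      rfl
    obtain ⟨y, hy⟩ := k1 (pgm (g⁻¹ * upT s * g)) (mem_pslOf_iff.2 ⟨_, rfl, fun i j => by
      rw [e3, e]
      exact add_mem (mul_mem hs (mul_mem l0 (hk _ _))) (mul_mem (sub_mem (one_mem _) hs) (by
        rw [Matrix.one_apply]; split_ifs; exacts [one_mem _, zero_mem _])), by
      have := dt_conj g⁻¹ (upT s)
      rw [inv_inv] at this
      exact this.trans (by simp [dt, upT])⟩)
    refine (upT_iff h s).1 (hg_of_pg h ?_)
    convert y.2 using 1
    rw [show y.1 = _ from hy, map_mul, map_mul, map_inv]; group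
  · have a := sub_mem (t s hs) (t (s + 1) (by rw [add_smul, one_smul]; exact hs.add e1))
    have : s = ((-(s ^ 2 * (polar Q u x ^ 2 * Q w / Q x)) - -((s + 1) ^ 2 * (polar Q u x ^ 2 * Q w / Q x))) /
        (polar Q u x ^ 2 * Q w / Q x) - 1) / 2 := by
      have := h.two
      generalize polar Q u x ^ 2 * Q w / Q x = κ at κ0
      field_simp; ring
    rw [this]
    exact div_mem (sub_mem (div_mem a t1) (one_mem _)) (by exact_mod_cast natCast_mem F₀ 2)
end

theorem dk : DK.{u} := by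
  intro F _ _ Y δ R h ⟨n, w₀, C, n0, w0, h5, hC⟩
  classical
  obtain ⟨a, ha, a0⟩ : ∃ a ∈ C, a ≠ 0 := by
    by_contra! k
    have := Finset.card_le_card (fun x hx => Finset.mem_singleton.2 (k x hx) : C ⊆ {0})
    simp at this; omega
  obtain ⟨c, hc, c0⟩ : ∃ c ∈ C, c ∉ ({0, a, -a} : Finset F) := by
    by_contra! k
    have := (Finset.card_le_card (k : C ⊆ _)).trans Finset.card_le_three
    omega
  simp only [Finset.mem_insert, Finset.mem_singleton, not_or] at c0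
  have e1 := hC a ha
  have qw : Q F (a • w₀) ≠ 0 := by rw [Q_smul]; exact mul_ne_zero (mul_ne_zero a0 a0) w0
  have e2 : ∀ c ∈ C, Ei (Q F) Y n ((c / a) • a • w₀) := fun c hc => by rw [smul_smul, div_mul_cancel₀ _ a0]; exact hC c hc
  generalize a • w₀ = w at e1 qw e2
  have key : ∀ x ∈ R, polar (Q F) n x ≠ 0 → ∃ F₀ : Subfield F, (∀ c, c ∈ F₀ ↔ Ei (Q F) Y n (c • w)) ∧
      polar (Q F) n x ^ 2 * Q F w / δ ∈ F₀ := by
    intro x hx β0
    have t := h.two
    obtain ⟨γ, hγ⟩ : ∃ γ, γ * (2 * Q F w) = polar (Q F) w x := ⟨_, div_mul_cancel₀ _ (mul_ne_zero t qw)⟩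
    have o1 := e1.1
    have o2 := e1.2.1
    have k : H3 (Q F) n ((polar (Q F) n x)⁻¹ • (x - γ • w) - (Q F (x - γ • w) / polar (Q F) n x ^ 2) • n) w := by
      refine ⟨t, o1, ?_, ?_, o2, ?_, qw⟩
      · rw [H12.Q_sub, Q_smul, Q_smul, o1, polar_smul_left, polar_smul_right, polar_comm _ _ n, polar_sub_right,
          polar_smul_right, o2]
        simp only [smul_eq_mul]; field_simp; ring
      · simp only [polar_sub_right, polar_smul_right, polar_self', o1, o2, smul_eq_mul]; field_simp; ring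
      · simp only [polar_sub_left, polar_smul_left, polar_self', o2, smul_eq_mul, polar_comm _ x w, ← hγ]; ring
    rw [← h.norm x hx]
    refine dk_core k ?_ (rt_q0 h hx) (h.rf x hx) β0 e1 (e2 c hc) (div_ne_zero c0.1 a0)
      (fun e => c0.2.1 (by rwa [div_eq_one_iff_eq a0] at e)) fun e => c0.2.2 (by rwa [div_eq_iff a0, neg_one_mul] at e)
    simp only [th_apply, ph00, ph01, ph10, polar_sub_left, polar_smul_left, polar_self', H12.Q_sub, Q_smul,
      polar_smul_right, polar_comm _ x w, ← hγ, smul_eq_mul]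
    match_scalars <;> field_simp <;> ring
  obtain ⟨x₀, hx₀, β0⟩ := rt_ne h n0
  obtain ⟨F₁, k1, -⟩ := key x₀ hx₀ β0
  refine ⟨n, w, F₁, n0, qw, ?_, fun c hc => (k1 c).1 hc, fun x hx => ?_⟩
  · refine h5.trans ?_
    rw [← Fintype.card_coe, ← Nat.card_eq_fintype_card]
    exact Nat.card_le_card_of_injective (fun c : C => (⟨c / a, (k1 _).2 (e2 c c.2)⟩ : F₁)) fun c d e =>
      Subtype.ext ((div_left_inj' a0).1 (congrArg Subtype.val e))
  · by_cases β : polar (Q F) n x = 0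
    · rw [β, zero_pow two_ne_zero, zero_mul, zero_div]; exact zero_mem _
    obtain ⟨F₀, k2, k3⟩ := key x hx β
    exact (k1 _).2 ((k2 _).1 k3)

end H12.O7
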