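/-
S5815: the piece `T3`.
-/
import Cfsg.Agent.H12.O7b

set_option autoImplicit false
set_option linter.unusedSectionVars false

open Module QuadraticMap H11 H12 H27 Cfsg H26.O7 Subgroup
namespace H12.O7
universe u

/-- three involutions -/
def Tq (H : Type*) [Group H] : Prop := ∀ a b c : H, a * a = 1 → b * b = 1 → c * c = 1 → (a * b) ^ 2 ≠ 1 →
  (a * c) ^ 2 ≠ 1 ∨ (b * c) ^ 2 ≠ 1 → (a * b * c) ^ 2 ≠ 1 → ((a * b) ^ 3 = 1 ∨ (a * b) ^ 4 = 1 ∨ (a * b) ^ 5 = 1) ∧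
    ¬ ((a * b) ^ 4 = 1 ∧ ((a * c) ^ 3 = 1 ∨ (a * c) ^ 5 = 1) ∧ ((b * c) ^ 3 = 1 ∨ (b * c) ^ 5 = 1)) ∧
    ((a * b) ^ 5 = 1 → ∃ j : Fin 5, c * ((a * b) ^ j.1 * a * ((a * b) ^ j.1)⁻¹) ≠ 1 ∧
      (c * ((a * b) ^ j.1 * a * ((a * b) ^ j.1)⁻¹)) ^ 2 = 1)

theorem Tq.of_hom {H K : Type*} [Group H] [Group K] (h : Tq K) (f : H →* K) (hf : Function.Injective f) : Tq H := by
  intro a b c h1 h2 h3 h4 h5 h6
  simp only [← hf.eq_iff, ne_eq, map_mul, map_pow, map_one, map_inv] at *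
  exact h _ _ _ h1 h2 h3 h4 h5 h6

set_option maxRecDepth 100000 in
set_option synthInstance.maxSize 10000 in
theorem tq_s4 : Tq (Equiv.Perm (Fin 4)) := by
  have : ∀ a : Equiv.Perm (Fin 4), a * a = 1 → ∀ b : Equiv.Perm (Fin 4), b * b = 1 → (a * b) ^ 2 ≠ 1 →
    ((a * b) ^ 3 = 1 ∨ (a * b) ^ 4 = 1) ∧ (a * b) ^ 5 ≠ 1 ∧ ∀ c : Equiv.Perm (Fin 4), c * c = 1 →
    ¬ ((a * b) ^ 4 = 1 ∧ ((a * c) ^ 3 = 1 ∨ (a * c) ^ 5 = 1) ∧ ((b * c) ^ 3 = 1 ∨ (b * c) ^ 5 = 1)) := by decide +kernel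
  intro a b c h1 h2 h3 h4 _ _
  obtain ⟨k1, k2, k3⟩ := this a h1 b h2 h4
  exact ⟨k1.imp_right .inl, k3 c h3, fun e => absurd e k2⟩

set_option maxRecDepth 100000 in
set_option synthInstance.maxSize 10000 in
theorem tq_a5 : Tq (alternatingGroup (Fin 5)) := by
  have f1 : ∀ g : Equiv.Perm (Fin 5), Equiv.Perm.sign g = 1 → g ^ 2 ≠ 1 → (g ^ 3 = 1 ∨ g ^ 5 = 1) ∧ g ^ 4 ≠ 1 ∧
    (g ^ 5 = 1 → ∀ i k, ∃ j : Fin 5, (g ^ j.1) i = k) := by decide +kernel
  have f2 : ∀ c : Equiv.Perm (Fin 5), c * c = 1 → Equiv.Perm.sign c = 1 → ∃ k, c k = k ∧ ∀ d : Equiv.Perm (Fin 5), d k = k →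
    d * d = 1 → Equiv.Perm.sign d = 1 → (c * d) ^ 2 = 1 := by decide +kernel
  rintro ⟨a, ha⟩ ⟨b, hb⟩ ⟨c, hc⟩ h1 h2 h3 h4 - h6
  simp only [ne_eq, Subtype.ext_iff, Subgroup.coe_mul, Subgroup.coe_one, Subgroup.coe_pow, Subgroup.coe_inv] at *
  obtain ⟨k1, k2, k3⟩ := f1 _ (mul_mem ha hb) h4
  refine ⟨k1.imp_right .inr, fun e => k2 e.1, fun e => ?_⟩
  obtain ⟨i, hi, -⟩ := f2 a h1 ha
  obtain ⟨k, -, hk⟩ := f2 c h3 hc
  obtain ⟨j, rfl⟩ := k3 e i k
  refine ⟨j, fun e => h6 ?_, hk _ (by simp [hi]) (by simp [mul_assoc, ← mul_assoc a, h1])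
    (mul_mem (mul_mem (pow_mem (mul_mem ha hb) _) ha) (inv_mem (pow_mem (mul_mem ha hb) _)))⟩
  have : ∀ g : Equiv.Perm (Fin 5), g * (g ^ j.1 * a * (g ^ j.1)⁻¹)⁻¹ = g ^ j.1 * (g * a⁻¹) * (g ^ j.1)⁻¹ := fun g => by group
  rw [eq_inv_of_mul_eq_one_left e, this, conj_pow, conj_pow, pow_two, h2]
  simp

theorem sq_comm {H : Type*} [Group H] {a b : H} (ha : a * a = 1) (hb : b * b = 1) (h : a * b = b * a) : (a * b) ^ 2 = 1 := by
  rw [(show Commute a b from h).mul_pow, pow_two, pow_two, ha, hb, one_mul]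

theorem tq_dih' {H : Type*} [Group H] {z : H} (h1 : (zpowers z).index = 2) (h2 : ∀ g, g ∉ zpowers z → g * g = 1) (a b c : H)
    (ha : a * a = 1) (hb : b * b = 1) (hc : c * c = 1) (hab : (a * b) ^ 2 ≠ 1) (h3 : (a * c) ^ 2 ≠ 1 ∨ (b * c) ^ 2 ≠ 1)
    (h4 : (a * b * c) ^ 2 ≠ 1) : False := by
  have k : ∀ e ∈ zpowers z, e * e = 1 → ∀ c, c * c = 1 → (e * c) ^ 2 = 1 ∧ (c * e) ^ 2 = 1 := by
    intro e he h c hc
    by_cases h6 : c ∈ zpowers z
    · obtain ⟨m, rfl⟩ := he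
      obtain ⟨n, rfl⟩ := h6
      exact ⟨sq_comm h hc (zpow_mul_comm z m n), sq_comm hc h (zpow_mul_comm z n m)⟩
    · exact ⟨(pow_two _).trans (h2 _ fun h7 => h6 ((Subgroup.mul_mem_cancel_left _ he).1 h7)),
        (pow_two _).trans (h2 _ fun h7 => h6 ((Subgroup.mul_mem_cancel_right _ he).1 h7))⟩
  refine absurd ((pow_two _).trans (h2 _ fun e => ?_)) h4
  have := (mul_mem_iff_of_index_two h1).2 (iff_of_false (fun e => hab (k a e ha b hb).1) fun e => hab (k b e hb a ha).2)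
  have := (Subgroup.mul_mem_cancel_left _ this).1 e
  exact h3.elim (fun h => h (k c this hc a ha).2) fun h => h (k c this hc b hb).2

section
variable {F : Type*} [Field F] {V : Type*} [AddCommGroup V] [Module F V] {Q : QuadraticForm F V} {Y : Subgroup (V ≃ₗ[F] V)}
  {u f w : V}

/-- a one-parameter group of unipotent matrices -/
theorem ei_fam (h : H3 Q u f w) {a b c : F} (h2 : a * a + b * c = 0) (h3 : b ≠ 0 ∨ c ≠ 0) : ∃ u₀ w₀, u₀ ≠ 0 ∧ Q w₀ ≠ 0 ∧
    ∀ (s : F) (M : GL (Fin 2) F), ∀ y ∈ Y, Rel3 Q u f w M y 1 → M.1 = 1 + s • !![a, b; c, -a] → Ei Q Y u₀ (s • w₀) := by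
  have hw := h.qw
  have h0 := h.two
  obtain ⟨W, W1, W2, W3, W4⟩ : ∃ W : Matrix (Fin 2) (Fin 2) F, W 1 1 = -W 0 0 ∧
      W 0 0 * W 0 0 + W 0 1 * W 1 0 = Q w * Q w ∧ 2 * a * W 0 0 + b * W 1 0 + c * W 0 1 = 0 ∧
      ∀ (s : F) (T : Matrix (Fin 2) (Fin 2) F), T 1 1 = -T 0 0 →
        (1 + s • !![a, b; c, -a]) * T * (1 - s • !![a, b; c, -a]) = T +
          (s * ((2 * W 0 0 * T 0 0 + W 0 1 * T 1 0 + W 1 0 * T 0 1) / Q w)) • !![a, b; c, -a] -
          (s * ((2 * a * T 0 0 + b * T 1 0 + c * T 0 1) / Q w)) • W -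
          (s * s * (2 * a * T 0 0 + b * T 1 0 + c * T 0 1)) • !![a, b; c, -a] := by
    rcases h3 with hb | hc
    · obtain rfl : c = -(a * a) / b := by field_simp; linear_combination h2
      refine ⟨!![-Q w, 0; 2 * a * Q w / b, Q w], by simp, by simp, by simp; field_simp; ring, fun s T hT => ?_⟩
      ext i j
      fin_cases i <;> fin_cases j <;>
        simp [Matrix.mul_apply, Fin.sum_univ_two, Matrix.vecMul, dotProduct, hT] <;> field_simp <;> ring
    · obtain rfl : b = -(a * a) / c := by field_simp; linear_combination h2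
      refine ⟨!![Q w, -2 * a * Q w / c; 0, -Q w], by simp, by simp, by simp; field_simp; ring, fun s T hT => ?_⟩
      ext i j
      fin_cases i <;> fin_cases j <;>
        simp [Matrix.mul_apply, Fin.sum_univ_two, Matrix.vecMul, dotProduct, hT] <;> field_simp <;> ring
  have q1 : Q (th Q u f w !![a, b; c, -a]) = 0 := mul_left_cancel₀ hw ((h.Q_th _).trans (by simpa using h2))
  have q2 : Q (th Q u f w W) = Q w := mul_left_cancel₀ hw ((h.Q_th _).trans W2)
  have q3 : ∀ x, polar Q (th Q u f w !![a, b; c, -a]) x = (2 * a * ph Q u f w x 0 0 +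
      b * ph Q u f w x 1 0 + c * ph Q u f w x 0 1) / Q w := fun x => by
    rw [eq_div_iff hw, mul_comm, h.polar_th]; simp
  have q4 : ∀ s : F, polar Q (th Q u f w !![a, b; c, -a]) (s • th Q u f w W) = 0 := fun s => by
    rw [polar_smul_right, q3, h.ph_th W1, W3, zero_div, smul_zero]
  refine ⟨_, _, fun e => ?_, q2.trans_ne hw, fun s M y hy h1 eM => ⟨q1, q4 s, ?_⟩⟩
  · have := h.ph_th (T := !![a, b; c, -a]) (by simp)
    rw [e, map_zero] at this
    exact h3.elim (fun hb => hb (congrFun₂ this 0 1).symm) fun hc => hc (congrFun₂ this 1 0).symm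
  have eI : (M⁻¹).1 = 1 - s • !![a, b; c, -a] := by
    refine Units.inv_eq_of_mul_eq_one_right ?_
    rw [eM]
    ext i j
    fin_cases i <;> fin_cases j <;> simp [Matrix.mul_apply, Fin.sum_univ_two]
    · linear_combination -s * s * h2
    · ring
    · ring
    · linear_combination -s * s * h2
  convert hy using 1
  ext x
  rw [eich_apply q1 (q4 s), h1, eM, eI, W4 _ _ (ph_tr x), Q_smul, polar_smul_left, q2, q3,
    (eq_div_iff hw).2 ((mul_comm _ _).trans (h.polar_th W x)), mul_assoc (s * s), mul_div_cancel₀ _ hw]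
  simp only [map_add, map_sub, map_smul, smul_eq_mul]
  module

/-- a frame of a non-degenerate three-space -/
theorem ex_h3 [Fintype F] [FiniteDimensional F V] (hQ : QNondeg Q) (h2 : (2 : F) ≠ 0) {S : Submodule F V}
    (hS : (CForm.ofQuad Q).NondegOn S) (h3 : finrank F S = 3) :
    ∃ u f w, H3 Q u f w ∧ ∀ x ∈ S, th Q u f w (ph Q u f w x) = x := by
  obtain ⟨u, hu, u0, u1⟩ := iso3_quad Q S h3.ge
  obtain ⟨f, hf, k⟩ := exists_hypPair_sub hQ hS hu u0 u1
  obtain ⟨w, hw, w0, w1, w2, -⟩ := exists_ns_perp_hyp hQ hS h3.ge hu hf k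
  have h : H3 Q u f w := ⟨h2, u1, k.right, k.pair, w1, w2, w0⟩
  refine ⟨u, f, w, h, fun x hx => ?_⟩
  obtain ⟨h4, h5⟩ := nondegOn_pair_of_det (Q := Q) (u := u) (w := f) (by simp [h.qu, h.uf])
  have h6 := finrank_sup_of_perp h4 ((Submodule.span_singleton_le_iff_mem _ _).2
    ((CForm.ofQuad Q).mem_perp_pair.2 ⟨w1, w2⟩))
  rw [h5, finrank_span_singleton (by rintro rfl; exact w0 (map_zero Q))] at h6
  rw [← Submodule.eq_of_le_of_finrank_eq (sup_le (Submodule.span_le.2 (by rintro _ (rfl | rfl); exacts [hu, hf]))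
    ((Submodule.span_singleton_le_iff_mem _ _).2 hw)) (h6.trans h3.symm)] at hx
  obtain ⟨s, hs, t, ht, rfl⟩ := Submodule.mem_sup.1 hx
  obtain ⟨α, β, rfl⟩ := Submodule.mem_span_pair.1 hs
  obtain ⟨γ, rfl⟩ := Submodule.mem_span_singleton.1 ht
  have : α • u + β • f + γ • w = th Q u f w !![γ * Q w, α; β * Q w, -(γ * Q w)] := by simp [th_apply, w0]
  rw [this, h.ph_th (by simp)]
end

theorem t3 : T3.{u} := by
  intro F _ _ Y δ R h nb x hx y hy z hz g0 xy xz
  have hQ := Q_nd h.two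
  have δ0 := h.ne
  have t2 := h.two
  have pol : ∀ a b, polar (Q F) a b = xx δ a b * δ := fun a b => (div_mul_cancel₀ _ δ0).symm
  have key : ∀ α β γ : F, (∀ v ∈ ({x, y, z} : Set (V F)), polar (Q F) (α • x + β • y + γ • z) v = 0) →
      α = 0 ∧ β = 0 ∧ γ = 0 := fun α β γ k => by
    have k1 := k x (by simp)
    have k2 := k y (by simp)
    have k3 := k z (by simp)
    simp only [polar_add_left, polar_smul_left, polar_self', polar_comm _ y x, polar_comm _ z x, polar_comm _ z y,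
      h.norm x hx, h.norm y hy, h.norm z hz, smul_eq_mul] at k1 k2 k3
    rw [pol x y, pol x z] at k1
    rw [pol x y, pol y z] at k2
    rw [pol x z, pol y z] at k3
    have := mul_ne_zero (mul_ne_zero t2 δ0) g0
    simp only [gram] at this
    generalize xx δ x y = a, xx δ x z = b, xx δ y z = c at *
    exact ⟨mul_left_cancel₀ this (by linear_combination (4 - c ^ 2) * k1 + (b * c - 2 * a) * k2 + (a * c - 2 * b) * k3),
      mul_left_cancel₀ this (by linear_combination (b * c - 2 * a) * k1 + (4 - b ^ 2) * k2 + (a * b - 2 * c) * k3),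
      mul_left_cancel₀ this (by linear_combination (a * c - 2 * b) * k1 + (a * b - 2 * c) * k2 + (4 - a ^ 2) * k3)⟩
  obtain ⟨u, f, w, k, hk⟩ := ex_h3 hQ t2 (S := Submodule.span F {x, y, z}) (fun v hv k => by
    obtain ⟨α, β, γ, rfl⟩ := Submodule.mem_span_triple.1 hv
    obtain ⟨rfl, rfl, rfl⟩ := key α β γ fun v hv => k v (Submodule.subset_span hv)
    simp) (by
    have := finrank_span_eq_card (b := ![x, y, z]) (Fintype.linearIndependent_iff.2 fun g e => by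
      rw [Fin.sum_univ_three] at e
      have := key (g 0) (g 1) (g 2) fun v _ => by rw [show g 0 • x + g 1 • y + g 2 • z = 0 from e, polar_zero_left]
      intro i; fin_cases i; exacts [this.1, this.2.1, this.2.2])
    rwa [Matrix.range_cons, Matrix.range_cons, Matrix.range_cons_empty] at this)
  have w0 := k.qw
  obtain ⟨A, A1, A2, A3, A4, A5⟩ := lift (Y := Y) k (hk x (Submodule.subset_span (by simp))) (rt_q0 h hx)
  obtain ⟨B, B1, B2, B3, B4, B5⟩ := lift (Y := Y) k (hk y (Submodule.subset_span (by simp))) (rt_q0 h hy)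
  obtain ⟨C, C1, C2, C3, C4, C5⟩ := lift (Y := Y) k (hk z (Submodule.subset_span (by simp))) (rt_q0 h hz)
  rw [h.norm x hx] at A3
  rw [h.norm y hy] at B3
  rw [h.norm z hz] at C3
  have ab : tc (A * B) ^ 2 = xx δ x y ^ 2 * dt (A * B) := by rw [dt_mul, A3, B3, A5 y B B1, pol]; ring
  have ac : tc (A * C) ^ 2 = xx δ x z ^ 2 * dt (A * C) := by rw [dt_mul, A3, C3, A5 z C C1, pol]; ring
  have bc : tc (B * C) ^ 2 = xx δ y z ^ 2 * dt (B * C) := by rw [dt_mul, B3, C3, B5 z C C1, pol]; ring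
  have abc : tc (A * B * C) ^ 2 = gram δ x y z * dt (A * B * C) := by
    have : tc (A * B * C) ^ 2 = 4 * dt A * dt B * dt C - dt A * tc (B * C) ^ 2 - dt B * tc (A * C) ^ 2 -
        dt C * tc (A * B) ^ 2 - tc (A * B) * tc (A * C) * tc (B * C) := by
      simp only [tc, dt, gl_mul_apply] at A2 B2 C2 ⊢
      rw [eq_neg_of_add_eq_zero_right A2, eq_neg_of_add_eq_zero_right B2, eq_neg_of_add_eq_zero_right C2]
      ring
    rw [this, dt_mul, dt_mul, A3, B3, C3, A5 y B B1, A5 z C C1, B5 z C C1, pol, pol, pol, gram]; ring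
  have t0 : tc (A * B * C) ≠ 0 := fun e => mul_ne_zero g0 (dt_ne _) (by rw [← abc, e]; simp)
  have sc : ∀ M N : GL (Fin 2) F, (pgm M : PG F) = 1 → tc N = 0 → tc (M * N) = 0 := fun M N e e' => by
    rw [pg_mk_eq_one_iff] at e
    simp only [tc, gl_mul_apply, e.1, e.2.1, e.2.2] at e' ⊢
    linear_combination M 1 1 * e'
  have sq : ∀ X : GL (Fin 2) F, tc X = 0 → (pgm X : PG F) * pgm X = 1 := fun X hX => by
    rw [← map_mul, pg_mk_eq_one_iff]
    simp only [tc, gl_mul_apply] at hX ⊢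
    exact ⟨by linear_combination X 0 1 * hX, by linear_combination X 1 0 * hX, by linear_combination (X 0 0 - X 1 1) * hX⟩
  have oab := pg_ord (fun e => t0 (sc _ _ e C2)) ab
  have obc := pg_ord (fun e => t0 (by rw [mul_assoc, tc_comm]; exact sc _ _ e A2)) bc
  have oac := pg_ord (fun e => t0 (by
    rw [tc_comm, ← mul_assoc]
    refine sc _ _ ?_ B2
    rw [map_mul] at e ⊢
    exact mul_eq_one_comm.1 e)) ac
  have oabc := pg_ord (g := A * B * C) (fun e => mul_ne_zero (pow_ne_zero 2 xy) (dt_ne (A * B)) (by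
    rw [map_mul] at e
    obtain ⟨s, -, e⟩ := (pg_mk_eq_mk_iff C (A * B)).1 ((eq_inv_of_mul_eq_one_left (sq C C2)).trans
      (eq_inv_of_mul_eq_one_left e).symm)
    rw [← ab, tc, e, e, ← mul_add, show C 0 0 + C 1 1 = 0 from C2]; simp)) abc
  simp only [map_mul] at oab obc oac oabc
  obtain ⟨p, hp⟩ := CharP.exists F
  have hp' : Fact p.Prime := ⟨CharP.char_is_prime F p⟩
  have p2 : p ≠ 2 := by rintro rfl; exact t2 (CharP.cast_eq_zero F 2)
  have mA : pgm A ∈ (HG Y k).map pgm := ⟨_, A4 (h.rf x hx), rfl⟩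
  have mB : pgm B ∈ (HG Y k).map pgm := ⟨_, B4 (h.rf y hy), rfl⟩
  have mC : pgm C ∈ (HG Y k).map pgm := ⟨_, C4 (h.rf z hz), rfl⟩
  have main : Tq ((HG Y k).map pgm) → ¬ p ∣ Nat.card ((HG Y k).map pgm) ∨ p = 3 →
      (xx δ x y ^ 2 = 2 ∨ Od (xx δ x y ^ 2)) ∧ ¬ (xx δ x y ^ 2 = 2 ∧ Od (xx δ x z ^ 2) ∧ Od (xx δ y z ^ 2)) ∧
      (Pent (xx δ x y ^ 2) → ∃ a ∈ R, a ∈ Submodule.span F {x, y} ∧ xx δ a z = 0) := fun q hd => by
    have := q ⟨_, mA⟩ ⟨_, mB⟩ ⟨_, mC⟩ (Subtype.ext (sq A A2)) (Subtype.ext (sq B B2)) (Subtype.ext (sq C C2))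
    simp only [ne_eq, Subtype.ext_iff, Subgroup.coe_mul, Subgroup.coe_one, Subgroup.coe_pow, Subgroup.coe_inv, oab, obc,
      oac, oabc, pow_eq_zero_iff two_ne_zero, xy, false_or] at this
    obtain ⟨k1, k2, k3⟩ := this not_false xz g0
    refine ⟨?_, fun e => k2 ⟨e.1, e.2.1.imp_right And.left, e.2.2.imp_right And.left⟩, fun e => ?_⟩
    · rcases k1 with e | e | e
      · exact .inr (.inl e)
      · exact .inl e
      refine .inr (.inr ⟨e, fun e5 => ?_⟩)
      obtain rfl : p = 5 := (Nat.prime_dvd_prime_iff_eq hp'.out (by norm_num)).1 ((CharP.cast_eq_zero_iff F p 5).1 e5)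
      have : orderOf (⟨_, mul_mem mA mB⟩ : (HG Y k).map pgm) = 5 := orderOf_eq_prime (Subtype.ext (oab.2.2.2.2 e))
        fun e => xy ((pow_eq_zero_iff two_ne_zero).1 (oab.1.1 (by rw [show pgm A * pgm B = 1 from congrArg Subtype.val e, one_pow])))
      have := this ▸ orderOf_dvd_natCard (⟨_, mul_mem mA mB⟩ : (HG Y k).map pgm)
      omega
    obtain ⟨j, j1, j2⟩ := k3 e.1
    have r : ∀ n : ℕ, Rel3 (Q F) u f w ((A * B) ^ n) (((refl (Q F) x).1 * (refl (Q F) y).1) ^ n) 1 ∧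
        (((refl (Q F) x).1 * (refl (Q F) y).1) ^ n) x ∈ Submodule.span F {x, y} := fun n => by
      induction n with
      | zero => exact ⟨fun x => by simp, Submodule.subset_span (.inl rfl)⟩
      | succ n ih =>
        rw [pow_succ', pow_succ']
        refine ⟨by simpa using k.rel_mul (k.rel_mul (k.rel_refl (hk x (Submodule.subset_span (by simp))) (rt_q0 h hx) A1)
          (k.rel_refl (hk y (Submodule.subset_span (by simp))) (rt_q0 h hy) B1)) ih.1, ?_⟩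
        rw [LinearEquiv.mul_apply, LinearEquiv.mul_apply, refl_apply, refl_apply y]
        exact sub_mem (sub_mem ih.2 (Submodule.smul_mem _ _ (Submodule.subset_span (.inr rfl))))
          (Submodule.smul_mem _ _ (Submodule.subset_span (.inl rfl)))
    refine ⟨_, h.inv _ (pow_mem (mul_mem (h.rf x hx) (h.rf y hy)) j) x hx, (r j).2, ?_⟩
    have e1 := C5 ((((refl (Q F) x).1 * (refl (Q F) y).1) ^ j.1) x) ((A * B) ^ j.1 * A * ((A * B) ^ j.1)⁻¹) (by
      rw [(r j).1, hk x (Submodule.subset_span (by simp)), sub_self, zero_add, one_smul, ← A1, k.ph_th]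
      · rfl
      exact eq_neg_of_add_eq_zero_right ((tc_conj _ _).trans A2))
    simp only [← map_mul, ← map_pow, ← map_inv] at j1 j2
    rw [map_pow, (pg_ord j1 (div_mul_cancel₀ _ (dt_ne _)).symm).1, div_eq_zero_iff, or_iff_left (dt_ne _),
      pow_eq_zero_iff two_ne_zero, e1, mul_eq_zero, or_iff_right w0] at j2
    rw [xx, polar_comm, j2, zero_div]
  rcases dickson_hom p ((HG Y k).map pgm).subtype (subtype_injective _) with ⟨k1, -⟩ | ⟨-, o, k1⟩ | ⟨o, -, k1, k2⟩ |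
    ⟨k1, ⟨⟨e⟩⟩ | ⟨⟨e⟩⟩ | ⟨⟨e⟩⟩⟩ | ⟨k1, ⟨e⟩⟩ | ⟨g, F₀, k0, k3, k1, k2⟩
  · exact absurd (oab.1.1 (sq_comm (sq A A2) (sq B B2) (congrArg Subtype.val
      (k1.commutative.is_comm.comm ⟨_, mA⟩ ⟨_, mB⟩)))) (pow_ne_zero 2 xy)
  · refine absurd ?_ t0
    have a1 := k1 ⟨_, mA⟩
    have a2 := k1 ⟨_, mB⟩
    have a3 := k1 ⟨_, mC⟩
    simp only [tc, gl_mul_apply] at A2 B2 C2 ⊢
    rw [eq_neg_of_add_eq_zero_right A2, eq_neg_of_add_eq_zero_right B2, eq_neg_of_add_eq_zero_right C2]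
    rcases inf_or_aff o with rfl | ⟨t, rfl⟩
    · rw [(smul_inf_eq_inf _).1 a1, (smul_inf_eq_inf _).1 a2, (smul_inf_eq_inf _).1 a3]; ring
    · rw [eq_sub_of_add_eq' ((smul_aff_eq_aff _ _ _).1 a1), eq_sub_of_add_eq' ((smul_aff_eq_aff _ _ _).1 a2),
        eq_sub_of_add_eq' ((smul_aff_eq_aff _ _ _).1 a3), eq_neg_of_add_eq_zero_right A2, eq_neg_of_add_eq_zero_right B2,
        eq_neg_of_add_eq_zero_right C2]
      ring
  · refine ((tq_dih' k1 k2) ⟨_, mA⟩ ⟨_, mB⟩ ⟨_, mC⟩ (Subtype.ext (sq A A2)) (Subtype.ext (sq B B2)) (Subtype.ext (sq C C2))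
      ?_ ?_ ?_).elim <;>
    simp only [ne_eq, Subtype.ext_iff, Subgroup.coe_mul, Subgroup.coe_one, Subgroup.coe_pow, oab, obc,
      oac, oabc, pow_eq_zero_iff two_ne_zero]
    exacts [xy, xz, g0]
  · exact main (tq_s4.of_hom ((alternatingGroup (Fin 4)).subtype.comp e.toMonoidHom)
      (Subtype.val_injective.comp e.injective)) (.inl k1)
  · exact main (tq_s4.of_hom e.toMonoidHom e.injective) (.inl k1)
  · exact main (tq_a5.of_hom e.toMonoidHom e.injective) (.inl k1)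
  · exact main (tq_a5.of_hom e.toMonoidHom e.injective) (.inr k1)
  by_cases h5 : 5 ≤ Nat.card F₀
  · obtain ⟨g, rfl⟩ := Matrix.ProjGenLinGroup.mk_surjective g
    obtain ⟨N, hN⟩ : ∃ N, N = g.1 * !![0, 1; 0, 0] * (g⁻¹).1 := ⟨_, rfl⟩
    have n1 : N 1 1 = -N 0 0 := by
      have := Matrix.trace_units_conj g !![0, 1; 0, 0]
      rw [← hN, Matrix.trace_fin_two, Matrix.trace_fin_two] at this
      simpa using eq_neg_of_add_eq_zero_right (this.trans (by simp))
    have n2 : N 0 0 * N 0 0 + N 0 1 * N 1 0 = 0 := by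
      have := Matrix.det_units_conj g !![0, 1; 0, 0]
      rw [← hN, Matrix.det_fin_two, Matrix.det_fin_two, n1] at this
      simp at this
      linear_combination -this
    have n3 : N = !![N 0 0, N 0 1; N 1 0, -N 0 0] := by rw [← n1]; exact Matrix.eta_fin_two N
    obtain ⟨u₀, w₀, u0, w1, e⟩ := ei_fam (Y := Y) k n2 (by
      by_contra! c
      rw [c.1, zero_mul, add_zero, mul_self_eq_zero] at n2
      rw [c.1, c.2, n2, neg_zero, show (!![0, 0; 0, 0] : Matrix (Fin 2) (Fin 2) F) = 0 by ext i j; fin_cases i <;> fin_cases j <;> rfl,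
        hN, Units.mul_left_eq_zero, Units.mul_right_eq_zero] at n3
      simpa using congrFun₂ n3 0 1)
    classical
    refine absurd ⟨u₀, w₀, Finset.univ.filter (· ∈ F₀), u0, w1, by
      rwa [← Fintype.card_subtype, ← Nat.card_eq_fintype_card], fun s hs => ?_⟩ nb
    obtain ⟨v, hv⟩ := k1 (pgm (upT s)) (mem_pslOf_iff.2 ⟨_, rfl, fun i j => by
      fin_cases i <;> fin_cases j
      exacts [one_mem _, (Finset.mem_filter.1 hs).2, zero_mem _, one_mem _], by simp [upT]⟩)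
    obtain ⟨y, hy, r⟩ := hg_odd k (hg_of_pg k (M := g * upT s * g⁻¹) (by
      rw [map_mul, map_mul, map_inv]; exact (show v.1 = _ from hv) ▸ v.2)) (hp'.out.odd_of_ne_two p2) (by
      have : ∀ n : ℕ, upT s ^ n = upT (n * s) := fun n => by
        induction n with
        | zero => simp [upT_zero]
        | succ n ih => rw [pow_succ, ih, ← upT_add]; congr 1; push_cast; ring
      rw [conj_pow, this, CharP.cast_eq_zero, zero_mul, upT_zero, mul_one, mul_inv_cancel])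
    refine e s _ y hy r ?_
    have : (upT s).1 = 1 + s • !![0, 1; 0, 0] := by ext i j; fin_cases i <;> fin_cases j <;> simp [upT]
    rw [← n3, hN, Units.val_mul, Units.val_mul, this, mul_add, add_mul, mul_one, Units.mul_inv, Matrix.mul_smul,
      Matrix.smul_mul]
  have c3 : Nat.card F₀ = 3 := by
    obtain ⟨m, hm⟩ := (hp'.out.odd_of_ne_two p2).pow (n := (Nat.card ((HG Y k).map pgm)).factorization p)
    omega
  have := Fintype.ofFinite F₀
  rw [Nat.card_eq_fintype_card] at c3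
  have e3 : ∀ a ∈ F₀, a ^ 3 = a := fun a ha => by
    simpa [c3] using congrArg Subtype.val (FiniteField.pow_card (⟨a, ha⟩ : F₀))
  have t3 : (3 : F) = 0 := by
    have := congrArg F₀.subtype (FiniteField.cast_card_eq_zero F₀)
    rwa [c3, map_natCast, map_zero, Nat.cast_ofNat] at this
  have np : ∀ a ∈ F₀, ¬ Pent a := fun a ha e => by
    have a0 : a = 0 := mul_left_cancel₀ t2 (by linear_combination a * e.1 - e3 a ha + a ^ 2 * t3)
    exact one_ne_zero (α := F) (by linear_combination e.1 - (a - 3) * a0)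
  have m1 := tr_mem (k2 ⟨_, mul_mem mA mB⟩) ab
  have m2 := tr_mem (k2 ⟨_, mul_mem mA mC⟩) ac
  have m3 := tr_mem (k2 ⟨_, mul_mem mB mC⟩) bc
  have m4 := tr_mem (k2 ⟨_, ⟨_, mul_mem (mul_mem (A4 (h.rf x hx)) (B4 (h.rf y hy))) (C4 (h.rf z hz)), rfl⟩⟩) abc
  refine ⟨?_, fun e => ?_, fun e => absurd e (np _ m1)⟩
  · have : (xx δ x y ^ 2 - 2) * (xx δ x y ^ 2 - 1) = 0 := mul_left_cancel₀ (pow_ne_zero 2 xy) (by
      linear_combination e3 _ m1 + (xx δ x y ^ 2 - xx δ x y ^ 4) * t3)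
    exact (mul_eq_zero.1 this).imp sub_eq_zero.1 fun e => .inl (sub_eq_zero.1 e)
  have e1 := e.1
  have e2 := e.2.1.resolve_right (np _ m2)
  have e4 := e.2.2.resolve_right (np _ m3)
  have e5 : gram δ x y z = xx δ x y * xx δ x z * xx δ y z := by rw [gram, e1, e2, e4]; ring
  have e6 : gram δ x y z ^ 2 = 2 := by rw [e5, mul_pow, mul_pow, e1, e2, e4]; ring
  exact g0 (by linear_combination e3 _ m4 - gram δ x y z * e6)

end H12.O7
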