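import Cfsg.Agent.H12.RQ1
import Cfsg.Agent.H27.Quat

/-!
# Three reflections: a consequence of Dickson's theorem
-/

set_option autoImplicit false
set_option maxHeartbeats 400000

namespace H12

open Module H11 QuadraticMap H27

section Grp

/-- Two commuting involutions and a third involution. -/
def Tri (H : Type*) [Group H] : Prop :=
  ∀ a b c : H, a * a = 1 → b * b = 1 → c * c = 1 → a * b = b * a → a * c ≠ c * a →
    b * c ≠ c * b → a * b * c ≠ c * (a * b) →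
    (a * c) ^ 3 = 1 ∨ (b * c) ^ 3 = 1 ∨ (a * b * c) ^ 3 = 1

theorem Tri.of_hom {H K : Type*} [Group H] [Group K] (h : Tri K) (f : H →* K)
    (hf : Function.Injective f) : Tri H := by
  intro a b c h1 h2 h3 h4 h5 h6 h7
  simp only [← hf.eq_iff, ne_eq, map_mul, map_pow, map_one] at *
  exact h _ _ _ h1 h2 h3 h4 h5 h6 h7

set_option maxRecDepth 100000 in
theorem tri_s4 : Tri (Equiv.Perm (Fin 4)) := by
  have : ∀ a : Equiv.Perm (Fin 4), a * a = 1 → ∀ b : Equiv.Perm (Fin 4), b * b = 1 →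
    a * b = b * a → ∀ c : Equiv.Perm (Fin 4), c * c = 1 → a * c ≠ c * a → b * c ≠ c * b →
    a * b * c ≠ c * (a * b) → (a * c) ^ 3 = 1 ∨ (b * c) ^ 3 = 1 ∨ (a * b * c) ^ 3 = 1 := by
    decide +kernel
  exact fun a b c h1 h2 h3 h4 => this a h1 b h2 h4 c h3

set_option maxRecDepth 100000 in
set_option synthInstance.maxSize 1000 in
theorem tri_a5 : Tri (alternatingGroup (Fin 5)) := by
  have : ∀ a : Equiv.Perm (Fin 5), a * a = 1 → Equiv.Perm.sign a = 1 → a ≠ 1 →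
    ∀ b : Equiv.Perm (Fin 5), b * b = 1 → a * b = b * a → b ≠ 1 → Equiv.Perm.sign b = 1 →
    ∀ c : Equiv.Perm (Fin 5), c * c = 1 → Equiv.Perm.sign c = 1 → a * c ≠ c * a → b * c ≠ c * b →
    a * b * c ≠ c * (a * b) → (a * c) ^ 3 = 1 ∨ (b * c) ^ 3 = 1 ∨ (a * b * c) ^ 3 = 1 := by
    decide +kernel
  rintro ⟨a, ha⟩ ⟨b, hb⟩ ⟨c, hc⟩ h1 h2 h3 h4 h5 h6 h7
  simp only [ne_eq, Subtype.ext_iff, Subgroup.coe_mul, Subgroup.coe_one, Subgroup.coe_pow] at *
  exact this a h1 ha (by rintro rfl; simp at h5) b h2 h4 (by rintro rfl; simp at h6) hb c h3 hc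
    h5 h6 h7

theorem tri_of_dihedral {H : Type*} [Group H] {z : H} (h1 : (Subgroup.zpowers z).index = 2)
    (h2 : ∀ g, g ∉ Subgroup.zpowers z → g * g = 1) : Tri H := by
  intro a b c ha hb hc hab h3 h4 h5
  have k : ∀ e ∈ Subgroup.zpowers z, e * e = 1 → e * c = c * e := by
    intro e he h
    by_cases h6 : c ∈ Subgroup.zpowers z
    · obtain ⟨m, rfl⟩ := he
      obtain ⟨n, rfl⟩ := h6
      exact zpow_mul_comm z m n
    · have := h2 (e * c) fun h7 => h6 ((Subgroup.mul_mem_cancel_left _ he).1 h7)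
      calc e * c = (e * c)⁻¹ := (inv_eq_of_mul_eq_one_left this).symm
        _ = c * e := by
          rw [mul_inv_rev, inv_eq_of_mul_eq_one_left h, inv_eq_of_mul_eq_one_left hc]
  exfalso
  by_cases h6 : a ∈ Subgroup.zpowers z
  · exact h3 (k a h6 ha)
  by_cases h7 : b ∈ Subgroup.zpowers z
  · exact h4 (k b h7 hb)
  exact h5 (k _ ((Subgroup.mul_mem_iff_of_index_two h1).2 (iff_of_false h6 h7))
    (by rw [mul_assoc, ← mul_assoc b, ← hab, mul_assoc, hb, mul_one, ha]))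

variable {F : Type*} [Field F]

theorem tri_of_not_dvd [Fintype F] (p : ℕ) [hp : Fact p.Prime] [CharP F p] (S : Subgroup (PG F))
    (h : ¬ p ∣ Nat.card S) : Tri S := by
  rcases dickson_hom p S.subtype S.subtype_injective with ⟨h1, -⟩ | ⟨h1, -⟩ | ⟨c, -, h1, h2⟩ |
    ⟨-, ⟨⟨e⟩⟩ | ⟨⟨e⟩⟩ | ⟨⟨e⟩⟩⟩ | ⟨-, ⟨e⟩⟩ | ⟨c, F₀, h1, h2, -⟩
  · intro a b c _ _ _ _ h3
    exact absurd (h1.commutative.is_comm.comm a c) h3
  · exact absurd h1 h
  · exact tri_of_dihedral h1 h2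
  · exact tri_s4.of_hom ((alternatingGroup (Fin 4)).subtype.comp e.toMonoidHom)
      (Subtype.val_injective.comp e.injective)
  · exact tri_s4.of_hom e.toMonoidHom e.injective
  · exact tri_a5.of_hom e.toMonoidHom e.injective
  · exact tri_a5.of_hom e.toMonoidHom e.injective
  · rw [Nat.factorization_eq_zero_of_not_dvd h, pow_zero] at h2
    omega

theorem tc_sq_of_pow_three {g : GL (Fin 2) F} (h : (pgm g : PG F) ^ 3 = 1)
    (h1 : (pgm g : PG F) ≠ 1) : tc g ^ 2 = dt g := by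
  rw [← map_pow, pow_three, pg_mk_eq_one_iff] at h
  by_contra h2
  replace h2 := sub_ne_zero.2 h2
  simp only [gl_mul_apply, tc, dt] at h h2
  refine h1 ((pg_mk_eq_one_iff g).2 ⟨mul_left_cancel₀ h2 ?_, mul_left_cancel₀ h2 ?_,
    mul_left_cancel₀ h2 ?_⟩)
  · linear_combination h.1
  · linear_combination h.2.1
  · linear_combination h.2.2

theorem not_comm_of_tc (h2 : (2 : F) ≠ 0) {X Y Z : GL (Fin 2) F} (hX : tc X = 0) (hY : tc Y = 0)
    (h1 : tc (X * Y) ≠ 0) (h3 : tc (Z * X) = 0) (h4 : tc (Z * Y) ≠ 0) :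
    (pgm X : PG F) * pgm Y ≠ pgm Y * pgm X := by
  intro h
  have hd := gl_det_ne X
  simp only [tc, gl_mul_apply] at *
  have e1 : X 1 1 = -X 0 0 := by linear_combination hX
  have e2 : Y 1 1 = -Y 0 0 := by linear_combination hY
  rcases comm_sign h with h | h <;> simp only [Fin.forall_fin_two, gl_mul_apply, e1, e2] at h <;>
    rw [e1] at hd h1 h3 <;> rw [e2] at h1 h4
  · obtain ⟨⟨a1, a2⟩, a3, -⟩ := h
    have b2 : X 0 0 * Y 0 1 = X 0 1 * Y 0 0 := mul_left_cancel₀ h2 (by linear_combination -a2)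
    have b3 : X 0 0 * Y 1 0 = X 1 0 * Y 0 0 := mul_left_cancel₀ h2 (by linear_combination a3)
    refine mul_ne_zero (mul_ne_zero h2 hd) h4 ?_
    linear_combination (-(2 * X 0 0 * Y 0 0 + X 0 1 * Y 1 0 + X 1 0 * Y 0 1)) * h3 +
      ((Z 0 0 - Z 1 1) * X 1 0 - 2 * Z 1 0 * X 0 0) * b2 +
      ((Z 0 0 - Z 1 1) * X 0 1 - 2 * Z 0 1 * X 0 0) * b3 - (Z 1 0 * X 0 1 - Z 0 1 * X 1 0) * a1
  · exact h1 (by linear_combination h.1.1)

theorem pg_tri [Fintype F] (h2 : (2 : F) ≠ 0) (p : ℕ) [hp : Fact p.Prime] [CharP F p]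
    {S : Subgroup (PG F)} (h : ¬ p ∣ Nat.card S) {X Y Z : GL (Fin 2) F} (hX : tc X = 0)
    (hY : tc Y = 0) (hZ : tc Z = 0) (mX : pgm X ∈ S) (mY : pgm Y ∈ S) (mZ : pgm Z ∈ S)
    (h1 : tc (X * Y) = 0) (h3 : tc (X * Z) ≠ 0) (h4 : tc (Y * Z) ≠ 0) (h5 : tc (X * Y * Z) ≠ 0) :
    tc (X * Z) ^ 2 = dt (X * Z) ∨ tc (Y * Z) ^ 2 = dt (Y * Z) ∨
      tc (X * Y * Z) ^ 2 = dt (X * Y * Z) := by
  have sq : ∀ X : GL (Fin 2) F, tc X = 0 → (pgm X : PG F) * pgm X = 1 := fun X hX => by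
    rw [← map_mul, pg_mk_eq_one_iff]
    simp only [tc, gl_mul_apply] at hX ⊢
    exact ⟨by linear_combination X 0 1 * hX, by linear_combination X 1 0 * hX,
      by linear_combination (X 0 0 - X 1 1) * hX⟩
  have n1 := not_comm_of_tc h2 hX hZ h3 ((tc_comm _ _).trans h1) h4
  have n2 := not_comm_of_tc h2 hY hZ h4 h1 h3
  have n3 := not_comm_of_tc h2 h1 hZ h5 (Z := X) (by
    simp only [tc, gl_mul_apply] at hX hY ⊢
    linear_combination (X 0 0 * Y 0 0 + X 0 1 * Y 1 0 + X 1 0 * Y 0 1 + X 1 1 * Y 1 1) * hX -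
      (X 0 0 * X 1 1 - X 0 1 * X 1 0) * hY) h3
  have c : ∀ a b : PG F, a * a = 1 → b * b = 1 → a * b * (a * b) = 1 → a * b = b * a :=
    fun a b ha hb h => by
      calc a * b = (a * b)⁻¹ := (inv_eq_of_mul_eq_one_left h).symm
        _ = b * a := by
          rw [mul_inv_rev, inv_eq_of_mul_eq_one_left ha, inv_eq_of_mul_eq_one_left hb]
  have ne : ∀ a b : PG F, b * b = 1 → a * b ≠ b * a → a * b ≠ 1 := fun a b hb h e => h (by
    rw [eq_inv_of_mul_eq_one_left e, inv_eq_of_mul_eq_one_left hb])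
  have := tri_of_not_dvd p S h ⟨_, mX⟩ ⟨_, mY⟩ ⟨_, mZ⟩ (Subtype.ext (sq X hX))
    (Subtype.ext (sq Y hY)) (Subtype.ext (sq Z hZ))
    (Subtype.ext (c _ _ (sq X hX) (sq Y hY) (by simpa using sq _ h1)))
    (fun e => n1 (congrArg Subtype.val e)) (fun e => n2 (congrArg Subtype.val e))
    (fun e => n3 (by simpa using congrArg Subtype.val e))
  simp only [Subtype.ext_iff, Subgroup.coe_pow, Subgroup.coe_mul, Subgroup.coe_one,
    ← map_mul] at this
  exact this.imp (fun e => tc_sq_of_pow_three e (by simpa using ne _ _ (sq Z hZ) n1))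
    (Or.imp (fun e => tc_sq_of_pow_three e (by simpa using ne _ _ (sq Z hZ) n2))
      fun e => tc_sq_of_pow_three e (by simpa using ne _ _ (sq Z hZ) n3))

/-- Elements of order `p` are unipotent up to a scalar. -/
theorem exists_nilp [Fintype F] (p : ℕ) [hp : Fact p.Prime] [CharP F p] {M : GL (Fin 2) F}
    (h : (pgm M : PG F) ^ p = 1) (h1 : (pgm M : PG F) ≠ 1) :
    ∃ s a b c : F, s ≠ 0 ∧ a * a + b * c = 0 ∧ (b ≠ 0 ∨ c ≠ 0) ∧ M 0 0 = s * (1 + a) ∧
      M 0 1 = s * b ∧ M 1 0 = s * c ∧ M 1 1 = s * (1 - a) := by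
  rw [← map_pow, pg_mk_eq_one_iff] at h
  obtain ⟨s, hs⟩ := (surjective_frobenius F p) ((M ^ p) 0 0)
  rw [frobenius_def] at hs
  have h2 : ((M : Matrix (Fin 2) (Fin 2) F) - algebraMap F _ s) ^ p = 0 := by
    have : CharP (Matrix (Fin 2) (Fin 2) F) p := inferInstance
    rw [sub_pow_char_of_commute p (Algebra.commutes s _).symm, ← map_pow, hs, ← Units.val_pow_eq_pow_val]
    ext i j
    obtain ⟨e1, e2, e3⟩ := h
    generalize M ^ p = N at *
    fin_cases i <;> fin_cases j <;> simp [Matrix.algebraMap_matrix_apply, e1, e2, e3]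
  have h3 := (Matrix.isNilpotent_trace_of_isNilpotent ⟨p, h2⟩).eq_zero
  have h4 : ((M : Matrix (Fin 2) (Fin 2) F) - algebraMap F _ s).det = 0 :=
    pow_eq_zero_iff hp.out.ne_zero |>.1 (by rw [← Matrix.det_pow, h2, Matrix.det_zero])
  simp only [Matrix.trace_fin_two, Matrix.det_fin_two, Matrix.sub_apply,
    Matrix.algebraMap_matrix_apply] at h3 h4
  simp at h3 h4
  have hd := gl_det_ne M
  have hs0 : s ≠ 0 := by
    rintro rfl
    exact hd (by linear_combination h4)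
  refine ⟨s, M 0 0 / s - 1, M 0 1 / s, M 1 0 / s, hs0, ?_, ?_, ?_, ?_, ?_, ?_⟩
  · field_simp
    linear_combination (M 0 0 - s) * h3 - h4
  · by_contra h5
    simp only [not_or, not_not, div_eq_zero_iff, hs0, or_false] at h5
    refine h1 ((pg_mk_eq_one_iff M).2 ⟨h5.1, h5.2, ?_⟩)
    have : (M 0 0 - s) ^ 2 = 0 := by
      rw [h5.1] at h4
      linear_combination (M 0 0 - s) * h3 - h4
    linear_combination 2 * (pow_eq_zero_iff two_ne_zero).1 this - h3
  · field_simp; ring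
  · field_simp
  · field_simp
  · field_simp; linear_combination h3

end Grp

end H12
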