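import Cfsg.Agent.H12.OF9

/-!
# Maximality of the stabilisers of orthogonal frames in dimension six
-/

set_option autoImplicit false
set_option maxHeartbeats 400000

namespace H12

open Module H11 QuadraticMap Equiv

variable {F : Type*} [Field F] {V : Type*} [AddCommGroup V] [Module F V]
  {Q : QuadraticForm F V} {X : Subgroup (V ≃ₗ[F] V)} {κ : Type*} [DecidableEq κ] {e : κ → V}
  {δ : F} {g k : V ≃ₗ[F] V}

local notation "𝓒" => CForm.ofQuad Q
local notation "𝐜" => co Q e δ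
local notation "𝐌" => decStab (frD F e)

namespace OFrame

variable (h : OFrame Q e δ) {a b : κ} (hab : a ≠ b) {s : F} (hs : s * s = 1)
include h hab hs

omit [DecidableEq κ] in
theorem Q_ss : Q (e a - s • e b) = 2 * δ := by
  rw [H12.Q_sub, Q_smul, h.norm, h.norm, polar_smul_right, h.orth _ _ hab, hs]; simp; ring

theorem co_ss (x : V) : 𝐜 ((refl Q (e a - s • e b)).1 x) = ssw a b s (𝐜 x) := funext fun l => by
  rw [refl_apply, h.Q_ss hab hs, polar_sub_left, polar_smul_left, h.polar_e, h.polar_e, smul_eq_mul,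
    mul_left_comm s, ← mul_sub, inv_mul_cancel_left₀ h.ne2, map_sub, map_smul, map_sub, map_smul, h.co_e,
    h.co_e, ssw]
  split_ifs with e e'
  · subst e; simp [sE_ne hab]
  · subst e'; simp [sE_ne hab.symm]; linear_combination -𝐜 x l * hs
  · simp [sE_ne e, sE_ne e']

variable [Fintype κ] [FiniteDimensional F V]

theorem refl_ss_mem : (refl Q (e a - s • e b)).1 ∈ 𝐌 :=
  h.mem_dec fun j => ⟨swap a b j, _, h.eq_smul fun l hl => by
    simp only [h.co_ss hab hs, h.co_e, sE_apply, swap_apply_def, ssw] at hl ⊢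
    grind⟩

omit hab hs [DecidableEq κ] [Fintype κ] [FiniteDimensional F V] in
theorem co_inv (hg : g ∈ H12.orth Q) (i j : κ) : 𝐜 (g⁻¹ (e i)) j = 𝐜 (g (e j)) i := by
  rw [co_apply, ← show polar Q (g _) (g _) = _ from orth_polar ⟨g, hg⟩ _ _, apply_inv_apply,
    polar_comm]; rfl

end OFrame

namespace FrX

variable [Fintype κ] [FiniteDimensional F V] (h : FrX Q X e δ)
include h

omit [FiniteDimensional F V] in
theorem dot_e (hg : g ∈ X) (a b : κ) : 𝐜 (g (e a)) ⬝ᵥ 𝐜 (g (e b)) = if a = b then 1 else 0 := by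
  split_ifs with e
  · exact e ▸ h.dot_self ((orth_Q ⟨g, h.mem_orth hg⟩ _).trans (h.norm a))
  · exact mul_left_cancel₀ h.ne2 (by
      rw [← h.polar_eq, mul_zero]; exact (orth_polar ⟨g, h.mem_orth hg⟩ _ _).trans (h.orth _ _ e))

omit [FiniteDimensional F V] in
theorem zz_co (hg : g ∈ X) {a b σ : κ} (hab : a ≠ b) {l : κ} {c : F}
    (H : (g * zz Q e a b * g⁻¹) (e l) = c • e σ) (p : κ) :
    (if p = σ then c else 0) - (if p = l then 1 else 0) =
      -2 * (𝐜 (g (e a)) l * 𝐜 (g (e a)) p + 𝐜 (g (e b)) l * 𝐜 (g (e b)) p) := by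
  have hg' := h.mem_orth hg
  have n1 : ∀ b, Q (g (e b)) = δ := fun b => (orth_Q ⟨g, hg'⟩ _).trans (h.norm b)
  rw [← h.co_smul_e, ← H, show (g * zz Q e a b * g⁻¹) (e l) =
    (refl Q (g (e a))).1 ((refl Q (g (e b))).1 (e l)) by
      rw [zz, ← show _ = refl Q (g (e a)) from refl_conj ⟨g, hg'⟩ _,
        ← show _ = refl Q (g (e b)) from refl_conj ⟨g, hg'⟩ _]
      simp [inv_apply_apply], h.co_refl (n1 a), h.co_refl (n1 b), h.co_e]
  simp only [dotProduct_sub, dotProduct_smul, h.dot_e hg, if_neg hab, dot_sE, Pi.sub_apply, Pi.smul_apply,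
    smul_eq_mul, sE_apply]
  ring

variable [Fintype F] (hp : (Fintype.card F).Prime) (h6 : Fintype.card κ = 6) (hn : ¬ OmegaV Q ≤ X)
include hp h6 hn

theorem alt6 (hg : g ∈ X) (hk : k ∈ X) {a : κ} {c : F} (H : 𝐜 (k (g (e a))) = c • 𝐜 (g (e a))) (b : κ) :
    (∃ c : F, 𝐜 (k (g (e b))) = c • 𝐜 (g (e b))) ∨ 𝐜 (g (e b)) ⬝ᵥ 𝐜 (k (g (e b))) = 0 := by
  obtain ⟨j, c, -, e1⟩ := of_mem_frD h.e_ne (h.mon_of_eq6 hp h6.ge hn
    (mul_mem (mul_mem (inv_mem hg) hk) hg) (i := a) (j := a) (c := c)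
    (by simp [h.co_inj (H.trans (map_smul _ _ _).symm), inv_apply_apply])) b
  have e2 : k (g (e b)) = c • g (e j) := by
    rw [← map_smul, ← e1]; simp [apply_inv_apply]
  by_cases hj : j = b
  · exact Or.inl ⟨c, by rw [e2, hj, map_smul]⟩
  · exact Or.inr (by simp [e2, h.dot_e hg, Ne.symm hj])

theorem f6 (hg : g ∈ X) (hc : g ∉ 𝐌) : F6 (Set.range fun b => 𝐜 (g (e b))) := by
  refine ⟨h.two, ?_, ?_, ?_, ?_, ?_, fun i => ?_⟩
  · rintro _ ⟨a, rfl⟩; simp [h.dot_e hg]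
  · rintro _ ⟨a, rfl⟩ _ ⟨b, rfl⟩ s t h1 h2 h3
    obtain ⟨c, hc⟩ : ∃ c : F, 𝐜 (zz Q e s t (g (e a))) = c • 𝐜 (g (e a)) := h2.elim
      (fun H => ⟨1, funext fun p => by rw [h.dg_zz h1]; simp; grind⟩)
      fun H => ⟨-1, funext fun p => by rw [h.dg_zz h1]; simp; grind⟩
    simpa only [Finset.sum_pair h1, Finset.mem_insert, Finset.mem_singleton, not_or, and_imp] using
      flip_alt h.two (by simp [h.dot_e hg]) (h.dg_zz h1 _) (h.alt6 hp h6 hn hg (h.zz_mem s t) hc b)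
        (by simp) h3
  · rintro _ ⟨i, rfl⟩ _ ⟨j, rfl⟩ a b c d s t h1 h2 hs ht H
    simpa only [orth_mul_apply, h.co_ss h1 hs, h.co_ss h2 ht] using h.alt6 hp h6 hn hg (h.rr
      (h.refl_ss_mem h1 hs) (h.refl_ss_mem h2 ht) ((h.Q_ss h1 hs).trans_ne h.ne2)
      ((h.Q_ss h2 ht).trans_ne h.ne2) ⟨2 * δ, by rw [h.Q_ss h1 hs, h.Q_ss h2 ht]⟩).2.2 (a := i) (c := 1)
      (by rw [orth_mul_apply, h.co_ss h1 hs, h.co_ss h2 ht, H, one_smul]) j
  · rintro _ ⟨a, rfl⟩ i H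
    exact hc (h.mon_of_eq6 hp h6.ge hn hg (h.eq_smul H))
  · rintro _ ⟨b, rfl⟩ i j hij h0 h1
    beta_reduce at h0 h1
    have a1 := h.dot_e hg b b
    rw [dot_supp {i, j} (by simpa using h0), Finset.sum_pair hij, if_pos rfl] at a1
    have a2 : g (e b) = 𝐜 (g (e b)) i • (e i - (-2 * 𝐜 (g (e b)) i * 𝐜 (g (e b)) j) • e j) := h.co_inj (by
      ext p
      simp only [map_smul, map_sub, h.co_e, Pi.smul_apply, Pi.sub_apply, sE_apply, smul_eq_mul]
      grind)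
    generalize 𝐜 (g (e b)) = v at *
    have a3 : -2 * v i * v j * (-2 * v i * v j) = 1 := by grind
    have a4 : v i ≠ 0 := by grind
    exact hc (h.mon_of_rr6 hp h6.ge hn hg (i := b) (a := i) (a2 ▸ (h.rr (h.refl_ss_mem hij a3)
      (h.refl_e_mem i) ((h.Q_ss hij a3).trans_ne h.ne2) (h.ne0 i) ⟨δ / v i, by
        rw [h.Q_ss hij a3, h.norm]; field_simp; linear_combination δ ^ 2 * h1⟩).smul a4))
  · by_contra! H
    have := h.dot_e (inv_mem hg) i i
    simp only [dotProduct, h.co_inv (h.mem_orth hg), H _ ⟨_, rfl⟩] at this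
    simp at this

theorem st (hg : g ∈ X) (hc : g ∉ 𝐌) {a l m : κ} (hlm : l ≠ m) (hl : 𝐜 (g (e l)) a = 0)
    (hm : 𝐜 (g (e m)) a = 0) : ∃ σ : Fin 6 ≃ κ, σ 4 = a ∧ 𝐜 (g (e l)) (σ 5) = 0 ∧
      (∀ p, 𝐜 (g (e l)) p = 0 ↔ 𝐜 (g (e m)) p = 0) ∧ 𝐜 (g (e l)) (σ 0) ≠ 0 ∧ 𝐜 (g (e l)) (σ 2) ≠ 0 ∧
      ∃ s t : F, s * s = 1 ∧ t * t = 1 ∧ 𝐜 (g (e l)) (σ 1) = -s * 𝐜 (g (e l)) (σ 0) ∧
        𝐜 (g (e l)) (σ 3) = -t * 𝐜 (g (e l)) (σ 2) ∧ ∀ j, j ≠ l → j ≠ m →
          𝐜 (g (e j)) (σ 1) = s * 𝐜 (g (e j)) (σ 0) ∧ 𝐜 (g (e j)) (σ 3) = t * 𝐜 (g (e j)) (σ 2) := by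
  have hg' := h.mem_orth hg
  have ht := mul_mem (mul_mem hg (h.zz_mem l m)) (inv_mem hg)
  have f1 := h.f6 hp h6 hn hg hc
  have f2 := h.f6 hp h6 hn (inv_mem hg) (by rwa [inv_mem_iff])
  choose τ c hc0 e1 using of_mem_frD h.e_ne (h.mon_of_eq6 hp h6.ge hn ht (i := a) (j := a) (c := 1) (by
    rw [LinearEquiv.mul_apply, LinearEquiv.mul_apply, h.co_inj (x := zz Q e l m _) (y := g⁻¹ (e a))
      (funext fun p => by
        rw [h.dg_zz hlm]; split_ifs with e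
        · simp at e; rcases e with rfl | rfl <;> simp only [h.co_inv hg', hl, hm, neg_zero]
        · rfl), apply_inv_apply, one_smul]))
  have e2 := fun b => h.zz_co hg hlm (e1 b)
  have cc : ∀ b, c b * c b = 1 := fun b => mul_right_cancel₀ h.ne (by
    have := orth_Q ⟨_, h.mem_orth ht⟩ (e b)
    simpa only [e1, Q_smul, h.norm, one_mul] using this)
  have e3 : ∀ b j, c b * 𝐜 (g (e j)) (τ b) - 𝐜 (g (e j)) b = -2 * (𝐜 (g (e l)) b * (if j = l then 1 else 0) +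
      𝐜 (g (e m)) b * if j = m then 1 else 0) := fun b j => by
    have := congrArg (𝐜 (g (e j)) ⬝ᵥ ·) (funext (e2 b))
    simp only [dotProduct, mul_sub, Finset.sum_sub_distrib, mul_ite, mul_zero, Finset.sum_ite_eq',
      Finset.mem_univ, if_true, mul_one] at this
    rw [← h.dot_e hg, ← h.dot_e hg, mul_comm (c b), this]
    simp only [dotProduct, Finset.mul_sum, mul_add, ← Finset.sum_add_distrib]
    exact Finset.sum_congr rfl fun _ _ => by ring
  have e4 : ∀ b, 𝐜 (g (e l)) (τ b) = -c b * 𝐜 (g (e l)) b ∧ 𝐜 (g (e m)) (τ b) = -c b * 𝐜 (g (e m)) b :=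
    fun b => by
    have a1 := e3 b l
    have a2 := e3 b m
    simp only [hlm, hlm.symm, if_true, if_false] at a1 a2
    exact ⟨by linear_combination c b * a1 - _ * cc b, by linear_combination c b * a2 - _ * cc b⟩
  have e5 : ∀ b j, j ≠ l → j ≠ m → 𝐜 (g (e j)) (τ b) = c b * 𝐜 (g (e j)) b := fun b j a1 a2 => by
    have a := e3 b j
    simp only [a1, a2, if_false] at a
    linear_combination c b * a - _ * cc b
  have e6 : ∀ b, 𝐜 (g (e l)) b ≠ 0 ∨ 𝐜 (g (e m)) b ≠ 0 → τ b ≠ b ∧ τ (τ b) = b := fun b hb => by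
    have a0 : τ b ≠ b := fun a => by
      have a1 := e4 b
      rw [a] at a1
      have a2 : c b = -1 := hb.elim (fun i => mul_right_cancel₀ i (by linear_combination a1.1))
        fun i => mul_right_cancel₀ i (by linear_combination a1.2)
      refine f2.zb4 h6 ⟨b, rfl⟩ hlm fun j a3 a4 => ?_
      have := e5 b j a3 a4
      rw [a, a2] at this
      exact (h.co_inv hg' _ _).trans (mul_left_cancel₀ h.two (by linear_combination this))
    refine ⟨a0, by_contra fun a1 => hc0 b ?_⟩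
    have a2 := e2 (τ b) b
    have a3 := e2 b (τ b)
    simp only [a0, a0.symm, Ne.symm a1, if_true, if_false] at a2 a3
    linear_combination a3 - a2
  have z1 := fun {b b'} => f1.zb4 h6 ⟨l, rfl⟩ (l := b) (m := b')
  have z2 := fun {b b'} => f1.zb4 h6 ⟨m, rfl⟩ (l := b) (m := b')
  beta_reduce at z1 z2
  obtain ⟨b, hb⟩ : ∃ b, 𝐜 (g (e l)) b ≠ 0 := by
    by_contra! H
    exact f1.one _ ⟨l, rfl⟩ a fun p _ => H p
  obtain ⟨b1, b2⟩ := e6 b (.inl hb)
  obtain ⟨d, d1, d2, hd⟩ : ∃ d, d ≠ b ∧ d ≠ τ b ∧ 𝐜 (g (e l)) d ≠ 0 := by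
    simpa using z1 b1.symm
  obtain ⟨d3, d4⟩ := e6 d (.inl hd)
  generalize 𝐜 (g (e l)) = x at *
  generalize 𝐜 (g (e m)) = y at *
  have n0 : ∀ p, x p ≠ 0 → x (τ p) ≠ 0 := fun p a => by simp [(e4 p).1, hc0, a]
  obtain ⟨σ, rfl, s1, rfl, s3, rfl⟩ := exists_equiv5 h6 (a := b) (b := τ b) (c := d) (d := τ d) (e := a) (by
    have n1 := n0 b hb
    have n2 := n0 d hd
    simp only [List.nodup_cons, List.mem_cons, List.not_mem_nil, or_false, not_or, List.nodup_nil]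
    clear * - b1 b2 d1 d2 d3 d4 hb hd hl n1 n2
    grind)
  have all : ∀ P : κ → Prop, P (σ 0) → P (σ 1) → P (σ 2) → P (σ 3) → P (σ 4) → P (σ 5) → ∀ p, P p :=
    fun P _ _ _ _ _ _ p => by obtain ⟨p, rfl⟩ := σ.surjective p; fin_cases p <;> assumption
  have i5 : x (σ 5) = 0 ∧ y (σ 5) = 0 := by
    by_contra H
    replace H := not_and_or.1 H
    obtain ⟨a1, a2⟩ := e6 _ H
    have a3 := e4 (σ 5)
    have a4 := hc0 (σ 5)
    generalize τ (σ 5) = p at *
    revert p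
    refine all _ ?_ ?_ ?_ ?_ ?_ (by simp) <;> intro _ a2 a3
    · simp [← s1] at a2
    · simp [s1, b2] at a2
    · simp [← s3] at a2
    · simp [s3, d4] at a2
    · simp [hl, hm, a4] at a3; tauto
  have y1 := (e4 (σ 0)).2
  have y3 := (e4 (σ 2)).2
  have x1 := (e4 (σ 0)).1
  have x3 := (e4 (σ 2)).1
  rw [← s1] at x1 y1
  rw [← s3] at x3 y3
  have y0 : y (σ 0) ≠ 0 := fun H => z2 (b := σ 2) (b' := σ 3) (by simp)
    (all _ (by simp [H]) (by simp [H, y1]) (by simp) (by simp) (by simp [hm]) (by simp [i5]))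
  have y2 : y (σ 2) ≠ 0 := fun H => z2 (b := σ 0) (b' := σ 1) (by simp)
    (all _ (by simp) (by simp) (by simp [H]) (by simp [H, y3]) (by simp [hm]) (by simp [i5]))
  exact ⟨σ, rfl, i5.1, all _ (by simp [*]) (by simp [*]) (by simp [*]) (by simp [*]) (by simp [*])
    (by simp [*]), hb, hd, _, _, cc _, cc _, x1, x3, fun j a1 a2 => ⟨s1 ▸ e5 _ j a1 a2, s3 ▸ e5 _ j a1 a2⟩⟩

theorem zb2 (hg : g ∈ X) {a l m : κ} (hlm : l ≠ m) (hl : 𝐜 (g (e a)) l = 0) (hm : 𝐜 (g (e a)) m = 0) :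
    g ∈ 𝐌 := by
  by_contra hc
  have hg' := h.mem_orth hg
  have hc' : g⁻¹ ∉ 𝐌 := by rwa [inv_mem_iff]
  obtain ⟨σ, rfl, a1, a2, a3, a4, s, t, b1, b2, b3, b4, b5⟩ := h.st hp h6 hn (inv_mem hg) hc' hlm
    ((h.co_inv hg' _ _).trans hl) ((h.co_inv hg' _ _).trans hm)
  obtain ⟨-, -, -, c1, -⟩ := h.st hp h6 hn hg hc (a := l) (l := σ 4) (m := σ 5) (by simp) hl
    ((h.co_inv hg' _ _).symm.trans a1)
  obtain ⟨_, ⟨j, rfl⟩, hj⟩ := (h.f6 hp h6 hn (inv_mem hg) hc').row (σ 4)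
  have hj' := (h.co_inv hg' _ _).symm.trans_ne hj
  obtain ⟨d1, d2⟩ := b5 j (by rintro rfl; exact hj' hl) (by rintro rfl; exact hj' hm)
  exact ((h.f6 hp h6 hn (inv_mem hg) hc').comp σ).finB ⟨_, ⟨l, rfl⟩, rfl⟩ ⟨_, ⟨j, rfl⟩, rfl⟩ b1 b2 a3 a4 b3
    b4 ((h.co_inv hg' _ _).trans hl) a1 d1 d2 hj ((h.co_inv hg' _ _).trans_ne (mt (c1 j).2 hj'))

theorem ce6 {J : Finset κ} (H : Dg Q e δ k J) (h1 : J ≠ ∅) (h2 : J.card ≤ 4) (hg : g ∈ X)
    (hc : Commute k g) : g ∈ 𝐌 := by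
  have h3 := Finset.card_compl J
  have h4 : ∀ x, k (g x) = g (k x) := fun x => congrArg (· x) hc.eq
  obtain ⟨i, hi⟩ := Finset.nonempty_iff_ne_empty.2 h1
  have key : ∀ l ∈ Jᶜ, 𝐜 (g (e i)) l = 0 := fun l hl => by
    have := H (g (e i)) l
    rw [h4, h.co_inj (x := k (e i)) (y := -e i) (by
      ext p; rw [H, map_neg, Pi.neg_apply, h.co_e, sE_apply]; grind), if_neg (by simpa using hl),
      map_neg, map_neg, Pi.neg_apply] at this
    exact mul_left_cancel₀ h.two (by linear_combination -this)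
  obtain ⟨l, hl, m, hm, hlm⟩ := Finset.one_lt_card.1 (show 1 < Jᶜ.card by omega)
  exact h.zb2 hp h6 hn hg hlm (key l hl) (key m hm)

theorem ll6 (hg : g ∈ X) {a b : κ} (hab : a ≠ b) (H : g * zz Q e a b * g⁻¹ ∈ 𝐌) : g ∈ 𝐌 := by
  classical
  have hg' := h.mem_orth hg
  have n1 : ∀ b, Q (g (e b)) = δ := fun b => (orth_Q ⟨g, hg'⟩ _).trans (h.norm b)
  have n2 : 𝐜 (g (e a)) ⬝ᵥ 𝐜 (g (e b)) = 0 := mul_left_cancel₀ h.ne2 (by
    rw [← h.polar_eq, mul_zero]; exact (orth_polar ⟨g, hg'⟩ _ _).trans (h.orth _ _ hab))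
  choose σ c hc e1 using of_mem_frD h.e_ne H
  have e2 := fun l => h.zz_co hg hab (e1 l)
  have n3 := h.dot_self (n1 a)
  generalize hv : 𝐜 (g (e a)) = v at *
  generalize 𝐜 (g (e b)) = w at *
  have e3 : ∀ l, v l ≠ 0 → (if l = σ l then c l else 0) - 1 ≠ 0 := by
    intro l hl h0
    have h1 : l = σ l ∧ c l = 1 := by grind
    have h2 : v l • v + w l • w = 0 := funext fun p => mul_left_cancel₀ (neg_ne_zero.2 h.two) (by
      have := e2 l p
      rw [← h1.1, h1.2, sub_self] at this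
      simpa using this.symm)
    have := congrArg (v ⬝ᵥ ·) h2
    simp [n2, n3, hl] at this
  have h4 : (Finset.univ.filter fun l => v l ≠ 0).card ≤ 4 := by
    by_contra h4
    have ex : ∀ s : Finset κ, s.card < 5 → ∃ p, v p ≠ 0 ∧ p ∉ s := fun s hs => by
      simpa using Finset.exists_mem_notMem_of_card_lt_card (s := s)
        (t := Finset.univ.filter fun l => v l ≠ 0) (by omega)
    obtain ⟨p, hp, -⟩ := ex ∅ (by simp)
    obtain ⟨q, hq, h5⟩ := ex {p, σ p} (Finset.card_le_two.trans_lt (by omega))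
    obtain ⟨r, hr, h10⟩ := ex {q, σ q, p, σ p} (Finset.card_le_four.trans_lt (by omega))
    simp only [Finset.mem_insert, Finset.mem_singleton, not_or] at h5 h10
    obtain ⟨x, y, z, h7, h8, h9⟩ := exists_ker_three (LinearMap.fst F F F) (LinearMap.snd F F F)
      (v p, w p) (v q, w q) (v r, w r)
    simp only [LinearMap.fst_apply, LinearMap.snd_apply, Prod.smul_mk, Prod.mk_add_mk,
      smul_eq_mul] at h8 h9
    have k : ∀ t, x * ((if t = σ p then c p else 0) - if t = p then 1 else 0) +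
        y * ((if t = σ q then c q else 0) - if t = q then 1 else 0) +
        z * ((if t = σ r then c r else 0) - if t = r then 1 else 0) = 0 := fun t => by
      rw [e2, e2, e2]; linear_combination -2 * v t * h8 - 2 * w t * h9
    have k1 : z = 0 := by simpa [h10, e3 r hr] using k r
    have k2 : y = 0 := by simpa [h5, e3 q hq, k1] using k q
    exact h7 ⟨by simpa [e3 p hp, k1, k2] using k p, k2, k1⟩
  have h5 := Finset.card_compl (Finset.univ.filter fun l => v l ≠ 0)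
  obtain ⟨l, hl, m, hm, hlm⟩ := Finset.one_lt_card.1
    (show 1 < (Finset.univ.filter fun l => v l ≠ 0)ᶜ.card by omega)
  exact h.zb2 hp h6 hn hg (a := a) hlm (by simpa [hv] using hl) (by simpa [hv] using hm)

theorem tt6 {y c : V ≃ₗ[F] V} {a b i j : κ} (hij : i ≠ j) (hc : c ∈ X) (h3 : c ≠ 1)
    (h4 : Commute c (zz Q e i j)) (hk : k ∈ X) (hab : a ≠ b)
    (h5 : c * zz Q e i j = k * zz Q e a b * k⁻¹) (hy : y ∈ X) (h7 : Commute c y) : y ∈ 𝐌 := by
  have H := h.dg_zz hij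
  obtain ⟨a', b', h7'⟩ := h.dg_conj (h.ll6 hp h6 hn hk hab (h5 ▸ mul_mem
    (h.ce6 hp h6 hn H (by simp) (Finset.card_le_two.trans (by omega)) hc h4.symm) (h.dg_mem H)))
    (h.mem_orth hk) hab
  have h8 := h7'.mul H
  rw [← h5, mul_assoc, h.dg_sq H, mul_one] at h8
  refine h.ce6 hp h6 hn h8 (fun e => h3 (h.dg_empty (e ▸ h8))) ?_ hy h7
  have := Finset.card_le_card (symmDiff_le_sup (a := ({a', b'} : Finset κ)) (b := {i, j}))
  have := Finset.card_union_le {a', b'} {i, j}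
  have := Finset.card_le_two (a := a') (b := b')
  have := Finset.card_le_two (a := i) (b := j)
  simp only [Finset.sup_eq_union] at *
  omega

theorem conj6 (hg : g ∈ X) {a b i j : κ} (hab : a ≠ b) (hij : i ≠ j) (hc : g ∉ 𝐌)
    {Y : Subgroup (V ≃ₗ[F] V)} (hY : Y ≤ X) (h1 : zz Q e i j ∈ Y) (h2 : g * zz Q e a b * g⁻¹ ∈ Y) :
    ∃ k ∈ Y, g * zz Q e a b * g⁻¹ = k * zz Q e i j * k⁻¹ := by
  haveI : Finite V := Module.finite_of_finite F
  haveI : Finite (V ≃ₗ[F] V) := DFunLike.finite _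
  refine (dihedral_alt h1 h2 (h.dg_sq (h.dg_zz hij)) (by
    rw [conj_mul, h.dg_sq (h.dg_zz hab)]; simp)).resolve_right ?_
  rintro ⟨z, hz, e1, e2, e3, k, hk, e4 | e4⟩
  · exact hc (h.ll6 hp h6 hn hg hab (h.tt6 hp h6 hn hij (hY hz) e1 e2 (hY hk) hij e4 (hY h2) e3))
  · refine hc (inv_mem_iff.1 (h.ll6 hp h6 hn (inv_mem hg) hij (h.tt6 hp h6 hn hab (c := g⁻¹ * z * g)
      (mul_mem (mul_mem (inv_mem hg) (hY hz)) hg) (fun e => e1 (by
        simpa only [mul_assoc, mul_inv_cancel_left, mul_inv_cancel, mul_one] using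
          congrArg (fun t => g * t * g⁻¹) e))
      (by simpa [mul_assoc] using (e3.map (MulAut.conj g⁻¹))) (mul_mem (inv_mem hg) (hY hk)) hij
      (by simpa [mul_assoc] using congrArg (g⁻¹ * · * g) e4)
      (mul_mem (mul_mem (inv_mem hg) (hY h1)) (inv_mem (inv_mem hg)))
      (by simpa [mul_assoc] using (e2.map (MulAut.conj g⁻¹))))))

theorem cent6 (hg : g ∈ X) {a b i j p q : κ} (hab : a ≠ b) (hl : [i, j, p, q].Nodup) {c : V ≃ₗ[F] V}
    {ε : κ → F} (hε : ∀ t, ε t ≠ 0) (H : ∀ x t, 𝐜 (c x) t = ε t * 𝐜 x (swap i j (swap p q t)))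
    (h1 : Commute c (g * zz Q e a b * g⁻¹)) : g ∈ 𝐌 := by
  by_contra hc
  obtain ⟨l, a1⟩ := exists_not_mem_list [i, j, p, q] (by simp; omega)
  obtain ⟨m, a2⟩ := exists_not_mem_list [l, i, j, p, q] (by simp; omega)
  simp only [List.nodup_cons, List.mem_cons, List.not_mem_nil, or_false, not_or] at hl a1 a2
  have cm : ∀ {s t}, s ≠ t → (∀ r, swap i j (swap p q r) ∈ ({s, t} : Finset κ) ↔ r ∈ ({s, t} : Finset κ)) →
      zz Q e s t ∈ X ⊓ Subgroup.centralizer {c} := fun {s t} b1 b2 => ⟨h.zz_mem s t,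
    Subgroup.mem_centralizer_singleton_iff.2 (LinearEquiv.ext fun x => h.co_inj (funext fun r => by
      simp only [LinearEquiv.mul_apply, H, h.dg_zz b1 _ _, b2]; split_ifs <;> simp))⟩
  have m0 : g * zz Q e a b * g⁻¹ ∈ X ⊓ Subgroup.centralizer {c} :=
    ⟨X.mul_mem (X.mul_mem hg (h.zz_mem a b)) (X.inv_mem hg),
      Subgroup.mem_centralizer_singleton_iff.2 h1.symm⟩
  obtain ⟨k₁, b1, b2⟩ := h.conj6 hp h6 hn hg hab hl.1.1 hc inf_le_left (cm hl.1.1 fun r => by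
    simp only [swap_apply_def]; grind) m0
  obtain ⟨k₂, b3, b4⟩ := h.conj6 hp h6 hn hg hab (Ne.symm a2.1) hc inf_le_left (cm (Ne.symm a2.1) fun r => by
    simp only [swap_apply_def]; grind) m0
  have b5 := Subgroup.mul_mem _ (Subgroup.inv_mem _ b1) b3
  have b6 : k₁⁻¹ * k₂ * zz Q e l m * (k₁⁻¹ * k₂)⁻¹ = zz Q e i j := by
    simpa [mul_assoc] using congrArg (k₁⁻¹ * · * k₁) (b4.symm.trans b2)
  generalize k₁⁻¹ * k₂ = k at b5 b6
  obtain ⟨r, γ, γ0, b7⟩ := of_mem_frD h.e_ne (h.ll6 hp h6 hn b5.1 (Ne.symm a2.1)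
    (b6 ▸ h.dg_mem (h.dg_zz hl.1.1))) l
  have c1 : zz Q e l m (e l) = -e l := h.co_inj (funext fun t => by
    rw [h.dg_zz (Ne.symm a2.1), map_neg, h.co_e, Pi.neg_apply, sE_apply]; grind)
  have c2 : c (e l) = ε l • e l := h.co_inj (funext fun t => by
    simp only [H, map_smul, h.co_e, Pi.smul_apply, sE_apply, swap_apply_def, smul_eq_mul]; grind)
  have c3 := congrArg (𝐜 · r) (LinearEquiv.congr_fun (mul_inv_eq_iff_eq_mul.1 b6) (e l))
  have c4 := fun t => congrArg (𝐜 · t) (LinearEquiv.congr_fun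
    (Subgroup.mem_centralizer_singleton_iff.1 b5.2) (e l))
  simp only [LinearEquiv.mul_apply, c1, c2, map_neg, map_smul, b7, h.dg_zz hl.1.1 _ _, H, h.co_e,
    Pi.smul_apply, Pi.neg_apply, sE_apply, smul_eq_mul] at c3 c4
  have s1 : swap i j (swap p q i) = j := by
    rw [swap_apply_of_ne_of_ne hl.1.2.1 hl.1.2.2, swap_apply_left]
  have s2 : swap i j (swap p q j) = i := by
    rw [swap_apply_of_ne_of_ne hl.2.1.1 hl.2.1.2, swap_apply_right]
  have c5 := c4 i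
  have c6 := c4 j
  rw [s1] at c5
  rw [s2] at c6
  by_cases r1 : r = i
  · subst r1
    simp [Ne.symm hl.1.1, γ0, hε] at c5
  by_cases r2 : r = j
  · subst r2
    simp [hl.1.1, γ0, hε] at c6
  simp only [Finset.mem_insert, Finset.mem_singleton, r1, r2, if_true, or_self, if_false] at c3
  exact γ0 (mul_left_cancel₀ h.two (by linear_combination -c3))

theorem le_of_six : X ≤ 𝐌 := by
  haveI : Finite V := Module.finite_of_finite F
  haveI : Finite (V ≃ₗ[F] V) := DFunLike.finite _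
  obtain ⟨i, j, p, q, h1, h2, h3, h4, h5, h7⟩ := exists_four (κ := κ) (by omega)
  have hl : [i, j, p, q].Nodup := by simp [*]
  have hy := (h.rr_sw h7 h1).2.2
  have ym : (refl Q (e p - e q) * refl Q (e i - e j)).1 ∈ 𝐌 :=
    mul_mem (h.refl_sw_mem h7) (h.refl_sw_mem h1)
  have y0 : ∀ x t, 𝐜 ((refl Q (e p - e q) * refl Q (e i - e j)).1 x) t = 𝐜 x (swap i j (swap p q t)) :=
    fun x t => by rw [orth_mul_apply, h.co_swap h7, h.co_swap h1]
  generalize (refl Q (e p - e q) * refl Q (e i - e j)).1 = y at hy ym y0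
  have y1 : y * y = 1 := LinearEquiv.ext fun x => h.co_inj (funext fun t => by
    rw [LinearEquiv.mul_apply, y0, y0]
    congr 1
    simp only [swap_apply_def]; split_ifs <;> simp_all)
  have key : ∀ g ∈ X, g * y * g⁻¹ ∈ 𝐌 := fun g hg => by
    have hg' := inv_mem hg
    rcases dihedral_alt (h.zz_mem i j) (mul_mem (mul_mem hg hy) hg') (h.dg_sq (h.dg_zz h1))
      (by rw [conj_mul, y1]; simp) with ⟨k, hk, e1⟩ | ⟨z, hz, e1, e2, e3, k, hk, e4 | e4⟩
    · have e2 : y = g⁻¹ * k * zz Q e i j * (g⁻¹ * k)⁻¹ := by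
        simpa [mul_assoc] using congrArg (g⁻¹ * · * g) e1
      have hk' := mul_mem hg' hk
      obtain ⟨a', b', h8⟩ := h.dg_conj (h.ll6 hp h6 hn hk' h1 (e2 ▸ ym)) (h.mem_orth hk') h1
      have := (y0 (e i) j).symm.trans (e2 ▸ h8 (e i) j)
      simp [h.co_e, sE_apply, swap_apply_def, h1.symm, h4, h5] at this
    · exact h.tt6 hp h6 hn h1 hz e1 e2 hk h1 e4 (mul_mem (mul_mem hg hy) hg') e3
    · have c2 : Commute (g⁻¹ * z * g) y := by simpa [mul_assoc] using (e3.map (MulAut.conj g⁻¹))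
      have c3 : g⁻¹ * z * g * y = g⁻¹ * k * zz Q e i j * (g⁻¹ * k)⁻¹ := by
        simpa [mul_assoc] using congrArg (g⁻¹ * · * g) e4
      have c4 : Commute (g⁻¹ * z * g) (g⁻¹ * zz Q e i j * g⁻¹⁻¹) := by
        simpa [mul_assoc] using (e2.map (MulAut.conj g⁻¹))
      generalize g⁻¹ * z * g = z at c2 c3 c4
      have hk' := mul_mem hg' hk
      obtain ⟨u, v, h8⟩ := h.dg_conj (h.cent6 hp h6 hn hk' h1 hl (fun _ => one_ne_zero)
        (by simpa using y0) (c3 ▸ c2.symm.mul_right (Commute.refl y))) (h.mem_orth hk') h1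
      have h9 := h.cent6 hp h6 hn hg' h1 hl (c := z) (ε := fun t => if t ∈ ({u, v} : Finset κ) then -1 else 1)
        (fun t => by split_ifs <;> simp) (fun x t => by
          rw [← mul_one z, ← y1, ← mul_assoc, c3, LinearEquiv.mul_apply, h8, y0]; split_ifs <;> simp) c4
      exact mul_mem (mul_mem (inv_mem_iff.1 h9) ym) h9
  intro g hg
  obtain ⟨l, a1⟩ := exists_not_mem_list [i, j, p, q] (by simp; omega)
  simp only [List.mem_cons, List.not_mem_nil, or_false, not_or] at a1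
  have d := h.dg_zz (Ne.symm a1.1)
  refine h.ll6 hp h6 hn hg h1 ?_
  convert mul_mem (key g hg) (key _ (mul_mem hg (h.zz_mem i l))) using 1
  rw [show zz Q e i j = y * (zz Q e i l * y * zz Q e i l) from LinearEquiv.ext fun x => h.co_inj
    (funext fun t => by
      simp only [LinearEquiv.mul_apply, y0, d _ _, h.dg_zz h1 _ _, swap_apply_def]; grind), mul_inv_rev,
    inv_eq_of_mul_eq_one_right (h.dg_sq d)]
  group

end FrX

theorem OFrame.isMaximalIn6 [Fintype κ] [FiniteDimensional F V] [Fintype F] (h : OFrame Q e δ)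
    (hp : (Fintype.card F).Prime) (h6 : Fintype.card κ = 6) (hd : finrank F V = 6) :
    Cfsg.Geo.IsMaximalIn (OmegaV Q) (𝐌 ⊓ OmegaV Q) := by
  refine isMaximalIn_of _ _ inf_le_right (fun H => ?_) fun M h4 h5 g hg hg' => by_contra fun hc =>
    hg' ⟨FrX.le_of_six ⟨h, h5, h4⟩ hp h6 hc hg, h5 hg⟩
  obtain ⟨i⟩ : Nonempty κ := Fintype.card_pos_iff.1 (by omega)
  have d1 := h.nd.finrank_add_finrank_perp (Submodule.span F {e i})
  have d2 := finrank_span_singleton_le (F := F) (e i)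
  obtain ⟨u, hu, u0, u1⟩ := iso3_quad Q ((𝓒).perp (Submodule.span F {e i})) (by omega)
  replace hu : polar Q (e i) u = 0 := (𝓒).mem_perp_singleton.1 hu
  have a1 : 𝐜 (e i + u) i = 1 := by
    rw [map_add, Pi.add_apply, h.co_e, co_apply u i, hu]; simp
  obtain ⟨k, hk, e'⟩ := (spec_quad h.nd (notExc_of_two_ne_zero h.two)).witt_one (by omega) (h.e_ne i)
    (v := e i + u) (fun e => by simp [e] at a1) (by rw [(𝓒).N_add_of_orth hu, u1, add_zero])
  obtain ⟨j, c, -, e1⟩ := of_mem_frD h.e_ne (H hk).1 i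
  rw [← e', e1, h.co_smul_e] at a1
  split_ifs at a1 with e2
  · exact u0 (by simpa [← e2, a1, e'] using e1)
  · simp at a1

end H12
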