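import Cfsg.Agent.H12.Mon1

/-!
# Systems of unit vectors closed under reflections and even permutations
-/

set_option autoImplicit false
set_option maxHeartbeats 400000

namespace H12

open Equiv

variable {F : Type*} [Field F] {κ : Type*} [DecidableEq κ] [Fintype κ] {R : Set (κ → F)}
  {x y : κ → F}

theorem dot_sE (x : κ → F) (i : κ) : x ⬝ᵥ sE i = x i := by simp [dotProduct, sE_apply]

theorem sE_dot (x : κ → F) (i : κ) : sE i ⬝ᵥ x = x i := by rw [dotProduct_comm, dot_sE]

theorem dot_supp (J : Finset κ) (h : ∀ m, m ∉ J → x m = 0) (y : κ → F) :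
    x ⬝ᵥ y = ∑ m ∈ J, x m * y m :=
  (Finset.sum_subset (Finset.subset_univ J) fun m _ hm => by rw [h m hm, zero_mul]).symm

variable (R) in
/-- A system of unit vectors without tangent pairs. -/
structure RSys : Prop where
  two : (2 : F) ≠ 0
  norm : ∀ x ∈ R, x ⬝ᵥ x = 1
  base : ∀ i, sE i ∈ R
  refl : ∀ x ∈ R, ∀ y ∈ R, y - (2 * x ⬝ᵥ y) • x ∈ R
  sw : ∀ x ∈ R, ∀ a b c d, a ≠ b → c ≠ d → (fun l => x (swap a b (swap c d l))) ∈ R
  nt : ∀ x ∈ R, ∀ y ∈ R, x ⬝ᵥ y = 1 → x = y

namespace RSys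

variable (h : RSys R)
include h

theorem flip (hx : x ∈ R) (J : Finset κ) : (fun l => if l ∈ J then -x l else x l) ∈ R := by
  induction J using Finset.induction_on with
  | empty => simpa using hx
  | insert j J hj ih =>
    convert h.refl _ (h.base j) _ ih using 1
    ext l
    by_cases e : l = j
    · subst e; simp [sE_dot, hj]; ring
    · simp [e, sE_ne e]

theorem dot_flip (hx : x ∈ R) (J : Finset κ) :
    x ⬝ᵥ (fun l => if l ∈ J then -x l else x l) = 1 - 2 * ∑ m ∈ J, x m * x m := by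
  rw [← h.norm x hx, ← Finset.sum_subset (Finset.subset_univ J) (f := fun m =>
    if m ∈ J then x m * x m else 0) (fun m _ hm => if_neg hm) |>.symm.trans
      (Finset.sum_congr rfl fun m hm => if_pos hm), dotProduct, dotProduct, Finset.mul_sum,
    ← Finset.sum_sub_distrib]
  refine Finset.sum_congr rfl fun m _ => ?_
  split_ifs <;> ring

theorem zero_of_sum_zero (hx : x ∈ R) {J : Finset κ} (e : ∑ m ∈ J, x m * x m = 0) {i : κ}
    (hi : i ∈ J) : x i = 0 := by
  have := congrFun (h.nt x hx _ (h.flip hx J) (by rw [h.dot_flip hx, e]; simp)) i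
  rw [if_pos hi] at this
  exact mul_left_cancel₀ h.two (by linear_combination this)

theorem zero_of_sum_one (hx : x ∈ R) {J : Finset κ} (e : ∑ m ∈ J, x m * x m = 1) {i : κ}
    (hi : i ∉ J) : x i = 0 := by
  refine h.zero_of_sum_zero hx (J := Jᶜ) ?_ (Finset.mem_compl.2 hi)
  have := Finset.sum_add_sum_compl J fun m => x m * x m
  rw [e, show ∑ m, x m * x m = 1 from h.norm x hx] at this
  linear_combination this

variable (dk : ∀ a ∈ R, ∀ b ∈ R, ∀ c ∈ R, a ⬝ᵥ b = 0 → a ⬝ᵥ c ≠ 0 → b ⬝ᵥ c ≠ 0 →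
    1 - (a ⬝ᵥ c) ^ 2 - (b ⬝ᵥ c) ^ 2 ≠ 0 → 4 * (a ⬝ᵥ c) ^ 2 = 1 ∨ 4 * (b ⬝ᵥ c) ^ 2 = 1 ∨
    4 * (a ⬝ᵥ c) ^ 2 + 4 * (b ⬝ᵥ c) ^ 2 = 3)
include dk

theorem tri (hx : x ∈ R) {i j k : κ} (hij : i ≠ j) (hik : i ≠ k) (hjk : j ≠ k) (hi : x i ≠ 0)
    (hj : x j ≠ 0) (hk : x k ≠ 0) :
    4 * x i ^ 2 = 1 ∨ 4 * x j ^ 2 = 1 ∨ 4 * x i ^ 2 + 4 * x j ^ 2 = 3 := by
  have := dk _ (h.base i) _ (h.base j) x hx (by rw [dot_sE, sE_ne hij.symm])
  simp only [sE_dot] at this
  exact this hi hj fun e => hk (h.zero_of_sum_one hx (J := {i, j})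
    (by rw [Finset.sum_pair hij]; linear_combination -e) (by simp [hik.symm, hjk.symm]))

theorem not_one (hx : x ∈ R) {l : List κ} (hl : l.Nodup) (h5 : l.length = 5)
    (h0 : ∀ i ∈ l, x i ≠ 0) {i : κ} (hi : i ∈ l) : 4 * x i ^ 2 ≠ 1 := by
  have h4 : (4 : F) ≠ 0 := by
    rw [show (4 : F) = 2 * 2 by norm_num]; exact mul_ne_zero h.two h.two
  have A : ∀ a b c d e, [a, b, c, d, e].Nodup → x e ≠ 0 → 4 * x a ^ 2 = 1 → 4 * x b ^ 2 = 1 →
      4 * x c ^ 2 = 1 → 4 * x d ^ 2 ≠ 1 := by
    intro a b c d e hn he h1 h2 h3 h4'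
    simp only [List.nodup_cons, List.mem_cons, List.not_mem_nil, or_false, not_or] at hn
    refine he (h.zero_of_sum_one hx (J := {a, b, c, d}) ?_ (by
      simp only [Finset.mem_insert, Finset.mem_singleton]; grind))
    rw [Finset.sum_insert (by simp; grind), Finset.sum_insert (by simp; grind),
      Finset.sum_pair (by grind)]
    exact mul_left_cancel₀ h4 (by linear_combination h1 + h2 + h3 + h4')
  have B : ∀ a b c d, [a, b, c, d].Nodup → x b ≠ 0 → x c ≠ 0 → x d ≠ 0 → 4 * x a ^ 2 = 1 →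
      4 * x b ^ 2 = 1 ∨ 4 * x c ^ 2 = 1 := by
    intro a b c d hn hb hc hd h1
    simp only [List.nodup_cons, List.mem_cons, List.not_mem_nil, or_false, not_or] at hn
    rcases h.tri dk hx (i := b) (j := c) (k := d) (by grind) (by grind) (by grind) hb hc hd with
      e | e | e
    · exact Or.inl e
    · exact Or.inr e
    refine absurd (h.zero_of_sum_one hx (J := {a, b, c}) ?_ (by
      simp only [Finset.mem_insert, Finset.mem_singleton]; grind)) hd
    rw [Finset.sum_insert (by simp; grind), Finset.sum_pair (by grind)]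
    exact mul_left_cancel₀ h4 (by linear_combination h1 + e)
  have hp := List.perm_cons_erase hi
  have h1 := hp.nodup_iff.1 hl
  have h2 : ∀ j ∈ l.erase i, x j ≠ 0 := fun j hj => h0 j (List.mem_of_mem_erase hj)
  have h3 : (l.erase i).length = 4 := by rw [List.length_erase_of_mem hi, h5]
  obtain ⟨j, k, m, n, e⟩ := List.length_eq_four.1 h3
  rw [e] at h1 h2
  simp only [List.mem_cons, List.not_mem_nil, or_false, forall_eq_or_imp, forall_eq] at h2
  obtain ⟨hj, hk, hm, hn⟩ := h2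
  intro e1
  simp only [List.nodup_cons, List.mem_cons, List.not_mem_nil, or_false, not_or] at h1
  have b1 := B i j k m (by simp; grind) hj hk hm e1
  have b2 := B i m n j (by simp; grind) hm hn hj e1
  have b3 := B i j m k (by simp; grind) hj hm hk e1
  have b4 := B i k n j (by simp; grind) hk hn hj e1
  have b5 := B i j n k (by simp; grind) hj hn hk e1
  have b6 := B i k m j (by simp; grind) hk hm hj e1
  have a1 := A i j k m n (by simp; grind) hn e1
  have a2 := A i j k n m (by simp; grind) hm e1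
  have a3 := A i j m n k (by simp; grind) hk e1
  have a4 := A i k m n j (by simp; grind) hj e1
  grind

variable (h3 : (3 : F) ≠ 0)
include h3

theorem not_five (hx : x ∈ R) {i j k m n : κ} (hl : [i, j, k, m, n].Nodup) (hi : x i ≠ 0)
    (hj : x j ≠ 0) (hk : x k ≠ 0) (hm : x m ≠ 0) (hn : x n ≠ 0) : False := by
  have h1 := hl
  simp only [List.nodup_cons, List.mem_cons, List.not_mem_nil, or_false, not_or] at h1
  have A : ∀ x ∈ R, x i ≠ 0 → x j ≠ 0 → x k ≠ 0 → x m ≠ 0 → x n ≠ 0 →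
      8 * x i ^ 2 = 3 ∧ 8 * x j ^ 2 = 3 := by
    intro x hx hi hj hk hm hn
    have n := fun a => h.not_one dk hx hl rfl (by simp [*]) (i := a)
    have e1 := ((h.tri dk hx (by grind) (by grind) (by grind) hi hj hk).resolve_left
      (n i (by simp))).resolve_left (n j (by simp))
    have e2 := ((h.tri dk hx (by grind) (by grind) (by grind) hi hk hj).resolve_left
      (n i (by simp))).resolve_left (n k (by simp))
    have e3 := ((h.tri dk hx (by grind) (by grind) (by grind) hj hk hi).resolve_left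
      (n j (by simp))).resolve_left (n k (by simp))
    exact ⟨by linear_combination e1 + e2 - e3, by linear_combination e1 + e3 - e2⟩
  obtain ⟨e1, e2⟩ := A x hx hi hj hk hm hn
  have k0 : ∀ a, a ≠ i → x a ≠ 0 → (sE i - (2 * x ⬝ᵥ sE i) • x : κ → F) a ≠ 0 := fun a ha h0 => by
    simp [sE_ne ha, dot_sE, h.two, hi, h0]
  have := (A _ (h.refl x hx _ (h.base i)) (fun e => by
    simp only [Pi.sub_apply, sE_same, dot_sE, Pi.smul_apply, smul_eq_mul] at e
    exact one_ne_zero (α := F) (by linear_combination 4 * e + e1)) (k0 j (by grind) hj)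
    (k0 k (by grind) hk) (k0 m (by grind) hm) (k0 n (by grind) hn)).2
  simp only [Pi.sub_apply, sE_ne (show j ≠ i by grind), dot_sE, Pi.smul_apply, smul_eq_mul] at this
  exact h3 (by linear_combination 2 * this - 8 * x j ^ 2 * e1 - 3 * e2)

variable (h7 : 7 ≤ Fintype.card κ)
include h7

theorem not_three_aux (hx : x ∈ R) {i j k l : κ} (hl : [i, j, k, l].Nodup) (hi : x i ≠ 0)
    (hj : x j ≠ 0) (hk : x k ≠ 0) (h0 : ∀ m, m ∉ [i, j, k, l] → x m = 0)
    (h1 : x l ≠ 0 ∨ 2 * x i ^ 2 ≠ 1) : False := by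
  obtain ⟨a, ha⟩ := exists_not_mem_list [i, j, k, l] (by simp; omega)
  obtain ⟨b, hb⟩ := exists_not_mem_list [a, i, j, k, l] (by simp; omega)
  obtain ⟨c, hc⟩ := exists_not_mem_list [b, a, i, j, k, l] (by simp; omega)
  have a0 := h0 a ha
  have b0 := h0 b fun e => hb (List.mem_cons_of_mem _ e)
  have c0 := h0 c fun e => hc (List.mem_cons_of_mem _ (List.mem_cons_of_mem _ e))
  simp only [List.nodup_cons, List.mem_cons, List.not_mem_nil, or_false, not_or] at hl ha hb hc
  obtain ⟨⟨n1, n2, n3⟩, ⟨n4, n5⟩, n6, -⟩ := hl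
  obtain ⟨a1, a2, a3, a4⟩ := ha
  obtain ⟨b1, b2, b3, b4, b5⟩ := hb
  obtain ⟨c1, c2, c3, c4, c5, c6⟩ := hc
  obtain ⟨y, hy, yi, yj, yk, yl, ya, yb⟩ : ∃ y ∈ R, y i = x i ∧ y j = 0 ∧ y k = 0 ∧ y l = 0 ∧
      y a = x j ∧ y b = x k :=
    ⟨_, h.sw _ (h.sw x hx j a k b (Ne.symm a2) (Ne.symm b4)) l c j k (Ne.symm c6) n4, by
      refine ⟨?_, ?_, ?_, ?_, ?_, ?_⟩ <;> simp only [swap_apply_def] <;> grind⟩
  have e : x ⬝ᵥ y = x i ^ 2 := by
    rw [dot_supp {i, j, k, l} (fun m hm => h0 m (by simpa using hm)),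
      Finset.sum_insert (by simp [*]), Finset.sum_insert (by simp [*]), Finset.sum_pair n6, yi, yj,
      yk, yl]
    ring
  have hz := h.refl x hx y hy
  rw [e] at hz
  have h2 := h.two
  rcases h1 with h1 | h1
  · exact h.not_five dk h3 hz (i := j) (j := k) (k := l) (m := a) (n := b)
      (by simp; grind) (by simp [*]) (by simp [*]) (by simp [*]) (by simp [*]) (by simp [*])
  · exact h.not_five dk h3 hz (i := j) (j := k) (k := i) (m := a) (n := b)
      (by simp; grind) (by simp [*]) (by simp [*]) (fun e => by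
        simp only [Pi.sub_apply, yi, Pi.smul_apply, smul_eq_mul] at e
        exact h1 (mul_right_cancel₀ hi (by linear_combination -e))) (by simp [*]) (by simp [*])

theorem not_three (hx : x ∈ R) {i j k : κ} (hij : i ≠ j) (hik : i ≠ k) (hjk : j ≠ k)
    (hi : x i ≠ 0) (hj : x j ≠ 0) (hk : x k ≠ 0) : False := by
  by_cases h1 : ∃ l, l ∉ [i, j, k] ∧ x l ≠ 0
  · obtain ⟨l, h1, hl⟩ := h1
    simp only [List.mem_cons, List.not_mem_nil, or_false, not_or] at h1
    refine h.not_three_aux dk h3 h7 hx (l := l) (by simp [*]; grind) hi hj hk (fun m hm => ?_)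
      (Or.inl hl)
    by_contra h0
    simp only [List.mem_cons, List.not_mem_nil, or_false, not_or] at hm
    exact h.not_five dk h3 hx (by simp [*]; grind) hi hj hk hl h0
  push Not at h1
  obtain ⟨l, hl⟩ := exists_not_mem_list [i, j, k] (by simp; omega)
  simp only [List.mem_cons, List.not_mem_nil, or_false, not_or] at hl h1
  have e := h.norm x hx
  rw [dot_supp {i, j, k} (fun m hm => h1 m (by simpa using hm)), Finset.sum_insert (by simp [*]),
    Finset.sum_pair hjk] at e
  by_cases e1 : 2 * x i ^ 2 = 1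
  · by_cases e2 : 2 * x j ^ 2 = 1
    · exact hk (mul_self_eq_zero.1 (mul_left_cancel₀ h.two (by linear_combination 2 * e - e1 - e2)))
    · exact h.not_three_aux dk h3 h7 hx (l := l) (by simp [*]; grind) hj hi hk
        (fun m hm => h1 m (by simp at hm; grind)) (Or.inr e2)
  · exact h.not_three_aux dk h3 h7 hx (l := l) (by simp [*]; grind) hi hj hk
      (fun m hm => h1 m (by simp at hm; grind)) (Or.inr e1)

theorem two_sq (hx : x ∈ R) {i j : κ} (hij : i ≠ j) (hi : x i ≠ 0) (hj : x j ≠ 0) :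
    2 * x i ^ 2 = 1 := by
  have key : ∀ i j, i ≠ j → x i ≠ 0 → x j ≠ 0 → x i ^ 2 + x j ^ 2 = 1 ∧
      (4 * x i ^ 4 = 1 ∨ 4 * x i ^ 2 * x j ^ 2 = 1 ∨ 4 * x i ^ 2 = 3) := by
    intro i j hij hi hj
    have h0 : ∀ m, m ∉ ({i, j} : Finset κ) → x m = 0 := fun m hm => by
      by_contra h0
      simp only [Finset.mem_insert, Finset.mem_singleton, not_or] at hm
      exact h.not_three dk h3 h7 hx hij (Ne.symm hm.1) (Ne.symm hm.2) hi hj h0
    have e := h.norm x hx
    rw [dot_supp _ h0, Finset.sum_pair hij] at e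
    obtain ⟨a, ha⟩ := exists_not_mem_list [i, j] (by simp; omega)
    obtain ⟨b, hb⟩ := exists_not_mem_list [a, i, j] (by simp; omega)
    obtain ⟨c, hc⟩ := exists_not_mem_list [b, a, i, j] (by simp; omega)
    simp only [List.mem_cons, List.not_mem_nil, or_false, not_or] at ha hb hc
    obtain ⟨a1, a2⟩ := ha
    obtain ⟨b1, b2, b3⟩ := hb
    obtain ⟨c1, c2, c3, c4⟩ := hc
    have a0 := h0 a (by simp [*])
    obtain ⟨y, hy, yi, yj, y0⟩ : ∃ y ∈ R, y i = -x j ∧ y j = x i ∧
        ∀ m, m ∉ ({i, j} : Finset κ) → y m = 0 :=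
      ⟨_, h.flip (h.sw x hx i j a b hij (Ne.symm b1)) {i}, by simp only [swap_apply_def]; grind,
        by simp only [swap_apply_def]; grind, fun m hm => by
        simp only [Finset.mem_insert, Finset.mem_singleton, not_or] at hm
        rw [if_neg (by simpa using hm.1)]
        refine h0 _ ?_
        simp only [swap_apply_def]
        split_ifs <;> simp_all⟩
    obtain ⟨z, hz, zi, zj⟩ : ∃ z ∈ R, z i = x i ∧ z j = 0 :=
      ⟨_, h.sw x hx j a b c (Ne.symm a2) (Ne.symm c1), by simp only [swap_apply_def]; grind,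
        by simp only [swap_apply_def]; grind⟩
    have := dk x hx y hy z hz (by rw [dot_supp _ h0, Finset.sum_pair hij, yi, yj]; ring)
    rw [dot_supp _ h0, dot_supp _ y0, Finset.sum_pair hij, Finset.sum_pair hij, yi, yj, zi, zj]
      at this
    refine ⟨by linear_combination e, ?_⟩
    rcases this (by simpa) (by simp [hi, hj]) (fun e' => pow_ne_zero 2 hj (by
      linear_combination e' + (1 + x i ^ 2) * e)) with e' | e' | e'
    · exact Or.inl (by linear_combination e')
    · exact Or.inr (Or.inl (by linear_combination e'))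
    · exact Or.inr (Or.inr (by linear_combination e' - 4 * x i ^ 2 * e))
  obtain ⟨e, e1⟩ := key i j hij hi hj
  obtain ⟨-, e2⟩ := key j i hij.symm hj hi
  have h2 := h.two
  have k : 4 * x i ^ 2 * x j ^ 2 = 1 → 2 * x i ^ 2 = 1 := fun e' => by
    have : (2 * x i ^ 2 - 1) ^ 2 = 0 := by linear_combination 4 * x i ^ 2 * e - e'
    linear_combination (pow_eq_zero_iff two_ne_zero).1 this
  rcases e1 with e1 | e1 | e1
  · rcases e2 with e2 | e2 | e2
    · exact mul_left_cancel₀ (mul_ne_zero h2 h2) (by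
        linear_combination e1 - e2 + (4 - 4 * x i ^ 2 + 4 * x j ^ 2) * e)
    · exact k (by linear_combination e2)
    · exact absurd (by linear_combination -4 * e1 + (4 * x i ^ 2 + 1) * (4 * e - e2)) h3
  · exact k e1
  · rcases e2 with e2 | e2 | e2
    · exact absurd (by linear_combination -4 * e2 + (4 * x j ^ 2 + 1) * (4 * e - e1)) h3
    · exact k (by linear_combination e2)
    · exact absurd (by linear_combination 4 * e - e1 - e2) h2

end RSys

end H12
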