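import Cfsg.Agent.H12.OF5
import Cfsg.Agent.H12.OmegaMore

/-!
# Stabilisers of orthogonal frames over prime fields
-/

set_option autoImplicit false
set_option maxHeartbeats 400000

namespace H12

open Module H11 QuadraticMap Equiv

/-- Two involutions are conjugate or centralised by a common element. -/
theorem dihedral_alt {G : Type*} [Group G] [Finite G] {X : Subgroup G} {z y : G} (hz : z ∈ X)
    (hy : y ∈ X) (h1 : z * z = 1) (h2 : y * y = 1) : (∃ k ∈ X, y = k * z * k⁻¹) ∨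
      ∃ c ∈ X, c ≠ 1 ∧ Commute c z ∧ Commute c y ∧
        ∃ k ∈ X, c * z = k * z * k⁻¹ ∨ c * y = k * z * k⁻¹ := by
  obtain ⟨r, hr, e⟩ : ∃ r ∈ X, y = r * z := ⟨y * z, mul_mem hy hz, by rw [mul_assoc, h1, mul_one]⟩
  have h3 : SemiconjBy z r⁻¹ r := by
    have : r * z * r = z := by
      have := congrArg (· * z) h2
      simpa only [e, mul_assoc, h1, mul_one, one_mul] using this
    rw [SemiconjBy, mul_inv_eq_iff_eq_mul, this]
  have h4 : ∀ k : ℕ, r ^ (2 * k) * z = r ^ k * z * (r ^ k)⁻¹ := fun k => by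
    rw [mul_assoc, ← inv_pow, (h3.pow_right k).eq, ← mul_assoc, ← pow_add, two_mul]
  have h5 := pow_orderOf_eq_one r
  obtain ⟨m, hm | hm⟩ := Nat.even_or_odd' (orderOf r)
  swap
  · refine Or.inl ⟨_, pow_mem hr (m + 1), ?_⟩
    rw [← h4, e, show 2 * (m + 1) = orderOf r + 1 by omega, pow_succ, h5, one_mul]
  have h6 := orderOf_pos r
  have h7 : Commute (r ^ m) z := by
    have : (r ^ m)⁻¹ = r ^ m := by rw [inv_eq_iff_mul_eq_one, ← pow_add, ← two_mul, ← hm, h5]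
    have h := (h3.pow_right m).eq
    rw [inv_pow, this] at h
    exact h.symm
  refine Or.inr ⟨_, pow_mem hr m, pow_ne_one_of_lt_orderOf (by omega) (by omega), h7,
    e ▸ (Commute.self_pow r m).symm.mul_right h7, ?_⟩
  obtain ⟨k, hk | hk⟩ := Nat.even_or_odd' m
  · exact ⟨_, pow_mem hr k, Or.inl (by rw [← h4, hk])⟩
  · exact ⟨_, pow_mem hr (k + 1), Or.inr (by rw [← h4, e, ← mul_assoc, ← pow_succ, hk]; rfl)⟩

variable {F : Type*} [Field F] {V : Type*} [AddCommGroup V] [Module F V]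
  {Q : QuadraticForm F V} {X : Subgroup (V ≃ₗ[F] V)} {κ : Type*} {e : κ → V} {δ : F}
  {g k : V ≃ₗ[F] V}

local notation "𝓒" => CForm.ofQuad Q
local notation "𝐜" => co Q e δ

variable (F e) in
/-- The lines of a frame. -/
def frD (i : κ) : Submodule F V := Submodule.span F {e i}

local notation "𝐌" => decStab (frD F e)

theorem of_mem_frD (h0 : ∀ i, e i ≠ 0) (hg : g ∈ 𝐌) (i : κ) :
    ∃ j, ∃ c : F, c ≠ 0 ∧ g (e i) = c • e j := by
  obtain ⟨σ, hσ⟩ := hg
  obtain ⟨c, hc⟩ := Submodule.mem_span_singleton.1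
    ((hσ i).le (Submodule.mem_map_of_mem (Submodule.mem_span_singleton_self _)))
  refine ⟨σ i, c, ?_, hc.symm⟩
  rintro rfl
  exact h0 i (g.injective (by simpa using hc.symm))

namespace OFrame

variable (h : OFrame Q e δ)
include h

theorem e_ne (i : κ) : e i ≠ 0 := ne_of_apply_ne Q ((h.ne0 i).trans_eq (map_zero Q).symm)

variable [DecidableEq κ]

theorem eq_smul {x : V} {i : κ} (H : ∀ l, l ≠ i → 𝐜 x l = 0) : x = 𝐜 x i • e i :=
  h.co_inj (by
    ext l
    rw [map_smul, h.co_e]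
    by_cases e : l = i
    · simp [e]
    · simp [H l e, sE_ne e])

theorem co_smul_e (c : F) (i l : κ) : 𝐜 (c • e i) l = if l = i then c else 0 := by
  simp [h.co_e, sE_apply]

omit [DecidableEq κ] in
theorem frD_inj : Function.Injective (frD F e) := fun i j H => by
  by_contra hij
  obtain ⟨c, hc⟩ := Submodule.mem_span_singleton.1
    (H.le (Submodule.mem_span_singleton_self (e i)))
  have := h.orth j i (Ne.symm hij)
  rw [← hc, polar_smul_right, polar_self', h.norm, smul_eq_mul, mul_eq_zero,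
    or_iff_left h.ne2] at this
  exact h.e_ne i (by rw [← hc, this, zero_smul])

variable [Fintype κ]

omit [DecidableEq κ] in
theorem mem_dec [FiniteDimensional F V] (H : ∀ i, ∃ j, ∃ c : F, g (e i) = c • e j) : g ∈ 𝐌 := by
  refine mem_decStab_of_exists h.frD_inj fun i => ?_
  obtain ⟨j, c, e1⟩ := H i
  refine ⟨j, ?_⟩
  rw [frD, Submodule.map_span, Set.image_singleton, LinearEquiv.coe_coe, e1, frD,
    Submodule.span_singleton_smul_eq (IsUnit.mk0 c ?_)]
  rintro rfl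
  exact h.e_ne i (g.injective (by simpa using e1))

theorem refl_e_mem [FiniteDimensional F V] (i : κ) : (refl Q (e i)).1 ∈ 𝐌 :=
  h.mem_dec fun j => ⟨j, _, h.eq_smul fun l hl => by rw [h.co_refl_e, h.co_e, sE_ne hl]; simp⟩

theorem refl_sw_mem [FiniteDimensional F V] {a b : κ} (hab : a ≠ b) :
    (refl Q (e a - e b)).1 ∈ 𝐌 :=
  h.mem_dec fun j => ⟨swap a b j, _, h.eq_smul fun l hl => by
    rw [h.co_swap hab, h.co_e, sE_ne]
    rintro rfl
    exact hl (swap_apply_self _ _ _).symm⟩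

end OFrame

variable (Q X e δ) in
/-- An overgroup of the stabiliser of a frame. -/
structure FrX : Prop extends OFrame Q e δ where
  le : X ≤ OmegaV Q
  ge : 𝐌 ⊓ OmegaV Q ≤ X

namespace FrX

variable (h : FrX Q X e δ)
include h

theorem mem_orth (hg : g ∈ X) : g ∈ H12.orth Q := OmegaV_le (h.le hg)

variable [DecidableEq κ] [Fintype κ] [FiniteDimensional F V]

omit [DecidableEq κ] [Fintype κ] in
theorem rr {x y : V} (hx : (refl Q x).1 ∈ 𝐌) (hy : (refl Q y).1 ∈ 𝐌) (h1 : Q x ≠ 0) (h2 : Q y ≠ 0)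
    (h3 : IsSquare (Q x * Q y)) : RR Q X x y :=
  ⟨h1, h2, h.ge ⟨mul_mem hx hy, (rr_of_isSquare h.nd h1 h2 h3).2.2⟩⟩

theorem rr_e (i j : κ) : RR Q X (e i) (e j) :=
  h.rr (h.refl_e_mem i) (h.refl_e_mem j) (h.ne0 i) (h.ne0 j) ⟨δ, by rw [h.norm, h.norm]⟩

theorem rr_sw {a b c d : κ} (h1 : a ≠ b) (h2 : c ≠ d) : RR Q X (e a - e b) (e c - e d) :=
  h.rr (h.refl_sw_mem h1) (h.refl_sw_mem h2) ((h.Q_sub h1).trans_ne h.ne2)
    ((h.Q_sub h2).trans_ne h.ne2) ⟨2 * δ, by rw [h.Q_sub h1, h.Q_sub h2]⟩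

theorem rr_mon (hg : g ∈ 𝐌) (i j : κ) : RR Q X (g (e i)) (e j) := by
  obtain ⟨l, c, hc, e1⟩ := of_mem_frD h.e_ne hg i
  rw [e1]
  exact (h.rr_e l j).smul hc

variable [Fintype F] (hp : (Fintype.card F).Prime) (h7 : 7 ≤ Fintype.card κ)
  (hn : ¬ OmegaV Q ≤ X)
include hp h7 hn

theorem small {x : V} {a : κ} (hx : RR Q X x (e a)) (hx' : Q x = δ) {i j : κ} (hij : i ≠ j)
    (hi : 𝐜 x i ≠ 0) (hj : 𝐜 x j ≠ 0) : 2 * 𝐜 x i ^ 2 = 1 ∧ ∀ k, k ≠ i → k ≠ j → 𝐜 x k = 0 := by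
  obtain ⟨Y, h1, h2, h3, h4⟩ := exists_ext h.nd (notExc_of_two_ne_zero h.two) h.le (h.ne0 a)
  have hY : FrY Q Y e δ := ⟨h.toOFrame, h1, fun i => h2 _ (h.rr_e i a), fun a b c d h5 h6 =>
    h3 _ (h.rr_sw h5 h6).2.2 (h.rr_mon (mul_mem (h.refl_sw_mem h5) (h.refl_sw_mem h6)) _ _)⟩
  exact hY.small hp h7 (fun H => hn fun y hy => h4 y (H hy) hy) ⟨hx', h2 x hx⟩ hij hi hj

theorem mon_of_rr (hg : g ∈ X) {i a : κ} (h1 : RR Q X (g (e i)) (e a)) : g ∈ 𝐌 := by
  have hg' := h.mem_orth hg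
  have h2 : ∀ x j, RR Q X x (e j) → RR Q X (g x) (e a) := fun x j H =>
    ((H.trans (h.rr_e j i)).conj hg hg').trans h1
  have h3 : ∀ j, Q (g (e j)) = δ := fun j => (orth_Q ⟨g, hg'⟩ _).trans (h.norm j)
  refine h.mem_dec fun j => ?_
  by_contra hc
  obtain ⟨b, hb⟩ : ∃ b, 𝐜 (g (e j)) b ≠ 0 := by
    by_contra h0
    push Not at h0
    exact hc ⟨j, _, h.eq_smul fun l _ => h0 l⟩
  obtain ⟨c, hcb, hc'⟩ : ∃ c, c ≠ b ∧ 𝐜 (g (e j)) c ≠ 0 := by
    by_contra h0
    push Not at h0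
    exact hc ⟨b, _, h.eq_smul h0⟩
  obtain ⟨h4, h5⟩ := h.small hp h7 hn (h2 _ _ (h.rr_e j j)) (h3 j) hcb.symm hb hc'
  obtain ⟨d, hd⟩ := exists_not_mem_list [b, c] (by simp; omega)
  simp only [List.mem_cons, List.not_mem_nil, or_false, not_or] at hd
  have h6 : ∀ l, 𝐜 (g (e l)) d = 0 := by
    intro l
    by_cases hl : l = j
    · rw [hl]; exact h5 d hd.1 hd.2
    by_contra h0
    obtain ⟨m, hm⟩ := exists_not_mem_list [j, l] (by simp; omega)
    simp only [List.mem_cons, List.not_mem_nil, or_false, not_or] at hm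
    have k1 : RR Q X (e j - e l) (e j) := h.rr (h.refl_sw_mem (Ne.symm hl)) (h.refl_e_mem j)
      ((h.Q_sub (Ne.symm hl)).trans_ne h.ne2) (h.ne0 j) ⟨δ / 𝐜 (g (e j)) b, by
        rw [h.Q_sub (Ne.symm hl), h.norm]; field_simp; linear_combination δ ^ 2 * h4⟩
    have k2 := k1.map (h.rr_e l m).2.2 (h.mem_orth (h.rr_e l m).2.2)
      (h.rr_mon (mul_mem (h.refl_e_mem l) (h.refl_e_mem m)) j j)
    rw [h.co_inj (x := (refl Q (e l) * refl Q (e m)).1 _) (y := e j + e l) (by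
      ext p
      simp only [orth_mul_apply, h.co_refl_e, map_add, map_sub, h.co_e, Pi.add_apply, Pi.sub_apply,
        sE_apply]
      grind)] at k2
    have k3 : ∀ x, RR Q X x (e j) → Q x = 2 * δ → 𝐜 (g x) d ≠ 0 →
        𝐜 (g x) b = 0 ∨ 𝐜 (g x) c = 0 := fun x h8 h9 h10 => by
      by_contra h11
      push Not at h11
      have := (h.small hp h7 hn ((h2 x j h8).smul hb) (by
        rw [Q_smul, show Q (g x) = Q x from orth_Q ⟨g, hg'⟩ x, h9]; linear_combination δ * h4)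
        hcb.symm (by simp [h11, hb]) (by simp [h11, hb])).2 d hd.1 hd.2
      simp [hb, h10] at this
    have k4 := k3 _ k1 (h.Q_sub (Ne.symm hl)) (by simpa [h5 d hd.1 hd.2] using h0)
    have k5 := k3 _ k2 (by rw [Q_add, h.norm, h.norm, h.orth _ _ (Ne.symm hl)]; ring)
      (by simpa [h5 d hd.1 hd.2] using h0)
    have k6 := fun h8 h9 => (h.small hp h7 hn (h2 _ _ (h.rr_e l l)) (h3 l) hcb.symm h8 h9).2 d
      hd.1 hd.2
    simp only [map_add, map_sub, Pi.add_apply, Pi.sub_apply] at k4 k5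
    have := h.two
    grind
  have := congrArg (fun x => 𝐜 (g x) d) (h.sum_co (g⁻¹ (e d)))
  simp [h6, apply_inv_apply, h.co_e] at this

theorem le_of_odd (ho : Odd (Fintype.card κ)) : X ≤ 𝐌 := by
  intro g hg
  obtain ⟨a⟩ : Nonempty κ := Fintype.card_pos_iff.1 (by omega)
  have hne : NotExc F V := notExc_of_two_ne_zero h.two
  have h1 : (negOne Q * refl Q (e a)).1 ∈ X := by
    have := fun θ : H12.orth Q →* ℤˣ => map_negOne e h.ne0 h.orth (eq_top_iff.2 fun x _ => by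
      rw [← h.sum_co x]
      exact Submodule.sum_mem _ fun i _ => Submodule.smul_mem _ _ (Submodule.subset_span ⟨i, rfl⟩)) θ
    refine h.ge ⟨mul_mem (h.mem_dec fun i => ⟨i, -1, by simp [negOne_apply]⟩) (h.refl_e_mem a),
      mem_OmegaV.2 ((mem_commutator_iff h.nd hne _).2 ⟨?_, ?_⟩)⟩ <;> rw [map_mul, this]
    · simp [dickson_refl h.nd hne (h.ne0 _), ho.neg_one_pow]
    · simp only [spinor_refl h.nd hne (h.ne0 _), h.norm, Finset.prod_const, Finset.card_univ]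
      obtain ⟨m, hm⟩ := ho.add_one
      rw [← pow_succ, hm, ← two_mul, pow_mul, Int.units_sq, one_pow]
  refine h.mon_of_rr hp h7 hn hg (i := a) (a := a)
    ⟨(orth_Q ⟨g, h.mem_orth hg⟩ _).trans_ne (h.ne0 a), h.ne0 a, ?_⟩
  convert mul_mem (mul_mem (mul_mem hg h1) (inv_mem hg)) h1 using 1
  rw [← show _ = refl Q (g (e a)) from refl_conj ⟨g, h.mem_orth hg⟩ _]
  ext x
  simp [negOne_apply]

end FrX

end H12
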