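import Cfsg.Agent.H12.OF6
import Cfsg.Agent.H12.Mon3

/-!
# Maximality of the stabilisers of orthogonal frames
-/

set_option autoImplicit false
set_option maxHeartbeats 400000

namespace H12

open Module H11 QuadraticMap Equiv

variable {F : Type*} [Field F] {V : Type*} [AddCommGroup V] [Module F V]
  {Q : QuadraticForm F V} {X : Subgroup (V ≃ₗ[F] V)} {κ : Type*} [DecidableEq κ] {e : κ → V}
  {δ : F} {g k : V ≃ₗ[F] V}

local notation "𝓒" => CForm.ofQuad Q
local notation "𝐜" => co Q e δ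
local notation "𝐌" => decStab (frD F e)

theorem flip_alt [Fintype κ] (h2 : (2 : F) ≠ 0) {v w : κ → F} (hv : v ⬝ᵥ v = 1) {J : Finset κ}
    (hw : ∀ p, w p = if p ∈ J then -v p else v p) (h : (∃ c : F, w = c • v) ∨ v ⬝ᵥ w = 0) {l : κ}
    (hl : l ∈ J) (h0 : v l ≠ 0) : (∀ p, p ∉ J → v p = 0) ∨ 2 * ∑ m ∈ J, v m * v m = 1 := by
  refine h.imp (fun H p hp => ?_) fun h => ?_
  · obtain ⟨c, hc⟩ := H
    have h1 := congrFun hc l
    have h3 := congrFun hc p
    rw [hw, if_pos hl, Pi.smul_apply, smul_eq_mul] at h1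
    rw [hw, if_neg hp, Pi.smul_apply, smul_eq_mul,
      mul_right_cancel₀ h0 (show c * v l = -1 * v l by rw [← h1, neg_one_mul])] at h3
    exact mul_left_cancel₀ h2 (by linear_combination h3)
  · rw [← hv, ← sub_zero (v ⬝ᵥ v), ← h, ← dotProduct_sub, dotProduct_comm,
      dot_supp J (fun m hm => by simp [hw, hm]), Finset.mul_sum]
    exact Finset.sum_congr rfl fun m hm => by simp [hw, hm]; ring

variable (Q e δ) in
/-- `k` changes the signs of the coordinates in `J`. -/
def Dg (k : V ≃ₗ[F] V) (J : Finset κ) : Prop :=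
  ∀ x p, 𝐜 (k x) p = if p ∈ J then -𝐜 x p else 𝐜 x p

theorem Dg.mul {J J' : Finset κ} (h : Dg Q e δ g J) (h' : Dg Q e δ k J') :
    Dg Q e δ (g * k) (symmDiff J J') := fun x p => by
  rw [LinearEquiv.mul_apply, h, h']
  simp only [Finset.mem_symmDiff]
  grind

variable (Q e) in
/-- The product of two reflections of the frame. -/
def zz (a b : κ) : V ≃ₗ[F] V := (refl Q (e a) * refl Q (e b)).1

namespace OFrame

variable (h : OFrame Q e δ)
include h

theorem dg_zz {a b : κ} (hab : a ≠ b) : Dg Q e δ (zz Q e a b) {a, b} := fun x p => by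
  simp only [zz, orth_mul_apply, h.co_refl_e]
  grind

theorem dg_empty (H : Dg Q e δ k ∅) : k = 1 := by
  ext x; exact h.co_inj (funext fun p => by simpa using H x p)

theorem dg_sq {J : Finset κ} (H : Dg Q e δ k J) : k * k = 1 :=
  h.dg_empty (by simpa using H.mul H)

theorem dg_unique {J J' : Finset κ} (H : Dg Q e δ k J) (H' : Dg Q e δ k J') : J = J' := by
  ext p
  have := (H (e p) p).symm.trans (H' (e p) p)
  have := h.two
  rw [h.co_e, sE_same] at *
  grind

variable [Fintype κ] [FiniteDimensional F V]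

theorem dg_mem {J : Finset κ} (H : Dg Q e δ k J) : k ∈ 𝐌 :=
  h.mem_dec fun j => ⟨j, _, h.eq_smul fun l hl => by rw [H, h.co_e, sE_ne hl]; simp⟩

omit [Fintype κ] [FiniteDimensional F V] in
theorem dg_conj (hg : g ∈ 𝐌) (hg' : g ∈ H12.orth Q) {a b : κ} (hab : a ≠ b) :
    ∃ a' b', Dg Q e δ (g * zz Q e a b * g⁻¹) {a', b'} := by
  obtain ⟨a', c, hc, e1⟩ := of_mem_frD h.e_ne hg a
  obtain ⟨b', d, hd, e2⟩ := of_mem_frD h.e_ne hg b
  refine ⟨a', b', ?_⟩
  convert h.dg_zz (a := a') (b := b') ?_ using 1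
  · rw [zz, zz, ← refl_smul hc (e a'), ← refl_smul hd (e b'), ← e1, ← e2,
      ← show _ = refl Q (g (e a)) from refl_conj ⟨g, hg'⟩ _,
      ← show _ = refl Q (g (e b)) from refl_conj ⟨g, hg'⟩ _]
    simp [mul_assoc]
  · rintro rfl
    have := (orth_polar ⟨g, hg'⟩ (e a) (e b)).trans (h.orth _ _ hab)
    simp only [e1, e2, polar_smul_left, polar_smul_right, polar_self', h.norm] at this
    simp [hc, hd, h.two, h.ne] at this

end OFrame

namespace FrX

variable [Fintype κ] [FiniteDimensional F V] (h : FrX Q X e δ)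
include h

theorem zz_mem (a b : κ) : zz Q e a b ∈ X := (h.rr_e a b).2.2

variable [Fintype F] (hp : (Fintype.card F).Prime) (h10 : 10 ≤ Fintype.card κ)
  (hn : ¬ OmegaV Q ≤ X)
include hp h10 hn

theorem mon_of_eq (hg : g ∈ X) {i j : κ} {c : F} (H : g (e i) = c • e j) : g ∈ 𝐌 :=
  h.mon_of_rr hp (by omega) hn hg (i := i) (a := j) (H ▸ (h.rr_e j j).smul (by
    rintro rfl
    exact h.e_ne i (g.injective (by simpa using H))))

/-- The zero bound. -/
theorem zb (hg : g ∈ X) {a : κ} {Z : Finset κ} (h5 : 5 ≤ Z.card)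
    (h6 : Fintype.card κ ≤ 2 * Z.card) (h0 : ∀ l ∈ Z, 𝐜 (g (e a)) l = 0) : g ∈ 𝐌 := by
  classical
  by_contra hc
  have hg' := h.mem_orth hg
  have n1 : ∀ b, 𝐜 (g (e b)) ⬝ᵥ 𝐜 (g (e b)) = 1 := fun b =>
    h.dot_self ((orth_Q ⟨g, hg'⟩ _).trans (h.norm b))
  have A : ∀ k ∈ X, k (g (e a)) = g (e a) → ∀ b, (∃ c : F, 𝐜 (k (g (e b))) = c • 𝐜 (g (e b))) ∨
      𝐜 (g (e b)) ⬝ᵥ 𝐜 (k (g (e b))) = 0 := by
    intro k hk H b
    obtain ⟨j, c, -, e1⟩ := of_mem_frD h.e_ne (h.mon_of_eq hp h10 hn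
      (mul_mem (mul_mem (inv_mem hg) hk) hg) (i := a) (j := a) (c := 1)
      (by simp [H, inv_apply_apply])) b
    have e2 : k (g (e b)) = c • g (e j) := by
      rw [← map_smul, ← e1]; simp [apply_inv_apply]
    by_cases hj : j = b
    · exact Or.inl ⟨c, by rw [e2, hj, map_smul]⟩
    · refine Or.inr (mul_left_cancel₀ h.ne2 ?_)
      rw [← h.polar_eq, e2, polar_smul_right,
        show polar Q _ _ = _ from orth_polar ⟨g, hg'⟩ _ _, h.orth _ _ (Ne.symm hj)]
      simp
  have B : ∀ k ∈ X, ∀ J ⊆ Z, Dg Q e δ k J → ∀ b, ∀ l ∈ J, 𝐜 (g (e b)) l ≠ 0 →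
      (∀ p, p ∉ J → 𝐜 (g (e b)) p = 0) ∨ 2 * ∑ m ∈ J, 𝐜 (g (e b)) m * 𝐜 (g (e b)) m = 1 :=
    fun k hk J hJ H b l hl => flip_alt h.two (n1 b) (H _) (A k hk (h.co_inj (by
      ext p
      rw [H]
      split_ifs with hp
      · rw [h0 p (hJ hp), neg_zero]
      · rfl)) b) hl
  have C : ∀ b, ∀ l ∈ Z, ∀ m ∈ Z, 𝐜 (g (e b)) l ≠ 0 → 𝐜 (g (e b)) m ≠ 0 → l = m := by
    intro b l hl m hm h1 h2
    by_contra hlm
    have ex : ∀ s : Finset κ, s.card < 5 → ∃ p ∈ Z, p ∉ s := fun s hs =>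
      Finset.exists_mem_notMem_of_card_lt_card (by omega)
    obtain ⟨p, hp, h3⟩ := ex {l, m} (Finset.card_le_two.trans_lt (by omega))
    obtain ⟨q, hq, h4⟩ := ex {p, l, m} (Finset.card_le_three.trans_lt (by omega))
    obtain ⟨r, hr, h7⟩ := ex {q, p, l, m} (Finset.card_le_four.trans_lt (by omega))
    simp only [Finset.mem_insert, Finset.mem_singleton, not_or] at h3 h4 h7
    generalize hv : 𝐜 (g (e b)) = v at *
    have h8 : ¬ ∀ t, t ∉ ({l, m} : Finset κ) → v t = 0 := by
      intro H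
      have e1 : ∀ x t, 𝐜 ((refl Q (e m - e p) * refl Q (e q - e r)).1 x) t =
          𝐜 x (swap q r (swap m p t)) := fun x t => by
        rw [orth_mul_apply, h.co_swap (Ne.symm h3.2), h.co_swap (Ne.symm h7.1)]
      have := A _ (h.rr_sw (Ne.symm h3.2) (Ne.symm h7.1)).2.2 (h.co_inj (by
        ext t; rw [e1]; simp only [swap_apply_def]; grind)) b
      rw [dot_supp _ (hv ▸ H), Finset.sum_pair hlm, e1, e1, hv] at this
      rcases this with ⟨c, hc⟩ | hc
      · have := congrFun hc p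
        rw [e1, hv, Pi.smul_apply] at this
        simp only [swap_apply_def, smul_eq_mul] at this
        grind
      · simp only [swap_apply_def] at hc
        grind
    have D : ∀ s ∈ Z, ∀ t ∈ Z, s ≠ t → v s ≠ 0 → 2 * (v s * v s + v t * v t) = 1 := by
      intro s hs t ht hst h9
      have := B _ (h.zz_mem s t) _ (by simp [Finset.insert_subset_iff, *]) (h.dg_zz hst) b s
        (by simp) (hv ▸ h9)
      rw [Finset.sum_pair hst, hv] at this
      exact this.resolve_left fun H => h8 (by grind)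
    have d1 := D l hl m hm hlm h1
    have E : ∀ t ∈ Z, t ≠ l → t ≠ m → 4 * (v t * v t) = 1 := fun t ht h9 h10 => by
      linear_combination D l hl t ht h9.symm h1 + D m hm t ht h10.symm h2 - d1
    have := B _ (mul_mem (h.zz_mem l m) (h.zz_mem p q)) {l, m, p, q}
      (by simp [Finset.insert_subset_iff, *]) (by
        convert (h.dg_zz hlm).mul (h.dg_zz (Ne.symm h4.1)) using 1
        ext t; simp only [Finset.mem_symmDiff]; grind) b l (by simp) (hv ▸ h1)
    rw [hv, Finset.sum_insert (by grind), Finset.sum_insert (by grind),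
      Finset.sum_pair (Ne.symm h4.1)] at this
    rcases this with H | H
    · have := E r hr h7.2.2.1 h7.2.2.2
      rw [H r (by grind)] at this
      simp at this
    · exact h.two (by
        linear_combination 2 * H - 2 * d1 - E p hp h3.1 h3.2 - E q hq h4.2.1 h4.2.2)
  have D : ∀ l, 2 ≤ (Finset.univ.filter fun b => 𝐜 (g (e b)) l ≠ 0).card := by
    intro l
    by_contra hl
    haveI : Nonempty κ := ⟨l⟩
    obtain ⟨b, hb⟩ := Finset.card_le_one_iff_subset_singleton.1 (not_lt.1 hl)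
    refine hc (inv_mem_iff.1 (h.mon_of_eq hp h10 hn (inv_mem hg) (i := l) (j := b)
      (h.eq_smul fun p hp => ?_)))
    have : 𝐜 (g (e p)) l = 0 := by
      by_contra H
      exact hp (Finset.mem_singleton.1 (hb (by simpa using H)))
    rw [co_apply, ← show polar Q (g _) (g _) = _ from orth_polar ⟨g, hg'⟩ _ _, apply_inv_apply,
      polar_comm]
    exact this
  have h7 := Finset.card_biUnion (s := Z)
    (t := fun l => Finset.univ.filter fun b => 𝐜 (g (e b)) l ≠ 0) fun l hl m hm hlm =>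
      Finset.disjoint_filter.2 fun b _ h1 h2 => hlm (C b l hl m hm h1 h2)
  have h8 := Finset.card_nsmul_le_sum Z _ 2 fun l _ => D l
  have h9 := Finset.card_lt_univ_of_notMem (s := Z.biUnion fun l =>
    Finset.univ.filter fun b => 𝐜 (g (e b)) l ≠ 0) (x := a) (by simpa using h0)
  rw [smul_eq_mul] at h8
  omega

/-- The centraliser of a non-scalar diagonal matrix is monomial. -/
theorem ce {J : Finset κ} (H : Dg Q e δ k J) (h1 : J ≠ ∅) (h2 : J.card ≤ 6) (hg : g ∈ X)
    (hc : Commute k g) : g ∈ 𝐌 := by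
  have h3 := Finset.card_compl J
  have h4 : ∀ x, k (g x) = g (k x) := fun x => congrArg (· x) hc.eq
  by_cases h5 : Fintype.card κ ≤ 2 * J.card
  · obtain ⟨i, hi⟩ := Finset.card_pos.1 (show 0 < Jᶜ.card by omega)
    rw [Finset.mem_compl] at hi
    refine h.zb hp h10 hn hg (a := i) (by omega) h5 fun l hl => ?_
    have := H (g (e i)) l
    rw [h4, h.co_inj (x := k (e i)) (y := e i) (by
      ext p; rw [H, h.co_e, sE_apply]; grind), if_pos hl] at this
    exact mul_left_cancel₀ h.two (by linear_combination this)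
  · obtain ⟨i, hi⟩ := Finset.nonempty_iff_ne_empty.2 h1
    refine h.zb hp h10 hn hg (a := i) (Z := Jᶜ) (by omega) (by omega) fun l hl => ?_
    have := H (g (e i)) l
    rw [h4, h.co_inj (x := k (e i)) (y := -e i) (by
      ext p; rw [H, map_neg, Pi.neg_apply, h.co_e, sE_apply]; grind), if_neg (by simpa using hl),
      map_neg, map_neg, Pi.neg_apply] at this
    exact mul_left_cancel₀ h.two (by linear_combination -this)

theorem ll (hg : g ∈ X) {a b : κ} (hab : a ≠ b) (H : g * zz Q e a b * g⁻¹ ∈ 𝐌) : g ∈ 𝐌 := by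
  classical
  have hg' := h.mem_orth hg
  have n1 : ∀ b, Q (g (e b)) = δ := fun b => (orth_Q ⟨g, hg'⟩ _).trans (h.norm b)
  have n2 : 𝐜 (g (e a)) ⬝ᵥ 𝐜 (g (e b)) = 0 := mul_left_cancel₀ h.ne2 (by
    rw [← h.polar_eq, mul_zero]; exact (orth_polar ⟨g, hg'⟩ _ _).trans (h.orth _ _ hab))
  choose σ c hc e1 using of_mem_frD h.e_ne H
  have e2 : ∀ l p, (if p = σ l then c l else 0) - (if p = l then 1 else 0) =
      -2 * (𝐜 (g (e a)) l * 𝐜 (g (e a)) p + 𝐜 (g (e b)) l * 𝐜 (g (e b)) p) := by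
    intro l p
    rw [← h.co_smul_e, ← e1, show (g * zz Q e a b * g⁻¹) (e l) =
      (refl Q (g (e a))).1 ((refl Q (g (e b))).1 (e l)) by
        rw [zz, ← show _ = refl Q (g (e a)) from refl_conj ⟨g, hg'⟩ _,
          ← show _ = refl Q (g (e b)) from refl_conj ⟨g, hg'⟩ _]
        simp [inv_apply_apply], h.co_refl (n1 a), h.co_refl (n1 b), h.co_e]
    simp only [dotProduct_sub, dotProduct_smul, n2, dot_sE, Pi.sub_apply, Pi.smul_apply,
      smul_eq_mul, sE_apply]
    ring
  have n3 := h.dot_self (n1 a)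
  generalize hv : 𝐜 (g (e a)) = v at *
  generalize 𝐜 (g (e b)) = w at *
  have e3 : ∀ l, v l ≠ 0 → (if l = σ l then c l else 0) - 1 ≠ 0 := by
    intro l hl h0
    have h1 : l = σ l ∧ c l = 1 := by grind
    have h2 : v l • v + w l • w = 0 := funext fun p => mul_left_cancel₀ (neg_ne_zero.2 h.two) (by
      have := e2 l p
      rw [← h1.1, h1.2, sub_self] at this
      simpa using this.symm)
    have := congrArg (v ⬝ᵥ ·) h2
    simp [n2, n3, hl] at this
  have h4 : (Finset.univ.filter fun l => v l ≠ 0).card ≤ 4 := by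
    by_contra h4
    have ex : ∀ s : Finset κ, s.card < 5 → ∃ p, v p ≠ 0 ∧ p ∉ s := fun s hs => by
      simpa using Finset.exists_mem_notMem_of_card_lt_card (s := s)
        (t := Finset.univ.filter fun l => v l ≠ 0) (by omega)
    obtain ⟨p, hp, -⟩ := ex ∅ (by simp)
    obtain ⟨q, hq, h5⟩ := ex {p, σ p} (Finset.card_le_two.trans_lt (by omega))
    obtain ⟨r, hr, h6⟩ := ex {q, σ q, p, σ p} (Finset.card_le_four.trans_lt (by omega))
    simp only [Finset.mem_insert, Finset.mem_singleton, not_or] at h5 h6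
    obtain ⟨x, y, z, h7, h8, h9⟩ := exists_ker_three (LinearMap.fst F F F) (LinearMap.snd F F F)
      (v p, w p) (v q, w q) (v r, w r)
    simp only [LinearMap.fst_apply, LinearMap.snd_apply, Prod.smul_mk, Prod.mk_add_mk,
      smul_eq_mul] at h8 h9
    have k : ∀ t, x * ((if t = σ p then c p else 0) - if t = p then 1 else 0) +
        y * ((if t = σ q then c q else 0) - if t = q then 1 else 0) +
        z * ((if t = σ r then c r else 0) - if t = r then 1 else 0) = 0 := fun t => by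
      rw [e2, e2, e2]; linear_combination -2 * v t * h8 - 2 * w t * h9
    have k1 : z = 0 := by simpa [h6, e3 r hr] using k r
    have k2 : y = 0 := by simpa [h5, e3 q hq, k1] using k q
    exact h7 ⟨by simpa [e3 p hp, k1, k2] using k p, k2, k1⟩
  have h5 := Finset.card_compl (Finset.univ.filter fun l => v l ≠ 0)
  exact h.zb hp h10 hn hg (a := a) (Z := (Finset.univ.filter fun l => v l ≠ 0)ᶜ) (by omega)
    (by omega) (by simp [hv])

theorem tt {y y' c : V ≃ₗ[F] V} {J : Finset κ} (H : Dg Q e δ y J) (h1 : J ≠ ∅) (h2 : J.card ≤ 4)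
    (hc : c ∈ X) (h3 : c ≠ 1) (h4 : Commute c y) (hk : k ∈ X) {a b : κ} (hab : a ≠ b)
    (h5 : c * y = k * zz Q e a b * k⁻¹) (hy' : y' ∈ X) (h6 : Commute c y') : y' ∈ 𝐌 := by
  obtain ⟨a', b', h7⟩ := h.dg_conj (h.ll hp h10 hn hk hab (h5 ▸ mul_mem
    (h.ce hp h10 hn H h1 (by omega) hc h4.symm) (h.dg_mem H))) (h.mem_orth hk) hab
  have h8 := h7.mul H
  rw [← h5, mul_assoc, h.dg_sq H, mul_one] at h8
  refine h.ce hp h10 hn h8 (fun e => h3 (h.dg_empty (e ▸ h8))) ?_ hy' h6
  have := Finset.card_le_card (symmDiff_le_sup (a := ({a', b'} : Finset κ)) (b := J))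
  have := Finset.card_union_le {a', b'} J
  have := Finset.card_le_two (a := a') (b := b')
  simp only [Finset.sup_eq_union] at *
  omega

theorem le_of_ten : X ≤ 𝐌 := by
  intro g hg
  obtain ⟨a, b, c, d, h1, h2, h3, h4, h5, h6⟩ := exists_four (κ := κ) (by omega)
  have key : ∀ d, a ≠ d → b ≠ d → c ≠ d → g * (zz Q e a b * zz Q e c d) * g⁻¹ ∈ 𝐌 := by
    intro d h3 h5 h6
    have H : Dg Q e δ (zz Q e a b * zz Q e c d) {a, b, c, d} := by
      convert (h.dg_zz h1).mul (h.dg_zz h6) using 1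
      ext t; simp only [Finset.mem_symmDiff]; grind
    have hy := mul_mem (h.zz_mem a b) (h.zz_mem c d)
    generalize zz Q e a b * zz Q e c d = y at *
    haveI : Finite V := Module.finite_of_finite F
    haveI : Finite (V ≃ₗ[F] V) := DFunLike.finite _
    rcases dihedral_alt (h.zz_mem a b) (mul_mem (mul_mem hg hy) (inv_mem hg)) (h.dg_sq (h.dg_zz h1))
      (by rw [conj_mul, h.dg_sq H]; simp) with ⟨k, hk, e1⟩ | ⟨z, hz, e1, e2, e3, k, hk, e4 | e4⟩
    · have e2 : y = g⁻¹ * k * zz Q e a b * (g⁻¹ * k)⁻¹ := by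
        simpa [mul_assoc] using congrArg (g⁻¹ * · * g) e1
      have hk' := mul_mem (inv_mem hg) hk
      obtain ⟨a', b', h7⟩ := h.dg_conj (h.ll hp h10 hn hk' h1 (e2 ▸ h.dg_mem H)) (h.mem_orth hk') h1
      have h8 := congrArg Finset.card (h.dg_unique H (e2 ▸ h7))
      have := Finset.card_le_two (a := a') (b := b')
      rw [Finset.card_insert_of_notMem (by grind), Finset.card_insert_of_notMem (by grind),
        Finset.card_pair h6] at h8
      omega
    · exact h.tt hp h10 hn (h.dg_zz h1) (by simp) (Finset.card_le_two.trans (by omega)) hz e1 e2 hk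
        h1 e4 (mul_mem (mul_mem hg hy) (inv_mem hg)) e3
    · have h7 := h.tt hp h10 hn H (by simp) Finset.card_le_four (c := g⁻¹ * z * g)
        (y' := g⁻¹ * zz Q e a b * g⁻¹⁻¹) (mul_mem (mul_mem (inv_mem hg) hz) hg)
        (fun e => e1 (by
          simpa only [mul_assoc, mul_inv_cancel_left, mul_inv_cancel, mul_one] using
            congrArg (fun t => g * t * g⁻¹) e))
        (by simpa [mul_assoc] using (e3.map (MulAut.conj g⁻¹))) (mul_mem (inv_mem hg) hk) h1
        (by simpa [mul_assoc] using congrArg (g⁻¹ * · * g) e4)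
        (mul_mem (mul_mem (inv_mem hg) (h.zz_mem a b)) (inv_mem (inv_mem hg)))
        (by simpa [mul_assoc] using (e2.map (MulAut.conj g⁻¹)))
      have h8 := h.ll hp h10 hn (inv_mem hg) h1 h7
      exact mul_mem (mul_mem (inv_mem_iff.1 h8) (h.dg_mem H)) h8
  obtain ⟨f, hf⟩ := exists_not_mem_list [a, b, c, d] (by simp; omega)
  simp only [List.mem_cons, List.not_mem_nil, or_false, not_or] at hf
  refine h.ll hp h10 hn hg (Ne.symm hf.2.2.2) ?_
  convert mul_mem (inv_mem (key d h3 h5 h6))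
    (key f (Ne.symm hf.1) (Ne.symm hf.2.1) (Ne.symm hf.2.2.1)) using 1
  have : (zz Q e c d)⁻¹ * zz Q e c f = zz Q e d f := by
    rw [zz, zz, zz, ← Subgroup.coe_inv, ← Subgroup.coe_mul, mul_inv_rev, mul_assoc,
      inv_mul_cancel_left, refl_inv]
  rw [← this]; group

end FrX

theorem OrthDec.isMaximalIn_frame [Fintype κ] [FiniteDimensional F V] [Fintype F]
    {D : κ → Submodule F V} (hD : OrthDec 𝓒 D) (hQ : QNondeg Q) (h2 : (2 : F) ≠ 0)
    (hp : (Fintype.card F).Prime) (h1 : ∀ i, finrank F (D i) = 1)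
    (hn : Odd (Fintype.card κ) ∧ 7 ≤ Fintype.card κ ∨ 10 ≤ Fintype.card κ) :
    Cfsg.Geo.IsMaximalIn (OmegaV Q) (decStab D ⊓ OmegaV Q) := by
  haveI : Nontrivial κ := Fintype.one_lt_card_iff_nontrivial.1 (by omega)
  obtain ⟨i⟩ : Nonempty κ := inferInstance
  obtain ⟨x, hx, hx0⟩ := exists_nonsingular (hD.nondeg i) (hD.ne_bot i)
  have : ∀ j, ∃ y ∈ D j, Q y = Q x := fun j => by
    obtain ⟨f, hf⟩ := quad_iso_iff.1 (hD.iso i j)
    exact ⟨_, (f ⟨x, hx⟩).2, hf _⟩
  choose e he he' using this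
  obtain rfl : D = frD F e := funext fun j => (Submodule.eq_of_le_of_finrank_eq
    ((Submodule.span_singleton_le_iff_mem _ _).2 (he j)) (by
      rw [h1, finrank_span_singleton (ne_of_apply_ne Q (by rwa [he', map_zero]))])).symm
  have hF : OFrame Q e (Q x) := ⟨h2, hQ, hx0, he', fun i j hij => hD.B_eq_zero hij (he i) (he j),
    fun y hy => hD.eq_zero hQ fun j => (𝓒).mem_perp_singleton.2 (hy j)⟩
  obtain ⟨π, hπ⟩ := hD.exists_isProj
  have h3 := hπ.finrank_eq h1
  refine isMaximalIn_of _ _ inf_le_right (fun e => (spec_quad hQ (notExc_of_two_ne_zero h2)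
    ).not_le_decStab (by omega) hD (e.trans inf_le_left)) fun M h4 h5 g hg hg' => ?_
  by_contra hc
  have hM : FrX Q M e (Q x) := ⟨hF, h5, h4⟩
  exact hg' ⟨hn.elim (fun H => hM.le_of_odd hp H.2 hc H.1 hg) fun H => hM.le_of_ten hp H hc hg,
    h5 hg⟩

end H12
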