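import Cfsg.Agent.H12.OF7

/-!
# Orthogonal frames in dimension six: reflections
-/

set_option autoImplicit false
set_option maxHeartbeats 400000

namespace H12

open Module H11 QuadraticMap Equiv

namespace RSys

variable {F : Type*} [Field F] {κ : Type*} [DecidableEq κ] [Fintype κ] {R : Set (κ → F)}
  {x y : κ → F} (h : RSys R)
  (dk : ∀ a ∈ R, ∀ b ∈ R, ∀ c ∈ R, a ⬝ᵥ b = 0 → a ⬝ᵥ c ≠ 0 → b ⬝ᵥ c ≠ 0 →
    1 - (a ⬝ᵥ c) ^ 2 - (b ⬝ᵥ c) ^ 2 ≠ 0 → 4 * (a ⬝ᵥ c) ^ 2 = 1 ∨ 4 * (b ⬝ᵥ c) ^ 2 = 1 ∨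
    4 * (a ⬝ᵥ c) ^ 2 + 4 * (b ⬝ᵥ c) ^ 2 = 3) (h3 : (3 : F) ≠ 0) (h7 : 6 ≤ Fintype.card κ)
include h dk h3 h7

theorem pair6 (hx : x ∈ R) {i j k l : κ} (hl : [i, j, k, l].Nodup) (hj : x j ≠ 0) (hk : x k ≠ 0)
    (h1 : x l ≠ 0) (h0 : ∀ m, m ∉ [i, j, k, l] → x m = 0) : 2 * (x i ^ 2 + x j ^ 2) = 1 := by
  obtain ⟨a, ha⟩ := exists_not_mem_list [i, j, k, l] (by simp; omega)
  obtain ⟨b, hb⟩ := exists_not_mem_list [a, i, j, k, l] (by simp; omega)
  have a0 := h0 a ha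
  have b0 := h0 b fun e => hb (List.mem_cons_of_mem _ e)
  simp only [List.nodup_cons, List.mem_cons, List.not_mem_nil, or_false, not_or] at hl ha hb
  obtain ⟨⟨n1, n2, n3⟩, ⟨n4, n5⟩, n6, -⟩ := hl
  obtain ⟨a1, a2, a3, a4⟩ := ha
  obtain ⟨b1, b2, b3, b4, b5⟩ := hb
  obtain ⟨y, hy, yi, yj, yk, yl, ya, yb⟩ : ∃ y ∈ R, y i = x i ∧ y j = x j ∧ y k = 0 ∧ y l = 0 ∧
      y a = x k ∧ y b = x l :=
    ⟨_, h.sw x hx k a l b (Ne.symm a3) (Ne.symm b5), by
      refine ⟨?_, ?_, ?_, ?_, ?_, ?_⟩ <;> simp only [swap_apply_def] <;> grind⟩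
  have e : x ⬝ᵥ y = x i ^ 2 + x j ^ 2 := by
    rw [dot_supp {i, j, k, l} (fun m hm => h0 m (by simpa using hm)),
      Finset.sum_insert (by simp [*]), Finset.sum_insert (by simp [*]), Finset.sum_pair n6, yi, yj,
      yk, yl]
    ring
  have e0 : x i ^ 2 + x j ^ 2 ≠ 0 := fun e => hj (h.zero_of_sum_zero hx (J := {i, j})
    (by rw [Finset.sum_pair n1]; linear_combination e) (by simp))
  have hz := h.refl x hx y hy
  rw [e] at hz
  have h2 := h.two
  by_contra e1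
  exact h.not_five dk h3 hz (i := j) (j := k) (k := l) (m := a) (n := b) (by simp; grind) (fun e => by
    simp only [Pi.sub_apply, yj, Pi.smul_apply, smul_eq_mul] at e
    exact e1 (mul_right_cancel₀ hj (by linear_combination -e))) (by simp [*]) (by simp [*])
    (by simp [*]) (by simp [*])

theorem not_three6 (hx : x ∈ R) {i j k : κ} (hij : i ≠ j) (hik : i ≠ k) (hjk : j ≠ k)
    (hi : x i ≠ 0) (hj : x j ≠ 0) (hk : x k ≠ 0) : False := by
  have h2 := h.two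
  by_cases h1 : ∃ l, l ∉ [i, j, k] ∧ x l ≠ 0
  · obtain ⟨l, h1, hl⟩ := h1
    simp only [List.mem_cons, List.not_mem_nil, or_false, not_or] at h1
    have h0 : ∀ m, m ∉ [i, j, k, l] → x m = 0 := fun m hm => by
      by_contra h0
      simp only [List.mem_cons, List.not_mem_nil, or_false, not_or] at hm
      exact h.not_five dk h3 hx (by simp [*]; grind) hi hj hk hl h0
    have e1 := h.pair6 dk h3 h7 hx (by simp; grind) hj hk hl h0
    have e2 := h.pair6 dk h3 h7 hx (i := i) (by simp; grind) hk hj hl fun m hm => h0 m (by simp at hm ⊢; grind)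
    have e3 := h.pair6 dk h3 h7 hx (i := j) (by simp; grind) hk hi hl fun m hm => h0 m (by simp at hm ⊢; grind)
    obtain ⟨a, ha⟩ := exists_not_mem_list [i, j, k, l] (by simp; omega)
    obtain ⟨b, hb⟩ := exists_not_mem_list [a, i, j, k, l] (by simp; omega)
    have a0 := h0 a ha
    have b0 := h0 b fun e => hb (List.mem_cons_of_mem _ e)
    simp only [List.mem_cons, List.not_mem_nil, or_false, not_or] at ha hb
    obtain ⟨n1, n2, n3⟩ := h1
    obtain ⟨a1, a2, a3, a4⟩ := ha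
    obtain ⟨b1, b2, b3, b4, b5⟩ := hb
    obtain ⟨y, hy, yi, yj, yk, yl, ya⟩ : ∃ y ∈ R, y i = x i ∧ y j = x j ∧ y k = x k ∧ y l = 0 ∧
        y a = x l :=
      ⟨_, h.sw x hx b l a b (Ne.symm b5).symm (Ne.symm b1), by
        refine ⟨?_, ?_, ?_, ?_, ?_⟩ <;> simp only [swap_apply_def] <;> grind⟩
    have e : 4 * x ⬝ᵥ y = 3 := by
      rw [dot_supp {i, j, k, l} (fun m hm => h0 m (by simpa using hm)),
        Finset.sum_insert (by simp [*]; grind), Finset.sum_insert (by simp [*]; grind),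
        Finset.sum_pair (Ne.symm n3), yi, yj, yk, yl]
      linear_combination e1 + e2 + e3
    have hz := h.refl x hx y hy
    have k0 : ∀ m, x m ≠ 0 → y m = x m → (y - (2 * x ⬝ᵥ y) • x) m ≠ 0 := fun m a b c => by
      simp only [Pi.sub_apply, b, Pi.smul_apply, smul_eq_mul] at c
      exact a (by linear_combination -2 * c - x m * e)
    exact h.not_five dk h3 hz (i := i) (j := j) (k := k) (m := l) (n := a) (by simp; grind)
      (k0 i hi yi) (k0 j hj yj) (k0 k hk yk) (fun c => by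
        simp only [Pi.sub_apply, yl, Pi.smul_apply, smul_eq_mul] at c
        exact mul_ne_zero h3 hl (by linear_combination -2 * c - x l * e)) (by simp [*])
  push Not at h1
  obtain ⟨l, hl⟩ := exists_not_mem_list [i, j, k] (by simp; omega)
  have l0 := h1 l hl
  simp only [List.mem_cons, List.not_mem_nil, or_false, not_or] at hl h1
  have e := h.norm x hx
  rw [dot_supp {i, j, k} (fun m hm => h1 m (by simpa using hm)), Finset.sum_insert (by simp [*]),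
    Finset.sum_pair hjk] at e
  have e1 := h.pair6 dk h3 h7 hx (i := l) (by simp; grind) hi hj hk fun m hm => h1 m (by simp at hm ⊢; grind)
  have e2 := h.pair6 dk h3 h7 hx (i := l) (by simp; grind) hj hi hk fun m hm => h1 m (by simp at hm ⊢; grind)
  rw [l0] at e1 e2
  exact hk (mul_self_eq_zero.1 (mul_left_cancel₀ h.two (by linear_combination 2 * e - e1 - e2)))

theorem two_sq6 (hx : x ∈ R) {i j : κ} (hij : i ≠ j) (hi : x i ≠ 0) (hj : x j ≠ 0) :
    2 * x i ^ 2 = 1 := by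
  have key : ∀ i j, i ≠ j → x i ≠ 0 → x j ≠ 0 → x i ^ 2 + x j ^ 2 = 1 ∧
      (4 * x i ^ 4 = 1 ∨ 4 * x i ^ 2 * x j ^ 2 = 1 ∨ 4 * x i ^ 2 = 3) := by
    intro i j hij hi hj
    have h0 : ∀ m, m ∉ ({i, j} : Finset κ) → x m = 0 := fun m hm => by
      by_contra h0
      simp only [Finset.mem_insert, Finset.mem_singleton, not_or] at hm
      exact h.not_three6 dk h3 h7 hx hij (Ne.symm hm.1) (Ne.symm hm.2) hi hj h0
    have e := h.norm x hx
    rw [dot_supp _ h0, Finset.sum_pair hij] at e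
    obtain ⟨a, ha⟩ := exists_not_mem_list [i, j] (by simp; omega)
    obtain ⟨b, hb⟩ := exists_not_mem_list [a, i, j] (by simp; omega)
    obtain ⟨c, hc⟩ := exists_not_mem_list [b, a, i, j] (by simp; omega)
    simp only [List.mem_cons, List.not_mem_nil, or_false, not_or] at ha hb hc
    obtain ⟨a1, a2⟩ := ha
    obtain ⟨b1, b2, b3⟩ := hb
    obtain ⟨c1, c2, c3, c4⟩ := hc
    have a0 := h0 a (by simp [*])
    obtain ⟨y, hy, yi, yj, y0⟩ : ∃ y ∈ R, y i = -x j ∧ y j = x i ∧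
        ∀ m, m ∉ ({i, j} : Finset κ) → y m = 0 :=
      ⟨_, h.flip (h.sw x hx i j a b hij (Ne.symm b1)) {i}, by simp only [swap_apply_def]; grind,
        by simp only [swap_apply_def]; grind, fun m hm => by
        simp only [Finset.mem_insert, Finset.mem_singleton, not_or] at hm
        rw [if_neg (by simpa using hm.1)]
        refine h0 _ ?_
        simp only [swap_apply_def]
        split_ifs <;> simp_all⟩
    obtain ⟨z, hz, zi, zj⟩ : ∃ z ∈ R, z i = x i ∧ z j = 0 :=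
      ⟨_, h.sw x hx j a b c (Ne.symm a2) (Ne.symm c1), by simp only [swap_apply_def]; grind,
        by simp only [swap_apply_def]; grind⟩
    have := dk x hx y hy z hz (by rw [dot_supp _ h0, Finset.sum_pair hij, yi, yj]; ring)
    rw [dot_supp _ h0, dot_supp _ y0, Finset.sum_pair hij, Finset.sum_pair hij, yi, yj, zi, zj]
      at this
    refine ⟨by linear_combination e, ?_⟩
    rcases this (by simpa) (by simp [hi, hj]) (fun e' => pow_ne_zero 2 hj (by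
      linear_combination e' + (1 + x i ^ 2) * e)) with e' | e' | e'
    · exact Or.inl (by linear_combination e')
    · exact Or.inr (Or.inl (by linear_combination e'))
    · exact Or.inr (Or.inr (by linear_combination e' - 4 * x i ^ 2 * e))
  obtain ⟨e, e1⟩ := key i j hij hi hj
  obtain ⟨-, e2⟩ := key j i hij.symm hj hi
  have h2 := h.two
  have k : 4 * x i ^ 2 * x j ^ 2 = 1 → 2 * x i ^ 2 = 1 := fun e' => by
    have : (2 * x i ^ 2 - 1) ^ 2 = 0 := by linear_combination 4 * x i ^ 2 * e - e'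
    linear_combination (pow_eq_zero_iff two_ne_zero).1 this
  rcases e1 with e1 | e1 | e1
  · rcases e2 with e2 | e2 | e2
    · exact mul_left_cancel₀ (mul_ne_zero h2 h2) (by
        linear_combination e1 - e2 + (4 - 4 * x i ^ 2 + 4 * x j ^ 2) * e)
    · exact k (by linear_combination e2)
    · exact absurd (by linear_combination -4 * e1 + (4 * x i ^ 2 + 1) * (4 * e - e2)) h3
  · exact k e1
  · rcases e2 with e2 | e2 | e2
    · exact absurd (by linear_combination -4 * e2 + (4 * x j ^ 2 + 1) * (4 * e - e1)) h3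
    · exact k (by linear_combination e2)
    · exact absurd (by linear_combination 4 * e - e1 - e2) h2

end RSys

variable {F : Type*} [Field F] {V : Type*} [AddCommGroup V] [Module F V]
  {Q : QuadraticForm F V} {X Y : Subgroup (V ≃ₗ[F] V)} {κ : Type*} {e : κ → V} {δ : F}
  {g k : V ≃ₗ[F] V} [DecidableEq κ] [Fintype κ] [FiniteDimensional F V] [Fintype F]

local notation "𝓒" => CForm.ofQuad Q
local notation "𝐜" => co Q e δ
local notation "𝐌" => decStab (frD F e)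

namespace FrY

variable (h : FrY Q Y e δ) (hp : (Fintype.card F).Prime)
include h hp

theorem omega_le_three6 (h3 : (3 : F) = 0) (h7 : 6 ≤ Fintype.card κ) {x : V} (hx : RV Q Y δ x)
    {i j : κ} (hij : i ≠ j) (hi : 𝐜 x i ≠ 0) (hj : 𝐜 x j ≠ 0) : OmegaV Q ≤ Y := by
  have sq : ∀ c : F, c ≠ 0 → c * c = 1 := fun c hc => by
    obtain ⟨n, rfl⟩ := exists_natCast hp c
    obtain ⟨m, e | e | e⟩ : ∃ m, n = 3 * m ∨ n = 3 * m + 1 ∨ n = 3 * m + 2 := ⟨n / 3, by omega⟩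
    · exact absurd (by simp [e, h3]) hc
    · simp [e, h3]
    · simp only [e, Nat.cast_add, Nat.cast_mul, Nat.cast_ofNat, h3]; linear_combination h3
  have e1 := h.dot_self hx.1
  obtain ⟨k, h1, hk⟩ : ∃ k, k ∉ ({i, j} : Finset κ) ∧ 𝐜 x k ≠ 0 := by
    by_contra hc
    push Not at hc
    rw [dot_supp _ hc, Finset.sum_pair hij, sq _ hi, sq _ hj] at e1
    exact one_ne_zero (α := F) (by linear_combination e1)
  obtain ⟨l, h2, hl⟩ : ∃ l, l ∉ ({k, i, j} : Finset κ) ∧ 𝐜 x l ≠ 0 := by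
    by_contra hc
    push Not at hc
    rw [dot_supp _ hc, Finset.sum_insert h1, Finset.sum_pair hij, sq _ hi, sq _ hj, sq _ hk] at e1
    exact one_ne_zero (α := F) (by linear_combination h3 - e1)
  obtain ⟨m, hm⟩ := exists_not_mem_list [l, k, i, j] (by simp; omega)
  obtain ⟨c, hc⟩ := exists_not_mem_list [m, l, k, i, j] (by simp; omega)
  obtain ⟨u, hu⟩ : ∃ u, ∀ p, 𝐜 u p = if p ∈ ({k, i, j} : Finset κ) then 𝐜 x p else 0 :=
    ⟨𝐜 x k • e k + 𝐜 x i • e i + 𝐜 x j • e j, fun p => by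
      simp only [map_add, map_smul, h.co_e, Pi.add_apply, Pi.smul_apply, sE_apply, smul_eq_mul]
      grind⟩
  have u0 : ∀ y, (∀ p ∈ ({k, i, j} : Finset κ), 𝐜 y p = 𝐜 x p) → 𝐜 u ⬝ᵥ 𝐜 y = 0 := fun y hy => by
    rw [dot_supp {k, i, j} (fun p hp => by rw [hu, if_neg hp]),
      Finset.sum_congr rfl fun p hp => by rw [hu, if_pos hp, hy p hp], Finset.sum_insert h1,
      Finset.sum_pair hij, sq _ hi, sq _ hj, sq _ hk]
    linear_combination h3
  have u1 : Q u = 0 := by rw [h.Q_eq, u0 u fun p hp => by rw [hu, if_pos hp], mul_zero]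
  have u2 := h.map (h.map (h.map hx (h.re k)) (h.re i)) (h.re j)
  rw [h.co_inj (x := (refl Q (e j)).1 _) (y := x + u) (by
    ext p
    simp only [h.co_refl_e, map_add, Pi.add_apply, hu]
    grind)] at u2
  have u3 := RS.of_smul (((h.rr u2 hx).ei u1 (by
    rw [h.polar_eq, u0 x fun _ _ => rfl, mul_zero])).mem_RS hp) (inv_ne_zero (hx.1.trans_ne h.ne))
  simp only [List.mem_cons, List.not_mem_nil, or_false, not_or] at hm hc
  have u4 : e l ∈ RS Q Y u := by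
    have := RS.conj u3 (h.re l) (refl Q _).2
    rw [h.refl_e l u, hu, if_neg h2, mul_zero, zero_smul, sub_zero] at this
    have := sub_mem u3 this
    rw [h.refl_e, sub_sub_cancel] at this
    exact (Submodule.smul_mem_iff _ (mul_ne_zero h.two hl)).1 this
  have u5 : e m ∈ RS Q Y u := by
    obtain ⟨g, hg, e'⟩ := h.exists_sw hc.2.1 (Ne.symm hc.1)
    have := RS.conj u4 hg (h.le hg)
    rwa [h.co_inj (x := g u) (y := u) (by
        ext p; rw [e', hu, hu]; simp only [swap_apply_def]; grind),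
      h.co_inj (x := g (e l)) (y := e m) (by
        ext p; rw [e', h.co_e, h.co_e]; simp only [swap_apply_def, sE_apply]; grind)] at this
  obtain ⟨w1, w2⟩ := nondegOn_pair_of_det (Q := Q) (u := e l) (w := e m) (by
    rw [h.orth _ _ (Ne.symm hm.1), h.norm, h.norm]
    convert mul_ne_zero h.ne2 h.ne2 using 1; ring)
  obtain ⟨S, k1, k2, k3, k4⟩ := subG_start h.nd h.two u1 (h.ne0 i) (by
    rw [polar_comm, h.polar_e, hu, if_pos (by simp)]; exact mul_ne_zero h.ne2 hi) (h.re i) w1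
    (by rintro e; rw [e, finrank_bot] at w2; omega) (fun w hw => (𝓒).mem_perp'.1
      ((𝓒).mem_perp_pair.2 ⟨h.orth _ _ (by grind), h.orth _ _ (by grind)⟩) w hw)
    (Submodule.span_le.2 (by rintro _ (rfl | rfl); exacts [u4, u5]))
  exact h.omega_le hp (by omega) hx hij hi hj k1 (by omega) (by omega) k3 k4

theorem small6 (h7 : 6 ≤ Fintype.card κ) (hn : ¬ OmegaV Q ≤ Y) {x : V} (hx : RV Q Y δ x)
    {i j : κ} (hij : i ≠ j) (hi : 𝐜 x i ≠ 0) (hj : 𝐜 x j ≠ 0) :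
    2 * 𝐜 x i ^ 2 = 1 ∧ ∀ k, k ≠ i → k ≠ j → 𝐜 x k = 0 := by
  have h3 : (3 : F) ≠ 0 := fun e => hn (h.omega_le_three6 hp e h7 hx hij hi hj)
  have hE : ∀ u w, u ≠ 0 → Q w ≠ 0 → ¬ Ei Q Y u w := fun u w h1 h2 h4 =>
    hn (h.omega_le_of_ei hp h3 (by omega) hx hij hi hj h1 h2 h4)
  have hR : RSys (𝐜 '' {x | RV Q Y δ x}) := by
    refine ⟨h.two, ?_, fun i => ⟨_, h.base i, h.co_e i⟩, ?_, ?_, ?_⟩
    · rintro _ ⟨x, hx, rfl⟩; exact h.dot_self hx.1
    · rintro _ ⟨x, hx, rfl⟩ _ ⟨y, hy, rfl⟩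
      exact ⟨_, h.map hy hx.2, h.co_refl hx.1 y⟩
    · rintro _ ⟨x, hx, rfl⟩ a b c d h1 h2
      obtain ⟨k, hk, e'⟩ := h.exists_sw h1 h2
      exact ⟨_, h.map hx hk, funext (e' x)⟩
    · rintro _ ⟨x, hx, rfl⟩ _ ⟨y, hy, rfl⟩ e1
      by_contra hc
      have e2 : polar Q y x = 2 * δ := by rw [polar_comm, h.polar_eq, e1, mul_one]
      refine hE _ _ (smul_ne_zero (inv_ne_zero (hx.1.trans_ne h.ne)) (sub_ne_zero.2 ?_))
        (hx.1.trans_ne h.ne) (RR.ei (u := y - x) (by rw [add_sub_cancel]; exact h.rr hy hx) ?_ ?_)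
      · rintro rfl; exact hc rfl
      · rw [H12.Q_sub, e2, hx.1, hy.1]; ring
      · rw [polar_sub_left, e2, polar_self', hx.1, sub_self]
  have dk : ∀ a ∈ 𝐜 '' {x | RV Q Y δ x}, ∀ b ∈ 𝐜 '' {x | RV Q Y δ x},
      ∀ c ∈ 𝐜 '' {x | RV Q Y δ x}, a ⬝ᵥ b = 0 → a ⬝ᵥ c ≠ 0 → b ⬝ᵥ c ≠ 0 →
      1 - (a ⬝ᵥ c) ^ 2 - (b ⬝ᵥ c) ^ 2 ≠ 0 → 4 * (a ⬝ᵥ c) ^ 2 = 1 ∨ 4 * (b ⬝ᵥ c) ^ 2 = 1 ∨
      4 * (a ⬝ᵥ c) ^ 2 + 4 * (b ⬝ᵥ c) ^ 2 = 3 := by
    rintro _ ⟨a, ha, rfl⟩ _ ⟨b, hb, rfl⟩ _ ⟨c, hc, rfl⟩ e1 e2 e3 e4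
    have hδ := h.ne
    have := refl_tri h.two (ha.1.trans_ne hδ) (hb.1.trans_ne hδ) (hc.1.trans_ne hδ) ha.2 hb.2 hc.2
      (by rw [h.polar_eq, e1, mul_zero])
    rw [h.polar_eq, h.polar_eq, ha.1, hb.1, hc.1] at this
    rcases this (mul_ne_zero h.ne2 e2) (mul_ne_zero h.ne2 e3) (by
      convert mul_ne_zero (mul_ne_zero (mul_ne_zero h.ne2 h.ne2) hδ) e4 using 1; ring) with
      ⟨u, w, h1, h2, h4⟩ | e5 | e5 | e5
    · exact absurd h4 (hE u w h1 h2)
    · exact Or.inl (mul_left_cancel₀ (mul_ne_zero hδ hδ) (by linear_combination e5))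
    · exact Or.inr (Or.inl (mul_left_cancel₀ (mul_ne_zero hδ hδ) (by linear_combination e5)))
    · exact Or.inr (Or.inr (mul_left_cancel₀ (mul_ne_zero hδ (mul_ne_zero hδ hδ))
        (by linear_combination e5)))
  exact ⟨hR.two_sq6 dk h3 h7 ⟨x, hx, rfl⟩ hij hi hj, fun k h1 h2 => by
    by_contra hk
    exact hR.not_three6 dk h3 h7 ⟨x, hx, rfl⟩ hij h1.symm h2.symm hi hj hk⟩

end FrY

namespace FrX

variable (h : FrX Q X e δ) (hp : (Fintype.card F).Prime) (h7 : 6 ≤ Fintype.card κ)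
  (hn : ¬ OmegaV Q ≤ X)
include h hp h7 hn

theorem small6 {x : V} {a : κ} (hx : RR Q X x (e a)) (hx' : Q x = δ) {i j : κ} (hij : i ≠ j)
    (hi : 𝐜 x i ≠ 0) (hj : 𝐜 x j ≠ 0) : 2 * 𝐜 x i ^ 2 = 1 ∧ ∀ k, k ≠ i → k ≠ j → 𝐜 x k = 0 := by
  obtain ⟨Y, h1, h2, h3, h4⟩ := exists_ext h.nd (notExc_of_two_ne_zero h.two) h.le (h.ne0 a)
  have hY : FrY Q Y e δ := ⟨h.toOFrame, h1, fun i => h2 _ (h.rr_e i a), fun a b c d h5 h6 =>
    h3 _ (h.rr_sw h5 h6).2.2 (h.rr_mon (mul_mem (h.refl_sw_mem h5) (h.refl_sw_mem h6)) _ _)⟩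
  exact hY.small6 hp h7 (fun H => hn fun y hy => h4 y (H hy) hy) ⟨hx', h2 x hx⟩ hij hi hj

theorem mon_of_rr6 (hg : g ∈ X) {i a : κ} (h1 : RR Q X (g (e i)) (e a)) : g ∈ 𝐌 := by
  have hg' := h.mem_orth hg
  have h2 : ∀ x j, RR Q X x (e j) → RR Q X (g x) (e a) := fun x j H =>
    ((H.trans (h.rr_e j i)).conj hg hg').trans h1
  have h3 : ∀ j, Q (g (e j)) = δ := fun j => (orth_Q ⟨g, hg'⟩ _).trans (h.norm j)
  refine h.mem_dec fun j => ?_
  by_contra hc
  obtain ⟨b, hb⟩ : ∃ b, 𝐜 (g (e j)) b ≠ 0 := by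
    by_contra h0
    push Not at h0
    exact hc ⟨j, _, h.eq_smul fun l _ => h0 l⟩
  obtain ⟨c, hcb, hc'⟩ : ∃ c, c ≠ b ∧ 𝐜 (g (e j)) c ≠ 0 := by
    by_contra h0
    push Not at h0
    exact hc ⟨b, _, h.eq_smul h0⟩
  obtain ⟨h4, h5⟩ := h.small6 hp h7 hn (h2 _ _ (h.rr_e j j)) (h3 j) hcb.symm hb hc'
  obtain ⟨d, hd⟩ := exists_not_mem_list [b, c] (by simp; omega)
  simp only [List.mem_cons, List.not_mem_nil, or_false, not_or] at hd
  have h6 : ∀ l, 𝐜 (g (e l)) d = 0 := by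
    intro l
    by_cases hl : l = j
    · rw [hl]; exact h5 d hd.1 hd.2
    by_contra h0
    obtain ⟨m, hm⟩ := exists_not_mem_list [j, l] (by simp; omega)
    simp only [List.mem_cons, List.not_mem_nil, or_false, not_or] at hm
    have k1 : RR Q X (e j - e l) (e j) := h.rr (h.refl_sw_mem (Ne.symm hl)) (h.refl_e_mem j)
      ((h.Q_sub (Ne.symm hl)).trans_ne h.ne2) (h.ne0 j) ⟨δ / 𝐜 (g (e j)) b, by
        rw [h.Q_sub (Ne.symm hl), h.norm]; field_simp; linear_combination δ ^ 2 * h4⟩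
    have k2 := k1.map (h.rr_e l m).2.2 (h.mem_orth (h.rr_e l m).2.2)
      (h.rr_mon (mul_mem (h.refl_e_mem l) (h.refl_e_mem m)) j j)
    rw [h.co_inj (x := (refl Q (e l) * refl Q (e m)).1 _) (y := e j + e l) (by
      ext p
      simp only [orth_mul_apply, h.co_refl_e, map_add, map_sub, h.co_e, Pi.add_apply, Pi.sub_apply,
        sE_apply]
      grind)] at k2
    have k3 : ∀ x, RR Q X x (e j) → Q x = 2 * δ → 𝐜 (g x) d ≠ 0 →
        𝐜 (g x) b = 0 ∨ 𝐜 (g x) c = 0 := fun x h8 h9 h10 => by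
      by_contra h11
      push Not at h11
      have := (h.small6 hp h7 hn ((h2 x j h8).smul hb) (by
        rw [Q_smul, show Q (g x) = Q x from orth_Q ⟨g, hg'⟩ x, h9]; linear_combination δ * h4)
        hcb.symm (by simp [h11, hb]) (by simp [h11, hb])).2 d hd.1 hd.2
      simp [hb, h10] at this
    have k4 := k3 _ k1 (h.Q_sub (Ne.symm hl)) (by simpa [h5 d hd.1 hd.2] using h0)
    have k5 := k3 _ k2 (by rw [Q_add, h.norm, h.norm, h.orth _ _ (Ne.symm hl)]; ring)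
      (by simpa [h5 d hd.1 hd.2] using h0)
    have k6 := fun h8 h9 => (h.small6 hp h7 hn (h2 _ _ (h.rr_e l l)) (h3 l) hcb.symm h8 h9).2 d
      hd.1 hd.2
    simp only [map_add, map_sub, Pi.add_apply, Pi.sub_apply] at k4 k5
    have := h.two
    grind
  have := congrArg (fun x => 𝐜 (g x) d) (h.sum_co (g⁻¹ (e d)))
  simp [h6, apply_inv_apply, h.co_e] at this

theorem mon_of_eq6 (hg : g ∈ X) {i j : κ} {c : F} (H : g (e i) = c • e j) : g ∈ 𝐌 :=
  h.mon_of_rr6 hp h7 hn hg (i := i) (a := j) (H ▸ (h.rr_e j j).smul (by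
    rintro rfl
    exact h.e_ne i (g.injective (by simpa using H))))

end FrX

end H12
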