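import Cfsg.Agent.H12.OF8

/-!
# Frames of unit vectors in dimension six
-/

set_option autoImplicit false
set_option maxHeartbeats 400000

namespace H12

open Equiv

variable {F : Type*} [Field F] {κ κ' : Type*} [DecidableEq κ] [Fintype κ] [DecidableEq κ'] [Fintype κ']

/-- A signed transposition. -/
def ssw (a b : κ) (s : F) (x : κ → F) (l : κ) : F :=
  if l = a then s * x b else if l = b then s * x a else x l

/-- The rows of a non-monomial matrix in an overgroup of the monomial group. -/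
structure F6 (R : Set (κ → F)) : Prop where
  two : (2 : F) ≠ 0
  norm : ∀ x ∈ R, x ⬝ᵥ x = 1
  fl : ∀ x ∈ R, ∀ y ∈ R, ∀ s t, s ≠ t → (x s = 0 ∧ x t = 0 ∨ ∀ p, p ≠ s → p ≠ t → x p = 0) → y s ≠ 0 →
    (∀ p, p ≠ s → p ≠ t → y p = 0) ∨ 2 * (y s * y s + y t * y t) = 1
  sw : ∀ x ∈ R, ∀ y ∈ R, ∀ a b c d s t, a ≠ b → c ≠ d → s * s = 1 → t * t = 1 →
    ssw a b s (ssw c d t x) = x →
      (∃ u : F, ssw a b s (ssw c d t y) = u • y) ∨ y ⬝ᵥ ssw a b s (ssw c d t y) = 0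
  one : ∀ x ∈ R, ∀ i, ¬ ∀ p, p ≠ i → x p = 0
  half : ∀ x ∈ R, ∀ i j, i ≠ j → (∀ p, p ≠ i → p ≠ j → x p = 0) → 2 * (x i * x i) ≠ 1
  row : ∀ i, ∃ y ∈ R, y i ≠ 0

omit [Fintype κ] [Fintype κ'] in
theorem ssw_comp (σ : κ' ≃ κ) (a b : κ') (s : F) (x : κ → F) :
    ssw a b s (x ∘ σ) = ssw (σ a) (σ b) s x ∘ σ := funext fun l => by simp [ssw]

omit [DecidableEq κ] in
theorem exists_equiv6 (h6 : Fintype.card κ = 6) {l : List κ} (hl : l.Nodup) (hn : l.length ≤ 6) :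
    ∃ σ : Fin 6 ≃ κ, ∀ i, σ (Fin.castLE hn i) = l.get i := by
  let τ := (Fintype.equivFinOfCardEq h6).symm
  obtain ⟨π, hπ⟩ := Perm.exists_extending_pair _ _ (τ.injective.comp (Fin.castLE_injective hn))
    hl.injective_get
  exact ⟨τ.trans π, hπ⟩

omit [DecidableEq κ] in
theorem exists_equiv4 (h6 : Fintype.card κ = 6) {a b c d : κ} (hl : [a, b, c, d].Nodup) :
    ∃ σ : Fin 6 ≃ κ, σ 0 = a ∧ σ 1 = b ∧ σ 2 = c ∧ σ 3 = d :=
  let ⟨σ, h⟩ := exists_equiv6 h6 hl (by simp)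
  ⟨σ, h ⟨0, by simp⟩, h ⟨1, by simp⟩, h ⟨2, by simp⟩, h ⟨3, by simp⟩⟩

omit [DecidableEq κ] in
theorem exists_equiv5 (h6 : Fintype.card κ = 6) {a b c d e : κ} (hl : [a, b, c, d, e].Nodup) :
    ∃ σ : Fin 6 ≃ κ, σ 0 = a ∧ σ 1 = b ∧ σ 2 = c ∧ σ 3 = d ∧ σ 4 = e :=
  let ⟨σ, h⟩ := exists_equiv6 h6 hl (by simp)
  ⟨σ, h ⟨0, by simp⟩, h ⟨1, by simp⟩, h ⟨2, by simp⟩, h ⟨3, by simp⟩, h ⟨4, by simp⟩⟩

namespace F6

theorem comp {R : Set (κ → F)} (h : F6 R) (σ : κ' ≃ κ) : F6 ((· ∘ σ) '' R) := by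
  have d : ∀ x y : κ → F, (x ∘ σ) ⬝ᵥ (y ∘ σ) = x ⬝ᵥ y := fun x y => comp_equiv_dotProduct_comp_equiv x y σ
  have a : ∀ {x : κ → F} {s t}, (∀ p, p ≠ s → p ≠ t → (x ∘ σ) p = 0) ↔ ∀ p, p ≠ σ s → p ≠ σ t → x p = 0 :=
    fun {x s t} => by rw [σ.surjective.forall]; simp
  refine ⟨h.two, ?_, ?_, ?_, ?_, ?_, fun i => ?_⟩
  · rintro _ ⟨x, hx, rfl⟩; rw [d, h.norm x hx]
  · rintro _ ⟨x, hx, rfl⟩ _ ⟨y, hy, rfl⟩ s t h1 h2
    rw [a] at h2 ⊢
    exact h.fl x hx y hy _ _ (σ.injective.ne h1) h2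
  · rintro _ ⟨x, hx, rfl⟩ _ ⟨y, hy, rfl⟩ a b c d' s t h1 h2 h3 h4 h5
    simp only [ssw_comp, d] at h5 ⊢
    exact (h.sw x hx y hy _ _ _ _ s t (σ.injective.ne h1) (σ.injective.ne h2) h3 h4
      (σ.surjective.injective_comp_right h5)).imp_left fun ⟨u, e⟩ => ⟨u, by rw [e]; rfl⟩
  · rintro _ ⟨x, hx, rfl⟩ i H
    exact h.one x hx (σ i) (σ.surjective.forall.2 fun p hp => H p fun e => hp (by rw [e]))
  · rintro _ ⟨x, hx, rfl⟩ i j h1 h2
    exact h.half x hx _ _ (σ.injective.ne h1) (a.1 h2)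
  · obtain ⟨y, hy, e⟩ := h.row (σ i)
    exact ⟨_, ⟨y, hy, rfl⟩, e⟩

section

variable {R : Set (Fin 6 → F)} (h : F6 R) {x y : Fin 6 → F} (hx : x ∈ R) (hy : y ∈ R)
include h hx hy

theorem zbA (h0 : ∀ p, p ≠ 0 → p ≠ 1 → x p = 0) (h1 : y 2 ≠ 0) (h3 : y 3 = 0) (h4 : y 4 = 0)
    (h5 : y 5 = 0) : False := by
  have x2 := h0 2 (by decide) (by decide)
  have x3 := h0 3 (by decide) (by decide)
  have x4 := h0 4 (by decide) (by decide)
  have a1 := h.sw x hx y hy 2 3 2 4 1 1 (by decide) (by decide) (mul_one 1) (mul_one 1) (by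
    ext p; fin_cases p <;> simp [ssw, x2, x3, x4])
  have a2 := h.norm y hy
  have a3 := (h.fl x hx y hy 2 3 (by decide) (.inl ⟨x2, x3⟩) h1).resolve_left fun H => h.one y hy 2
    fun p hp => by by_cases e : p = 3; exacts [e ▸ h3, H p hp e]
  replace a1 := a1.resolve_left fun ⟨u, e⟩ => h1 (by simpa [ssw, h4] using congrFun e 4)
  simp [dotProduct, Fin.sum_univ_six, ssw, h3, h4, h5] at a1 a2 a3
  exact one_ne_zero (α := F) (by linear_combination a3 - 2 * a2 + 2 * a1)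

theorem zbB (h0 : ∀ p, p ≠ 0 → p ≠ 1 → x p = 0) (h1 : y 2 ≠ 0) (h3 : y 3 ≠ 0) : False := by
  have two := h.two
  have x2 := h0 2 (by decide) (by decide)
  have x3 := h0 3 (by decide) (by decide)
  have x4 := h0 4 (by decide) (by decide)
  have x5 := h0 5 (by decide) (by decide)
  have b1 := (h.fl x hx y hy 2 4 (by decide) (.inl ⟨x2, x4⟩) h1).resolve_left fun H =>
    h3 (H 3 (by decide) (by decide))
  have b2 := (h.fl x hx y hy 2 5 (by decide) (.inl ⟨x2, x5⟩) h1).resolve_left fun H =>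
    h3 (H 3 (by decide) (by decide))
  have b3 := (h.fl x hx y hy 3 4 (by decide) (.inl ⟨x3, x4⟩) h3).resolve_left fun H =>
    h1 (H 2 (by decide) (by decide))
  have y4 : y 4 ≠ 0 := fun e => by
    rw [e] at b1 b3
    exact (h.fl x hx y hy 2 3 (by decide) (.inl ⟨x2, x3⟩) h1).elim
      (fun H => h.half y hy 2 3 (by decide) H (by linear_combination b1)) fun H =>
        one_ne_zero (α := F) (by linear_combination H - b1 - b3)
  have b4 := (h.fl x hx y hy 4 5 (by decide) (.inl ⟨x4, x5⟩) y4).resolve_left fun H =>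
    h1 (H 2 (by decide) (by decide))
  have c2 : 4 * (y 2 * y 2) = 1 := by linear_combination b1 + b2 - b4
  have c3 : 4 * (y 3 * y 3) = 1 := by linear_combination 2 * b3 + b2 - b1 - b4
  have n := h.norm y hy
  simp only [dotProduct, Fin.sum_univ_six] at n
  have c0 : y 0 * y 0 + y 1 * y 1 = 0 := mul_left_cancel₀ two (by linear_combination 2 * n - b2 - b3)
  have y0 : y 0 = 0 := by_contra fun e => (h.fl x hx y hy 0 1 (by decide) (.inr h0) e).elim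
    (fun H => h1 (H 2 (by decide) (by decide))) fun H => one_ne_zero (α := F) (by
      linear_combination 2 * c0 - H)
  have y1 : y 1 = 0 := by simpa [y0] using c0
  have d1 : 4 * y 2 * y 3 * (4 * y 2 * y 3) = 1 := by linear_combination 4 * y 3 * y 3 * c2 + c3
  have x0 : x 0 ≠ 0 := fun e => h.one x hx 1 fun p hp => by
    by_cases e' : p = 0; exacts [e' ▸ e, h0 p e' hp]
  have x1 : x 1 ≠ 0 := fun e => h.one x hx 0 fun p hp => by
    by_cases e' : p = 1; exacts [e' ▸ e, h0 p hp e']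
  have n' := h.norm x hx
  simp only [dotProduct, Fin.sum_univ_six, x2, x3, x4, x5] at n'
  rcases h.sw y hy x hx 2 3 0 1 _ 1 (by decide) (by decide) d1 (mul_one 1) (by
    ext p; fin_cases p <;> simp [ssw, y0, y1]
    exacts [by linear_combination y 2 * c3, by linear_combination y 3 * c2]) with ⟨u, e⟩ | e
  · have e0 := congrFun e 0
    have e1 := congrFun e 1
    simp [ssw] at e0 e1
    exact h.half x hx 0 1 (by decide) h0 (by linear_combination n' + x 0 * e1 - x 1 * e0)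
  · simp [dotProduct, Fin.sum_univ_six, ssw, x2, x3, x4, x5] at e
    exact mul_ne_zero two (mul_ne_zero x0 x1) (by linear_combination e)

theorem finA (x0 : x 0 ≠ 0) (x2 : x 2 ≠ 0) (x23 : x 3 * x 3 = x 2 * x 2) (x4 : x 4 = 0) (x5 : x 5 = 0)
    (y0 : 4 * (y 0 * y 0) = 1) (y1 : 4 * (y 1 * y 1) = 1) (y4 : 4 * (y 4 * y 4) = 1)
    (y5 : 4 * (y 5 * y 5) = 1) : False := by
  rcases h.sw y hy x hx 0 4 1 5 (4 * y 0 * y 4) (4 * y 1 * y 5) (by decide) (by decide)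
    (by linear_combination 4 * y 4 * y 4 * y0 + y4) (by linear_combination 4 * y 5 * y 5 * y1 + y5) (by
      ext p; fin_cases p <;> simp [ssw]
      exacts [by linear_combination y 0 * y4, by linear_combination y 1 * y5,
        by linear_combination y 4 * y0, by linear_combination y 5 * y1]) with ⟨u, e⟩ | e
  · have e4 := congrFun e 4
    simp only [ssw, x4, Pi.smul_apply, smul_zero] at e4
    simp only [Fin.isValue, Fin.reduceEq, ↓reduceIte] at e4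
    exact x0 (by linear_combination 4 * y 0 * y 4 * e4 - x 0 * (4 * y 4 * y 4 * y0 + y4))
  · simp [dotProduct, Fin.sum_univ_six, ssw, x4, x5] at e
    exact mul_ne_zero h.two (mul_ne_zero x2 x2) (by linear_combination e - x23)

end

variable {R : Set (κ → F)} (h : F6 R) (h6 : Fintype.card κ = 6) {x y : κ → F} (hx : x ∈ R)
include h h6 hx

theorem zb4 {l m : κ} (hlm : l ≠ m) : ¬ ∀ p, p ≠ l → p ≠ m → x p = 0 := fun h0 => by
  obtain ⟨i, hi⟩ := exists_not_mem_list [l, m] (by simp; omega)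
  simp only [List.mem_cons, List.not_mem_nil, or_false, not_or] at hi
  obtain ⟨y, hy, y0⟩ := h.row i
  have k : ∀ σ : Fin 6 ≃ κ, σ 0 = l → σ 1 = m → ∀ p, p ≠ 0 → p ≠ 1 → (x ∘ σ) p = 0 := fun σ a b p c d =>
    h0 _ (a ▸ σ.injective.ne c) (b ▸ σ.injective.ne d)
  by_cases H : ∃ j, j ≠ l ∧ j ≠ m ∧ j ≠ i ∧ y j ≠ 0
  · obtain ⟨j, j1, j2, j3, j4⟩ := H
    obtain ⟨σ, rfl, rfl, rfl, rfl⟩ := exists_equiv4 h6 (a := l) (b := m) (c := i) (d := j) (by simp; grind)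
    exact (h.comp σ).zbB ⟨x, hx, rfl⟩ ⟨y, hy, rfl⟩ (k σ rfl rfl) y0 j4
  push Not at H
  obtain ⟨j, hj⟩ := exists_not_mem_list [l, m, i] (by simp; omega)
  obtain ⟨σ, rfl, rfl, rfl, -⟩ := exists_equiv4 h6 (a := l) (b := m) (c := i) (d := j) (by
    simp at hj ⊢; grind)
  exact (h.comp σ).zbA ⟨x, hx, rfl⟩ ⟨y, hy, rfl⟩ (k σ rfl rfl) y0 (H _ (by simp) (by simp) (by simp))
    (H _ (by simp) (by simp) (by simp)) (H _ (by simp) (by simp) (by simp))

omit h h6 hx in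
theorem finB {R : Set (Fin 6 → F)} (h : F6 R) {x y : Fin 6 → F} (hx : x ∈ R) (hy : y ∈ R) {s t : F}
    (hs : s * s = 1) (ht : t * t = 1) (x0 : x 0 ≠ 0) (x2 : x 2 ≠ 0) (x1 : x 1 = -s * x 0)
    (x3 : x 3 = -t * x 2) (x4 : x 4 = 0) (x5 : x 5 = 0) (y1 : y 1 = s * y 0) (y3 : y 3 = t * y 2)
    (y4 : y 4 ≠ 0) (y5 : y 5 ≠ 0) : False := by
  have two := h.two
  have a1 := (h.fl x hx y hy 4 5 (by decide) (.inl ⟨x4, x5⟩) y4).resolve_left
    (h.zb4 (Fintype.card_fin 6) hy (by decide))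
  have n := h.norm y hy
  simp only [dotProduct, Fin.sum_univ_six, y1, y3] at n
  have k : ∀ ε : F, ε * ε = 1 → (y 0 = 0 ∨ y 2 = 0) ∧ y 4 * y 4 = y 5 * y 5 ∨
      y 2 * y 2 - y 0 * y 0 + ε * y 4 * y 5 = 0 := fun ε hε => by
    refine (h.sw x hx y hy 0 1 4 5 (-s) ε (by decide) (by decide) (by simpa) hε (by
      ext p; fin_cases p <;> simp [ssw, x1, x4, x5, ← mul_assoc, hs])).imp (fun e => ?_) fun e => ?_
    · obtain ⟨u, e⟩ := e
      have e0 := congrFun e 0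
      have e2 := congrFun e 2
      have e4 := congrFun e 4
      have e5 := congrFun e 5
      simp only [ssw, Pi.smul_apply, smul_eq_mul, y1, Fin.isValue, Fin.reduceEq, ↓reduceIte] at e0 e2 e4 e5
      refine ⟨by_contra fun c => two ?_, by
        linear_combination ε * y 4 * e5 - ε * y 5 * e4 - (y 4 * y 4 - y 5 * y 5) * hε⟩
      push Not at c
      exact mul_right_cancel₀ (mul_ne_zero c.1 c.2) (by
        linear_combination y 0 * e2 - y 2 * e0 - y 0 * y 2 * hs)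
    · simp only [dotProduct, Fin.sum_univ_six, ssw, y1, y3, Fin.isValue, Fin.reduceEq, ↓reduceIte] at e
      exact mul_left_cancel₀ two (by
        linear_combination e + 2 * y 0 * y 0 * hs - y 2 * y 2 * ht)
  obtain ⟨b1, b2⟩ : (y 0 = 0 ∨ y 2 = 0) ∧ y 4 * y 4 = y 5 * y 5 := by
    refine (k 1 (mul_one 1)).elim id fun e => (k (-1) (by simp)).resolve_right fun e' => ?_
    exact mul_ne_zero two (mul_ne_zero y4 y5) (by linear_combination e - e')
  have c4 : 4 * (y 4 * y 4) = 1 := by linear_combination a1 + 2 * b2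
  have c5 : 4 * (y 5 * y 5) = 1 := by linear_combination a1 - 2 * b2
  rcases b1 with b1 | b1
  · have c2 : 4 * (y 2 * y 2) = 1 := by
      rw [b1] at n; linear_combination 2 * n - a1 - 2 * y 2 * y 2 * ht
    obtain ⟨σ, e0, e1, e2, e3, e4, e5⟩ : ∃ σ : Perm (Fin 6), σ 0 = 2 ∧ σ 1 = 3 ∧ σ 2 = 0 ∧ σ 3 = 1 ∧
      σ 4 = 4 ∧ σ 5 = 5 := ⟨swap 0 2 * swap 1 3, by decide⟩
    refine (h.comp σ).finA ⟨x, hx, rfl⟩ ⟨y, hy, rfl⟩ ?_ ?_ ?_ ?_ ?_ ?_ ?_ ?_ ?_ <;>
      simp only [Function.comp, e0, e1, e2, e3, e4, e5]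
    exacts [x2, x0, by rw [x1]; linear_combination x 0 * x 0 * hs, x4, x5, c2,
      by rw [y3]; linear_combination c2 + 4 * y 2 * y 2 * ht, c4, c5]
  · have c0 : 4 * (y 0 * y 0) = 1 := by
      rw [b1] at n; linear_combination 2 * n - a1 - 2 * y 0 * y 0 * hs
    exact h.finA hx hy x0 x2 (by rw [x3]; linear_combination x 2 * x 2 * ht) x4 x5 c0 (by
      rw [y1]; linear_combination c0 + 4 * y 0 * y 0 * hs) c4 c5

end F6

end H12
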