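import Cfsg.Agent.H12.OF7
import Cfsg.Agent.H12.RatLow
import Cfsg.Agent.H12.StabBridge
import Cfsg.Agent.H12.Parabolic
import Cfsg.Agent.H12.Char2
import Cfsg.Agent.H12.ExO2

/-!
# Items of the lists of maximal subgroups of even-dimensional orthogonal groups
-/

set_option autoImplicit false
set_option maxHeartbeats 400000

namespace H12

open Module H11 Submodule QuadraticMap Cfsg.Geo

section

variable {F : Type*} [Field F] [Fintype F] {V : Type*} [AddCommGroup V] [Module F V]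
  [FiniteDimensional F V] {Q : QuadraticForm F V}

local notation "𝓒" => CForm.ofQuad Q

theorem quad_isMaximalIn_nondeg8 (hQ : QNondeg Q) (hV : finrank F V = 8)
    (hm : ∀ U : Submodule F V, (∀ x ∈ U, Q x = 0) → finrank F U ≠ 4) {W : Submodule F V}
    (hW : (𝓒).NondegOn W) (h0 : W ≠ ⊥) (h1 : W ≠ ⊤) (hex : ∀ U, U = W ∨ U = (𝓒).perp W →
      ¬ (Fintype.card F ≤ 3 ∧ finrank F U = 2 ∧ ∃ u ∈ U, u ≠ 0 ∧ Q u = 0)) :
    IsMaximalIn (OmegaV Q) (glStab W ⊓ OmegaV Q) := by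
  have hiso : ∀ W, (𝓒).NondegOn W → finrank F W = 4 →
      ¬ ((𝓒).restrict W).Iso ((𝓒).restrict ((𝓒).perp W)) := fun W hW h h2 => by
    obtain ⟨U, -, h3, h4⟩ := exists_ts_of_iso hW le_rfl ⟨2, h⟩ h2
    exact hm U h3 (h4.trans h)
  by_cases hq : Fintype.card F = 2
  swap
  · exact quad_isMaximalIn_nondeg' hQ (Or.inr ⟨by omega, hq⟩) hW h0 h1
      (fun h => hiso W hW (by omega)) hex
  have h2 := hQ.finrank_add_finrank_perp W
  have h3 : finrank F ((𝓒).perp W) ≠ 0 := fun e => h1 (eq_top_of_finrank_eq (by omega))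
  have key : ∀ W, (𝓒).NondegOn W → W ≠ ⊥ → Irr 𝓒 W → 4 ≤ finrank F ((𝓒).perp W) →
      (5 ≤ finrank F ((𝓒).perp W) ∨ ∀ u ∈ (𝓒).perp W, ∀ v ∈ (𝓒).perp W, Q u = 0 → Q v = 0 →
        polar Q u v = 0 → u = 0 ∨ v = 0 ∨ u = v) →
      IsMaximalIn (OmegaV Q) (glStab W ⊓ OmegaV Q) := fun W hW h0 hi h4 h5 => by
    have h2 := hQ.finrank_add_finrank_perp W
    refine Big.isMaximalIn hQ (by omega) h0 ⟨hQ.nondegOn_perp hW, Or.inl h4, fun _ => h5⟩ h4 hi ?_
    rcases h4.lt_or_eq with h6 | h6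
    · exact Or.inl (by omega)
    · exact Or.inr ⟨by omega, hiso W hW (by omega)⟩
  have i1 := irr_quad hQ hW (hex _ (Or.inl rfl))
  have i2 := irr_quad hQ (hQ.nondegOn_perp hW) (hex _ (Or.inr rfl))
  have n2 : (𝓒).perp W ≠ ⊥ := fun e => h3 (by rw [e, finrank_bot])
  rcases lt_trichotomy (finrank F W) 4 with h4 | h4 | h4
  · exact key W hW h0 i1 (by omega) (Or.inl (by omega))
  · by_contra hc
    have a1 := mt (fun h => key W hW h0 i1 (by omega) (Or.inr h)) hc
    rw [← glStab_perp_inf hQ OmegaV_le] at hc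
    have a2 := mt (fun h => key _ (hQ.nondegOn_perp hW) n2 i2 (by rw [hQ.perp_perp]; omega)
      (Or.inr h)) hc
    rw [hQ.perp_perp] at a2
    push Not at a1 a2
    obtain ⟨u, b1, v, b2, b3, b4, b5, b6, b7, b8⟩ := a1
    obtain ⟨u', c1, v', c2, c3, c4, c5, c6, c7, c8⟩ := a2
    have t : ∀ {u v : V}, Q u = 0 → Q v = 0 → polar Q u v = 0 → u ≠ 0 → v ≠ 0 → u ≠ v →
        TSP 𝓒 u v := fun {u v} a1 a2 a3 a4 a5 a6 => ⟨a1, a2, a3, a4, fun e => by
      obtain ⟨c, rfl⟩ := mem_span_singleton.1 e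
      rw [eq_one_of_card_two hq (left_ne_zero_of_smul a5), one_smul] at a6
      exact a6 rfl⟩
    have t1 := t b3 b4 b5 b6 b7 b8
    have t2 := t c3 c4 c5 c6 c7 c8
    have l1 : span F {u, v} ≤ (𝓒).perp W := span_le.2 (by rintro _ (rfl | rfl) <;> assumption)
    have l2 : span F {u', v'} ≤ W := span_le.2 (by rintro _ (rfl | rfl) <;> assumption)
    refine hm (span F {u', v'} ⊔ span F {u, v}) (fun x hx => ?_) ?_
    · obtain ⟨y, hy, z, hz, rfl⟩ := mem_sup.1 hx
      rw [Q_add, show Q y = 0 from t2.ts.1 y hy, show Q z = 0 from t1.ts.1 z hz,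
        show polar Q y z = 0 from (𝓒).mem_perp.1 (l1 hz) y (l2 hy)]; simp
    · have := finrank_sup_add_finrank_inf_eq (span F {u', v'}) (span F {u, v})
      rw [((𝓒).nondegOn_iff.1 hW).mono l2 l1 |>.eq_bot, finrank_bot, t1.finrank_eq,
        t2.finrank_eq] at this
      omega
  · rw [← glStab_perp_inf hQ OmegaV_le]
    exact key _ (hQ.nondegOn_perp hW) n2 i2 (by rw [hQ.perp_perp]; omega)
      (Or.inl (by rw [hQ.perp_perp]; omega))

end

variable {F : Type*} [Field F] [Fintype F] {n : ℕ} {Q : QuadraticForm F (Fin n → F)}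
  (hC : QNondeg Q)
include hC

local notation "𝓒" => CForm.ofQuad Q

theorem ol_ts (hn : 5 ≤ n) {W : Submodule F (Fin n → F)} (hW0 : W ≠ ⊥)
    (hW : IsTotallySingularQuad Q W) (h : 2 * (finrank F W + 1) = n → ¬ IsPlusTypeOn Q ⊤) :
    IsMaximalIn (omegaGL Q) (subspaceStabilizer W ⊓ omegaGL Q) := by
  have hd : finrank F (Fin n → F) = n := by simp
  have hW' := (ts_quad_iff Q).2 hW
  have hR := rootData_quad hC (by omega)
  rw [omegaGL_eq, subspaceStabilizer_eq, ← Subgroup.comap_inf]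
  refine isMaximalIn_comap _ (isMaximalIn_of _ _ inf_le_right
    (fun h => hR.spec.not_le_glStab (by omega) hW0 (hW'.ne_top hC hW0)
      (h.trans inf_le_left)) fun M h1 h2 g hg hg' => ?_)
  refine hR.le_of_parabolic hW' (quad_move hC (Or.inr (by omega)) hW' ?_) h1 hg (h2 hg)
    fun h => hg' ⟨h, h2 hg⟩
  rintro h' ⟨U, hU, hU'⟩
  exact h (by omega) ⟨U, le_top, hU.1, by rw [hU', h', finrank_top]⟩

theorem ol_nondeg (hn : 9 ≤ n ∨ n = 8 ∧ ¬ IsPlusTypeOn Q ⊤) {W : Submodule F (Fin n → F)}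
    (h0 : 0 < finrank F W) (h1 : finrank F W < n) (hW : IsNondegenerateOn (polar Q) W)
    (hiso : 2 * finrank F W = n → Even (finrank F W) ∧ ¬ IsPlusTypeOn Q ⊤)
    (hex : finrank F W + 2 ≠ n ∧ (finrank F W = 2 → 4 ≤ Fintype.card F ∨ ¬ IsPlusTypeOn Q W)) :
    IsMaximalIn (omegaGL Q) (subspaceStabilizer W ⊓ omegaGL Q) := by
  have hd : finrank F (Fin n → F) = n := by simp
  have hW' := nondegOn_of_geo (𝓒) (Or.inl fun _ _ => rfl) hW
  have h2 := hC.finrank_add_finrank_perp W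
  have h3 : W ≠ ⊥ := by rintro rfl; simp at h0
  have h4 : W ≠ ⊤ := by rintro rfl; rw [finrank_top] at h1; omega
  have h5 : ∀ U, U = W ∨ U = (𝓒).perp W →
      ¬ (Fintype.card F ≤ 3 ∧ finrank F U = 2 ∧ ∃ u ∈ U, u ≠ 0 ∧ Q u = 0) := by
    rintro U (rfl | rfl) ⟨a1, a2, u, hu, hu0, hu1⟩
    · refine (hex.2 a2).elim (by omega) fun h => h ⟨_, (span_singleton_le_iff_mem _ _).2 hu,
        fun w hw => ?_, by rw [finrank_span_singleton hu0, a2]⟩
      obtain ⟨c, rfl⟩ := mem_span_singleton.1 hw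
      rw [QuadraticMap.map_smul, hu1, smul_zero]
    · omega
  rw [omegaGL_eq, subspaceStabilizer_eq, ← Subgroup.comap_inf]
  refine isMaximalIn_comap _ ?_
  rcases hn with hn | ⟨hn, hm⟩
  · refine quad_isMaximalIn_nondeg' hC (by omega) hW' h3 h4 (fun h h6 => ?_) h5
    obtain ⟨U, -, a1, a2⟩ := exists_ts_of_iso hW' le_rfl (hiso (by omega)).1 h6
    exact (hiso (by omega)).2 ⟨U, le_top, a1, by rw [a2, h, finrank_top]⟩
  · exact quad_isMaximalIn_nondeg8 hC (by omega)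
      (fun U a1 a2 => hm ⟨U, le_top, a1, by rw [a2, finrank_top]; omega⟩) hW' h3 h4 h5

theorem ol_odd (hn : 9 ≤ n ∨ n = 8 ∧ ¬ IsPlusTypeOn Q ⊤) (he : Even n)
    {W : Submodule F (Fin n → F)} (ho : Odd (finrank F W)) (h2 : 2 * finrank F W ≠ n)
    (hW : IsNondegenerateOn (polar Q) W) :
    IsMaximalIn (omegaGL Q) (subspaceStabilizer W ⊓ omegaGL Q) := by
  obtain ⟨k, hk⟩ := ho
  obtain ⟨l, hl⟩ := he
  have := W.finrank_le
  rw [show finrank F (Fin n → F) = n by simp] at this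
  exact ol_nondeg hC hn (by omega) (by omega) hW (by omega) ⟨by omega, by omega⟩

theorem ol_ns (hn : 8 ≤ n) (hchar : ¬ Odd (Fintype.card F)) {v : Fin n → F} (hv : Q v ≠ 0) :
    IsMaximalIn (omegaGL Q) (subspaceStabilizer (span F {v}) ⊓ omegaGL Q) := by
  rw [omegaGL_eq, subspaceStabilizer_eq, ← Subgroup.comap_inf]
  exact isMaximalIn_comap _ (isMaximalIn_nonsingular hC
    (not_not.1 (mt odd_card_iff.2 hchar)) (by simpa) hv)

theorem ol_rat (hn : 7 ≤ n) {F₀ : Subfield F} {r : ℕ} {P : GL (Fin n) F} {ζ : F} (hr : r.Prime)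
    (hcard : Fintype.card F = Nat.card F₀ ^ r) (hζ : ζ ≠ 0)
    (hP : IsQuadFormRationalStructure (fun v => ζ * Q v) F₀ P) :
    IsMaximalIn (omegaGL Q) (subfieldSubgroup F₀ P ⊓ omegaGL Q) := by
  have hc : Nat.card F = Nat.card F₀ ^ r := by rwa [Nat.card_eq_fintype_card]
  rw [omegaGL_eq, subfieldSubgroup_eq, ← Subgroup.comap_inf]
  exact isMaximalIn_comap _ (isMaximalIn_rat_quad' (rat_ratMap F₀ P)
    (maxSub_subfield hr hc) (exists_not_mem_subfield hr hc) (by simpa)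
    hC hζ fun x => ⟨⟨_, hP _ fun i => (x i).2⟩, by rw [ratMap_apply]; rfl⟩)

theorem ol_frame (hn : 10 ≤ n) (hp : (Fintype.card F).Prime) (hodd : Odd (Fintype.card F))
    {D : Fin n → Submodule F (Fin n → F)} (hD : IsOrthogonalMDecomposition Q 1 D) :
    IsMaximalIn (omegaGL Q) (decompositionStabilizer D ⊓ omegaGL Q) := by
  rw [omegaGL_eq, decompositionStabilizer_eq, ← Subgroup.comap_inf]
  exact isMaximalIn_comap _ ((orthDec_of_geo (𝓒) (Or.inl fun _ _ => rfl) hD.decomp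
    fun i j => quad_iso_iff.2 (hD.isometric i j)).isMaximalIn_frame hC (odd_card_iff.1 hodd) hp
    hD.decomp.decomp.finrank_eq (Or.inr (by simpa)))

theorem ol_big (hn : 5 ≤ n) {t k : ℕ} {D : Fin t → Submodule F (Fin n → F)}
    (hD : IsOrthogonalMDecomposition Q k D)
    (h : 4 ≤ k ∨ k = 3 ∧ Odd (Fintype.card F) ∧ 5 ≤ Fintype.card F)
    (h2 : Fintype.card F = 2 → k = 4 → ∀ i, ¬ IsPlusTypeOn Q (D i)) :
    IsMaximalIn (omegaGL Q) (decompositionStabilizer D ⊓ omegaGL Q) := by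
  have hD' := orthDec_of_geo (𝓒) (Or.inl fun _ _ => rfl) hD.decomp
    fun i j => quad_iso_iff.2 (hD.isometric i j)
  haveI : Nontrivial (Fin t) := Fin.nontrivial_iff_two_le.2 hD.decomp.decomp.two_le
  rw [omegaGL_eq, decompositionStabilizer_eq, ← Subgroup.comap_inf]
  refine isMaximalIn_comap _ (hD'.isMaximalIn_big hC (by simpa) fun i => ?_)
  have hk := hD.decomp.decomp.finrank_eq i
  refine ⟨hD'.nondeg i, h.imp (by omega) fun h => ⟨by omega, odd_card_iff.1 h.2.1, h.2.2⟩,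
    fun hq => ?_⟩
  by_cases h5 : 5 ≤ k
  · exact Or.inl (by omega)
  refine Or.inr fun u hu v hv a1 a2 a3 => by_contra fun hc => h2 hq (by omega) i ?_
  push Not at hc
  have t : TSP 𝓒 u v := ⟨a1, a2, a3, hc.1, fun e => by
    obtain ⟨c, rfl⟩ := mem_span_singleton.1 e
    exact hc.2.2 (by rw [eq_one_of_card_two hq (left_ne_zero_of_smul hc.2.1), one_smul])⟩
  exact ⟨span F {u, v}, span_le.2 (by rintro _ (rfl | rfl) <;> assumption), t.ts.1,
    by rw [t.finrank_eq]; omega⟩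

theorem ol_halves (hn : 9 ≤ n) {k : ℕ} (hk : 2 * k = n) {D : Fin 2 → Submodule F (Fin n → F)}
    (hD : IsNondegenerateMDecomposition (polar Q) k D) (hni : ¬ AreIsometricFor Q (D 0) (D 1)) :
    IsMaximalIn (omegaGL Q) (decompositionStabilizer D ⊓ omegaGL Q) := by
  have hd : finrank F (Fin n → F) = n := by simp
  have h1 := fun i => nondegOn_of_geo (𝓒) (Or.inl fun _ _ => rfl) (hD.nondegenerate i)
  have h2 := hD.decomp.finrank_eq
  have h3 := hC.finrank_add_finrank_perp (D 0)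
  have h4 : D 1 = (𝓒).perp (D 0) := eq_of_le_of_finrank_eq
    (fun x hx => (𝓒).mem_perp.2 fun y hy => hD.orthogonal 0 1 (by simp) y hy x hx)
    (by have := h2 0; have := h2 1; omega)
  have h5 : decStab D ⊓ OmegaV Q = glStab (D 0) ⊓ OmegaV Q := by
    refine Subgroup.ext fun g => and_congr_left fun hg => ⟨fun h => ?_, fun h => ?_⟩
    · obtain ⟨τ, hτ⟩ := mem_decStab.1 h
      have h6 := hτ 0
      by_cases h7 : τ 0 = 0
      · exact mem_glStab_iff_map.2 (by rwa [h7] at h6)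
      · rw [show τ 0 = 1 by omega] at h6
        exact absurd ⟨(g.submoduleMap (D 0)).trans (LinearEquiv.ofEq _ _ h6),
          fun w => (OmegaV_le hg).2 _⟩ hni
    · refine mem_decStab_of_stab (Fin.forall_fin_two.2 ⟨h, ?_⟩)
      rw [h4]
      exact mem_glStab_perp (OmegaV_le hg) h
  rw [omegaGL_eq, decompositionStabilizer_eq, ← Subgroup.comap_inf, h5]
  refine isMaximalIn_comap _ (quad_isMaximalIn_nondeg' hC (by omega) (h1 0) (fun e => ?_)
    (fun e => ?_) (fun _ h => hni ?_) ?_)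
  · have := h2 0
    rw [e, finrank_bot] at this
    omega
  · have := h2 0
    rw [e, finrank_top] at this
    omega
  · rw [← h4] at h
    exact quad_iso_iff.1 h
  · rintro U hU ⟨-, h6, -⟩
    rw [← h4] at hU
    rcases hU with rfl | rfl <;> rw [h2] at h6 <;> omega

end H12
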