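import Cfsg.Agent.H12.Ten2

/-!
# Invariant subspaces and subalgebras of endomorphisms
-/

set_option autoImplicit false
set_option maxHeartbeats 400000

namespace H12

open Module H11 Submodule H13.KL

variable {F : Type*} [Field F] {U : Type*} [AddCommGroup U] [Module F U] {T : FormType F}
  {C : CForm T U} {K : Subgroup (U ≃ₗ[F] U)} {e f x y : U} {A D : End F U} {g : U ≃ₗ[F] U} {a : F}

variable (C) in
/-- The flag attached to a singular vector. -/
def flg (e : U) (i : ℤ) : Submodule F U :=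
  if i ≤ 0 then ⊥ else if i = 1 then span F {e} else if i = 2 then C.perp (span F {e}) else ⊤

theorem sub_mem_flg (he : C.N e = 0) (hy : C.B e y = 0)
    (hg : ∀ x, g x = x + C.B e x • y - (T.σ (C.B x y) + a * C.B e x) • e) {i : ℤ}
    (hx : x ∈ flg C e i) : g x - x ∈ flg C e (i - 1) ∧ g x ∈ flg C e i := by
  have h0 := C.B_self_of_zero he
  have h1 : g x - x = C.B e x • y - (T.σ (C.B x y) + a * C.B e x) • e := by rw [hg]; abel
  have h2 : g x - x ∈ flg C e (i - 1) := by
    rw [h1]
    unfold flg at hx ⊢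
    split_ifs at hx ⊢ <;> try omega
    · simp [mem_bot F |>.1 hx]
    · obtain ⟨c, rfl⟩ := mem_span_singleton.1 hx
      simp [h0, hy]
    · rw [C.mem_perp_singleton.1 hx, zero_smul, zero_sub]
      exact neg_mem (smul_mem _ _ (mem_span_singleton_self e))
    · exact C.mem_perp_singleton.2 (by simp [h0, hy])
    · trivial
  refine ⟨h2, ?_⟩
  rw [← sub_add_cancel (g x) x]
  refine add_mem ?_ hx
  unfold flg at h2 ⊢
  split_ifs at h2 ⊢ <;> try omega
  · simp [mem_bot F |>.1 h2]
  · obtain ⟨c, hc⟩ := mem_span_singleton.1 h2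
    exact C.mem_perp_singleton.2 (by simp [← hc, h0])
  all_goals trivial

variable (C) in
/-- `D` moves the flag of `e` down. -/
structure W1 (e : U) (D : End F U) : Prop where
  h1 : D e = 0
  h2 : ∀ y, C.B e y = 0 → D y ∈ span F {e}
  h3 : ∀ x, C.B e (D x) = 0

variable (C K) in
/-- `A` is fixed modulo scalars by the unipotent radical attached to `e`. -/
def FixM (e : U) (A : End F U) : Prop := ∀ g ∈ K, ∀ y a, C.B e y = 0 →
  (∀ x, g x = x + C.B e x • y - (T.σ (C.B x y) + a * C.B e x) • e) →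
    ∃ d : F, ∀ x, g (A x) = A (g x) + d • g x

theorem FixM.w1 (h : FixM C K e A) (he : C.N e = 0) (hf : C.B e f = 1)
    (hK : ∀ y, C.B e y = 0 → ∃ a, Rq C K e y a) (hc : ∀ x, C.B e (A x) • e = C.B e x • A e) :
    ∃ c : F, W1 C e (A - c • 1) := by
  have h0 := C.B_self_of_zero he
  have he0 : e ≠ 0 := by rintro rfl; simp at hf
  have h1 : A e = C.B e (A f) • e := by rw [hc, hf, one_smul]
  have h2 : ∀ x, C.B e (A x) = C.B e x * C.B e (A f) := fun x => smul_left_injective F he0 (by
    simp only [hc x, h1, smul_smul])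
  refine ⟨C.B e (A f), by simp [← h1], fun y hy => ?_, fun x => by simp [h2 x, mul_comm]⟩
  obtain ⟨a, g, a1, a2⟩ := hK y hy
  obtain ⟨d, a3⟩ := h g a1 y a hy a2
  have a4 : g e = e := by simp [a2, h0, hy]
  have a5 : d = 0 := by simpa [h1, a4, he0] using a3 e
  have a6 := a3 f
  generalize C.B e (A f) = l at *
  rw [a5, a2, a2, hf, map_sub, map_add, map_smul, map_smul, h1, h2, hf] at a6
  exact mem_span_singleton.2 ⟨(T.σ (C.B f y) + a) * l - T.σ (C.B (A f) y) - a * l, by
    simp only [LinearMap.sub_apply, LinearMap.smul_apply, End.one_apply]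
    linear_combination (norm := module) a6⟩

theorem FixM.comm_tv (h : FixM C K e A) (hr : Rq C K e 0 a) : ∃ d : F, ∀ x,
    a • (C.B e x • A e - C.B e (A x) • e) = d • (x - (a * C.B e x) • e) := by
  obtain ⟨g, a1, a2⟩ := hr
  obtain ⟨d, a3⟩ := h g a1 0 a (by simp) a2
  refine ⟨d, fun x => ?_⟩
  have := a3 x
  simp only [a2, map_sub, map_add, map_smul, map_zero, smul_zero, zero_add, add_zero] at this
  linear_combination (norm := module) this

theorem FixM.comm_three [FiniteDimensional F U] (h : FixM C K e A) (hr : Rq C K e 0 a)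
    (ha : a ≠ 0) (hd : 3 ≤ finrank F U) (x : U) : C.B e (A x) • e = C.B e x • A e := by
  obtain ⟨d, a1⟩ := h.comm_tv hr
  obtain ⟨z, -, a2⟩ := exists_mem_not_mem_of_finrank_lt (W := span F {e, A e}) (W' := ⊤)
    (by have := finrank_span_pair_le (F := F) e (A e); rw [finrank_top]; omega)
  have : d = 0 := by_contra fun hd => a2 ((smul_mem_iff _ hd).1 (mem_span_pair.2
    ⟨d * (a * C.B e z) - a * C.B e (A z), a * C.B e z, by
      linear_combination (norm := module) a1 z⟩))
  exact (sub_eq_zero.1 (by simpa [this, ha] using a1 x)).symm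

theorem FixM.comm_two (h : FixM C K e A) (he : C.N e = 0) (hf : C.B e f = 1) (hr : Rq C K e 0 a)
    (ha : a ≠ 0) {b : F} (hr' : Rq C K e 0 b) (hb : b ≠ 0) (hab : a ≠ b) (x : U) :
    C.B e (A x) • e = C.B e x • A e := by
  have he0 : e ≠ 0 := by rintro rfl; simp at hf
  obtain ⟨d, a1⟩ := h.comm_tv hr
  obtain ⟨d', a2⟩ := h.comm_tv hr'
  have a3 : (b * d - a * d') • f = (a * b * (d - d')) • e := by
    have a3 := a1 f
    have a4 := a2 f
    rw [hf] at a3 a4
    linear_combination (norm := module) a • a4 - b • a3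
  have a4 : b * d - a * d' = 0 := by
    simpa [hf, C.B_self_of_zero he] using congrArg (C.B e) a3
  have a5 : d' = d := by simpa [a4, he0, ha, hb, sub_eq_zero, eq_comm] using a3
  have : d = 0 := by simpa [a5, ← sub_mul, sub_eq_zero, hab.symm] using a4
  exact (sub_eq_zero.1 (by simpa [this, ha] using a1 x)).symm

theorem FixM.comm_quad [FiniteDimensional F U] (h : FixM C K e A) (hC : C.Nondeg)
    (he : C.N e = 0) (hf : C.B e f = 1)
    (h2 : (2 : F) ≠ 0) (hσ : ∀ a, T.σ a = a) (hE : ∀ y, C.B e y = 0 → Rq C K e y (C.N y))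
    (hy : C.B e y = 0) (hy' : C.N y ≠ 0) (hd : 4 ≤ finrank F U ∨ ∃ t : F, t ≠ 0 ∧ t * t ≠ 1)
    (x : U) : C.B e (A x) • e = C.B e x • A e := by
  have h0 := C.B_self_of_zero he
  have he0 : e ≠ 0 := by rintro rfl; simp at hf
  obtain ⟨y, hy, hy', hd⟩ : ∃ y, C.B e y = 0 ∧ C.N y ≠ 0 ∧
      (y ∉ span F {e, A e} ∨ ∃ t : F, t ≠ 0 ∧ t * t ≠ 1) := by
    by_cases b1 : y ∉ span F {e, A e}
    · exact ⟨y, hy, hy', .inl b1⟩
    rcases hd with hd | hd
    swap
    · exact ⟨y, hy, hy', .inr hd⟩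
    obtain ⟨z, b2, b3⟩ := exists_mem_not_mem_of_finrank_lt (W := span F {e, A e})
      (W' := C.perp (span F {e})) (by
        have := finrank_span_pair_le (F := F) e (A e)
        have := hC.finrank_add_finrank_perp (span F {e})
        have := finrank_span_singleton_le (F := F) e
        omega)
    rw [C.mem_perp_singleton] at b2
    by_contra hc
    push Not at hc
    have b4 : ∀ p, C.B e p = 0 → p ∉ span F {e, A e} → C.N p = 0 := fun p c1 c2 =>
      by_contra fun c3 => c2 (hc p c1 c3).1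
    have b5 := b4 (z + y) (by simp [b2, hy]) fun c => b3 ((add_mem_cancel_right (not_not.1 b1)).1 c)
    have b6 := b4 (z - y) (by simp [b2, hy]) fun c => b3 (by
      simpa using add_mem c (not_not.1 b1))
    rw [C.N_add, b4 z b2 b3] at b5
    rw [C.N_sub, b4 z b2 b3] at b6
    exact mul_ne_zero h2 hy' (by linear_combination b5 + b6)
  have key : ∀ t : F, ∃ d : F, ∀ x, t • (C.B e (A x) • y - C.B (A x) y • e - C.B e x • A y +
      C.B x y • A e) - (t * t * C.N y) • (C.B e (A x) • e - C.B e x • A e) =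
      d • (x + t • (C.B e x • y - C.B x y • e) - (t * t * C.N y * C.B e x) • e) := fun t => by
    obtain ⟨g, a1, a2⟩ := hE (t • y) (by simp [hy])
    obtain ⟨d, a3⟩ := h g a1 _ _ (by simp [hy]) a2
    refine ⟨d, fun x => ?_⟩
    have := a3 x
    simp only [a2, map_sub, map_add, map_smul, hσ, C.N_smul, smul_eq_mul] at this
    linear_combination (norm := module) this
  obtain ⟨d, a1⟩ := key 1
  obtain ⟨d', a2⟩ := key (-1)
  have a3 : d' = -d := by
    have b1 := a1 y
    have b2 := a2 y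
    rw [hy] at b1 b2
    have : (d + d') • y = ((d - d') * C.B y y - 2 * C.N y * C.B e (A y)) • e := by
      linear_combination (norm := module) -b1 - b2
    have := congrArg C.N this
    rw [C.N_smul_of_zero he, C.N_smul, hσ] at this
    linear_combination mul_self_eq_zero.1 ((mul_eq_zero.1 this).resolve_right hy')
  have a4 : ∀ x, -C.N y • (C.B e (A x) • e - C.B e x • A e) = d • (C.B e x • y - C.B x y • e) :=
    fun x => smul_right_injective U h2 (by
      have b2 := a2 x
      rw [a3] at b2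
      linear_combination (norm := module) a1 x + b2)
  have : d = 0 := by
    rcases hd with hd | ⟨t, b1, b2⟩
    · have := a4 f
      rw [hf] at this
      exact by_contra fun c => hd ((smul_mem_iff _ c).1 (mem_span_pair.2
        ⟨d * C.B f y - C.N y * C.B e (A f), C.N y, by linear_combination (norm := module) this⟩))
    · obtain ⟨d'', b3⟩ := key t
      have b4 : ∀ x, (t * d) • (x - (C.N y * C.B e x) • e) + (t * t * d) •
          (C.B e x • y - C.B x y • e) = d'' • (x + t • (C.B e x • y - C.B x y • e) -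
          (t * t * C.N y * C.B e x) • e) := fun x => by
        linear_combination (norm := module) b3 x - t • a1 x - (t * t - t) • a4 x
      have b5 : d'' = t * d := (smul_left_injective F he0 (by simpa [h0, hy] using b4 e)).symm
      have b6 := b4 f
      rw [b5, hf] at b6
      have : (t * d * C.N y * (t * t - 1)) • e = 0 := by linear_combination (norm := module) b6
      simpa [he0, b1, hy', sub_eq_zero, b2] using this
  exact sub_eq_zero.1 (by simpa [this, hy'] using a4 x)

variable [FiniteDimensional F U]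

theorem exists_w1 (M : Submodule F (End F U)) (h1 : 1 ∈ M) (hM : ∀ g ∈ K, ∀ A ∈ M, cj g A ∈ M)
    (he : C.N e = 0) (hc : ∀ A, FixM C K e A → ∃ c : F, W1 C e (A - c • 1)) (hA : A ∈ M)
    (hn : ¬ ∃ c : F, ∀ x, A x = c • x) : ∃ D ∈ M, D ≠ 0 ∧ W1 C e D := by
  have key : ∀ n : ℕ, ∀ A ∈ M, (¬ ∃ c : F, ∀ x, A x = c • x) →
      (∀ i, ∀ x ∈ flg C e i, A x ∈ flg C e (i - 1 + n)) → ∃ D ∈ M, D ≠ 0 ∧ W1 C e D := by
    intro n
    induction n with
    | zero =>
      refine fun A hA hn h => ⟨A, hA, fun e => hn ⟨0, by simp [e]⟩, ?_, fun y hy => ?_, fun x => ?_⟩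
      · simpa [flg] using h 1 e (by simp [flg])
      · simpa [flg] using h 2 y (by simpa [flg, C.mem_perp_singleton])
      · simpa [flg, C.mem_perp_singleton] using h 3 x (by simp [flg])
    | succ n ih =>
      intro A hA hn h
      by_cases hF : FixM C K e A
      · obtain ⟨c, a1⟩ := hc A hF
        exact ⟨_, sub_mem hA (smul_mem _ _ h1), fun e => hn ⟨c, by simp [sub_eq_zero.1 e]⟩, a1⟩
      simp only [FixM, not_forall] at hF
      obtain ⟨g, a1, y, a, a2, a3, a4⟩ := hF
      refine ih _ (sub_mem (hM g a1 A hA) hA) (fun ⟨d, a5⟩ => a4 ⟨d, fun x => ?_⟩) fun i x hx => ?_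
      · rw [← a5]; simp [inv_apply_apply]
      · obtain ⟨x, rfl⟩ := g.surjective x
        have b1 := ((mem_glStab_of_mapsTo fun x hx => (sub_mem_flg he a2 a3 hx).2) x).2 hx
        have b2 := (sub_mem_flg he a2 a3 (h i x b1)).1
        have b3 := h _ _ (sub_mem_flg he a2 a3 b1).1
        rw [show i - 1 + (n + 1 : ℕ) - 1 = i - 1 + n by push_cast; ring] at b2
        rw [show i - 1 - 1 + (n + 1 : ℕ) = i - 1 + n by push_cast; ring] at b3
        convert sub_mem b2 b3 using 1
        simp [inv_apply_apply]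
  refine key 3 A hA hn fun i x hx => ?_
  unfold flg at hx ⊢
  split_ifs at hx ⊢ <;> first | omega | trivial | simp [mem_bot F |>.1 hx]

theorem W1.adj (hC : C.Nondeg) (h : W1 C e D) : W1 C e (hC.adj D) where
  h1 := hC _ fun x => by rw [hC.B_adj, h.h3]
  h2 y hy := by
    rw [← hC.perp_perp (span F {e})]
    refine C.mem_perp'.2 fun x hx => ?_
    obtain ⟨c, hc⟩ := mem_span_singleton.1 (h.h2 x (C.mem_perp_singleton.1 hx))
    simp [hC.B_adj, ← hc, C.B_swap_zero hy]
  h3 x := by simp [hC.B_adj', h.h1]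

omit [FiniteDimensional F U] in
theorem W1.apply (h : W1 C e D) (hf : C.B e f = 1) (x : U) : ∃ c : F, D x = C.B e x • D f + c • e :=
  let ⟨c, hc⟩ := mem_span_singleton.1 (h.h2 (x - C.B e x • f) (by simp [hf])); ⟨c, by simp [hc]⟩

theorem W1.eq_smul (hC : C.Nondeg) (h : W1 C e D) (hf : C.B e f = 1) (h1 : D f ∈ span F {e})
    (h2 : hC.adj D f ∈ span F {e}) : ∃ c : F, D = c • (C.B e).smulRight e := by
  obtain ⟨c, hc⟩ := mem_span_singleton.1 h1
  obtain ⟨c', hc'⟩ := mem_span_singleton.1 h2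
  refine ⟨c, LinearMap.ext fun x => ?_⟩
  obtain ⟨d, hd⟩ := mem_span_singleton.1 (h.h2 (x - C.B e x • f) (by simp [hf]))
  have := hC.B_adj D f (x - C.B e x • f)
  rw [← hc', ← hd, C.B_smul_left, C.B_smul_right, C.symm e f, hf] at this
  rw [show d = 0 by simpa [hf, T.ε_ne] using this.symm, map_sub, map_smul, ← hc] at hd
  simp only [LinearMap.smul_apply, LinearMap.smulRight_apply]
  linear_combination (norm := module) -hd

variable (C K) in
/-- The group `K` is large enough to control invariant subalgebras. -/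
structure MA : Prop where
  nd : C.Nondeg
  le : K ≤ C.isom
  ex : ∃ e, e ≠ 0 ∧ C.N e = 0
  fix : ∀ e A, e ≠ 0 → C.N e = 0 → FixM C K e A → ∃ c : F, W1 C e (A - c • 1)
  move : ∀ e b, C.N e = 0 → e ≠ 0 → C.B e b = 0 → b ∉ span F {e} →
    ∃ g ∈ K, g e = e ∧ C.B (g b) b ≠ 0

theorem MA.eq_top (h : MA C K) (I : Subalgebra F (End F U)) (h1 : ∀ A ∈ I, h.nd.adj A ∈ I)
    (h2 : ∀ g ∈ K, ∀ A ∈ I, cj g A ∈ I) (hA : A ∈ I) (hn : ¬ ∃ c : F, ∀ x, A x = c • x)
    (D : End F U) : D ∈ I := by
  have key : ∀ e f D, e ≠ 0 → C.N e = 0 → C.B e f = 1 → D ∈ I → W1 C e D → D f ∉ span F {e} →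
      (C.B e).smulRight e ∈ I := fun e f D a1 a2 a3 a4 a5 a6 => by
    obtain ⟨g, b1, b2, b3⟩ := h.move e _ a2 a1 (a5.h3 f) a6
    obtain ⟨c, hc⟩ := mem_span_singleton.1 ((a5.adj h.nd).h2 (g (D f)) (by
      rw [← b2, CForm.isom_B (h.le b1), a5.h3]))
    have b4 : c ≠ 0 := fun e => b3 (by rw [← h.nd.B_adj, ← hc, e]; simp)
    convert I.smul_mem (mul_mem (h1 D a4) (h2 g b1 D a4)) c⁻¹
    ext x
    obtain ⟨x, rfl⟩ := g.surjective x
    obtain ⟨d, hd⟩ := a5.apply a3 x
    have : C.B e (g x) = C.B e x := by nth_rw 1 [← b2]; rw [CForm.isom_B (h.le b1)]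
    simp [inv_apply_apply, hd, ← hc, b2, (a5.adj h.nd).h1, this, smul_smul, mul_comm, b4]
  have h3 : ∀ e, e ≠ 0 → C.N e = 0 → (C.B e).smulRight e ∈ I := fun e a1 a2 => by
    obtain ⟨f, a3⟩ := h.nd.exists_eq a1 1
    obtain ⟨D, b1, b2, b3⟩ := exists_w1 (K := K) I.toSubmodule I.one_mem h2 a2
      (fun A => h.fix e A a1 a2) hA hn
    by_cases c1 : D f ∈ span F {e}
    swap
    · exact key e f D a1 a2 a3 b1 b3 c1
    by_cases c2 : h.nd.adj D f ∈ span F {e}
    swap
    · exact key e f _ a1 a2 a3 (h1 D b1) (b3.adj h.nd) c2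
    obtain ⟨c, rfl⟩ := b3.eq_smul h.nd a3 c1 c2
    exact (I.toSubmodule.smul_mem_iff (fun e => b2 (by simp [e]))).1 b1
  have h4 : ∀ f, C.N f = 0 → ∀ x, (C.B f).smulRight x ∈ I := fun f a1 x => by
    by_cases a2 : f = 0
    · simp [a2, I.zero_mem]
    let S := I.toSubmodule.comap (LinearMap.smulRightₗ (C.B f) : U →ₗ[F] End F U)
    by_contra hc
    obtain ⟨p, -, b1, b2, b3⟩ := exists_singular_not_mem_two (S := S) (C.nondegOn_top.2 h.nd)
      (let ⟨e, b⟩ := h.ex; ⟨e, trivial, b⟩) (fun e => hc (e (mem_top (x := x))))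
      fun e => a2 (h.nd f fun y => C.mem_perp.1 (e (mem_top (x := y))) f (h3 f a2 a1))
    rw [C.mem_perp'] at b3
    push Not at b3
    obtain ⟨z, b4, b5⟩ := b3
    have := mul_mem (h3 p (by rintro rfl; simp at b5) b1) b4
    refine b2 ((S.smul_mem_iff b5).1 (show (C.B f).smulRight _ ∈ I from ?_))
    convert this
    ext x
    simp [smul_smul, mul_comm]
  have h5 : ∀ f x, (C.B f).smulRight x ∈ I := fun f x => by
    obtain ⟨e, a1, a2⟩ := h.ex
    exact mem_of_singular_sub (C.nondegOn_top.2 h.nd) trivial a1 a2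
      { carrier := {f | (C.B f).smulRight x ∈ I}
        zero_mem' := by simp [I.zero_mem]
        add_mem' := fun a b => show _ ∈ I by convert I.add_mem a b; ext; simp [add_smul]
        neg_mem' := fun a => show _ ∈ I by convert I.neg_mem a; ext; simp } (fun f _ a => h4 f a x) trivial
  let b := Module.finBasis F U
  have : D = ∑ i, (b.coord i).smulRight (D (b i)) := b.ext fun j => by
    simp [Finsupp.single_apply]
  rw [this]
  refine sum_mem fun i _ => ?_
  obtain ⟨f, hf⟩ := h.nd.exists_rep (b.coord i)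
  rw [← LinearMap.ext hf]
  exact h5 f _

end H12
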