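import Cfsg.Agent.H12.Ten4
import Cfsg.Agent.H12.Ten5
import Cfsg.Agent.H11.SpSimple

/-!
# Tensor products of forms: the classical groups of the factors
-/

set_option autoImplicit false
set_option maxHeartbeats 400000

namespace H12

open Module H11 Submodule TensorProduct H13.KL QuadraticMap

section

variable {F : Type*} [Field F] {V : Type*} [AddCommGroup V] [Module F V] {T : FormType F}
  {C : CForm T V} {K : Subgroup (V ≃ₗ[F] V)} {Q : QuadraticForm F V}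

/-- A multiple of a form, of the same type. -/
def CForm.smulc (C : CForm T V) {c : F} (hc : T.σ c = c) (hτ : ∀ a, T.τ (c * a) = c * T.τ a) :
    CForm T V where
  B := c • C.B
  N x := c * C.N x
  symm x y := by simp [C.symm x y, hc, mul_left_comm]
  N_add x y := by simp [C.N_add, hτ, mul_add]
  N_smul a x := by rw [C.N_smul, mul_left_comm]
  B_self x := by simp [C.B_self, mul_left_comm]
  N_mem x := let ⟨a, h⟩ := C.N_mem x; ⟨c * a, by rw [hτ, h]⟩

theorem CForm.Nondeg.smulc (hC : C.Nondeg) {c : F} (hc : T.σ c = c)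
    (hτ : ∀ a, T.τ (c * a) = c * T.τ a) (h0 : c ≠ 0) : (C.smulc hc hτ).Nondeg :=
  fun x h => hC x fun y => (mul_eq_zero.1 (h y)).resolve_left h0

variable [FiniteDimensional F V]

theorem rq_tv {u : V} (hu : C.N u = 0) {a : F} (ha : TvOk T (-a)) :
    Rq C (C.isom ⊓ SLV F V) u 0 a :=
  ⟨_, ⟨(tv C hu ha).2, det_tv hu ha⟩, fun x => by simp [tv_apply, sub_eq_add_neg]⟩

theorem rq_eich (hQ : QNondeg Q) (hne : NotExc F V) {v y : V} (hv : Q v = 0)
    (h : polar Q v y = 0) : Rq (CForm.ofQuad Q) (OmegaV Q) v y (Q y) := by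
  have h3 : polar Q v (-y) = 0 := by simp [h]
  refine ⟨_, eich_mem_OmegaV hQ hne hv h3, fun x => ?_⟩
  rw [eich_apply hv h3, QuadraticMap.map_neg, polar_neg_left, polar_comm Q y]
  change _ = x + polar Q v x • y - (polar Q x y + Q y * polar Q v x) • v
  module

theorem mem_OmegaV_of_cen (hQ : QNondeg Q) (hne : NotExc F V) {L : Submodule F V}
    (hL : ∀ l ∈ L, Q l = 0) {g : V ≃ₗ[F] V} (hg : g ∈ orth Q) (h : g ∈ cen L) : g ∈ OmegaV Q := by
  induction hn : finrank F L using Nat.strong_induction_on generalizing L g with | _ n ih => ?_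
  by_cases h0 : L = ⊥
  · rw [by_contra fun e => not_mem_cen_bot e (h0 ▸ h) (g := g)]; exact one_mem _
  obtain ⟨l, a1, a2⟩ := exists_mem_ne_zero_of_ne_bot h0
  obtain ⟨x, a3⟩ := hQ.exists_eq a2 1
  have h1 : ∀ a ∈ L, ∀ b ∈ L, polar Q a b = 0 := fun a ha b hb => by
    rw [polar, hL _ (add_mem ha hb), hL a ha, hL b hb]; simp
  have a4 : polar Q x (g x - x) = 0 := by
    have := mem_orth.1 hg x
    rw [← add_sub_cancel x (g x), Q_add, hL _ (h x)] at this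
    linear_combination this
  obtain ⟨k, b1, b2⟩ := rq_eich hQ hne (hL l a1) (h1 l a1 _ (h x))
  have b3 : k ∈ cen L := fun y => by
    rw [b2, add_sub_assoc, add_sub_cancel_left]
    exact sub_mem (smul_mem _ _ (h x)) (smul_mem _ _ a1)
  have b4 : (k⁻¹ * g) x = x := k.injective (by
    rw [LinearEquiv.mul_apply, apply_inv_apply, b2, a3, hL _ (h x), CForm.ofQuad_B, a4]; simp)
  have b5 := mul_mem (inv_mem (OmegaV_le b1)) hg
  simpa using mul_mem b1 (ih _ (hn ▸ finrank_lt_finrank_of_lt (SetLike.lt_iff_le_and_exists.2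
    ⟨inf_le_left, l, a1, fun e => by
      simp [(CForm.ofQuad Q).B_swap_zero ((CForm.ofQuad Q).mem_perp_singleton.1 e.2)] at a3⟩))
    (L := L ⊓ (CForm.ofQuad Q).perp (span F {x})) (fun l hl => hL l hl.1) b5
    (fun y => ⟨mul_mem (inv_mem b3) h y, (CForm.ofQuad Q).mem_perp_singleton.2
      ((CForm.ofQuad Q).B_swap_zero (isom_B_fix b5 b4 y))⟩) rfl)

theorem le_of_stv {C : CForm (altType F) V} (hC : C.Nondeg) (h : ∀ u c, (stv C u c).1 ∈ K) :
    C.isom ≤ K := fun g hg =>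
  (stv_induction hC (K.subgroupOf _) h).ge (Subgroup.mem_top ⟨g, hg⟩)

theorem TSP.exists_ne {e b : V} (h : TSP C e b) (hC : C.Nondeg) :
    ∃ z, TSP C e z ∧ C.B b z ≠ 0 := by
  by_contra hc
  push Not at hc
  obtain ⟨p, a1, a2⟩ := hC.exists_perp_ne h.nm
  exact a2 (h.perp_add hC (LinearMap.ker (C.B b)).toAddSubgroup hc (C.mem_perp_singleton.1 a1))

theorem ma_tv (hC : C.Nondeg) (hK : K ≤ C.isom) (he : ∃ e, e ≠ 0 ∧ C.N e = 0)
    (hr : ∀ e y, C.N e = 0 → C.B e y = 0 → ∃ a, Rq C K e y a) (hs : ∀ b, C.B b b = 0 → C.N b = 0)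
    {a : F} (ha : a ≠ 0) (ht : ∀ v, C.N v = 0 → Rq C K v 0 a)
    (hd : 3 ≤ finrank F V ∨ ∃ b, b ≠ 0 ∧ a ≠ b ∧ ∀ v, C.N v = 0 → Rq C K v 0 b) : MA C K where
  nd := hC
  le := hK
  ex := he
  fix e A a1 a2 h :=
    let ⟨_, hf⟩ := hC.exists_eq a1 1
    h.w1 a2 hf (fun y => hr e y a2) (hd.elim (h.comm_three (ht e a2) ha)
      fun ⟨_, b1, b2, b3⟩ => h.comm_two a2 hf (ht e a2) ha (b3 e a2) b1 b2)
  move e b a1 a2 a3 a4 := by
    by_cases h : C.B b b = 0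
    swap
    · exact ⟨1, one_mem _, rfl, h⟩
    obtain ⟨z, b1, b2⟩ := TSP.exists_ne ⟨a1, hs b h, a3, a2, a4⟩ hC
    obtain ⟨g, b3, b4⟩ := ht z b1.hc
    exact ⟨g, b3, by simp [b4, b1.symm.hB], by
      simp [b4, h, C.B_swap_ne b2, T.σ_eq_zero, ha]⟩

theorem ma_alt {C : CForm (altType F) V} (hC : C.Nondeg) (h0 : 0 < finrank F V)
    (hd : 3 ≤ finrank F V ∨ ∃ b : F, b ≠ 0 ∧ b ≠ 1) : MA C C.isom :=
  have ht : ∀ a v, C.N v = 0 → Rq C C.isom v 0 a := fun _ _ hv =>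
    (rq_tv hv (tvOk_alt _)).mono inf_le_left
  ma_tv hC le_rfl (let ⟨e, h⟩ := finrank_pos_iff_exists_ne_zero.1 h0; ⟨e, h, H12.alt_N e⟩)
    (fun e y he h => ⟨0, (rootG_alt hC).rho e y he (H12.alt_N y) h⟩) (fun _ _ => H12.alt_N _)
    one_ne_zero (ht 1)
    (hd.imp id fun ⟨b, h1, h2⟩ => ⟨b, h1, h2.symm, ht b⟩)

theorem rq_tv_herm {σ : F →+* F} {hσ2 : ∀ a, σ (σ a) = a} {C : CForm (hermType σ hσ2) V} {u : V}
    (hu : C.N u = 0) {a : F} (ha : a + σ a = 0) : Rq C (C.isom ⊓ SLV F V) u 0 a :=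
  rq_tv hu (tvOk_herm.2 (by rw [map_neg, ← neg_add, ha, neg_zero]))

theorem ma_herm {σ : F →+* F} {hσ2 : ∀ a, σ (σ a) = a} {C : CForm (hermType σ hσ2) V}
    (hσ : σ ≠ RingHom.id F) (hN : ∀ a, σ a = a → ∃ b, b * σ b = a) (hC : C.Nondeg)
    (h0 : 2 ≤ finrank F V) (hd : 3 ≤ finrank F V ∨ ∃ b : F, σ b = b ∧ b ≠ 0 ∧ b ≠ 1) :
    MA C (C.isom ⊓ SLV F V) := by
  obtain ⟨a, a1, a2⟩ := exists_trace_zero' (hσ2 := hσ2) hσ
  refine ma_tv hC inf_le_left (let ⟨e, _, h⟩ := herm_exists_iso hN C (W := ⊤) (by simpa); ⟨e, h⟩)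
    (fun e y he h => ?_) (fun b h => (herm_B_self b).symm.trans h) a1 (fun v hv => rq_tv_herm hv a2)
    (hd.imp id fun ⟨b, h1, h2, h3⟩ => ⟨a * b, mul_ne_zero a1 h2, by simpa [a1, eq_comm],
      fun v hv => rq_tv_herm hv (by rw [map_mul, h1, ← add_mul, a2, zero_mul])⟩)
  obtain ⟨c, hc⟩ := exists_trace_eq hσ hσ2 (herm_σN (C := C) y)
  exact ⟨c, (rho C he h hc).1, ⟨(rho C he h hc).2, rho_mem_sisom he h hc⟩, fun x => by
    rw [rho_apply, herm_symm x y]; rfl⟩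

theorem ma_quad [Finite F] (hQ : QNondeg Q) (h2 : (2 : F) ≠ 0) (hK : K ≤ orth Q)
    (hK' : OmegaV Q ≤ K) (h3 : 3 ≤ finrank F V) (hd : 4 ≤ finrank F V ∨ ∃ t : F, t ≠ 0 ∧ t * t ≠ 1)
    (hm : 5 ≤ finrank F V ∨ (∀ e b, ¬ TSP (CForm.ofQuad Q) e b) ∨ orth Q ≤ K) :
    MA (CForm.ofQuad Q) K where
  nd := hQ
  le := hK
  ex := exists_singular Q h3
  fix e A a1 a2 h := by
    have hr := fun y hy => (rq_eich hQ (notExc_of_two_ne_zero h2) a2 (y := y) hy).mono hK'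
    obtain ⟨f, hf⟩ := hQ.exists_eq a1 1
    obtain ⟨y, b1, b2⟩ := exists_nonsingular_perp hQ (U := span F {e})
      (by have := finrank_span_singleton_le (F := F) e; omega)
    exact h.w1 a2 hf (fun y hy => ⟨_, hr y hy⟩) (h.comm_quad hQ a2 hf h2 (fun _ => rfl) hr
      ((CForm.ofQuad Q).mem_perp_singleton.1 b1) b2 hd)
  move e b a1 a2 a3 a4 := by
    by_cases h : polar Q b b = 0
    swap
    · exact ⟨1, one_mem _, rfl, h⟩
    have h' : Q b = 0 := by simpa [h2] using (polar_self' Q b).symm.trans h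
    have e' : TSP (CForm.ofQuad Q) e b := ⟨a1, h', a3, a2, a4⟩
    obtain ⟨z, b1, b2⟩ := e'.exists_ne hQ
    have b3 := b1.hB
    simp only [CForm.ofQuad_B] at a3 b2 b3 ⊢
    rcases hm with hm | hm | hm
    · obtain ⟨y, c1, c2⟩ := exists_nonsingular_perp hQ (U := span F {e, z})
        (by rw [b1.finrank_eq]; omega)
      obtain ⟨c3, c4⟩ := (CForm.ofQuad Q).mem_perp_pair.1 c1
      rw [CForm.ofQuad_B] at c3 c4
      refine ⟨_, hK' (eich_mem_OmegaV hQ (notExc_of_two_ne_zero h2) b1.hc c4),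
        eich_apply_of_orth b1.hc c4 (by rwa [polar_comm]) (by rwa [polar_comm]), ?_⟩
      rw [eich_apply b1.hc c4, polar_sub_left, polar_sub_left, polar_add_left, polar_smul_left,
        polar_smul_left, polar_smul_left, h, polar_comm Q z]
      simp [mul_comm, b2, c2]
    · exact absurd e' (hm _ _)
    · have c1 : Q (z + b) = polar Q b z := by
        rw [Q_add, h', show Q z = 0 from b1.hc, polar_comm]; simp
      refine ⟨_, hm (refl Q (z + b)).2, refl_apply_of_orth (by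
        rw [polar_add_left, polar_comm, b3, polar_comm, a3, add_zero]), ?_⟩
      rw [refl_apply, polar_sub_left, polar_smul_left, polar_add_left, c1, h, polar_comm Q z]
      simp [b2]

end

variable {F : Type*} [Field F] {U W : Type*} [AddCommGroup U] [Module F U] [AddCommGroup W]
  [Module F W] {T T₁ T₂ : FormType F} {C : CForm T (U ⊗[F] W)} {C₁ : CForm T₁ U}
  {C₂ : CForm T₂ W} {X G : Subgroup ((U ⊗[F] W) ≃ₗ[F] (U ⊗[F] W))} {R : Subgroup (W ≃ₗ[F] W)}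
  {K : Subgroup (U ≃ₗ[F] U)} [FiniteDimensional F U] [FiniteDimensional F W]

omit [FiniteDimensional F U] [FiniteDimensional F W] in
theorem rH_mem_cen {β : W ≃ₗ[F] W} {w : W} (h : ∀ y, ∃ c : F, β y = y + c • w) :
    TensorProduct.congr (1 : U ≃ₗ[F] U) β ∈ cen (line F U w) := fun x => by
  induction x with
  | zero => simp
  | tmul u y => obtain ⟨c, e⟩ := h y; exact ⟨c • u, by simp [e, tmul_add, smul_tmul]⟩
  | add x y a b => rw [map_add, add_sub_add_comm]; exact add_mem a b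

omit [FiniteDimensional F U] [FiniteDimensional F W] in
theorem lH_mem_cen {α : U ≃ₗ[F] U} {u : U} (h : ∀ y, ∃ c : F, α y = y + c • u) :
    TensorProduct.congr α (1 : W ≃ₗ[F] W) ∈ cen (LinearMap.range (TensorProduct.mk F U W u)) :=
  fun x => by
  induction x with
  | zero => simp
  | tmul v y => obtain ⟨c, e⟩ := h v; exact ⟨c • y, by simp [e, add_tmul, smul_tmul]⟩
  | add x y a b => rw [map_add, add_sub_add_comm]; exact add_mem a b

theorem TX.not_le (h : TX C C₁ C₂ X R) (hG : RootG C G) (he : ∃ e, e ≠ 0 ∧ C₁.N e = 0) :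
    ¬ G ≤ tenStab F U W := fun hle => by
  obtain ⟨e, a1, a2⟩ := he
  obtain ⟨w, b1, b2, -⟩ := h.conn 0 0
  obtain ⟨y, b3⟩ := h.tsp b2 b1
  obtain ⟨r, -, c1, c2, -⟩ := b3.exists_dual h.nd₂
  obtain ⟨f, hf⟩ := h.nd₁.exists_eq a1 1
  obtain ⟨g, d1, d2⟩ := hG.rho (e ⊗ₜ w) (e ⊗ₜ y) (h.N_tmul e b2) (h.N_tmul e b3.hc)
    (by simp [h.hB, b3.hB])
  obtain ⟨B, hB⟩ := isR_of_perp (Y := ⊥) (hle d1) (z := w) b1 fun u => by
    simp [d2, h.hB, b3.hB, C₂.B_self_of_zero b2]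
  have d3 := hB e r
  have d4 := hB f r
  simp only [d2, h.hB, C₁.B_self_of_zero a2, C₂.B_swap_zero c2, hf, c1, mul_zero, zero_mul,
    map_zero, zero_smul, add_zero, sub_zero, mul_one, one_smul] at d3 d4
  rw [← tmul_right_inj a1 d3, add_eq_left] at d4
  exact tmul_ne_zero a1 b3.symm.ne d4

theorem TX.isMax (h : TX C C₁ C₂ (tenStab F U W ⊓ G) R) (hG : RootG C G) (hd : 5 ≤ finrank F W)
    (hK : MA C₁ K) (hK' : ∀ α ∈ K, lH F U W α ∈ G)
    (hZ : ∀ a, a * T.ε + T.σ a = 0 → T.τ (a * T.ε) = 0 → ∃ b, a = T.σ T.ε * b - T.σ b)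
    (hf : ∀ X, TX C C₁ C₂ X R → X ≤ G → QS C₂ X → X ≤ tenStab F U W) :
    Cfsg.Geo.IsMaximalIn G (tenStab F U W ⊓ G) := by
  refine isMaximalIn_of _ _ inf_le_right (fun e => h.not_le hG hK.ex (e.trans inf_le_left))
    fun X a1 a2 g a3 a4 => ?_
  have h' := h.mono a1 (a2.trans hG.le)
  by_cases hs : ∀ A ∈ h'.alg hd, ∃ c : F, ∀ u, A u = c • u
  · exact absurd ⟨hf X h' a2 (h'.qs_of_alg hd hs) a3, a2 a3⟩ a4
  push Not at hs
  obtain ⟨A, b1, b2⟩ := hs
  exact h'.le_of_alg hd (hK.eq_top _ (fun A => h'.adj_mem_alg hd) (fun α hα A hA =>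
    h'.conj_mem_alg hd hA (a1 ⟨congr_mem _ _, hK' α hα⟩)) b1 (by simpa using b2)) hG a2 hZ

theorem TF.tx_alt {C₂ : CForm (altType F) W} (h : TF C C₁ C₂) (hG : G ≤ C.isom)
    (hd : 4 ≤ finrank F W) (hX : ∀ β ∈ C₂.isom, rH F U W β ∈ G) :
    TX C C₁ C₂ (tenStab F U W ⊓ G) C₂.isom :=
  { h with
    le := inf_le_right.trans hG
    hX := fun β hβ => ⟨rH_mem β, hX β hβ⟩
    spec := spec_alt h.nd₂
    rho := (rootG_alt h.nd₂).rho
    tv := fun _ _ hv _ => (rq_tv hv (tvOk_alt _)).mono inf_le_left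
    conn := fun w w' => by
      obtain ⟨y, a1, a2⟩ := exists_mem_not_mem_of_finrank_lt (W := ⊥)
        (W' := C₂.perp (span F {w, w'})) (by
          have := h.nd₂.finrank_add_finrank_perp (span F {w, w'})
          have := finrank_span_pair_le (F := F) w w'
          rw [finrank_bot]; omega)
      exact ⟨y, a2, H12.alt_N y, C₂.mem_perp_pair.1 a1⟩
    dim := hd }

theorem TF.tx_herm {σ : F →+* F} {hσ2 : ∀ a, σ (σ a) = a} {C₂ : CForm (hermType σ hσ2) W}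
    [Finite F] (h : TF C C₁ C₂) (hσ : σ ≠ RingHom.id F) (hN : ∀ a, σ a = a → ∃ b, b * σ b = a)
    (hd : 4 ≤ finrank F W) :
    TX C C₁ C₂ (tenStab F U W ⊓ (C.isom ⊓ SLV F _)) (C₂.isom ⊓ SLV F W) :=
  { h with
    le := inf_le_right.trans inf_le_left
    hX := fun β hβ => ⟨rH_mem β, h.congr_isom (one_mem _) hβ.1, congr_one_mem_SLV hβ.2⟩
    spec := spec_herm hσ hN h.nd₂
    rho := (rootG_herm hσ hN h.nd₂ (by omega)).rho
    tv := fun _ _ hv ha => rq_tv_herm hv (by simpa [hermType] using ha)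
    conn := fun w w' => by
      obtain ⟨y, a1, a2, a3⟩ := herm_exists_iso hN C₂ (W := C₂.perp (span F {w, w'})) (by
        have := h.nd₂.finrank_add_finrank_perp (span F {w, w'})
        have := finrank_span_pair_le (F := F) w w'
        omega)
      exact ⟨y, a2, a3, C₂.mem_perp_pair.1 a1⟩
    dim := hd }

theorem TF.tx_quad [Finite F] {Q₂ : QuadraticForm F W} (h : TF C C₁ (CForm.ofQuad Q₂))
    (h2 : (2 : F) ≠ 0) (hG : G ≤ C.isom) (hd : 5 ≤ finrank F W)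
    (hX : ∀ β ∈ OmegaV Q₂, rH F U W β ∈ G) :
    TX C C₁ (CForm.ofQuad Q₂) (tenStab F U W ⊓ G) (OmegaV Q₂) :=
  { h with
    le := inf_le_right.trans hG
    hX := fun β hβ => ⟨rH_mem β, hX β hβ⟩
    spec := spec_quad h.nd₂ (notExc_of_two_ne_zero h2)
    rho := (rootG_quad h.nd₂ hd).rho
    tv := fun _ a _ ha => by
      rw [show a = 0 by simpa [quadType, ← two_mul, h2] using ha]; exact rho_zero
    conn := fun w w' => by
      obtain ⟨y, a1, a2, a3⟩ := (iso3_quad Q₂).exists_perpL h.nd₂ [w, w'] [] (by simpa)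
      exact ⟨y, by simpa [spanL] using a2, a3, a1 w (by simp), a1 w' (by simp)⟩
    dim := by omega }

theorem isMaximalIn_sp_sp [Finite F] {Q : QuadraticForm F (U ⊗[F] W)} {C₁ : CForm (altType F) U}
    {C₂ : CForm (altType F) W} (hQ : QNondeg Q) (h₁ : C₁.Nondeg) (h₂ : C₂.Nondeg)
    (hB : ∀ u w u' w', polar Q (u ⊗ₜ w) (u' ⊗ₜ w') = C₁.B u u' * C₂.B w w')
    (h0 : ∀ u w, Q (u ⊗ₜ w) = 0) (hU : 0 < finrank F U) (hW : 5 ≤ finrank F W)
    (hd : finrank F U + 1 < finrank F W) (hex : 3 ≤ finrank F U ∨ ∃ b : F, b ≠ 0 ∧ b ≠ 1) :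
    Cfsg.Geo.IsMaximalIn (OmegaV Q) (tenStab F U W ⊓ OmegaV Q) := by
  have h : TF (CForm.ofQuad Q) C₁ C₂ := ⟨hQ, h₁, h₂, fun _ => rfl, fun _ => rfl,
    by simp [quadType, altType], by simp [altType], hB,
    fun _ _ _ _ _ _ => (h0 _ _).trans (h0 _ _).symm, fun _ _ => H12.alt_N _, hU⟩
  have hV : 5 ≤ finrank F (U ⊗[F] W) := by
    rw [finrank_tensorProduct]; exact hW.trans (Nat.le_mul_of_pos_left _ hU)
  have hne : NotExc F (U ⊗[F] W) := .inr (by omega)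
  have a1 : ∀ w c, TensorProduct.congr 1 (stv C₂ w c).1 ∈ OmegaV Q := fun w c =>
    mem_OmegaV_of_cen hQ hne (by rintro _ ⟨u, rfl⟩; exact h0 u w)
      (h.congr_isom (one_mem _) (stv C₂ w c).2) (rH_mem_cen fun y => ⟨_, stv_apply w c y⟩)
  have a2 : ∀ u c, TensorProduct.congr (stv C₁ u c).1 1 ∈ OmegaV Q := fun u c =>
    mem_OmegaV_of_cen hQ hne (by rintro _ ⟨w, rfl⟩; exact h0 u w)
      (h.congr_isom (stv C₁ u c).2 (one_mem _)) (lH_mem_cen fun y => ⟨_, stv_apply u c y⟩)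
  have a3 := le_of_stv h₂ (K := (OmegaV Q).comap (rH F U W)) a1
  have a4 := le_of_stv h₁ (K := (OmegaV Q).comap (lH F U W)) a2
  refine (h.tx_alt OmegaV_le (by omega) a3).isMax (rootG_quad hQ hV) hW
    (ma_alt h₁ hU hex) a4 (fun a _ ha => ⟨0, by simpa [quadType] using ha⟩)
    fun X hX _ hS => hX.le_of_big hS (scS_of_lt (by omega)) one_ne_zero (by simp [altType])
      fun Y hY => ?_
  · obtain ⟨y, a1, a2⟩ := exists_mem_not_mem_of_finrank_lt (W := ⊥) (W' := C₂.perp Y) (by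
      have := h₂.finrank_add_finrank_perp Y
      rw [finrank_bot]; omega)
    exact ⟨y, a1, a2, H12.alt_N y⟩

end H12
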