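import Cfsg.Agent.H12.UQuad

/-!
# The unitary group over a quadratic extension is maximal in the orthogonal group, dimension ≥ 10
-/

set_option autoImplicit false
set_option maxHeartbeats 400000

namespace H12

open Module H11 QuadraticMap Submodule

variable {F : Type*} [Field F] {V : Type*} [AddCommGroup V] [Module F V] {θ : V →ₗ[F] V}
  {t n : F} {G H X : Subgroup (V ≃ₗ[F] V)} {C : CForm (quadType F) V}

variable (θ t n C X) in
/-- The unitary structure; `X` contains the unitary transvections. -/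
structure UQ2 : Prop extends QExt θ t n where
  adj : ∀ u v, C.B (θ u) v = t * C.B u v - C.B u (θ v)
  B0 : ∀ v, C.N v = 0 → C.B v (θ v) = 0
  rho : ∀ v (c : F), C.N v = 0 → Rq C X v (c • θ v) 0
  nd : C.Nondeg
  iso : Iso3 C
  le : X ≤ C.isom
  N0 : ∀ v, C.N v = 0 → C.N (θ v) = 0
  dim : 10 ≤ finrank F V

namespace UQ2

variable (h : UQ2 θ t n X C)
include h

theorem theta {v : V} (hv : C.N v = 0) : θ v ∈ YQ X C hv := ⟨h.B0 v hv, fun c => ⟨0, h.rho v c hv⟩⟩

theorem exists_tv {u : V} (hu : C.N u = 0) :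
    ∃ k ∈ X, ∀ x, k x = x + C.B u x • θ u - C.B x (θ u) • u := by
  obtain ⟨k, hk, e⟩ := h.rho u 1 hu
  exact ⟨k, hk, fun x => by simp [e, quadType]⟩

theorem inv {v y u : V} {hv : C.N v = 0} (hy : y ∈ YQ X C hv) (hu : C.N u = 0)
    (h1 : C.B v u = 0) (h2 : C.B (θ v) u = 0) :
    C.B u y • θ u - (t * C.B u y - C.B u (θ y)) • u ∈ YQ X C hv := by
  obtain ⟨k, hk, e⟩ := h.exists_tv hu
  have e1 : k v = v := by
    have := h.adj v u
    rw [h1, h2] at this
    simp [e, quad_symm C v u, h1, show C.B v (θ u) = 0 by linear_combination this]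
  have h5 := YQ.conj hy hk (h.le hk) (e1.symm ▸ hv)
  simp only [e1] at h5
  have h6 : k y - y ∈ YQ X C hv := sub_mem h5 hy
  rw [e, quad_symm C (θ u) y, h.adj] at h6
  convert h6 using 1
  abel

theorem step {v y u : V} {hv : C.N v = 0} (hy : y ∈ YQ X C hv) (hu : C.N u = 0)
    (h1 : C.B v u = 0) (h2 : C.B (θ v) u = 0) (h3 : C.B y u = 0) (h4 : C.B u (θ y) ≠ 0) :
    u ∈ YQ X C hv :=
  (smul_mem_iff _ h4).1 (by simpa [C.B_swap_zero h3] using h.inv hy hu h1 h2)

theorem both {v y u : V} {hv : C.N v = 0} (hy : y ∈ YQ X C hv) (hy' : θ y ∈ YQ X C hv)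
    (hu : C.N u = 0) (h1 : C.B v u = 0) (h2 : C.B (θ v) u = 0) (h3 : C.B u y ≠ 0) :
    u ∈ YQ X C hv ∧ θ u ∈ YQ X C hv := by
  have a1 := h.inv hy hu h1 h2
  have a2 := h.inv hy' hu h1 h2
  rw [h.sq, map_sub, map_smul, map_smul] at a2
  generalize C.B u y = a at *
  generalize C.B u (θ y) = b at *
  have hd : -b * -b + t * -b * a + n * a * a ≠ 0 := fun e => h3 (h.irr _ _ e)
  refine ⟨(smul_mem_iff _ hd).1 ?_, (smul_mem_iff _ hd).1 ?_⟩
  · convert sub_mem (smul_mem _ b a1) (smul_mem _ a a2) using 1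
    simp only [smul_eq_mul]; module
  · convert sub_mem (smul_mem _ (n * a) a1) (smul_mem _ (t * a - b) a2) using 1
    simp only [smul_eq_mul]; module

theorem perp_th {v u : V} (h1 : C.B v u = 0) (h2 : C.B (θ v) u = 0) :
    C.B v (θ u) = 0 ∧ C.B (θ v) (θ u) = 0 := by
  have h3 : C.B v (θ u) = 0 := by linear_combination h.adj v u - h2 + t * h1
  exact ⟨h3, by simp [h.adj, h.sq, h1, h3]⟩

variable [FiniteDimensional F V]

theorem ex_sing {v y : V} {hv : C.N v = 0} (hv0 : v ≠ 0) (hy : y ∈ YQ X C hv)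
    (hn : y ∉ spanL F [v, θ v]) : ∃ u ∈ YQ X C hv, C.N u = 0 ∧ C.B v u = 0 ∧ C.B (θ v) u = 0 ∧
      u ∉ spanL F [v, θ v] := by
  have hd := h.dim
  by_cases hc : C.B v (θ y) = 0
  · obtain ⟨u, u1, u2, u3⟩ := h.iso.exists_perp_one h.nd (l := [v, θ v, y]) (z := θ y) (fun e => by
      obtain ⟨a, b, c, e⟩ := mem_spanL_three.1 e
      simpa using h.ind2 (a := a) (b := b) (c := c) (d := -1) hv0 hn
        (by linear_combination (norm := module) e)) (by simp; omega)
    simp only [List.mem_cons, List.not_mem_nil, or_false, forall_eq_or_imp, forall_eq] at u1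
    refine ⟨u, h.step hy u2 u1.1 u1.2.1 u1.2.2 (by simp [u3]), u2, u1.1, u1.2.1, fun e => ?_⟩
    obtain ⟨a, b, rfl⟩ := mem_spanL_pair.1 e
    simp [hc, (h.perp_th hy.1 (by simp [h.adj, hy.1, hc])).2] at u3
  obtain ⟨u, u1, u2, u3⟩ := h.iso.exists_perpL h.nd [v, θ v, y] [v, θ v] (by simp; omega)
  simp only [List.mem_cons, List.not_mem_nil, or_false, forall_eq_or_imp, forall_eq] at u1
  by_cases hc' : C.B u (θ y) = 0
  · have a1 : C.N (v + u) = 0 := by rw [C.N_add_of_orth u1.1, hv, u3, add_zero]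
    have a2 : C.B v (v + u) = 0 := by simp [u1.1, C.B_self_of_zero hv]
    have a3 : C.B (θ v) (v + u) = 0 := by simp [u1.2.1, C.B_swap_zero (h.B0 v hv)]
    exact ⟨v + u, h.step hy a1 a2 a3 (by simp [u1.2.2, C.B_swap_zero hy.1]) (by simp [hc, hc']),
      a1, a2, a3, fun e => u2 ((add_mem_cancel_left (mem_spanL (by simp))).1 e)⟩
  · exact ⟨u, h.step hy u3 u1.1 u1.2.1 u1.2.2 hc', u3, u1.1, u1.2.1, u2⟩

theorem th_mem {v y : V} {hv : C.N v = 0} (hv0 : v ≠ 0) (hy : y ∈ YQ X C hv) (h0 : C.N y = 0)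
    (h2 : C.B (θ v) y = 0) (hn : y ∉ spanL F [v, θ v]) : θ y ∈ YQ X C hv := by
  have hd := h.dim
  obtain ⟨u, u1, u2, u3⟩ := h.iso.exists_perp_one h.nd (l := [v, θ v, y]) (z := θ y) (fun e => by
    obtain ⟨a, b, c, e⟩ := mem_spanL_three.1 e
    simpa using h.ind2 (a := a) (b := b) (c := c) (d := -1) hv0 hn
      (by linear_combination (norm := module) e)) (by simp; omega)
  simp only [List.mem_cons, List.not_mem_nil, or_false, forall_eq_or_imp, forall_eq] at u1
  obtain ⟨b1, b2⟩ := h.perp_th hy.1 h2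
  have key : ∀ p ∈ C.perp (spanL F [v, θ v, y, θ y, u]), u + p - C.N p • θ y ∈ YQ X C hv := by
    intro p hp
    simp only [mem_perp_spanL, List.mem_cons, List.not_mem_nil, or_false, forall_eq_or_imp,
      forall_eq] at hp
    obtain ⟨p1, p2, p3, p4, p5⟩ := hp
    refine h.step hy ?_ (by simp [u1, p1, b1]) (by simp [u1, p2, b2]) (by simp [u1, p3, h.B0 y h0])
      (by simp [u3, C.B_swap_zero p4, C.B_self_of_zero (h.N0 y h0)])
    rw [C.N_sub, C.N_add_of_orth p5, C.N_smul_of_zero (h.N0 y h0), map_smul, C.B_add_left, u3,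
      C.B_swap_zero p4]
    simp [u2, quadType]
  obtain ⟨p, hp, q, hq, e⟩ : ∃ p ∈ C.perp (spanL F [v, θ v, y, θ y, u]),
      ∃ q ∈ C.perp (spanL F [v, θ v, y, θ y, u]), C.B p q ≠ 0 := by
    by_contra! hc
    have a1 : C.perp (spanL F [v, θ v, y, θ y, u]) ≤ spanL F [v, θ v, y, θ y, u] := fun q hq =>
      h.nd.perp_perp (spanL F [v, θ v, y, θ y, u]) ▸ C.mem_perp.2 fun p hp => hc p hp q hq
    have a2 := h.nd.finrank_add_finrank_perp (spanL F [v, θ v, y, θ y, u])
    have a3 := finrank_span_list_le (F := F) [v, θ v, y, θ y, u]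
    have a4 := eq_of_le_of_finrank_le a1 (by simp at a3; omega)
    have := mem_perp_spanL.1 (a4.ge (mem_spanL (x := θ y) (by simp))) u (by simp)
    simp [u3] at this
  refine (smul_mem_iff _ e).1 ?_
  convert sub_mem (add_mem (key p hp) (key q hq)) (add_mem (key _ (add_mem hp hq))
    (key _ (zero_mem _))) using 1
  rw [C.N_add, C.N_zero]
  simp only [quadType, AddMonoidHom.id_apply]
  module

theorem perp_le {v y : V} {hv : C.N v = 0} (hv0 : v ≠ 0) (hy : y ∈ YQ X C hv)
    (hn : y ∉ spanL F [v, θ v]) : C.perp (spanL F [v, θ v]) ≤ YQ X C hv := fun x hx => by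
  have hd := h.dim
  obtain ⟨y, hy, y0, y1, y2, hn⟩ := h.ex_sing hv0 hy hn
  have hy' := h.th_mem hv0 hy y0 y2 hn
  refine h.iso.perp_le h.nd (U := spanL F [v, θ v]) (Z := ⊥) (YQ X C hv).toAddSubgroup
    (by have := finrank_span_list_le (F := F) [v, θ v]; simp at this; omega)
    (by have := finrank_span_list_le (F := F) [v, θ v]; simp at *; omega)
    (fun w w1 _ w3 => ?_) hx
  simp only [mem_perp_spanL, List.mem_cons, List.not_mem_nil, or_false, forall_eq_or_imp,
    forall_eq] at w1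
  by_cases hc : y ∈ spanL F [v, θ v, y - w]
  · obtain ⟨a, b, c, e⟩ := mem_spanL_three.1 hc
    have h0 : c ≠ 0 := by
      rintro rfl
      exact hn (mem_spanL_pair.2 ⟨a, b, by simpa using e⟩)
    refine (smul_mem_iff (YQ X C hv) h0).1 ?_
    convert add_mem (add_mem (smul_mem _ a (YQ.self hv)) (smul_mem _ b (h.theta hv)))
      (smul_mem _ (c - 1) hy) using 1
    linear_combination (norm := module) (-1 : F) • e
  obtain ⟨u, u1, u2, u3⟩ := h.iso.exists_perp_one h.nd hc (by simp; omega)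
  simp only [List.mem_cons, List.not_mem_nil, or_false, forall_eq_or_imp, forall_eq] at u1
  obtain ⟨a1, a2⟩ := h.both hy hy' u2 u1.1 u1.2.1 (by simp [u3])
  refine (h.both a1 a2 w3 w1.1 w1.2 fun e => ?_).1
  simpa [e, quad_symm C u y, u3] using u1.2.2

theorem le_of_full (hG : RootG C G) (hX : X ≤ G) {v : V} {hv : C.N v = 0} (hv0 : v ≠ 0)
    (hY : ∀ y, C.B v y = 0 → y ∈ YQ X C hv) : G ≤ X := by
  have hd := h.dim
  obtain ⟨p, hp⟩ := h.nd.exists_eq hv0 1
  have h1 : Q1 C G X v := q1_of_rho hG.le hX hv hp (fun y hy => by simpa using (hY y hy).2 1)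
    fun a ha => by
      have := (ha.tvOk hG.le hv hp).2
      rw [show a = 0 by simpa [quadType] using this]; exact rho_zero
  have key : ∀ {x u : V}, C.N u = 0 → C.B x u = 0 → C.B u (θ x) = 1 → ∃ k ∈ X, k x = x + u :=
    fun {x u} a1 a2 a3 => by
      obtain ⟨k, hk, e⟩ := h.exists_tv a1
      refine ⟨k, hk, ?_⟩
      rw [e, quad_symm C x u, a2, quad_symm C (θ u) x, h.adj, quad_symm C x u, a2, a3]; simp
  obtain ⟨u, u1, u2, u3⟩ := h.iso.exists_perp_one h.nd (l := [v]) (z := θ v) (fun e => by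
    obtain ⟨a, e⟩ := mem_span_singleton.1 (by simpa [spanL] using e : θ v ∈ span F {v})
    simpa using h.ind (a := a) (b := -1) hv0 (by linear_combination (norm := module) e))
    (by simp; omega)
  replace u1 := u1 v (by simp)
  obtain ⟨k, hk, e⟩ := key u2 u1 u3
  have hN : C.N (v + u) = 0 := by rw [← e, CForm.isom_N (h.le hk), hv]
  obtain ⟨w, w1, w2, w3⟩ := h.iso.exists_perp_one h.nd (l := [v + u, θ (v + u) - v]) (z := v)
    (fun e' => by
      obtain ⟨a, b, e'⟩ := mem_spanL_pair.1 e'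
      have b1 := congrArg (C.B (θ (v + u))) e'
      have b3 : C.B (θ (v + u)) v = -1 := by
        have := h.adj u v
        rw [map_add, C.B_add_left, quad_symm C v, h.B0 v hv, h.adj, quad_symm C v u, u1,
          quad_symm C (θ v) u, quad_symm C u (θ v), u3]; simp
      have b4 : C.B (θ (v + u)) (θ (v + u)) = 0 := by
        rw [h.adj, h.sq]; simp only [map_sub, map_smul, h.B0 _ hN, C.B_self_of_zero hN]; simp
      rw [map_add, map_smul, map_smul, map_sub, b3, b4, quad_symm C (v + u) (θ _), h.B0 _ hN] at b1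
      have hb : b = -1 := by simpa using b1
      have := h.ind (w := v + u) (a := a) (b := -1) (by rw [← e]; simpa using hv0)
        (by rw [hb] at e'; linear_combination (norm := module) e')
      simp at this) (by simp; omega)
  simp only [List.mem_cons, List.not_mem_nil, or_false, forall_eq_or_imp, forall_eq] at w1
  obtain ⟨k', hk', e'⟩ := key w2 w1.1 (by
    have := w1.2
    rw [C.B_sub_left, quad_symm C w v, w3, quad_symm C w] at this
    linear_combination this)
  refine hG.fin X v _ hv (by rw [CForm.isom_N (h.le (mul_mem hk' hk)), hv]) ?_ h1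
    (h1.conj hG.le (mul_mem hk' hk) (hX (mul_mem hk' hk)))
  rw [LinearEquiv.mul_apply, e, e']
  simp [C.B_self_of_zero hv, u1, quad_symm C w v, w3]

theorem le_or (hG : RootG C G) (hX : X ≤ G) (hH : IsNorm θ H) : G ≤ X ∨ X ≤ H := by
  have hd := h.dim
  by_cases hY : ∃ v, ∃ hv : C.N v = 0, ∃ y ∈ YQ X C hv, C.B (θ v) y ≠ 0
  · obtain ⟨v, hv, y, hy, hB⟩ := hY
    have hv0 : v ≠ 0 := by rintro rfl; simp at hB
    refine Or.inl (h.le_of_full hG hX (hv := hv) hv0 fun x hx => ?_)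
    have := h.perp_le hv0 hy (fun e => hB (by
      obtain ⟨a, b, rfl⟩ := mem_spanL_pair.1 e
      simp [h.adj, h.sq, h.B0 v hv, C.B_self_of_zero hv]))
      (mem_perp_spanL.2 (by simp [hx, hy.1, hB]) : x - (C.B (θ v) x / C.B (θ v) y) • y ∈ _)
    simpa using add_mem this (smul_mem _ (C.B (θ v) x / C.B (θ v) y) hy)
  push Not at hY
  refine Or.inr fun g hg => (hH g).2 ?_
  obtain ⟨a, b, e⟩ := h.exists_eq h.iso h.nd (by omega)
    ((g : V →ₗ[F] V) ∘ₗ θ ∘ₗ (g⁻¹ : V ≃ₗ[F] V)) fun w hw => by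
      obtain ⟨v, rfl⟩ := g.surjective w
      have hv : C.N v = 0 := by rwa [CForm.isom_N (h.le hg)] at hw
      simp only [LinearMap.comp_apply, LinearEquiv.coe_coe, inv_apply_apply]
      by_contra hn
      have h0 : g v ≠ 0 := by rintro e; simp [(LinearEquiv.map_eq_zero_iff g).1 e] at hn
      refine hn (h.nd.perp_perp (spanL F [g v, θ (g v)]) ▸ C.mem_perp.2 fun z hz => ?_)
      obtain ⟨z, rfl⟩ := g.surjective z
      have := YQ.conj (h.perp_le h0 (YQ.conj (h.theta hv) hg (h.le hg) hw) hn hz) (inv_mem hg)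
        (inv_mem (h.le hg)) (by rwa [inv_apply_apply])
      simp only [inv_apply_apply] at this
      rw [CForm.isom_B (h.le hg), quad_symm, hY v hv z this]
  exact ⟨a, b, fun x => by simpa using e (g x)⟩

end UQ2

theorem isMaximalIn_uquad2 [Finite F] [FiniteDimensional F V] {Q : QuadraticForm F V}
    (hQ : QNondeg Q) (hd : 10 ≤ finrank F V) (h : QExt θ t n)
    (adj : ∀ u v, polar Q (θ u) v = t * polar Q u v - polar Q u (θ v))
    (h1 : ∀ v, Q v = 0 → Q (θ v) = 0) (h2 : ∀ v, Q v = 0 → Q (v + θ v) = 0) (hH : IsNorm θ H) :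
    Cfsg.Geo.IsMaximalIn (OmegaV Q) (H ⊓ OmegaV Q) := by
  have hG := rootG_quad hQ (by omega)
  have h3 : ∀ v, Q v = 0 → polar Q v (θ v) = 0 := fun v hv => by simp [polar, h1 v hv, h2 v hv, hv]
  refine isMaximalIn_of _ _ inf_le_right (fun e => h.not_le (spec_quad hQ (Or.inr (by omega)))
    (iso3_quad Q) (by omega) hH (e.trans inf_le_left)) fun M a1 a2 g a3 a4 => ?_
  refine (UQ2.le_or ⟨h, adj, h3, fun v c hv => ?_, hQ, iso3_quad Q, a2.trans hG.le, h1, hd⟩ hG a2
    hH).resolve_right fun e => a4 ⟨e a3, a2 a3⟩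
  obtain ⟨k, hk, e⟩ := hG.rho v (c • θ v) hv ((CForm.ofQuad Q).N_smul_of_zero (h1 v hv) c)
    (by rw [map_smul, CForm.ofQuad_B, h3 v hv, smul_zero])
  refine ⟨k, a1 ⟨(hH k).2 ⟨0, 1, fun x => ?_⟩, hk⟩, e⟩
  replace e : ∀ x, k x = x + polar Q x v • c • θ v - (c * polar Q x (θ v)) • v := fun x => by
    rw [e, map_smul, CForm.ofQuad_B, CForm.ofQuad_B, polar_comm Q v]; simp [quadType]
  simp only [e, map_smul, map_add, map_sub, h.sq, adj, polar_sub_right, polar_smul_right,
    smul_eq_mul]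
  module

end H12
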