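import Cfsg.Agent.H12.OList
import Cfsg.Agent.H12.O2e
import Cfsg.Agent.H12.UQuad2
import Cfsg.Agent.H12.UBridge
import Cfsg.Agent.H12.LagPair
import Cfsg.Agent.H12.Ten6
import Cfsg.Agent.H12.Classify

/-!
# More items of the lists of maximal subgroups of even-dimensional orthogonal groups
-/

set_option autoImplicit false
set_option maxHeartbeats 400000

namespace H12

open Module H11 Submodule QuadraticMap Cfsg.Geo

theorem card_ne_six {F : Type*} [Field F] [Fintype F] : Fintype.card F ≠ 6 := fun e => by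
  have := FiniteField.isPrimePow_card F
  rw [e] at this
  exact absurd this (by decide)

variable {F : Type*} [Field F] [Fintype F] {n : ℕ} {Q : QuadraticForm F (Fin n → F)}

local notation "𝓒" => CForm.ofQuad Q

omit [Fintype F] in
theorem plus_of_iso {W W' : Submodule F (Fin n → F)} (h : AreIsometricFor Q W W')
    (hW : IsPlusTypeOn Q W) : IsPlusTypeOn Q W' := by
  obtain ⟨e, he⟩ := h
  obtain ⟨U, h1, h2, h3⟩ := hW
  refine ⟨((U.comap W.subtype).map e.toLinearMap).map W'.subtype, map_subtype_le _ _, ?_, ?_⟩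
  · rintro _ ⟨_, ⟨x, hx, rfl⟩, rfl⟩
    exact (he x).trans (h2 x hx)
  · rw [finrank_map_subtype_eq, LinearEquiv.finrank_map_eq, (comapSubtypeEquivOfLe h1).finrank_eq,
      h3, e.finrank_eq]

omit [Fintype F] in
theorem an_of_not_plus {W : Submodule F (Fin n → F)} (h2 : finrank F W = 2)
    (h : ¬ IsPlusTypeOn Q W) : ∀ x ∈ W, Q x = 0 → x = 0 := fun x hx h0 => by_contra fun h1 =>
  h ⟨span F {x}, (span_singleton_le_iff_mem _ _).2 hx, fun y hy => by
    obtain ⟨c, rfl⟩ := mem_span_singleton.1 hy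
    rw [Q_smul, h0, mul_zero], by rw [finrank_span_singleton h1, h2]⟩

omit [Fintype F] in
theorem dec_dim {t k : ℕ} {D : Fin t → Submodule F (Fin n → F)} (hD : IsMDecomposition k D) :
    n = t * k := by
  obtain ⟨π, hπ⟩ := exists_isProj hD.indep hD.iSup_eq_top
  simpa using hπ.finrank_eq hD.finrank_eq

omit [Fintype F] in
theorem plus_of_planes {t : ℕ} {D : Fin t → Submodule F (Fin n → F)}
    (hD : IsOrthogonalMDecomposition Q 2 D) (h : ∀ i, IsPlusTypeOn Q (D i)) :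
    IsPlusTypeOn Q ⊤ := by
  have : ∀ i, ∃ x ∈ D i, Q x = 0 ∧ x ≠ 0 := fun i => by
    obtain ⟨U, h1, h2, h3⟩ := h i
    rw [hD.decomp.decomp.finrank_eq] at h3
    obtain ⟨x, hx, h4⟩ := exists_mem_ne_zero_of_ne_bot (p := U) (by rintro rfl; simp at h3)
    exact ⟨x, h1 hx, h2 x hx, h4⟩
  choose e h1 h2 h3 using this
  refine ⟨span F (Set.range e), le_top, quad_ts_iff.1 (CForm.ts_span (C := 𝓒) ?_ ?_), ?_⟩
  · rintro _ ⟨i, rfl⟩; exact h2 i
  · rintro _ ⟨i, rfl⟩ _ ⟨j, rfl⟩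
    by_cases e : i = j
    · subst e; exact (𝓒).B_self_of_zero (h2 i)
    · exact hD.decomp.orthogonal i j e _ (h1 i) _ (h1 j)
  · rw [finrank_span_eq_card (hD.decomp.decomp.indep.linearIndependent D h1 h3), finrank_top,
      finrank_fin_fun, dec_dim hD.decomp.decomp, Fintype.card_fin, mul_comm]

variable (hC : QNondeg Q)
include hC

theorem ol_planes (hn : 9 ≤ n) {t : ℕ} {D : Fin t → Submodule F (Fin n → F)}
    (hD : IsOrthogonalMDecomposition Q 2 D)
    (h : 7 ≤ Fintype.card F ∨ Fintype.card F ≠ 3 ∧ ¬ ∀ i, IsPlusTypeOn Q (D i)) :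
    IsMaximalIn (omegaGL Q) (decompositionStabilizer D ⊓ omegaGL Q) := by
  have hD' := orthDec_of_geo (𝓒) (Or.inl fun _ _ => rfl) hD.decomp
    fun i j => quad_iso_iff.2 (hD.isometric i j)
  have h1 := dec_dim hD.decomp.decomp
  rw [omegaGL_eq, decompositionStabilizer_eq, ← Subgroup.comap_inf]
  refine isMaximalIn_comap _ (hD'.isMaximalIn_planes hC (by simp; omega) fun i => ?_)
  have hk := hD.decomp.decomp.finrank_eq i
  exact ⟨hD'.nondeg i, hk, h.symm.imp_left fun h =>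
    ⟨an_of_not_plus hk fun e => h.2 fun j => plus_of_iso (hD.isometric i j) e, h.1⟩⟩

theorem ol_lag (hn : 10 ≤ n) {k : ℕ} (hk : 2 * k = n) (hke : Even k)
    {D : Fin 2 → Submodule F (Fin n → F)} (hD : IsMDecomposition k D)
    (hts : ∀ i, IsTotallySingularQuad Q (D i)) :
    IsMaximalIn (omegaGL Q) (decompositionStabilizer D ⊓ omegaGL Q) := by
  have hd : finrank F (Fin n → F) = n := by simp
  obtain ⟨π, hπ⟩ := exists_isProj hD.indep hD.iSup_eq_top
  have hL : ∀ i, (𝓒).Lag (D i) := fun i =>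
    ⟨(ts_quad_iff Q).2 (hts i), by rw [hD.finrank_eq, hk, hd]⟩
  have hne : NotExc F (Fin n → F) := Or.inr (by omega)
  rw [omegaGL_eq, decompositionStabilizer_eq, ← Subgroup.comap_inf]
  refine isMaximalIn_comap _ ((rhoData_quad hC (by omega)).isMaximalIn_lagPair
    (fun c hc => ⟨0, ?_⟩) (by omega) hπ hL fun g hg e => ?_)
  · have : 1 * c = 0 := hc
    rw [one_mul] at this
    simp [this]
  · have h := lagPair_of hπ hL
    obtain ⟨u, hu, f, hf, hef⟩ := h.exists_hyp hC (by omega)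
    obtain ⟨s, h1, -, h2⟩ := exists_mul_mem_OmegaV hC hne (glStab (D 0) ⊓ glStab (D 1)) hg
      (Or.inl ((dickson_eq_one_iff_lag hC hne (hL 0) _).2 (by
        rw [e, h.disj.eq_bot, finrank_bot, hD.finrank_eq]; exact hke)))
      fun c hc => ⟨_, h.mem_stab hu hf fun x => ⟨_, _,
        refl_hyp_mul hef.left hef.right hef.pair one_ne_zero hc x⟩,
        dickson_spinor_hyp hC hne hef.left hef.right hef.pair hc⟩
    exact ⟨s, h1, h2⟩

theorem ol_uni (hn : 10 ≤ n) {K : Subalgebra F (Matrix (Fin n) (Fin n) F)}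
    (hK : IsFieldSubalgebra 2 K) (hac : IsAdjointClosedFor (polar Q) K)
    (hnsa : ¬ IsSelfAdjointFor (polar Q) K)
    (hsc : ∀ k ∈ K, ∃ c : F, ∀ v : Fin n → F, Q (Matrix.mulVec k v) = c * Q v) :
    IsMaximalIn (omegaGL Q) (subalgebraNormalizer K ⊓ omegaGL Q) := by
  have : Nonempty (Fin n) := ⟨⟨0, by omega⟩⟩
  obtain ⟨k, hk, hk', t, s, h1, h2⟩ :=
    exists_unitary_gen hK hC (fun _ => rfl) (fun _ _ => rfl) hac hnsa
  obtain ⟨H, h3, h4⟩ := exists_isNorm hK hk hk'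
  rw [omegaGL_eq, h4, ← Subgroup.comap_inf]
  refine isMaximalIn_comap _ (isMaximalIn_uquad2 hC (by simpa) h1 h2 (fun v hv => ?_)
    (fun v hv => ?_) h3)
  · obtain ⟨c, e⟩ := hsc k hk
    simp [e, hv]
  · obtain ⟨c, e⟩ := hsc (1 + k) (add_mem (one_mem K) hk)
    simpa [Matrix.add_mulVec, hv] using e v

theorem ol_spsp {n₁ n₂ : ℕ} (h0 : 0 < n₁) (h5 : 5 ≤ n₂) (h12 : n₁ + 1 < n₂)
    (hex : 3 ≤ n₁ ∨ Fintype.card F ≠ 2) {e : Fin n ≃ Fin n₁ × Fin n₂} {P : GL (Fin n) F}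
    {f₁ : (Fin n₁ → F) → (Fin n₁ → F) → F} {f₂ : (Fin n₂ → F) → (Fin n₂ → F) → F}
    (hf₁ : IsSymplecticForm f₁) (hf₂ : IsSymplecticForm f₂)
    (hT : IsTensorFormStructure id (polar Q) f₁ f₂ e P)
    (hpure : ∀ (x₁ : Fin n₁ → F) (x₂ : Fin n₂ → F), Q (Matrix.mulVec (P : Matrix (Fin n) (Fin n) F)
      ((fun a : Fin n₁ × Fin n₂ => x₁ a.1 * x₂ a.2) ∘ e)) = 0) :
    IsMaximalIn (omegaGL Q) (tensorProductSubgroup n₁ n₂ e P ⊓ omegaGL Q) := by
  obtain ⟨C₁, d₁, e₁⟩ := exists_cform_alt hf₁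
  obtain ⟨C₂, d₂, e₂⟩ := exists_cform_alt hf₂
  obtain ⟨c, hc, h⟩ := H13.KL.tf_bridge (fun _ _ => rfl) (H13.KL.formOfGram_bilin hf₁.bilinear)
    (H13.KL.formOfGram_bilin hf₂.bilinear) hT
  rw [H13.KL.omegaGL_eq_trE Q (H13.KL.tenIso e P), H13.KL.tensorProductSubgroup_eq,
    ← Subgroup.comap_inf]
  refine isMaximalIn_comap _ (isMaximalIn_sp_sp (H13.KL.qnondeg_comp hC _)
    (d₁.smulc (c := c) rfl (fun _ => by simp [altType]) hc) d₂ (fun u w u' w' => ?_)
    (fun u w => ?_) (by simpa) (by simpa) (by simpa) ?_)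
  · rw [H13.KL.polar_comp', LinearEquiv.coe_coe, h, ← e₁, ← e₂, ← mul_assoc]; rfl
  · rw [QuadraticMap.comp_apply, LinearEquiv.coe_coe, H13.KL.tenIso_tmul]
    exact hpure u w
  · exact hex.imp (by simp) fun hq => exists_ne_ne hq 1

end H12
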