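import Cfsg.Agent.H12.WR11
import Cfsg.Agent.H12.RQ4

/-!
# Skew endomorphisms and reflections of small orthogonal spaces
-/

set_option autoImplicit false
set_option maxHeartbeats 400000

namespace H12

open Module H11 Submodule H13.KL QuadraticMap

variable {F : Type*} [Field F] {U : Type*} [AddCommGroup U] [Module F U] {Q : QuadraticForm F U}
  {a b e f y u v x : U} {S : End F U}

variable (Q) in
/-- The skew endomorphism `a ∧ b`. -/
def wg : U →ₗ[F] U →ₗ[F] End F U :=
  LinearMap.mk₂ F (fun a b => (polarBilin Q b).smulRight a - (polarBilin Q a).smulRight b)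
    (fun _ _ _ => by ext; simp [add_smul]; abel) (fun _ _ _ => by ext; simp [smul_sub, smul_smul, mul_comm])
    (fun _ _ _ => by ext; simp [add_smul]; abel) (fun _ _ _ => by ext; simp [smul_sub, smul_smul, mul_comm])

theorem wg_apply (a b x : U) : wg Q a b x = polar Q b x • a - polar Q a x • b := rfl

theorem wg_self (a : U) : wg Q a a = 0 := sub_self _

theorem wg_swap (a b : U) : wg Q a b = -wg Q b a := (neg_sub _ _).symm

theorem cj_wg (g : orth Q) (a b : U) : cj g.1 (wg Q a b) = wg Q (g.1 a) (g.1 b) :=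
  LinearMap.ext fun x => by
    simp only [cj_apply, wg_apply, map_sub, map_smul]
    rw [← orth_polar g b, ← orth_polar g a, apply_inv_apply]

theorem cj_smul' (g : U ≃ₗ[F] U) (c : F) (A : End F U) : cj g (c • A) = c • cj g A :=
  LinearMap.ext fun x => by simp

theorem three_all {d : F} (hd : d ≠ 0) (h2 : (2 : F) ≠ 0) (P : AddSubgroup (F × F × F))
    (m1 : ∀ t a b c, (a, b, c) ∈ P → (a - t * b - t * t * d * c, b + 2 * d * t * c, c) ∈ P)
    (m2 : ∀ t a b c, (a, b, c) ∈ P → (a, b + 2 * d * t * a, c - t * b - t * t * d * a) ∈ P)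
    {p : F × F × F} (hp : p ∈ P) (h0 : p ≠ 0) (q : F × F × F) : q ∈ P := by
  have h4 : (4 : F) ≠ 0 := by rw [show (4 : F) = 2 * 2 by norm_num]; exact mul_ne_zero h2 h2
  have d1 : ∀ t a b c, (a, b, c) ∈ P → (-2 * t * b, 4 * d * t * c, (0 : F)) ∈ P := fun t a b c h => by
    convert sub_mem (m1 t a b c h) (m1 (-t) a b c h) using 1
    simp only [Prod.mk_sub_mk, Prod.mk.injEq]; refine ⟨by ring, by ring, by ring⟩
  have d2 : ∀ t a b c, (a, b, c) ∈ P → ((0 : F), 4 * d * t * a, -2 * t * b) ∈ P := fun t a b c h => by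
    convert sub_mem (m2 t a b c h) (m2 (-t) a b c h) using 1
    simp only [Prod.mk_sub_mk, Prod.mk.injEq]; refine ⟨by ring, by ring, by ring⟩
  have k1 : ∀ a b : F, b ≠ 0 → (a, b, (0 : F)) ∈ P → ∀ t : F, (t, (0 : F), (0 : F)) ∈ P :=
    fun a b hb h t => by
      convert d1 (-t / (2 * b)) _ _ _ h using 2
      · field_simp
      · simp
  have k2 : ∀ t : F, (t, (0 : F), (0 : F)) ∈ P := by
    obtain ⟨a, b, c⟩ := p
    by_cases hc : c = 0
    · subst hc
      by_cases hb : b = 0
      · subst hb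
        exact k1 0 (4 * d * 1 * a) (by simpa [h4, hd] using h0) (by simpa using d2 1 _ _ _ hp)
      · exact k1 a b hb hp
    · exact k1 _ _ (by simp [h4, hd, hc]) (d1 1 _ _ _ hp)
  have k3 : ∀ t : F, ((0 : F), t, (0 : F)) ∈ P := fun t => by
    convert d2 1 _ _ _ (k2 (t / (4 * d))) using 3
    · field_simp
    · simp
  obtain ⟨a, b, c⟩ := q
  convert add_mem (add_mem (k2 a) (k3 b)) (d2 1 _ _ _ (k3 (-c / 2))) using 1
  simp only [Prod.mk_add_mk, Prod.mk.injEq]
  exact ⟨by ring, by ring, by field_simp; ring⟩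

theorem ns_add_or (h2 : (2 : F) ≠ 0) (hx : Q x = 0) (hv : Q v ≠ 0) :
    Q (x + v) ≠ 0 ∨ Q (x - v) ≠ 0 := by
  by_contra! h
  rw [Q_add, Q_sub, hx] at h
  exact mul_ne_zero h2 hv (by linear_combination h.1 + h.2)

variable [FiniteDimensional F U] (hQ : QNondeg Q) (h2 : (2 : F) ≠ 0)
include hQ h2

theorem eq_zero_three (h3 : finrank F U = 3) (he : Q e = 0) (hf : Q f = 0) (hef : polar Q e f = 1)
    (hy : Q y ≠ 0) (h4 : polar Q e y = 0) (h5 : polar Q f y = 0) (a1 : polar Q e x = 0)
    (a2 : polar Q f x = 0) (a3 : polar Q y x = 0) : x = 0 := by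
  have h6 := hQ.finrank_add_finrank_perp (span F {e, f})
  rw [finrank_span_pair_of_not_mem (by rintro rfl; simp at hef) fun h => by
    obtain ⟨c, rfl⟩ := mem_span_singleton.1 h
    simp [polar_self', he] at hef] at h6
  have hy0 : y ≠ 0 := by rintro rfl; simp at hy
  have h7 : (F ∙ y) = (CForm.ofQuad Q).perp (span F {e, f}) := eq_of_le_of_finrank_le
    ((span_singleton_le_iff_mem _ _).2 ((CForm.ofQuad Q).mem_perp_pair.2 ⟨h4, h5⟩))
    (by rw [finrank_span_singleton hy0]; omega)
  obtain ⟨c, rfl⟩ := mem_span_singleton.1 (h7.ge ((CForm.ofQuad Q).mem_perp_pair.2 ⟨a1, a2⟩))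
  simpa [polar_self', h2, hy, hy0] using a3

theorem wedge_all [Finite F] (h3 : finrank F U = 3) (M : AddSubgroup (End F U))
    (hM : ∀ e y, Q e = 0 → polar Q e y = 0 → ∀ S ∈ M, cj (eich Q e y).1 S ∈ M) (hS : S ∈ M)
    (h0 : S ≠ 0) (hs : ∀ x y, polar Q (S x) y + polar Q x (S y) = 0) (a b : U) : wg Q a b ∈ M := by
  obtain ⟨e, he0, he⟩ := exists_singular Q h3.ge
  obtain ⟨f, hf, hef⟩ := exists_hyp_partner hQ he0 he
  obtain ⟨y, -, hy, h4, h5, -⟩ := exists_ns_perp_hyp hQ ((CForm.ofQuad Q).nondegOn_top.2 hQ)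
    (by rw [finrank_top, h3]) mem_top mem_top ⟨he, hf, hef⟩
  have hfe : polar Q f e = 1 := (polar_comm _ _ _).trans hef
  have h4' : polar Q y e = 0 := (polar_comm _ _ _).trans h4
  have h5' : polar Q y f = 0 := (polar_comm _ _ _).trans h5
  let T : F × F × F →+ End F U :=
    { toFun := fun p => p.1 • wg Q e y + p.2.1 • wg Q e f + p.2.2 • wg Q y f
      map_zero' := by simp
      map_add' := fun p q => by simp only [Prod.fst_add, Prod.snd_add]; module }
  have hT : ∀ a b c, T (a, b, c) = a • wg Q e y + b • wg Q e f + c • wg Q y f := fun _ _ _ => rfl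
  have key : ∀ S : End F U, (∀ x y, polar Q (S x) y + polar Q x (S y) = 0) → ∃ p, T p = S := by
    intro S hs
    refine ⟨(-polar Q y (S f) / (2 * Q y), polar Q f (S e), polar Q y (S e) / (2 * Q y)), ?_⟩
    have s0 : ∀ x, polar Q x (S x) = 0 := fun x => mul_left_cancel₀ h2 (by
      linear_combination hs x x - polar_comm Q (S x) x)
    have s1 : ∀ x z, polar Q x (S z) = -polar Q z (S x) := fun x z => by
      linear_combination hs x z - polar_comm Q (S x) z
    refine LinearMap.ext fun x => sub_eq_zero.1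
      (eq_zero_three hQ h2 h3 he hf hef hy h4 h5 ?_ ?_ ?_) <;>
    simp only [hT, LinearMap.add_apply, LinearMap.smul_apply, wg_apply, polar_sub_right,
      polar_add_right, polar_smul_right, polar_self', he, hf, hef, hfe, h4, h5, h4', h5',
      smul_eq_mul, s1 _ x] <;>
    · have := eq_zero_three hQ h2 h3 he hf hef hy h4 h5 (x := x - polar Q f x • e - polar Q e x • f -
        (polar Q y x / (2 * Q y)) • y) (by simp [polar_self', he, hef, h4])
        (by simp [polar_self', hf, hfe, h5]) (by simp [polar_self', h4', h5', h2, hy])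
      rw [sub_sub, sub_sub, sub_eq_zero] at this
      generalize polar Q f x = r at this ⊢
      generalize polar Q e x = s at this ⊢
      generalize polar Q y x = t at this ⊢
      subst this
      simp only [polar_add_left, polar_smul_left, smul_eq_mul, s0, s1 e f, s1 e y, s1 f y]
      field_simp
      ring
  obtain ⟨p, rfl⟩ := key S hs
  obtain ⟨q, hq⟩ := key (wg Q a b) fun x z => by
    simp [wg_apply, polar_comm Q x]; ring
  refine hq ▸ three_all hy h2 (M.comap T) (fun t a b c h => ?_) (fun t a b c h => ?_) hS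
    (fun h => h0 (by rw [h, map_zero])) q
  · change T _ ∈ M
    convert hM e (t • y) he (by simp [h4]) _ h using 1
    simp only [hT, cj_add, cj_smul', cj_wg, eich_apply he (show polar Q e (t • y) = 0 by simp [h4]),
      polar_smul_left, polar_self', he, hef, h4, h4', h5', Q_smul, smul_eq_mul, map_add, map_sub,
      map_smul, LinearMap.add_apply, LinearMap.sub_apply, LinearMap.smul_apply, wg_self,
      wg_swap y e]
    module
  · change T _ ∈ M
    convert hM f (t • y) hf (by simp [h5]) _ h using 1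
    simp only [hT, cj_add, cj_smul', cj_wg, eich_apply hf (show polar Q f (t • y) = 0 by simp [h5]),
      polar_smul_left, polar_self', hf, hfe, h5, h4', h5', Q_smul, smul_eq_mul, map_add, map_sub,
      map_smul, LinearMap.add_apply, LinearMap.sub_apply, LinearMap.smul_apply, wg_self,
      wg_swap y e, wg_swap f y, wg_swap f e]
    module

theorem mem_of_ns_perp (hu : Q u ≠ 0) (h : ∀ v, Q v ≠ 0 → polar Q u v = 0 → polar Q v x = 0) :
    x ∈ F ∙ u := by
  rw [← hQ.perp_perp (F ∙ u)]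
  refine (CForm.ofQuad Q).mem_perp.2 fun z hz => ?_
  by_cases h0 : z = 0
  · simp [h0]
  obtain ⟨v, a1, a2⟩ := exists_nonsingular (hQ.nondegOn_perp (nondegOn_singleton h2 hu))
    (Submodule.ne_bot_iff _ |>.2 ⟨z, hz, h0⟩)
  rw [CForm.mem_perp_singleton, CForm.ofQuad_B] at hz a1
  by_cases hz0 : Q z = 0
  · rcases ns_add_or h2 hz0 a2 with a3 | a3
    · simpa [h v a2 a1] using h _ a3 (by simp [hz, a1])
    · simpa [h v a2 a1] using h _ a3 (by simp [hz, a1])
  · exact h z hz0 hz

theorem exists_ns_perp (h3 : 3 ≤ finrank F U) (he : Q e = 0) : ∃ y, Q y ≠ 0 ∧ polar Q e y = 0 := by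
  by_cases he0 : e = 0
  · obtain ⟨y, -, hy⟩ := exists_nonsingular ((CForm.ofQuad Q).nondegOn_top.2 hQ) fun h => by
      rw [← finrank_top, h, finrank_bot] at h3; omega
    exact ⟨y, hy, by simp [he0]⟩
  obtain ⟨f, hf, hef⟩ := exists_hyp_partner hQ he0 he
  obtain ⟨y, -, hy, h4, -⟩ := exists_ns_perp_hyp hQ ((CForm.ofQuad Q).nondegOn_top.2 hQ)
    (by rwa [finrank_top]) mem_top mem_top ⟨he, hf, hef⟩
  exact ⟨y, hy, h4⟩

theorem scalar_of_ns (h3 : 3 ≤ finrank F U) (h : ∀ u, Q u ≠ 0 → S u ∈ F ∙ u) :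
    ∃ c : F, ∀ u, S u = c • u := by
  refine exists_scalar_of_eigen fun e => by_contra fun he => ?_
  have h0 : Q e = 0 := by_contra fun h0 => he (h e h0)
  obtain ⟨y, hy, h4⟩ := exists_ns_perp hQ h2 h3 h0
  obtain ⟨a, ha⟩ := mem_span_singleton.1 (h y hy)
  obtain ⟨b, hb⟩ := mem_span_singleton.1 (h (y + e) (by rwa [Q_add, polar_comm, h4, h0, add_zero, add_zero]))
  obtain ⟨c, hc⟩ := mem_span_singleton.1 (h (y - e) (by rwa [Q_sub, polar_comm, h4, h0, add_zero, sub_zero]))
  rw [map_add] at hb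
  rw [map_sub] at hc
  have h5 : (2 * a - b - c) • y = (b - c) • e := by linear_combination (norm := module) 2 • ha - hb - hc
  have h6 := congrArg (polar Q y) h5
  simp only [polar_smul_right, polar_comm Q y e, h4, polar_self', smul_eq_mul, mul_zero, mul_eq_zero,
    h2, hy, or_false] at h6
  have he0 : e ≠ 0 := by rintro rfl; simp at he
  rw [h6, zero_smul, eq_comm, smul_eq_zero_iff_left he0, sub_eq_zero] at h5
  subst h5
  have : a = b := mul_left_cancel₀ h2 (by linear_combination h6)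
  exact he (mem_span_singleton.2 ⟨b, by subst this; linear_combination (norm := module) hb - ha⟩)

theorem exists_rot (h3 : 3 ≤ finrank F U) {t : F} (t0 : t ≠ 0) (t1 : t * t ≠ 1) (hu : Q u ≠ 0)
    (hv : Q v ≠ 0) (h : polar Q u v = 0) :
    ∃ s, Q s ≠ 0 ∧ polar Q u s = 0 ∧ (refl Q s).1 v ∉ F ∙ v := by
  have hP := nondegOn_pair_of_det (Q := Q) (u := u) (w := v) (by
    simp [h, hu, hv, show (4 : F) = 2 * 2 by norm_num, h2])
  obtain ⟨z, a1, a2⟩ := exists_nonsingular (hQ.nondegOn_perp hP.1) fun e => by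
    have := hQ.finrank_add_finrank_perp (span F {u, v})
    rw [e, finrank_bot, hP.2] at this; omega
  obtain ⟨b1, b2⟩ := (CForm.ofQuad Q).mem_perp_pair.1 a1
  rw [CForm.ofQuad_B] at b1 b2
  obtain ⟨c, c0, c1⟩ : ∃ c : F, c ≠ 0 ∧ Q (v + c • z) ≠ 0 := by
    by_contra! hc
    have d1 := hc 1 one_ne_zero
    have d2 := hc t t0
    simp only [Q_add, Q_smul, polar_smul_right, b2, smul_zero, add_zero] at d1 d2
    exact mul_ne_zero (sub_ne_zero.2 t1) a2 (by linear_combination d2 - d1)
  refine ⟨_, c1, by simp [h, b1], fun e => ?_⟩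
  obtain ⟨d, hd⟩ := mem_span_singleton.1 e
  have := congrArg (polar Q z) hd
  simp [refl_apply, polar_comm Q z v, b2, polar_self', c0, c1, h2, hv, a2] at this

end H12
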