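import Cfsg.Agent.H12.OT1

/-!
# Orthogonal tensor products with a second factor of Witt index one: unipotent radicals
-/

set_option autoImplicit false
set_option maxHeartbeats 400000

namespace H12

open Module H11 Submodule TensorProduct H13.KL QuadraticMap

variable {F : Type*} [Field F] {U W : Type*} [AddCommGroup U] [Module F U] [AddCommGroup W]
  [Module F W] {Q : QuadraticForm F (U ⊗[F] W)} {Q₁ : QuadraticForm F U} {Q₂ : QuadraticForm F W}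
  {X : Subgroup ((U ⊗[F] W) ≃ₗ[F] (U ⊗[F] W))} {g k q t : (U ⊗[F] W) ≃ₗ[F] (U ⊗[F] W)}
  {w w' w₁ y y' : W} {u v a b : U} {x : U ⊗[F] W} {A A' D D' S : End F U}
  {Φ : U ⊗[F] W →ₗ[F] U}

local notation "κ" => cB U (CForm.ofQuad Q₂)

attribute [-simp] LinearEquiv.coe_inv

theorem eR_apply (hw : Q₂ w = 0) (hy : polar Q₂ w y = 0) (x : U ⊗[F] W) :
    rH F U W (eich Q₂ w y).1 x = x + κ y x ⊗ₜ w - κ w x ⊗ₜ y - (Q₂ y • κ w x) ⊗ₜ w := by
  induction x with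
  | zero => simp
  | tmul u z =>
    rw [rH_tmul, eich_apply hw hy]
    simp [tmul_add, tmul_sub, smul_tmul, mul_smul]
  | add x y a b => simp only [map_add, a, b, add_tmul, smul_add]; abel

theorem cB_lH (α : U ≃ₗ[F] U) (y : W) (x : U ⊗[F] W) : κ y (lH F U W α x) = α (κ y x) :=
  cB_congr (β := 1) (one_mem _) y x

variable (Q₂ X) in
/-- `X` contains the central element of the unipotent radical with coefficient `S`. -/
def ZS (w : W) (S : End F U) : Prop := ∃ t ∈ X, ∀ x, t x = x + S (κ w x) ⊗ₜ w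

variable (Q X) in
/-- `X` contains the long root elements attached to `U ⊗ w`. -/
def LR (w : W) : Prop := ∀ a b : U, Ei Q X (a ⊗ₜ w) (b ⊗ₜ w)

theorem LR.smul (h : LR Q X w) (c : F) : LR Q X (c • w) := fun a b => by
  simpa only [smul_tmul] using h (c • a) (c • b)

theorem QW.conj_lH (h : QW (CForm.ofQuad Q₂) X w Φ) (hk : k ∈ X) {α : U ≃ₗ[F] U} {c : F}
    (e : ∀ x, k x = c • lH F U W α x) :
    QW (CForm.ofQuad Q₂) X w (α ∘ₗ Φ ∘ₗ lH F U W α⁻¹) := by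
  obtain ⟨q, h1, h2⟩ := h
  refine ⟨k * q * k⁻¹, mul_mem (mul_mem hk h1) (inv_mem hk), fun x hx => ?_⟩
  have h3 : c • k⁻¹ x = lH F U W α⁻¹ x := (lH F U W α).injective (by
    rw [map_smul, ← e, map_inv, apply_inv_apply, apply_inv_apply])
  by_cases hc : c = 0
  · have : ∀ x, k x = 0 := fun x => by simp [e, hc]
    rw [← apply_inv_apply k (x + _), this, LinearEquiv.mul_apply, LinearEquiv.mul_apply, this]
  have h4 : κ w (k⁻¹ x) = 0 := smul_right_injective U hc (by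
    simp only [← map_smul, h3, cB_lH, hx, map_zero, smul_zero])
  simp only [LinearEquiv.mul_apply, h2 _ h4, map_add, apply_inv_apply, LinearMap.comp_apply,
    LinearEquiv.coe_coe, ← h3, map_smul, e (_ ⊗ₜ _), lH_tmul, smul_tmul']

variable (Q Q₁ Q₂ X) in
/-- An overgroup of the group of a second factor of Witt index one. -/
structure OX : Prop extends
    TF (CForm.ofQuad Q) (CForm.ofQuad Q₁) (CForm.ofQuad Q₂) where
  two : (2 : F) ≠ 0
  le : X ≤ orth Q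
  ei : ∀ w y, Q₂ w = 0 → polar Q₂ w y = 0 → rH F U W (eich Q₂ w y).1 ∈ X
  an : ∀ w y, Q₂ w = 0 → w ≠ 0 → Q₂ y = 0 → polar Q₂ w y = 0 → y ∈ F ∙ w
  dimU : finrank F U = 3
  dimW : 3 ≤ finrank F W

namespace OX

variable (h : OX Q Q₁ Q₂ X)
include h

theorem pB (u : U) (w : W) (u' : U) (w' : W) :
    polar Q (u ⊗ₜ w) (u' ⊗ₜ w') = polar Q₁ u u' * polar Q₂ w w' := h.hB u w u' w'

theorem pt' (u : U) (y : W) (x : U ⊗[F] W) : polar Q (u ⊗ₜ y) x = polar Q₁ u (κ y x) :=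
  h.B_tmul u y x

theorem qt (u : U) (hw : Q₂ w = 0) : Q (u ⊗ₜ w) = 0 := h.N_tmul u hw

theorem iso (hg : g ∈ X) (x y : U ⊗[F] W) : polar Q (g x) (g y) = polar Q x y :=
  orth_polar ⟨g, h.le hg⟩ x y

theorem ext₁ (e : ∀ u, polar Q₁ u a = polar Q₁ u b) : a = b := h.nd₁.ext' e

theorem qw_ei (hw : Q₂ w = 0) (hy : polar Q₂ w y = 0) : QW (CForm.ofQuad Q₂) X w (κ y) :=
  ⟨_, h.ei w y hw hy, fun x hx => by rw [eR_apply hw hy, hx]; simp⟩

theorem zs_skew (hw : Q₂ w = 0) (hw0 : w ≠ 0) (hS : ZS Q₂ X w S) (u v : U) :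
    polar Q₁ (S u) v + polar Q₁ u (S v) = 0 := by
  obtain ⟨t, a1, a2⟩ := hS
  obtain ⟨r, hr⟩ := h.nd₂.exists_eq hw0 1
  rw [CForm.ofQuad_B] at hr
  have := h.iso a1 (u ⊗ₜ r) (v ⊗ₜ r)
  simp [a2, hr, h.pB, polar_self', hw, polar_comm Q₂ r w] at this
  linear_combination this

theorem ei_of_zs (hw : Q₂ w = 0) (hS : ZS Q₂ X w (wg Q₁ a b)) : Ei Q X (a ⊗ₜ w) (b ⊗ₜ w) := by
  obtain ⟨t, a1, a2⟩ := hS
  have a3 : polar Q (a ⊗ₜ w) (b ⊗ₜ w) = 0 := by simp [h.pB, polar_self', hw]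
  refine ⟨h.qt a hw, a3, ?_⟩
  convert a1 using 1
  refine LinearEquiv.ext fun x => ?_
  simp [eich_apply (h.qt a hw) a3, a2, h.qt b hw, h.pt', wg_apply, sub_tmul, smul_tmul', add_sub_assoc]

theorem LR_move (hw : Q₂ w = 0) (hy : Q₂ y = 0) (hy' : Q₂ y' = 0) (a1 : polar Q₂ w y ≠ 0)
    (a2 : polar Q₂ w y' ≠ 0) (e : LR Q X y) : LR Q X y' := by
  have h4 : polar Q₂ w ((polar Q₂ w y)⁻¹ • y - (polar Q₂ w y')⁻¹ • y') = 0 := by simp [a1, a2]
  have h5 : (eich Q₂ w ((polar Q₂ w y)⁻¹ • y - (polar Q₂ w y')⁻¹ • y')).1 ((polar Q₂ w y)⁻¹ • y) =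
      (polar Q₂ w y')⁻¹ • y' := by
    rw [eich_apply hw h4]
    simp [Q_sub, Q_smul, polar_self', hy, hy', a1, polar_comm Q₂ y' y]
    module
  have h6 : LR Q X ((polar Q₂ w y')⁻¹ • y') := fun a b => by
    simpa only [rH_tmul, h5] using (e.smul (polar Q₂ w y)⁻¹ a b).conj (h.ei _ _ hw h4) (h.le (h.ei _ _ hw h4))
  simpa [a2] using h6.smul (polar Q₂ w y')

variable [FiniteDimensional F U] [FiniteDimensional F W]

theorem exists_mid (hw : Q₂ w = 0) (hy : Q₂ y = 0) (e : polar Q₂ w y ≠ 0) :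
    ∃ z, Q₂ z ≠ 0 ∧ polar Q₂ w z = 0 ∧ polar Q₂ y z = 0 := by
  obtain ⟨z, -, a1, a2, a3, -⟩ := exists_ns_perp_hyp h.nd₂ ((CForm.ofQuad Q₂).nondegOn_top.2 h.nd₂)
    (by rw [finrank_top]; exact h.dimW) mem_top mem_top (f := (polar Q₂ w y)⁻¹ • y)
    ⟨hw, by simp [Q_smul, hy], by simp [e]⟩
  exact ⟨z, a1, a2, by simpa [e] using a3⟩

theorem LR_all (hw : Q₂ w = 0) (hw0 : w ≠ 0) (e : LR Q X w) (hy : Q₂ y = 0) : LR Q X y := by
  by_cases h0 : polar Q₂ w y = 0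
  · obtain ⟨c, rfl⟩ := mem_span_singleton.1 (h.an w y hw hw0 hy h0)
    exact e.smul c
  obtain ⟨z, a1, a2, a3⟩ := h.exists_mid hw hy h0
  refine h.LR_move (w := (eich Q₂ w z).1 y) ((orth_Q _ _).trans hy) hw hy ?_ ?_ e <;>
    simp [eich_apply hw a2, polar_self', hw, hy, polar_comm Q₂ z, a2, a3, h0, a1, polar_comm Q₂ y w]

theorem ei_perp (e : ∀ y, Q₂ y = 0 → LR Q X y) (hw : Q₂ w = 0) (hw0 : w ≠ 0)
    (hb : polar Q₁ u b = 0) (y : W) : Ei Q X (u ⊗ₜ w) (b ⊗ₜ y) := by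
  by_cases hb0 : b = 0
  · simpa [hb0] using ei_zero_right (h.qt u hw)
  obtain ⟨a, a1, a2⟩ := exists_mem_not_mem_of_finrank_lt (W := F ∙ b)
    (W' := (CForm.ofQuad Q₁).perp (F ∙ u)) (by
      have := h.nd₁.finrank_add_finrank_perp (F ∙ u)
      have := finrank_span_singleton_le (F := F) u
      have := finrank_span_singleton_le (F := F) b
      have := h.dimU
      omega)
  rw [CForm.mem_perp_singleton, CForm.ofQuad_B] at a1
  let Z : AddSubgroup W :=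
    { carrier := {y | Ei Q X (u ⊗ₜ w) (b ⊗ₜ y)}
      zero_mem' := by simpa using ei_zero_right (h.qt u hw)
      add_mem' := fun a b => by simpa [tmul_add] using Ei.add a b
      neg_mem' := fun a => by simpa [tmul_neg] using Ei.neg a }
  refine le_of_singular_mem ((CForm.ofQuad Q₂).nondegOn_top.2 h.nd₂) mem_top hw0 hw Z
    (fun y _ hy => ?_) y mem_top
  change Ei Q X _ _
  by_cases h0 : polar Q₂ w y = 0
  · obtain ⟨c, rfl⟩ := mem_span_singleton.1 (h.an w y hw hw0 hy h0)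
    simpa only [smul_tmul] using e w hw u (c • b)
  obtain ⟨c, c1, c2⟩ := h.nd₁.exists_perp_eq a2 (polar Q₂ w y)⁻¹
  rw [CForm.mem_perp_singleton, CForm.ofQuad_B] at c1
  rw [CForm.ofQuad_B] at c2
  simpa [h.pB, c1, c2, polar_comm Q₂ y w, h0] using (e y hy b a).conj_ei (e w hw u c)
    (by simp [h.pB, polar_comm Q₁ b u, hb]) (by simp [h.pB, polar_comm Q₁ a u, a1])

theorem fu_of_lr (e : ∀ y, Q₂ y = 0 → LR Q X y) (hw : Q₂ w = 0) (hw0 : w ≠ 0) (hu : Q₁ u ≠ 0) :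
    Fu Q X ⊤ (u ⊗ₜ w) := by
  have h0 := h.qt u hw
  have k1 : ∀ y, polar Q₂ w y = 0 → Ei Q X (u ⊗ₜ w) (u ⊗ₜ y) := fun y hy => by
    obtain ⟨w', c1, c2⟩ := exists_hyp_partner h.nd₂ hw0 hw
    obtain ⟨v, -, c3, c4⟩ := exists_orth_nonsingular h.nd₁ h.two
      ((CForm.ofQuad Q₁).nondegOn_top.2 h.nd₁) (by rw [finrank_top, h.dimU]; omega) mem_top hu
    obtain ⟨b, c5⟩ := h.nd₁.exists_eq (x := v) (by rintro rfl; simp at c3) (-1)
    rw [CForm.ofQuad_B] at c5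
    have := ((h.ei_perp e c1 (by rintro rfl; simp at c2) ((polar_comm _ _ _).trans c4) y).conj_ei
      (e w hw u b) (by simp [h.pB, polar_comm Q₁ v u, c4]) (by simp [h.pB, polar_comm Q₂ y w, hy])).sub
      (h.ei_perp e hw hw0 (b := Q (u ⊗ₜ y) • v) (by simp [c4]) w')
    simpa [h.pB, polar_comm Q₂ y w, hy, c5, polar_comm Q₂ w' w, c2, smul_tmul'] using this
  let r : Dual F U := (2 * Q₁ u)⁻¹ • polarBilin Q₁ u
  have k2 : ∀ x, Ei Q X (u ⊗ₜ w) (x - u ⊗ₜ cL W r x) := fun x => by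
    induction x with
    | zero => simpa using ei_zero_right h0
    | tmul a y =>
      simpa [sub_tmul, smul_tmul] using h.ei_perp e hw hw0 (b := a - r a • u)
        (by have := h.two; simp [r, polar_self']; field_simp; ring) y
    | add x y a b => convert a.add b using 1; simp only [map_add, tmul_add]; abel
  intro x _ hx
  have := (k2 x).2.1
  rw [polar_sub_right, hx, h.pB, polar_self'] at this
  convert (k2 x).add (k1 (cL W r x) (by simpa [hu, h.two] using this)) using 1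
  abel

theorem omega_le [Finite F] (hU : ∀ e y, Q₁ e = 0 → polar Q₁ e y = 0 → lH F U W (eich Q₁ e y).1 ∈ X)
    (hw : Q₂ w = 0) (hw0 : w ≠ 0) (hS : ZS Q₂ X w S) (h0 : S ≠ 0) : OmegaV Q ≤ X := by
  have b0 : polar Q₂ w w = 0 := by simp [polar_self', hw]
  let M : AddSubgroup (End F U) :=
    { carrier := {S | ZS Q₂ X w S}
      zero_mem' := ⟨1, one_mem _, fun x => by simp⟩
      add_mem' := fun ⟨s, a1, a2⟩ ⟨t, a3, a4⟩ => ⟨s * t, mul_mem a1 a3, fun x => by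
        simp [a2, a4, b0, add_tmul]; abel⟩
      neg_mem' := fun ⟨s, a1, a2⟩ => ⟨s⁻¹, inv_mem a1, fun x => s.injective (by
        rw [apply_inv_apply, a2]; simp [b0, neg_tmul])⟩ }
  have e := fun y => h.LR_all (y := y) hw hw0 fun a b => h.ei_of_zs hw (wedge_all h.nd₁ h.two h.dimU M
    (fun e y c1 c2 S ⟨t, c3, c4⟩ => ⟨_, mul_mem (mul_mem (hU e y c1 c2) c3) (inv_mem (hU e y c1 c2)),
      fun x => by
        rw [LinearEquiv.mul_apply, LinearEquiv.mul_apply, c4, map_add, apply_inv_apply, ← map_inv,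
          cB_lH, lH_tmul, cj_apply]⟩)
    hS h0 (h.zs_skew hw hw0 hS) a b)
  obtain ⟨w', c1, c2⟩ := exists_hyp_partner h.nd₂ hw0 hw
  obtain ⟨u, c3, -⟩ := exists_ns_perp h.nd₁ h.two h.dimU.ge (map_zero Q₁)
  have hne := notExc_of_two_ne_zero (V := U ⊗[F] W) h.two
  rw [← h.nd.subG_top (G := OmegaV Q) OmegaV_le]
  refine Fu.subG_le h.nd hne ((CForm.ofQuad Q).nondegOn_top.2 h.nd) (notExc_of_two_ne_zero h.two) ?_
    (h.fu_of_lr e hw hw0 c3) (h.fu_of_lr e c1 (by rintro rfl; simp at c2) c3)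
    mem_top mem_top (h.qt u hw) (h.qt u c1) (by simp [h.pB, c2, polar_self', h.two, c3])
  rw [finrank_top, finrank_tensorProduct, h.dimU]
  have := h.dimW
  omega

theorem exists_pt' (e : ∀ y, polar Q₂ w y = 0 → κ y x = 0) : ∃ u, x = u ⊗ₜ w := by
  rw [← mem_tl_singleton, ← h.nd₂.perp_perp (span F {w}), mem_tl_perp]
  exact fun y hy => e y ((CForm.ofQuad Q₂).mem_perp_singleton.1 hy)

theorem comm_g (hw : Q₂ w = 0) (hy : polar Q₂ w y = 0) (hΦ : QW (CForm.ofQuad Q₂) X w Φ)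
    (h0 : ∀ u, Φ (u ⊗ₜ w) = 0) (hA : ∀ u, Φ (u ⊗ₜ y) = A u)
    (hA' : ∀ u v, polar Q₁ (A u) v = polar Q₁ u (A' v))
    (hD : QW (CForm.ofQuad Q₂) X w (D ∘ₗ κ y))
    (hD' : ∀ u v, polar Q₁ (D u) v = polar Q₁ u (D' v)) : ZS Q₂ X w (A * D' - D * A') := by
  have b0 : polar Q₂ w w = 0 := by simp [polar_self', hw]
  have hy' : polar Q₂ y w = 0 := (polar_comm _ _ _).trans hy
  obtain ⟨q, b1, b2⟩ := hΦ
  obtain ⟨q', b3, b4⟩ := hD
  have c1 := fun x => QW.inv_apply b2 b0 h0 (x := x)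
  have c2 := fun x => QW.inv_apply b4 b0 (by simp [hy']) (x := x)
  have key : ∀ {q} {Φ : U ⊗[F] W →ₗ[F] U}, q ∈ X → (∀ x, κ w x = 0 → q x = x + Φ x ⊗ₜ w) →
      ∀ {t}, polar Q₂ w t = 0 → ∀ x u, polar Q₁ u (κ t (q⁻¹ x)) =
        polar Q₁ u (κ t x) + polar Q₁ (Φ (u ⊗ₜ t)) (κ w x) := fun hq e t ht x u => by
    rw [← h.pt', ← h.iso hq, apply_inv_apply, e _ (by simp [ht])]
    simp [h.pt']
  have c3 : ∀ x, κ w (q⁻¹ x) = κ w x := fun x => h.ext₁ fun u => by simp [key b1 b2 b0, h0]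
  have c4 : ∀ x, κ y (q⁻¹ x) = κ y x + A' (κ w x) := fun x => h.ext₁ fun u => by
    simp [key b1 b2 hy, hA, hA']
  have c5 : ∀ t, polar Q₂ w t = 0 → ∀ x, κ t (q'⁻¹ x) = κ t x + polar Q₂ y t • D' (κ w x) :=
    fun t ht x => h.ext₁ fun u => by simp [key b3 b4 ht, hD']
  refine ⟨q' * q * q'⁻¹ * q⁻¹, mul_mem (mul_mem (mul_mem b3 b1) (inv_mem b3)) (inv_mem b1),
    fun x => ?_⟩
  have d1 := c1 (x := q'⁻¹ x - x) (by simp [c5 w b0, hy'])
  have d2 := c2 (x := q⁻¹ x - x) (by simp [c3])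
  obtain ⟨s, hs⟩ := h.exists_pt' (w := w) (x := q'⁻¹ x - x - D' (κ w x) ⊗ₜ y) fun t ht => by
    simp [c5 t ht, polar_comm Q₂ t y]
  have d0 : Φ (q'⁻¹ x - x) = A (D' (κ w x)) := by rw [sub_eq_iff_eq_add.1 hs, map_add, h0, hA, zero_add]
  rw [LinearMap.neg_apply, d0] at d1
  simp only [map_sub, LinearMap.neg_apply, LinearMap.comp_apply, c4, add_sub_cancel_left] at d1 d2
  have d3 : q'⁻¹ (q⁻¹ x) = q⁻¹ (q'⁻¹ x) + (A * D' - D * A') (κ w x) ⊗ₜ w := by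
    simp only [sub_tmul, neg_tmul, LinearMap.sub_apply, End.mul_apply, map_add, add_tmul] at d1 d2 ⊢
    linear_combination (norm := module) d2 - d1
  simp only [LinearEquiv.mul_apply, d3, map_add, apply_inv_apply]
  rw [b2 _ (by simp [b0]), h0, zero_tmul, add_zero, b4 _ (by simp [b0])]
  simp [hy']

end OX

end H12
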