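import Cfsg.Agent.H12.OT2

/-!
# Orthogonal tensor products with a second factor of Witt index one: point stabilisers
-/

set_option autoImplicit false
set_option maxHeartbeats 400000

namespace H12

open Module H11 Submodule TensorProduct H13.KL QuadraticMap

variable {F : Type*} [Field F] {U W : Type*} [AddCommGroup U] [Module F U] [AddCommGroup W]
  [Module F W] {Q : QuadraticForm F (U ⊗[F] W)} {Q₁ : QuadraticForm F U} {Q₂ : QuadraticForm F W}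
  {X : Subgroup ((U ⊗[F] W) ≃ₗ[F] (U ⊗[F] W))} {g k q t : (U ⊗[F] W) ≃ₗ[F] (U ⊗[F] W)}
  {w w' w₁ y y' : W} {u v a b : U} {x : U ⊗[F] W} {A A' D D' S : End F U}
  {Φ : U ⊗[F] W →ₗ[F] U} {γ : U ≃ₗ[F] U} {P : U → Prop}

local notation "κ" => cB U (CForm.ofQuad Q₂)

attribute [-simp] LinearEquiv.coe_inv

variable (Q₁ W) in
/-- The involution `-r_u ⊗ 1`. -/
noncomputable def zU (u : U) : (U ⊗[F] W) ≃ₗ[F] (U ⊗[F] W) :=
  lH F U W (LinearEquiv.neg F * (refl Q₁ u).1)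

theorem zU_tmul (u a : U) (y : W) : zU W Q₁ u (a ⊗ₜ y) = (-(refl Q₁ u).1 a) ⊗ₜ y := rfl

theorem zU_apply (u : U) (x : U ⊗[F] W) :
    zU W Q₁ u x = u ⊗ₜ cL W ((Q₁ u)⁻¹ • polarBilin Q₁ u) x - x := by
  induction x with
  | zero => simp
  | tmul a y => simp [zU_tmul, refl_apply, sub_tmul, smul_tmul, mul_smul]
  | add x y a b => simp only [map_add, a, b, tmul_add]; abel

theorem refl_refl (u a : U) : (refl Q₁ u).1 ((refl Q₁ u).1 a) = a := reflLin_involutive Q₁ u a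

theorem zU_sq (u : U) : zU W Q₁ u * zU W Q₁ u = 1 :=
  LinearEquiv.toLinearMap_injective (TensorProduct.ext' fun a y => by simp [zU_tmul, refl_refl])

theorem zU_eq (u : U) (x : U ⊗[F] W) : zU W Q₁ u x = (-1 : F) • lH F U W (refl Q₁ u).1 x := by
  induction x with
  | zero => simp
  | tmul a y => simp [zU_tmul, lH_tmul, neg_tmul]
  | add x y a b => simp only [map_add, a, b, smul_add]

theorem cB_zU (u : U) (y : W) (x : U ⊗[F] W) : κ y (zU W Q₁ u x) = -(refl Q₁ u).1 (κ y x) :=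
  cB_lH _ y x

theorem zU_self (hu : Q₁ u ≠ 0) (y : W) : zU W Q₁ u (u ⊗ₜ y) = u ⊗ₜ y := by
  rw [zU_tmul, refl_apply_self hu, neg_neg]

theorem exists_of_zU (h2 : (2 : F) ≠ 0) (e : zU W Q₁ u x = x) : ∃ y, x = u ⊗ₜ y :=
  ⟨(2 : F)⁻¹ • _, by
    rw [zU_apply, sub_eq_iff_eq_add] at e
    rw [tmul_smul, e, ← two_smul F, inv_smul_smul₀ h2]⟩

theorem lH_rH (α : U ≃ₗ[F] U) (β : W ≃ₗ[F] W) :
    lH F U W α * rH F U W β = rH F U W β * lH F U W α :=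
  LinearEquiv.toLinearMap_injective (TensorProduct.ext' fun _ _ => rfl)

theorem refl_sim {m : F} (hm : m ≠ 0) (e : ∀ a b, polar Q₁ (γ a) (γ b) = m * polar Q₁ a b)
    (h2 : (2 : F) ≠ 0) (u a : U) : (refl Q₁ (γ u)).1 (γ a) = γ ((refl Q₁ u).1 a) := by
  have : Q₁ (γ u) = m * Q₁ u := mul_left_cancel₀ h2 (by
    rw [← polar_self', e, polar_self']; ring)
  simp only [refl_apply, map_sub, map_smul, this, e, mul_inv]
  congr 2
  field_simp

theorem mem_tenStab_of_lines [FiniteDimensional F U] [FiniteDimensional F W] [Nontrivial U]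
    (hP : ∀ S : End F U, (∀ u, P u → S u ∈ F ∙ u) → ∃ c : F, ∀ u, S u = c • u)
    (e : ∀ u, P u → ∀ y, ∃ y', g (u ⊗ₜ y) = γ u ⊗ₜ y') : g ∈ tenStab F U W := by
  obtain ⟨u₀, hu⟩ := exists_ne (0 : U)
  obtain ⟨φ, hφ⟩ := exists_dual_one (F := F) hu
  let E : End F W := cL W (φ ∘ₗ γ.symm) ∘ₗ g.toLinearMap ∘ₗ TensorProduct.mk F U W u₀
  have key : ∀ u y, g (u ⊗ₜ y) = γ u ⊗ₜ E y := fun u y => by
    refine sub_eq_zero.1 (eq_zero_of_cR fun ψ => ?_)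
    obtain ⟨c, hc⟩ := hP (γ.symm ∘ₗ cR U ψ ∘ₗ g.toLinearMap ∘ₗ (TensorProduct.mk F U W).flip y) fun u hu => by
      obtain ⟨y', hy⟩ := e u hu y
      simpa [hy] using smul_mem _ _ (mem_span_singleton_self u)
    simp only [LinearMap.comp_apply, LinearEquiv.coe_coe, LinearMap.flip_apply, mk_apply,
      LinearEquiv.symm_apply_eq] at hc
    rw [map_sub, cR_tmul, hc, map_smul]
    simp only [E, LinearMap.comp_apply, LinearEquiv.coe_coe, mk_apply, ← cR_cL, hc]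
    simp [hφ]
  exact mem_tenStab.2 ⟨γ, LinearEquiv.ofInjectiveEndo E (LinearMap.ker_eq_bot.1 (eq_bot_iff.2
    fun y hy => by_contra fun h0 => tmul_ne_zero hu h0 (g.injective (by
      rw [key, LinearMap.mem_ker.1 hy]; simp)))), key⟩

variable (Q Q₁ Q₂ X) in
/-- No extra central elements in the unipotent radicals. -/
structure OZ : Prop extends OX Q Q₁ Q₂ X where
  hZ : ∀ w S, Q₂ w = 0 → w ≠ 0 → ZS Q₂ X w S → S = 0
  hcj : ∀ w u Φ, Q₂ w = 0 → w ≠ 0 → Q₁ u ≠ 0 → QW (CForm.ofQuad Q₂) X w Φ →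
    QW (CForm.ofQuad Q₂) X w ((refl Q₁ u).1 ∘ₗ Φ ∘ₗ lH F U W (refl Q₁ u).1⁻¹)
  big : ∃ t : F, t ≠ 0 ∧ t * t ≠ 1

namespace OZ

variable [FiniteDimensional F U] [FiniteDimensional F W] (h : OZ Q Q₁ Q₂ X) (hw : Q₂ w = 0)
  (hw0 : w ≠ 0)
include h hw hw0

omit hw hw0 in
theorem ext_perp {M : Type*} [AddCommGroup M] [Module F M] {f f' : U ⊗[F] W →ₗ[F] M}
    (e : ∀ u y, polar Q₂ w y = 0 → f (u ⊗ₜ y) = f' (u ⊗ₜ y)) (hx : κ w x = 0) : f x = f' x :=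
  tl_ext (Y := (CForm.ofQuad Q₂).perp (F ∙ w))
    (fun u y hy => e u y ((CForm.ofQuad Q₂).mem_perp_singleton.1 hy))
    (by rwa [← h.perp_tl, h.mem_perp_point])

theorem symm (hΦ : QW (CForm.ofQuad Q₂) X w Φ) (h0 : ∀ u, Φ (u ⊗ₜ w) = 0)
    (hy : polar Q₂ w y = 0) (a b : U) : polar Q₁ (Φ (a ⊗ₜ y)) b = polar Q₁ a (Φ (b ⊗ₜ y)) := by
  have := h.hZ w _ hw hw0 (h.comm_g (A := Φ ∘ₗ (TensorProduct.mk F U W).flip y) (D := 1) (D' := 1)
    hw hy hΦ h0 (fun _ => rfl) (fun u v => (h.nd₁.B_adj' _ u v).symm) (h.qw_ei hw hy) fun _ _ => rfl)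
  rw [mul_one, one_mul, sub_eq_zero] at this
  exact ((h.nd₁.B_adj' (Φ ∘ₗ (TensorProduct.mk F U W).flip y) a b).symm.trans (by rw [← this]; rfl))

theorem off (hΦ : QW (CForm.ofQuad Q₂) X w Φ) (h0 : ∀ u, Φ (u ⊗ₜ w) = 0)
    (hy : polar Q₂ w y = 0) (hu : Q₁ u ≠ 0) (hv : Q₁ v ≠ 0) (e : polar Q₁ u v = 0) :
    polar Q₁ v (Φ (u ⊗ₜ y)) = 0 := by
  have b0 : polar Q₂ w w = 0 := by simp [polar_self', hw]
  have e' : polar Q₁ v u = 0 := (polar_comm _ _ _).trans e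
  have h2 := h.two
  have a1 := hΦ.sub (h.hcj w u _ hw hw0 hu hΦ) b0 h0 fun a => by
    simp [← map_inv, lH_tmul, h0]
  have a2 := a1.sub (h.hcj w v _ hw hw0 hv a1) b0 (fun a => by simp [← map_inv, lH_tmul, h0])
    fun a => by simp [← map_inv, lH_tmul, h0]
  obtain ⟨z, hz⟩ := h.nd₂.exists_rep (polarBilin Q₁ v ∘ₗ Φ ∘ₗ TensorProduct.mk F U W u)
  simp only [CForm.ofQuad_B, LinearMap.comp_apply, mk_apply, polarBilin_apply_apply] at hz
  have hzw : polar Q₂ w z = 0 := by rw [polar_comm, hz, h0, polar_zero_right]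
  obtain ⟨A, hA⟩ : ∃ A : End F U, ∀ a, A a = (Q₁ u * Q₁ v)⁻¹ • (polar Q₁ v a • u + polar Q₁ u a • v) :=
    ⟨(Q₁ u * Q₁ v)⁻¹ • ((polarBilin Q₁ v).smulRight u + (polarBilin Q₁ u).smulRight v), fun _ => rfl⟩
  have a3 : QW (CForm.ofQuad Q₂) X w (A ∘ₗ κ z) := a2.congr fun x hx => h.ext_perp (fun a y hy => by
    have := h.symm hw hw0 hΦ h0 hy v u
    rw [polar_comm] at this
    simp only [LinearMap.sub_apply, LinearMap.comp_apply, LinearEquiv.coe_coe, ← Subgroup.coe_inv,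
      refl_inv, lH_tmul, refl_apply, sub_tmul, ← smul_tmul', map_sub, map_smul, cB_tmul,
      CForm.ofQuad_B, hz, hA, polar_sub_right, polar_smul_right, smul_eq_mul, e, e', this]
    match_scalars <;> field_simp <;> ring) hx
  by_contra hc
  have hz0 : Q₂ z ≠ 0 := fun c => by
    obtain ⟨c, rfl⟩ := mem_span_singleton.1 (h.an w z hw hw0 c hzw)
    exact hc (by simp [← hz, hy])
  obtain ⟨t, t0, t1⟩ := h.big
  obtain ⟨s, c1, c2, c3⟩ := exists_rot h.nd₁ h2 h.dimU.ge t0 t1 hu hv e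
  have c4 : (refl Q₁ s).1 u = u := refl_apply_of_orth ((polar_comm _ _ _).trans c2)
  have c5 : ∀ a, cj (refl Q₁ s).1 A a =
      (Q₁ u * Q₁ v)⁻¹ • (polar Q₁ ((refl Q₁ s).1 v) a • u + polar Q₁ u a • (refl Q₁ s).1 v) := fun a => by
    rw [cj_apply, hA, map_smul, map_add, map_smul, map_smul, ← orth_polar (refl Q₁ s) v,
      ← orth_polar (refl Q₁ s) u, apply_inv_apply, c4]
  have c6 : polar Q₁ ((refl Q₁ s).1 v) u = 0 := by rw [← c4, orth_polar, e']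
  have := LinearMap.congr_fun (h.hZ w _ hw hw0 (h.comm_g (A := (2 * Q₂ z) • A) (A' := (2 * Q₂ z) • A)
    (D := cj (refl Q₁ s).1 A) (D' := cj (refl Q₁ s).1 A) hw hzw a3
    (fun a => by simp [polar_comm Q₂ z w, hzw]) (fun a => by simp [polar_self'])
    (fun a b => by simp [hA, polar_comm Q₁ a]; ring)
    ((h.hcj w s _ hw hw0 c1 a3).congr fun x _ => by simp [cB_lH, ← map_inv])
    fun a b => by simp [-cj_apply, c5, polar_comm Q₁ a]; ring)) v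
  generalize cj (refl Q₁ s).1 A = D at this c5
  generalize (refl Q₁ s).1 v = v' at this c5 c6 c3
  simp only [LinearMap.sub_apply, End.mul_apply, LinearMap.smul_apply, c5, hA, e, e', c6, map_smul,
    polar_self', zero_smul, add_zero, zero_add, LinearMap.zero_apply, smul_smul, sub_eq_zero,
    polar_smul_right, smul_eq_mul, mul_zero] at this
  refine c3 ((smul_mem_iff _ ?_).1 (this ▸ smul_mem _ _ (mem_span_singleton_self v)))
  simp [h2, hu, hv, hz0]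

theorem rep (hΦ : QW (CForm.ofQuad Q₂) X w Φ) (h0 : ∀ u, Φ (u ⊗ₜ w) = 0) :
    ∃ z, polar Q₂ w z = 0 ∧ ∀ x, κ w x = 0 → Φ x = κ z x := by
  obtain ⟨u, hu⟩ := h.ex
  obtain ⟨φ, hφ⟩ := exists_dual_one (F := F) hu
  obtain ⟨z, hz⟩ := h.nd₂.exists_rep (φ ∘ₗ Φ ∘ₗ TensorProduct.mk F U W u)
  simp only [CForm.ofQuad_B, LinearMap.comp_apply, mk_apply] at hz
  refine ⟨z, by rw [polar_comm, hz, h0, map_zero], fun x hx => h.ext_perp (fun a y hy => ?_) hx⟩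
  obtain ⟨c, hc⟩ := scalar_of_ns (S := Φ ∘ₗ (TensorProduct.mk F U W).flip y) h.nd₁ h.two h.dimU.ge
    fun u hu => mem_of_ns_perp h.nd₁ h.two hu fun v hv e => h.off hw hw0 hΦ h0 hy hu hv e
  simp only [LinearMap.comp_apply, LinearMap.flip_apply, mk_apply] at hc
  simp [hz, hc, hφ]

theorem range (ht : t ∈ X) (e0 : ∀ u, t (u ⊗ₜ w) = u ⊗ₜ w)
    (e : ∀ x, κ w x = 0 → ∀ y, polar Q₂ w y = 0 → κ y (t x) = κ y x) :
    ∃ y, polar Q₂ w y = 0 ∧ t = rH F U W (eich Q₂ w y).1 := by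
  obtain ⟨Φ, a1, a2⟩ := exists_qw' (C₂ := CForm.ofQuad Q₂) hw0 e0 fun x hx =>
    mem_tl_singleton.2 (h.exists_pt' fun y hy => by rw [map_sub, e x hx y hy, sub_self])
  obtain ⟨z, a3, a4⟩ := h.rep hw hw0 ⟨t, ht, a2⟩ a1
  have a5 := mul_mem (inv_mem (h.ei w z hw a3)) ht
  obtain ⟨A, -, a6⟩ := h.of_cen (h.le a5) hw hw0 fun x hx => (rH F U W (eich Q₂ w z).1).injective (by
    rw [LinearEquiv.mul_apply, apply_inv_apply, a2 x hx, a4 x hx, eR_apply hw a3, hx]; simp)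
  rw [h.hZ w A hw hw0 ⟨_, a5, a6⟩] at a6
  exact ⟨z, a3, (inv_mul_eq_one.1 (LinearEquiv.ext fun x => by simpa using a6 x)).symm⟩

theorem conj_z (hg : g ∈ X) (e : ∀ u, g (u ⊗ₜ w) ∈ tl U (F ∙ w₁)) :
    ∃ γ : U ≃ₗ[F] U, ∃ m : F, m ≠ 0 ∧ (∀ a b, polar Q₁ (γ a) (γ b) = m * polar Q₁ a b) ∧
      ∀ u, zU W Q₁ u ∈ X → zU W Q₁ (γ u) ∈ X → g * zU W Q₁ u * g⁻¹ = zU W Q₁ (γ u) := by
  obtain ⟨a0, a1, -⟩ := h.exists_pt hw0 (h.le hg) hw e
  rw [CForm.ofQuad_N] at a1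
  obtain ⟨φ, hφ⟩ := exists_dual_one (F := F) a0
  have a2 : ∀ u, g (u ⊗ₜ w) = (cR U φ ∘ₗ g.toLinearMap ∘ₗ (TensorProduct.mk F U W).flip w) u ⊗ₜ w₁ := fun u => by
    obtain ⟨v, hv⟩ := mem_tl_singleton.1 (e u)
    simp [hv, hφ]
  obtain ⟨γ, hγ⟩ : ∃ γ : U ≃ₗ[F] U, ∀ u, g (u ⊗ₜ w) = γ u ⊗ₜ w₁ :=
    ⟨LinearEquiv.ofInjectiveEndo (cR U φ ∘ₗ g.toLinearMap ∘ₗ (TensorProduct.mk F U W).flip w)
      (LinearMap.ker_eq_bot.1 (eq_bot_iff.2 fun y hy => by_contra fun h0 => tmul_ne_zero h0 hw0 (g.injective (by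
        rw [a2, LinearMap.mem_ker.1 hy]; simp)))), a2⟩
  have r1 : ∀ u x, polar Q₁ (γ u) (κ w₁ (g x)) = polar Q₁ u (κ w x) := fun u x => by
    rw [← h.pt', ← hγ, h.iso hg, h.pt']
  have r0 : ∀ x, κ w x = 0 ↔ κ w₁ (g x) = 0 := fun x =>
    ⟨fun c => h.ext₁ fun u => by rw [← γ.apply_symm_apply u, r1, c]; simp,
      fun c => h.ext₁ fun u => by rw [← r1, c]; simp⟩
  have r2 : ∀ t, polar Q₂ w₁ t = 0 → ∃ s, polar Q₂ w s = 0 ∧
      ∀ x, rH F U W (eich Q₂ w₁ t).1 (g x) = g (rH F U W (eich Q₂ w s).1 x) := fun t ht => by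
    obtain ⟨s, c1, c2⟩ := h.range hw hw0 (mul_mem (mul_mem (inv_mem hg) (h.ei _ t a1 ht)) hg)
      (fun u => by
        simp only [LinearEquiv.mul_apply]
        rw [hγ, rH_tmul, eich_apply_of_orth a1 ht (by simp [polar_self', a1])
          ((polar_comm _ _ _).trans ht), ← hγ, inv_apply_apply]) fun x hx y hy => by
      simp only [LinearEquiv.mul_apply]
      rw [eR_apply a1 ht, (r0 x).1 hx, ← γ.apply_symm_apply (κ t (g x)), ← hγ]
      simp [inv_apply_apply, polar_comm Q₂ y, hy]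
    exact ⟨s, c1, fun x => by rw [← c2]; simp [apply_inv_apply]⟩
  have r3 : ∀ t, polar Q₂ w₁ t = 0 → ∃ s, ∀ x, κ w x = 0 → κ t (g x) = γ (κ s x) := fun t ht => by
    obtain ⟨s, c1, c2⟩ := r2 t ht
    refine ⟨s, fun x hx => tmul_left_inj (F := F) a0 ?_⟩
    simpa [eR_apply a1 ht, eR_apply hw c1, hx, (r0 x).1 hx, hγ] using c2 x
  obtain ⟨t, c1, c2⟩ := exists_ns_perp h.nd₂ h.two h.dimW a1
  obtain ⟨s, c3, c4⟩ := r2 t c2
  obtain ⟨r, hr⟩ := h.nd₂.exists_eq hw0 1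
  rw [CForm.ofQuad_B] at hr
  have sq : ∀ {w y : W}, Q₂ w = 0 → polar Q₂ w y = 0 → ∀ x, rH F U W (eich Q₂ w y).1
      (rH F U W (eich Q₂ w y).1 x - x) - (rH F U W (eich Q₂ w y).1 x - x) =
      -((2 * Q₂ y) • κ w x) ⊗ₜ w := fun {w y} b1 b2 x => by
    simp [eR_apply b1 b2, polar_self', b1, b2, polar_comm Q₂ y w, neg_tmul]
  have c5 : ∀ a b, Q₂ s * polar Q₁ (γ a) (γ b) = Q₂ t * polar Q₁ a b := fun a b => by
    have d1 := sq a1 c2 (g (b ⊗ₜ r))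
    rw [c4, ← map_sub, c4, ← map_sub, sq hw c3, map_neg, hγ, neg_inj] at d1
    have d2 := congrArg (polar Q₁ (γ a)) (tmul_left_inj a0 d1)
    simp only [polar_smul_right, r1, cB_tmul, CForm.ofQuad_B, hr, one_smul, map_smul,
      smul_eq_mul] at d2
    exact mul_left_cancel₀ h.two (by linear_combination d2)
  have c6 : Q₂ s ≠ 0 := fun c => by
    obtain ⟨a, b, d⟩ := h.ex_one
    rw [CForm.ofQuad_B] at d
    exact c1 (by simpa [c, d, eq_comm] using c5 a b)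
  have c7 : ∀ a b, polar Q₁ (γ a) (γ b) = Q₂ t / Q₂ s * polar Q₁ a b := fun a b => by
    field_simp; linear_combination c5 a b
  have c8 := refl_sim (div_ne_zero c1 c6) c7 h.two
  refine ⟨γ, _, div_ne_zero c1 c6, c7, fun u d1 d2 => ?_⟩
  obtain ⟨y, d3, d4⟩ := h.range a1 a0 (mul_mem (mul_mem (mul_mem hg d1) (inv_mem hg)) d2)
    (fun a => by
      simp only [LinearEquiv.mul_apply]
      rw [← γ.apply_symm_apply a, zU_tmul, c8, ← map_neg, ← hγ, inv_apply_apply, zU_tmul, hγ]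
      simp [refl_refl]) fun x hx t ht => by
    obtain ⟨s, d⟩ := r3 t ht
    have d5 : κ w (g⁻¹ (zU W Q₁ (γ u) x)) = 0 := (r0 _).2 (by simp [apply_inv_apply, cB_zU, hx])
    simp only [LinearEquiv.mul_apply]
    rw [d _ (by simp [cB_zU, d5]), cB_zU, map_neg, ← c8, ← d _ d5, apply_inv_apply, cB_zU]
    simp [refl_refl]
  have d5 : g * zU W Q₁ u * g⁻¹ = rH F U W (eich Q₂ w₁ y).1 * zU W Q₁ (γ u) := by
    rw [← d4, mul_assoc _ (zU W Q₁ (γ u)), zU_sq, mul_one]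
  have d6 := conj_invol (zU_sq (W := W) (Q₁ := Q₁) u) g
  rw [d5, mul_assoc, ← mul_assoc (zU W Q₁ (γ u)), zU, lH_rH, ← zU, mul_assoc, zU_sq, mul_one,
    ← map_mul, ← Subgroup.coe_mul, ← eich_add a1 d3 d3] at d6
  obtain ⟨r', hr'⟩ := h.nd₂.exists_eq a0 1
  rw [CForm.ofQuad_B] at hr'
  obtain ⟨a, ha⟩ := h.ex
  have d7 := LinearEquiv.congr_fun d6 (a ⊗ₜ r')
  rw [rH_tmul, eich_apply a1 (by simp [d3]), hr'] at d7
  have d8 := tmul_right_inj ha d7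
  rw [d5, show y = ((2 : F)⁻¹ * (polar Q₂ (y + y) r' - Q₂ (y + y) * 1)) • w₁ from
    smul_right_injective W h.two (by
      simp only [smul_smul, mul_inv_cancel_left₀ h.two]
      linear_combination (norm := module) -d8), eich_smul_self a1]
  simp

theorem pt (hP : ∀ S : End F U, (∀ u, P u → S u ∈ F ∙ u) → ∃ c : F, ∀ u, S u = c • u)
    (h1 : ∀ u, P u → Q₁ u ≠ 0 ∧ zU W Q₁ u ∈ X)
    (h2 : ∀ (γ : U ≃ₗ[F] U) (m : F), m ≠ 0 → (∀ a b, polar Q₁ (γ a) (γ b) = m * polar Q₁ a b) →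
      ∀ u, P u → P (γ u)) (hg : g ∈ X) (e : ∀ u, g (u ⊗ₜ w) ∈ tl U (F ∙ w₁)) :
    g ∈ tenStab F U W := by
  obtain ⟨γ, m, a1, a2, a3⟩ := h.conj_z hw hw0 hg e
  have : Nontrivial U := nontrivial_of_finrank_pos h.pos
  refine mem_tenStab_of_lines (γ := γ) hP fun u hu y => exists_of_zU (Q₁ := Q₁) h.two ?_
  rw [← a3 u (h1 u hu).2 (h1 _ (h2 γ m a1 a2 u hu)).2]
  simp [inv_apply_apply, zU_self (h1 u hu).1]

end OZ

end H12
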