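import Cfsg.Agent.H12.OT3

/-!
# Involutions in the stabiliser of an orthogonal tensor decomposition
-/

set_option autoImplicit false
set_option maxHeartbeats 400000

namespace H12

open Module H11 Submodule TensorProduct H13.KL QuadraticMap

variable {F : Type*} [Field F] {U W V : Type*} [AddCommGroup U] [Module F U] [AddCommGroup W]
  [Module F W] [AddCommGroup V] [Module F V]
  {Q : QuadraticForm F (U ⊗[F] W)} {Q₁ : QuadraticForm F U} {Q₂ : QuadraticForm F W}
  {g k : (U ⊗[F] W) ≃ₗ[F] (U ⊗[F] W)} {u v a b : U} {A : End F U} {B : End F W}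
  {α γ : U ≃ₗ[F] U} {β : W ≃ₗ[F] W}

attribute [-simp] LinearEquiv.coe_inv

/-- The dimension of the fixed space of an involution. -/
noncomputable def dp (A : End F V) : ℕ := finrank F (LinearMap.range (1 + A))

theorem dp_conj (g k : V ≃ₗ[F] V) : dp (g * k * g⁻¹).toLinearMap = dp k.toLinearMap := by
  rw [dp, dp, ← g.finrank_map_eq (LinearMap.range (1 + k.toLinearMap)),
    show LinearMap.range (1 + (g * k * g⁻¹).toLinearMap) =
      (LinearMap.range (1 + k.toLinearMap)).map g.toLinearMap from Submodule.ext fun x =>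
    ⟨fun ⟨y, e⟩ => ⟨_, ⟨g⁻¹ y, rfl⟩, by simp [← e, apply_inv_apply]⟩,
    fun ⟨_, ⟨y, rfl⟩, e⟩ => ⟨g y, by simp [← e, inv_apply_apply]⟩⟩]

theorem mem_range_invol (h2 : (2 : F) ≠ 0) {A : End F V} (hA : A * A = 1) {x : V} :
    x ∈ LinearMap.range (1 + A) ↔ A x = x :=
  ⟨by rintro ⟨y, rfl⟩; simp [← End.mul_apply, hA, add_comm], fun e => ⟨(2 : F)⁻¹ • x, by
    simp only [map_smul, LinearMap.add_apply, e, End.one_apply, ← two_smul F x, inv_smul_smul₀ h2]⟩⟩

variable [FiniteDimensional F U] [FiniteDimensional F W] [FiniteDimensional F V]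

theorem finrank_range_map (A : End F U) (B : End F W) :
    finrank F (LinearMap.range (TensorProduct.map A B)) =
      finrank F (LinearMap.range A) * finrank F (LinearMap.range B) := by
  rw [range_map, ← range_mapIncl, LinearMap.finrank_range_of_inj
    (Flat.tensorProduct_mapIncl_injective_of_right _ _), finrank_tensorProduct]

theorem dp_add (h2 : (2 : F) ≠ 0) {A : End F V} (hA : A * A = 1) : dp A + dp (-A) = finrank F V := by
  rw [← (1 + -A).finrank_range_add_finrank_ker, add_comm, dp, dp,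
    show LinearMap.range (1 + A) = LinearMap.ker (1 + -A) from Submodule.ext fun x => by
      rw [mem_range_invol h2 hA, LinearMap.mem_ker, ← sub_eq_add_neg, LinearMap.sub_apply,
        sub_eq_zero, eq_comm, End.one_apply]]

theorem dp_map (h2 : (2 : F) ≠ 0) (hA : A * A = 1) (hB : B * B = 1) :
    dp (TensorProduct.map A B) = dp A * dp B + dp (-A) * dp (-B) := by
  have h1 : TensorProduct.map A B * TensorProduct.map A B = 1 := by
    rw [← TensorProduct.map_mul, hA, hB, TensorProduct.map_one]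
  have a1 : ∀ u, A (A u) = u := fun u => LinearMap.congr_fun hA u
  have a2 : ∀ u, B (B u) = u := fun u => LinearMap.congr_fun hB u
  have key : ∀ x, TensorProduct.map A B (TensorProduct.map (1 + A) (1 + B) x) =
        TensorProduct.map (1 + A) (1 + B) x ∧
      TensorProduct.map A B (TensorProduct.map (1 + -A) (1 + -B) x) =
        TensorProduct.map (1 + -A) (1 + -B) x ∧
      TensorProduct.map A 1 (TensorProduct.map (1 + A) (1 + B) x) =
        TensorProduct.map (1 + A) (1 + B) x ∧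
      TensorProduct.map A 1 (TensorProduct.map (1 + -A) (1 + -B) x) =
        -TensorProduct.map (1 + -A) (1 + -B) x ∧
      (2 : F) • (1 + TensorProduct.map A B) x =
        TensorProduct.map (1 + A) (1 + B) x + TensorProduct.map (1 + -A) (1 + -B) x := fun x => by
    induction x with
    | zero => simp
    | add x y a b =>
      simp only [map_add, a.1, a.2.1, a.2.2.1, a.2.2.2.1, a.2.2.2.2, b.1, b.2.1, b.2.2.1, b.2.2.2.1,
        b.2.2.2.2, smul_add, neg_add, true_and]
      abel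
    | tmul u w =>
      simp only [map_tmul, LinearMap.add_apply, End.one_apply, LinearMap.neg_apply, map_add, map_neg,
        a1, a2, add_tmul, tmul_add, neg_tmul, tmul_neg, two_smul]
      refine ⟨?_, ?_, ?_, ?_, ?_⟩ <;> abel
  rw [dp, dp, dp, dp, dp, ← finrank_range_map, ← finrank_range_map,
    ← finrank_sup_add_finrank_inf_eq, show LinearMap.range (TensorProduct.map (1 + A) (1 + B)) ⊓
      LinearMap.range (TensorProduct.map (1 + -A) (1 + -B)) = ⊥ from eq_bot_iff.2 fun x ⟨⟨y, c1⟩, z, c2⟩ =>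
      smul_right_injective _ h2 (by
        have c3 := (key y).2.2.1
        have c4 := (key z).2.2.2.1
        rw [c1] at c3
        rw [c2, c3] at c4
        simp only [two_smul, add_zero]
        exact add_eq_zero_iff_eq_neg.2 c4), finrank_bot, add_zero,
    show LinearMap.range (1 + TensorProduct.map A B) = LinearMap.range (TensorProduct.map (1 + A) (1 + B)) ⊔
      LinearMap.range (TensorProduct.map (1 + -A) (1 + -B)) from le_antisymm
      (by rintro _ ⟨x, rfl⟩
          refine (smul_mem_iff _ h2).1 ?_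
          rw [(key x).2.2.2.2]
          exact add_mem (mem_sup_left ⟨x, rfl⟩) (mem_sup_right ⟨x, rfl⟩))
      (sup_le (by rintro _ ⟨x, rfl⟩; exact (mem_range_invol h2 h1).2 (key x).1)
        (by rintro _ ⟨x, rfl⟩; exact (mem_range_invol h2 h1).2 (key x).2.1))]

omit [FiniteDimensional F U] [FiniteDimensional F W] in
theorem dp_zU (h2 : (2 : F) ≠ 0) (hu : Q₁ u ≠ 0) : dp (zU W Q₁ u).toLinearMap = finrank F W := by
  rw [dp, show LinearMap.range (1 + (zU W Q₁ u).toLinearMap) = LinearMap.range (mk F U W u) from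
    Submodule.ext fun x => (mem_range_invol h2 (congrArg LinearEquiv.toLinearMap (zU_sq u))).trans
      ⟨fun e => let ⟨y, e⟩ := exists_of_zU h2 e; ⟨y, e.symm⟩, by rintro ⟨y, rfl⟩; exact zU_self hu y⟩,
    LinearMap.finrank_range_of_inj fun y z => tmul_right_inj (u := u) (by rintro rfl; simp at hu)]

theorem eq_of_dp_neg {A : End F V} (h : dp (-A) = 0) : A = 1 := by
  rw [dp, finrank_eq_zero, LinearMap.range_eq_bot, add_neg_eq_zero] at h
  exact h.symm

omit [FiniteDimensional F W] in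
theorem exists_invol_map [Nontrivial W] (hU : Odd (finrank F U)) (hk : k ∈ tenStab F U W)
    (k2 : k * k = 1) : ∃ A B, A * A = 1 ∧ B * B = 1 ∧ k.toLinearMap = TensorProduct.map A B := by
  obtain ⟨α, β, e⟩ := mem_tenStab.1 hk
  obtain ⟨n, hn⟩ := hU
  have : Nontrivial U := nontrivial_of_finrank_pos (R := F) (by omega)
  obtain ⟨w, hw⟩ := exists_ne (0 : W)
  obtain ⟨v, hv⟩ := exists_ne (0 : U)
  obtain ⟨φ, hφ⟩ := exists_dual_one (F := F) hw
  have a1 : ∀ u y, α (α u) ⊗ₜ[F] β (β y) = u ⊗ₜ y := fun u y => by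
    rw [← e, ← e]; exact LinearEquiv.congr_fun k2 _
  have a2 : φ (β (β w)) • (α.toLinearMap * α.toLinearMap) = 1 := LinearMap.ext fun u => by
    simpa [hφ] using congrArg (cR U φ) (a1 u w)
  generalize φ (β (β w)) = c at a2
  have a3 := congrArg LinearMap.det a2
  rw [LinearMap.det_smul, map_mul, map_one, hn] at a3
  have a4 : ∀ u, c • α (α u) = u := fun u => LinearMap.congr_fun a2 u
  obtain ⟨d, hd⟩ : ∃ d : F, d * d * c = 1 := ⟨LinearMap.det α.toLinearMap * c ^ n, by
    rw [← a3]; ring⟩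
  refine ⟨(d * c) • α.toLinearMap, d • β.toLinearMap, ?_, LinearMap.ext fun y => tmul_right_inj (F := F) hv ?_,
    TensorProduct.ext' fun u y => ?_⟩
  · rw [smul_mul_smul_comm, ← a2, show d * c * (d * c) = d * d * c * c by ring, hd, one_mul]
  · rw [smul_mul_smul_comm, End.one_apply, ← a1 v y, LinearMap.smul_apply, ← smul_tmul]
    conv_lhs => rw [← a4 v, smul_smul, hd, one_smul]
    rfl
  · simp only [LinearEquiv.coe_coe, e, map_tmul, LinearMap.smul_apply, tmul_smul, smul_tmul', smul_smul,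
      ← mul_assoc, hd, one_smul]

theorem isSquare_of_sim (hQ : QNondeg Q₁) (hU : Odd (finrank F U)) {m : F} (hm : m ≠ 0)
    (e : ∀ a b, polar Q₁ (A a) (A b) = m * polar Q₁ a b) : IsSquare m := by
  obtain ⟨n, hn⟩ := hU
  let b := finBasis F U
  have h1 := (CForm.ofQuad Q₁).det_gram_eq b (A ∘ b)
  rw [show (CForm.ofQuad Q₁).gram (A ∘ b) = m • (CForm.ofQuad Q₁).gram b from
    Matrix.ext fun i j => e _ _, Matrix.det_smul, Fintype.card_fin] at h1
  have h3 : m ^ (2 * n + 1) = b.det (A ∘ b) * b.det (A ∘ b) :=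
    hn ▸ mul_right_cancel₀ (((CForm.ofQuad Q₁).nondeg_iff_det_gram b).1 hQ) h1
  exact ⟨b.det (A ∘ b) / m ^ n, by field_simp; linear_combination h3⟩

theorem exists_orth_basis' {Q : QuadraticForm F V} (hQ : QNondeg Q) (h2 : (2 : F) ≠ 0) :
    ∃ b : Basis (Fin (finrank F V)) F V, (∀ i, Q (b i) ≠ 0) ∧
      ∀ i j, i ≠ j → polar Q (b i) (b j) = 0 := by
  have := invertibleOfNonzero h2
  obtain ⟨b, hb⟩ := LinearMap.BilinForm.exists_orthogonal_basis (B := polarBilin Q)
    ⟨fun x y => polar_comm _ _ _⟩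
  refine ⟨b, fun i c => b.ne_zero i (hQ _ fun y => ?_), fun i j e => hb e⟩
  refine LinearMap.congr_fun (b.ext (f₁ := polarBilin Q (b i)) (f₂ := 0) fun j => ?_) y
  by_cases e : i = j
  · simp [← e, polar_self', c]
  · exact hb e

variable (h : TF (CForm.ofQuad Q) (CForm.ofQuad Q₁) (CForm.ofQuad Q₂)) (h2 : (2 : F) ≠ 0)
include h h2

omit [FiniteDimensional F U] h2 in
theorem iso_left [Nontrivial W] (hk : k ∈ orth Q) (e : ∀ u y, k (u ⊗ₜ y) = A u ⊗ₜ y) (a b : U) :
    polar Q₁ (A a) (A b) = polar Q₁ a b := by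
  obtain ⟨w, hw⟩ := exists_ne (0 : W)
  obtain ⟨r, hr⟩ := h.nd₂.exists_eq hw 1
  have : ∀ a b, polar Q (a ⊗ₜ w) (b ⊗ₜ r) = polar Q₁ a b := fun a b =>
    (h.hB a w b r).trans (by rw [hr, mul_one]; rfl)
  simpa [e, this] using orth_polar ⟨k, hk⟩ (a ⊗ₜ w) (b ⊗ₜ r)

theorem eq_zU [Nontrivial W] (hk : k ∈ orth Q) (hA : A * A = 1) (hd : dp A = 1)
    (e : k.toLinearMap = TensorProduct.map A 1) : ∃ u, Q₁ u ≠ 0 ∧ k = zU W Q₁ u := by
  have e' : ∀ u y, k (u ⊗ₜ y) = A u ⊗ₜ y := fun u y => LinearMap.congr_fun e _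
  obtain ⟨⟨u, a1⟩, a2, a3⟩ := finrank_eq_one_iff'.1 hd
  rw [mem_range_invol h2 hA] at a1
  have a4 : ∀ a, ∃ c : F, c • u = a + A a ∧ c * Q₁ u = polar Q₁ u a := fun a => by
    obtain ⟨c, hc⟩ := a3 ⟨_, a, rfl⟩
    have hc' : c • u = a + A a := congrArg Subtype.val hc
    have := congrArg (polar Q₁ u) hc'
    rw [polar_add_right, polar_smul_right, polar_self'] at this
    refine ⟨c, hc', mul_left_cancel₀ h2 ?_⟩
    have a5 := iso_left h hk e' u a
    rw [a1] at a5
    rw [a5, smul_eq_mul] at this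
    linear_combination this
  have a5 : Q₁ u ≠ 0 := fun c => a2 (Subtype.ext (h.nd₁ u fun a => by
    obtain ⟨d, -, hd⟩ := a4 a
    simp [← hd, c]))
  refine ⟨u, a5, LinearEquiv.toLinearMap_injective (TensorProduct.ext' fun a y => ?_)⟩
  obtain ⟨c, b1, b2⟩ := a4 a
  simp only [LinearEquiv.coe_coe, e', zU_tmul, refl_apply, ← b2]
  congr 1
  rw [mul_comm c, inv_mul_cancel_left₀ a5, b1]
  abel

theorem eq_zU_of_dp (hU : finrank F U = 3) (hW : finrank F W = 4) (hk : k ∈ tenStab F U W)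
    (hi : k ∈ orth Q) (k2 : k * k = 1) (hd : dp k.toLinearMap = 4) :
    ∃ u, Q₁ u ≠ 0 ∧ k = zU W Q₁ u := by
  have : Nontrivial W := nontrivial_of_finrank_pos (R := F) (by omega)
  obtain ⟨A, B, a1, a2, a3⟩ := exists_invol_map (by rw [hU]; decide) hk k2
  rw [a3, dp_map h2 a1 a2] at hd
  have b1 := dp_add h2 a1
  have b2 := dp_add h2 a2
  rw [hU] at b1
  rw [hW] at b2
  have : dp A = 1 ∧ dp (-B) = 0 ∨ dp (-A) = 1 ∧ dp (- -B) = 0 := by
    rw [neg_neg]
    generalize dp A = a at *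
    generalize dp (-A) = b at *
    have : a ≤ 3 := by omega
    obtain rfl : b = 3 - a := by omega
    interval_cases a <;> omega
  rcases this with ⟨c1, c2⟩ | ⟨c1, c2⟩
  · exact eq_zU h h2 hi a1 c1 (by rw [a3, eq_of_dp_neg c2])
  · refine eq_zU h h2 hi (by simpa) c1 (a3.trans (TensorProduct.ext' fun u y => ?_))
    simp [← eq_of_dp_neg c2, neg_tmul, tmul_neg]

omit [FiniteDimensional F U] [FiniteDimensional F W] in
theorem Q_tmul (u : U) (y : W) : Q (u ⊗ₜ y) = 2 * Q₁ u * Q₂ y := mul_left_cancel₀ h2 (by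
  have := h.hB u y u y
  simp only [CForm.ofQuad_B, polar_self'] at this
  linear_combination this)

omit h2 in
/-- The first factor as a group of isometries. -/
noncomputable def lHo : orth Q₁ →* orth Q :=
  ((lH F U W).comp (orth Q₁).subtype).codRestrict (orth Q) fun g => h.congr_isom g.2 (one_mem _)

theorem map_lHo {ι : Type*} [Fintype ι] (b : Basis ι F W) (hb : ∀ i, Q₂ (b i) ≠ 0)
    (ho : ∀ i j, i ≠ j → polar Q₂ (b i) (b j) = 0) {M : Type*} [CommMonoid M] (θ : orth Q →* M)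
    (hu : Q₁ u ≠ 0) : θ (lHo h (refl Q₁ u)) = ∏ i, θ (refl Q (u ⊗ₜ b i)) := by
  refine map_negOn h2 _ (fun i => by simp [Q_tmul h h2, h2, hu, hb]) (fun i j e => ?_) _
    (fun i => ?_) (fun x hx => ?_) θ
  · exact (h.hB _ _ _ _).trans (by simp [ho i j e])
  · change (refl Q₁ u).1 u ⊗ₜ b i = _
    rw [refl_apply_self hu, neg_tmul]
  · have a1 := zU_apply (Q₁ := Q₁) u x
    rw [zU_eq, show cL W ((Q₁ u)⁻¹ • polarBilin Q₁ u) x = 0 from h.nd₂.eq_zero' fun y => by
      have : (CForm.ofQuad Q₂).B.flip (cL W ((Q₁ u)⁻¹ • polarBilin Q₁ u) x) = 0 := b.ext fun i => by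
        have := (h.B_tmul u (b i) x).symm.trans (hx i)
        rw [LinearMap.flip_apply, ← cR_cL, ← cB]
        simpa using .inr this
      exact LinearMap.congr_fun this y] at a1
    change lH F U W (refl Q₁ u).1 x = x
    simpa using a1

variable [Finite F]

theorem theta_lHo : ∃ s : ℤˣ, ∀ u, Q₁ u ≠ 0 →
    dickson Q (lHo h (refl Q₁ u)) = (-1) ^ finrank F W ∧
      spinor Q (lHo h (refl Q₁ u)) = qsign (Q₁ u) ^ finrank F W * s := by
  obtain ⟨b, a1, a2⟩ := exists_orth_basis' h.nd₂ h2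
  have hne := notExc_of_two_ne_zero (V := U ⊗[F] W) h2
  refine ⟨∏ i, qsign (2 * Q₂ (b i)), fun u hu => ?_⟩
  have a3 : ∀ i, Q (u ⊗ₜ b i) ≠ 0 := fun i => by simp [Q_tmul h h2, h2, hu, a1]
  simp only [map_lHo h h2 b a1 a2 _ hu, dickson_refl h.nd hne (a3 _), spinor_refl h.nd hne (a3 _)]
  refine ⟨by simp, ?_⟩
  rw [Finset.prod_congr rfl fun i _ => show qsign (Q (u ⊗ₜ b i)) = qsign (Q₁ u) * qsign (2 * Q₂ (b i)) by
    rw [Q_tmul h h2, ← qsign_mul hu (mul_ne_zero h2 (a1 i))]; congr 1; ring, Finset.prod_mul_distrib]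
  simp

theorem zU_mem (hU : Odd (finrank F U)) (hW : Even (finrank F W)) (hu : Q₁ u ≠ 0) :
    zU W Q₁ u ∈ OmegaV Q := by
  obtain ⟨s, hs⟩ := theta_lHo h h2
  obtain ⟨b, a1, a2⟩ := exists_orth_basis' h.nd₁ h2
  have a3 : ∀ x : ℤˣ, x ^ finrank F W = 1 := fun x => by
    obtain ⟨n, hn⟩ := hW
    rw [hn, pow_add, Int.units_mul_self]
  simp only [a3, one_mul] at hs
  refine (mem_OmegaV (g := lHo h (negOne Q₁ * refl Q₁ u))).2 ((mem_commutator_iff h.nd
    (notExc_of_two_ne_zero h2) _).2 ⟨?_, ?_⟩) <;>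
  rw [map_mul, map_mul, ← MonoidHom.comp_apply _ (lHo h) (negOne Q₁), map_negOne b a1 a2 b.span_eq] <;>
  simp only [MonoidHom.comp_apply, hs _ (a1 _), hs u hu]
  · simp
  · obtain ⟨n, hn⟩ := hU
    rw [Finset.prod_const, Finset.card_univ, Fintype.card_fin, ← pow_succ, hn,
      show 2 * n + 1 + 1 = n + 1 + (n + 1) by ring, pow_add, Int.units_mul_self]

end H12
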