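import Cfsg.Agent.H12.OT4
import Cfsg.Agent.H12.GT1

/-!
# Maximality of `O₃ ⊗ O₄⁻` in `Ω₁₂⁻`
-/

set_option autoImplicit false
set_option maxHeartbeats 400000

namespace H12

open Module H11 Submodule TensorProduct H13.KL QuadraticMap

variable {F : Type*} [Field F] {U W : Type*} [AddCommGroup U] [Module F U] [AddCommGroup W]
  [Module F W] {Q : QuadraticForm F (U ⊗[F] W)} {Q₁ : QuadraticForm F U} {Q₂ : QuadraticForm F W}
  {X : Subgroup ((U ⊗[F] W) ≃ₗ[F] (U ⊗[F] W))} {g k : (U ⊗[F] W) ≃ₗ[F] (U ⊗[F] W)}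
  {w w' y y' : W} {u u' v a b : U} {A : End F U} {p : ℕ}

local notation "κ" => cB U (CForm.ofQuad Q₂)

attribute [-simp] LinearEquiv.coe_inv

theorem eR_sq (hw : Q₂ w = 0) (hy : polar Q₂ w y = 0) (x : U ⊗[F] W) : rH F U W (eich Q₂ w y).1
    (rH F U W (eich Q₂ w y).1 x - x) - (rH F U W (eich Q₂ w y).1 x - x) =
      -((2 * Q₂ y) • κ w x) ⊗ₜ w := by
  simp [eR_apply hw hy, polar_self', hw, hy, polar_comm Q₂ y w, neg_tmul]

theorem eich_pow (hw : Q₂ w = 0) (hy : polar Q₂ w y = 0) (n : ℕ) :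
    eich Q₂ w y ^ n = eich Q₂ w ((n : F) • y) := by
  induction n with
  | zero => simp [eich_zero_right]
  | succ n ih => rw [pow_succ, ih, ← eich_add hw (by simp [hy]) hy, Nat.cast_succ, add_smul, one_smul]

theorem eR_pow [CharP F p] (hw : Q₂ w = 0) (hy : polar Q₂ w y = 0) :
    rH F U W (eich Q₂ w y).1 ^ p = 1 := by
  rw [← map_pow, ← Subgroup.coe_pow, eich_pow hw hy]
  simp [eich_zero_right]

variable (U) in
/-- The root group attached to a singular point of the second factor. -/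
def EW (hw : Q₂ w = 0) : Subgroup ((U ⊗[F] W) ≃ₗ[F] (U ⊗[F] W)) where
  carrier := {t | ∃ y, polar Q₂ w y = 0 ∧ t = rH F U W (eich Q₂ w y).1}
  one_mem' := ⟨0, by simp, by simp [eich_zero_right]⟩
  mul_mem' := by
    rintro _ _ ⟨y, a, rfl⟩ ⟨z, b, rfl⟩
    exact ⟨y + z, by simp [a, b], by simp [eich_add hw a b]⟩
  inv_mem' := by
    rintro _ ⟨y, a, rfl⟩
    exact ⟨-y, by simp [a], by simp [eich_neg hw a]⟩

variable (X) in
/-- The pointwise stabiliser of `u ⊗ W`. -/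
def KU (u : U) : Subgroup ((U ⊗[F] W) ≃ₗ[F] (U ⊗[F] W)) where
  carrier := {k | k ∈ X ∧ ∀ y, k (u ⊗ₜ y) = u ⊗ₜ y}
  one_mem' := ⟨one_mem _, fun _ => rfl⟩
  mul_mem' a b := ⟨mul_mem a.1 b.1, fun y => by simp [a.2, b.2]⟩
  inv_mem' {k} a := ⟨inv_mem a.1, fun y => k.injective (by rw [apply_inv_apply, a.2])⟩

theorem exists_left [Nontrivial W] (hu : u ≠ 0) (hk : k ∈ KU X u) (e : k ∈ tenStab F U W) :
    ∃ A : End F U, A u = u ∧ ∀ a y, k (a ⊗ₜ y) = A a ⊗ₜ y := by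
  obtain ⟨α, β, e⟩ := mem_tenStab.1 e
  obtain ⟨φ, hφ⟩ := exists_dual_one (F := F) hu
  obtain ⟨w, hw⟩ := exists_ne (0 : W)
  have a1 : ∀ y, φ (α u) • β y = y := fun y => by simpa [e, hφ] using congrArg (cL W φ) (hk.2 y)
  have a2 : φ (α u) ≠ 0 := fun c => hw (by simpa [c] using (a1 w).symm)
  have a3 : ∀ a y, k (a ⊗ₜ y) = ((φ (α u))⁻¹ • α a) ⊗ₜ y := fun a y => by
    conv_rhs => rw [← a1 y, ← smul_tmul, smul_inv_smul₀ a2, ← e]
  exact ⟨(φ (α u))⁻¹ • α.toLinearMap, tmul_left_inj hw ((a3 u w).symm.trans (hk.2 w)), a3⟩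

variable [FiniteDimensional F U]

theorem eq_one_of_unip (hQ : QNondeg Q₁) (h2 : (2 : F) ≠ 0) (hU : finrank F U = 3) (hu : Q₁ u ≠ 0)
    (h1 : A u = u) (hi : ∀ a b, polar Q₁ (A a) (A b) = polar Q₁ a b) {n : ℕ} (hn : (A - 1) ^ n = 0) :
    A = 1 := by
  have k0 : ∀ f a, A f = f → polar Q₁ f (A a - a) = 0 := fun f a e => by
    rw [polar_sub_right, ← hi f a, e, sub_self]
  have k1 : ∀ a, polar Q₁ u a = 0 → (A - 1) ((A - 1) a) = 0 → (A - 1) a = 0 := fun a b1 b2 => by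
    simp only [LinearMap.sub_apply, End.one_apply, sub_eq_zero (a := A (A a - a))] at b2 ⊢
    by_contra b3
    have b4 := k0 _ a b2
    have b5 := k0 u a h1
    have b6 := hQ.finrank_add_finrank_perp (span F {u, A a - a})
    rw [finrank_span_pair_of_not_mem (by rintro rfl; simp at hu) fun c => by
      obtain ⟨c, hc⟩ := mem_span_singleton.1 c
      rw [← hc] at b5 b3
      simp [polar_self', h2, hu] at b5
      simp [b5] at b3] at b6
    have b7 : (F ∙ (A a - a)) = (CForm.ofQuad Q₁).perp (span F {u, A a - a}) :=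
      eq_of_le_of_finrank_le ((span_singleton_le_iff_mem _ _).2
        ((CForm.ofQuad Q₁).mem_perp_pair.2 ⟨b5, b4⟩)) (by rw [finrank_span_singleton b3]; omega)
    obtain ⟨c, hc⟩ := mem_span_singleton.1 (b7.ge (x := a) ((CForm.ofQuad Q₁).mem_perp_pair.2 ⟨b1,
      mul_left_cancel₀ h2 (by
        have := hi a a
        simp only [CForm.ofQuad_B, polar_sub_left, polar_sub_right, polar_comm Q₁ a (A a)] at b4 ⊢
        linear_combination this - b4)⟩))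
    refine b3 ?_
    conv_lhs => rw [← hc, map_smul, b2, sub_self]
  have k2 : ∀ (n : ℕ) a, polar Q₁ u a = 0 → ((A - 1) ^ n : End F U) a = 0 → (A - 1) a = 0 := fun n => by
    induction n with
    | zero => rintro a - e; simp [show a = 0 from e]
    | succ n ih => exact fun a b1 b2 => k1 a b1 (ih _ (k0 u a h1) (by rwa [pow_succ] at b2))
  refine LinearMap.ext fun a => ?_
  have := k2 n (a - (polar Q₁ u a / (2 * Q₁ u)) • u) (by simp [polar_self', h2, hu]) (by simp [hn])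
  simpa [h1, sub_eq_zero] using this

theorem exists_zU_mul (hQ : QNondeg Q₁) (h2 : (2 : F) ≠ 0) (hU : finrank F U = 3) (hu : Q₁ u ≠ 0)
    (hv : Q₁ v ≠ 0) (e : polar Q₁ u v = 0) : ∃ s, Q₁ s ≠ 0 ∧ polar Q₁ u s = 0 ∧ polar Q₁ v s = 0 ∧
      zU W Q₁ u * zU W Q₁ v = zU W Q₁ s := by
  have hP := nondegOn_pair_of_det (Q := Q₁) (u := u) (w := v) (by
    simp [e, hu, hv, show (4 : F) = 2 * 2 by norm_num, h2])
  have a0 := hQ.finrank_add_finrank_perp (span F {u, v})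
  rw [hP.2] at a0
  obtain ⟨s, a1, a2⟩ := exists_nonsingular (hQ.nondegOn_perp hP.1) fun e => by
    rw [e, finrank_bot] at a0; omega
  have s0 : s ≠ 0 := by rintro rfl; simp at a2
  have a3 : (F ∙ s) = (CForm.ofQuad Q₁).perp (span F {u, v}) := eq_of_le_of_finrank_le
    ((span_singleton_le_iff_mem _ _).2 a1) (by rw [finrank_span_singleton s0]; omega)
  obtain ⟨b1, b2⟩ := (CForm.ofQuad Q₁).mem_perp_pair.1 a1
  rw [CForm.ofQuad_B] at b1 b2
  refine ⟨s, a2, b1, b2, LinearEquiv.toLinearMap_injective (TensorProduct.ext' fun a y => ?_)⟩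
  obtain ⟨c, hc⟩ := mem_span_singleton.1 (a3.ge (x := (refl Q₁ u).1 ((refl Q₁ v).1 a) + (refl Q₁ s).1 a)
    ((CForm.ofQuad Q₁).mem_perp_pair.2 ⟨by simp [refl_apply, polar_self', e, b1]; field_simp; ring,
      by simp [refl_apply, polar_self', polar_comm Q₁ v u, e, b2]; field_simp; ring⟩))
  have b3 := congrArg (polar Q₁ s) hc
  have b4 : c = 0 := by
    simp [refl_apply, polar_self', polar_comm Q₁ s u, polar_comm Q₁ s v, b1, b2] at b3
    field_simp at b3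
    exact (mul_eq_zero_iff_right (mul_ne_zero h2 a2)).1 (by linear_combination b3)
  rw [b4, zero_smul, eq_comm, add_eq_zero_iff_eq_neg] at hc
  simp [zU_tmul, hc]

theorem perp_of_zU_comm [Nontrivial W] (h2 : (2 : F) ≠ 0) (hu : Q₁ u ≠ 0) (hv : Q₁ v ≠ 0)
    (e : zU W Q₁ u * zU W Q₁ v = zU W Q₁ v * zU W Q₁ u) (h1 : zU W Q₁ u ≠ zU W Q₁ v) :
    polar Q₁ u v = 0 := by
  obtain ⟨w, hw⟩ := exists_ne (0 : W)
  obtain ⟨y, hy⟩ := exists_of_zU (Q₁ := Q₁) (u := v) (x := zU W Q₁ u (v ⊗ₜ w)) h2 (by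
    rw [← LinearEquiv.mul_apply, ← e, LinearEquiv.mul_apply, zU_self hv])
  obtain ⟨φ, hφ⟩ := exists_dual_one (F := F) hw
  have a1 := congrArg (cR U φ) hy
  simp only [zU_tmul, cR_tmul, hφ, one_smul, refl_apply] at a1
  by_contra c
  have a2 : (Q₁ u)⁻¹ * polar Q₁ u v ≠ 0 := by simp [hu, c]
  have a3 : u = (((Q₁ u)⁻¹ * polar Q₁ u v)⁻¹ * (φ y + 1)) • v := by
    rw [mul_smul, eq_inv_smul_iff₀ a2]
    linear_combination (norm := module) a1
  refine h1 ?_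
  rw [zU, zU, a3, refl_smul fun c => hu (by rw [a3, c]; simp)]

variable [FiniteDimensional F W]

theorem OX.ku_one (h : OX Q Q₁ Q₂ X) [Fact p.Prime] [CharP F p] (hu : Q₁ u ≠ 0) (hk : k ∈ KU X u)
    (e : k ∈ tenStab F U W) (e' : k ^ p = 1) : k = 1 := by
  have : Nontrivial W := nontrivial_of_finrank_pos (R := F) (by have := h.dimW; omega)
  have : Nontrivial U := nontrivial_of_finrank_pos h.pos
  obtain ⟨A, a1, a2⟩ := exists_left (by rintro rfl; simp at hu) hk e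
  obtain ⟨w, hw⟩ := exists_ne (0 : W)
  have a3 : ∀ n a, (k ^ n) (a ⊗ₜ w) = (A ^ n) a ⊗ₜ w := fun n => by
    induction n with
    | zero => simp
    | succ n ih => simp [pow_succ, a2, ih]
  have := charP_of_injective_algebraMap (algebraMap F (End F U)).injective p
  have := eq_one_of_unip h.nd₁ h.two h.dimU hu a1 (iso_left h.toTF (h.le hk.1) a2) (n := p) (by
    rw [sub_pow_char_of_commute _ (Commute.one_right A), one_pow, sub_eq_zero]
    exact LinearMap.ext fun a => tmul_left_inj hw (by rw [← a3, e']; rfl))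
  exact LinearEquiv.toLinearMap_injective (TensorProduct.ext' fun a y => by simp [a2, this])

variable (Q Q₁ Q₂ X) in
/-- Elements respecting one subspace `U ⊗ w` respect the tensor decomposition. -/
structure OPT : Prop extends OX Q Q₁ Q₂ X where
  pt : ∀ g ∈ X, ∀ w w₁, Q₂ w = 0 → w ≠ 0 → (∀ u, g (u ⊗ₜ w) ∈ tl U (F ∙ w₁)) → g ∈ tenStab F U W

namespace OPT

variable (h : OPT Q Q₁ Q₂ X)
include h

theorem of_conj_ei (hg : g ∈ X) (hw : Q₂ w = 0) (hw0 : w ≠ 0) (hy : polar Q₂ w y = 0)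
    (hy0 : Q₂ y ≠ 0) (hw' : Q₂ w' = 0) (hy' : polar Q₂ w' y' = 0)
    (e : g * rH F U W (eich Q₂ w y).1 = rH F U W (eich Q₂ w' y').1 * g) : g ∈ tenStab F U W := by
  obtain ⟨r, hr⟩ := h.nd₂.exists_eq hw0 1
  rw [CForm.ofQuad_B] at hr
  have e' : ∀ x, g (rH F U W (eich Q₂ w y).1 x) = rH F U W (eich Q₂ w' y').1 (g x) :=
    LinearEquiv.congr_fun e
  refine h.pt g hg w w' hw hw0 fun u => ?_
  have := congrArg g (eR_sq hw hy (u ⊗ₜ r))
  rw [map_sub, e', map_sub, e', eR_sq hw' hy', map_neg, neg_inj] at this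
  refine (smul_mem_iff _ (mul_ne_zero h.two hy0)).1 (mem_tl_singleton.2 ⟨_, .trans ?_ this.symm⟩)
  simp [hr, smul_tmul', ← map_smul]

theorem ku_le [Finite F] (hW : 4 ≤ finrank F W) (hu : Q₁ u ≠ 0) : KU X u ≤ tenStab F U W := by
  have : Finite (U ⊗[F] W) := finite_of_finite F
  have : Finite ((U ⊗[F] W) ≃ₗ[F] (U ⊗[F] W)) := DFunLike.finite _
  have hp := CharP.char_is_prime F (ringChar F)
  have := Fact.mk hp
  obtain ⟨w, hw0, hw⟩ := exists_singular Q₂ h.dimW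
  obtain ⟨a, ha⟩ := h.ex
  obtain ⟨r, hr⟩ := h.nd₂.exists_eq hw0 1
  rw [CForm.ofQuad_B] at hr
  refine le_of_noncyc (E := EW U hw) hp (fun r h1 h2 => ?_) ⟨⟨?_⟩⟩ (fun hc => ?_) ?_ ?_
    fun k b1 b2 b3 => h.ku_one hu b1 b2 b3
  · obtain ⟨_, ⟨y, b1, rfl⟩, b2⟩ := H19.exists_orderOf_eq_prime h1 h2
    exact (Nat.prime_dvd_prime_iff_eq h1 hp).1 (b2 ▸ orderOf_dvd_of_pow_eq_one (eR_pow hw b1))
  · rintro ⟨_, y, b1, rfl⟩ ⟨_, z, b2, rfl⟩
    refine Subtype.ext ?_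
    change rH F U W _ * rH F U W _ = rH F U W _ * rH F U W _
    rw [← map_mul, ← map_mul, ← Subgroup.coe_mul, ← Subgroup.coe_mul, ← eich_add hw b1 b2,
      ← eich_add hw b2 b1, add_comm]
  · obtain ⟨⟨_, y, b1, rfl⟩, b2⟩ := hc.exists_monoid_generator
    have b3 := h.nd₂.finrank_add_finrank_perp (F ∙ w)
    rw [finrank_span_singleton hw0] at b3
    have b4 : (CForm.ofQuad Q₂).perp (F ∙ w) ≤ span F {w, y} := fun z hz => by
      rw [CForm.mem_perp_singleton, CForm.ofQuad_B] at hz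
      obtain ⟨n, hn⟩ := b2 ⟨_, z, hz, rfl⟩
      have b5 : (rH F U W (eich Q₂ w y).1 ^ n) _ = rH F U W (eich Q₂ w z).1 _ :=
        LinearEquiv.congr_fun (congrArg Subtype.val hn) (a ⊗ₜ r)
      rw [← map_pow, ← Subgroup.coe_pow, eich_pow hw b1, rH_tmul, rH_tmul] at b5
      have b6 := tmul_right_inj ha b5
      rw [eich_apply hw hz, eich_apply hw (by simp [b1]), hr] at b6
      exact mem_span_pair.2 ⟨polar Q₂ z r - Q₂ z - polar Q₂ ((n : F) • y) r + Q₂ ((n : F) • y), n,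
        by linear_combination (norm := module) -b6⟩
    have := finrank_mono b4
    have := finrank_span_pair_le (F := F) w y
    omega
  · rintro _ ⟨y, b1, rfl⟩
    refine H19.mem_norm_of_cj_le fun x hx => ?_
    obtain ⟨k, b2, rfl⟩ := H19.mem_cj'.1 hx
    refine ⟨mul_mem (mul_mem (h.ei w y hw b1) b2.1) (inv_mem (h.ei w y hw b1)), fun z => ?_⟩
    simp [← map_inv, rH_tmul, b2.2, apply_inv_apply]
  · rintro _ ⟨y, b1, rfl⟩ b2 k ⟨b3, b4⟩
    refine h.of_conj_ei b3.1 hw hw0 b1 (fun c => b2 ?_) hw b1 (H19.mem_cent1.1 b4)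
    obtain ⟨c, rfl⟩ := mem_span_singleton.1 (h.an w y hw hw0 c b1)
    simp [eich_smul_self hw]

theorem of_conj_z [Finite F] (hK : KU X u' ≤ tenStab F U W) (hg : g ∈ X) (hu : Q₁ u ≠ 0)
    (hu' : Q₁ u' ≠ 0) (e : g * zU W Q₁ u * g⁻¹ = zU W Q₁ u') : g ∈ tenStab F U W := by
  have hp := CharP.char_is_prime F (ringChar F)
  have := Fact.mk hp
  have : Nontrivial W := nontrivial_of_finrank_pos (R := F) (by have := h.dimW; omega)
  have u0 : u ≠ 0 := by rintro rfl; simp at hu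
  have u0' : u' ≠ 0 := by rintro rfl; simp at hu'
  obtain ⟨φ, hφ⟩ := exists_dual_one (F := F) u0'
  obtain ⟨δ, hδ⟩ : ∃ δ : End F W, ∀ y, g (u ⊗ₜ y) = u' ⊗ₜ δ y :=
    ⟨cL W φ ∘ₗ g.toLinearMap ∘ₗ TensorProduct.mk F U W u, fun y => by
      obtain ⟨z, hz⟩ := exists_of_zU (Q₁ := Q₁) (u := u') (x := g (u ⊗ₜ y)) h.two (by
        simp [← e, inv_apply_apply, zU_self hu])
      simp [hz, hφ]⟩
  have a1 : Function.Surjective δ := LinearMap.injective_iff_surjective.1 fun y z c =>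
    tmul_right_inj u0 (g.injective (by rw [hδ, hδ, c]))
  have a2 : ∀ y z, polar Q₂ (δ y) (δ z) = Q₁ u / Q₁ u' * polar Q₂ y z := fun y z => by
    have := h.iso hg (u ⊗ₜ y) (u ⊗ₜ z)
    rw [hδ, hδ, h.pB, h.pB, polar_self', polar_self'] at this
    field_simp
    exact mul_left_cancel₀ h.two (by linear_combination this)
  have a3 : ∀ y, Q₂ (δ y) = Q₁ u / Q₁ u' * Q₂ y := fun y => mul_left_cancel₀ h.two (by
    rw [← polar_self', a2, polar_self']; ring)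
  obtain ⟨w, hw0, hw⟩ := exists_singular Q₂ h.dimW
  obtain ⟨y, hy0, hy⟩ := exists_ns_perp h.nd₂ h.two h.dimW hw
  have b1 : Q₂ (δ w) = 0 := by simp [a3, hw]
  have b2 : polar Q₂ (δ w) ((Q₁ u' / Q₁ u) • δ y) = 0 := by simp [a2, hy]
  have b3 : (rH F U W (eich Q₂ _ _).1)⁻¹ * (g * rH F U W (eich Q₂ w y).1 * g⁻¹) ∈ KU X u' :=
    ⟨mul_mem (inv_mem (h.ei _ _ b1 b2)) (mul_mem (mul_mem hg (h.ei w y hw hy)) (inv_mem hg)), fun z => by
      obtain ⟨z, rfl⟩ := a1 z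
      refine (rH F U W (eich Q₂ (δ w) ((Q₁ u' / Q₁ u) • δ y)).1).injective ?_
      simp only [LinearEquiv.mul_apply, apply_inv_apply]
      conv_lhs => rw [← hδ, inv_apply_apply, rH_tmul, hδ]
      rw [rH_tmul, eich_apply hw hy, eich_apply b1 b2]
      simp only [map_sub, map_add, map_smul, polar_smul_left, a2, a3, Q_smul, smul_eq_mul]
      congr 1
      match_scalars <;> field_simp⟩
  obtain ⟨A, -, b4⟩ := exists_left u0' b3 (hK b3)
  refine h.of_conj_ei hg hw hw0 hy hy0 b1 b2 ?_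
  rw [← mul_inv_eq_iff_eq_mul, eq_comm, ← inv_mul_eq_one]
  refine h.ku_one (p := ringChar F) hu' b3 (hK b3) ?_
  generalize hk : (rH F U W (eich Q₂ _ _).1)⁻¹ * (g * rH F U W (eich Q₂ w y).1 * g⁻¹) = k at b4
  have b5 : Commute (rH F U W (eich Q₂ (δ w) ((Q₁ u' / Q₁ u) • δ y)).1) k :=
    LinearEquiv.toLinearMap_injective (TensorProduct.ext' fun a z => by simp [b4, rH_tmul])
  have b6 := b5.mul_pow (ringChar F)
  rwa [eR_pow b1 b2, one_mul, ← hk, mul_inv_cancel_left, conj_pow, eR_pow hw hy, mul_one,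
    mul_inv_cancel, hk, eq_comm] at b6

theorem sim_of_conj (hg : g ∈ X) (hg' : g ∈ tenStab F U W) (hu : Q₁ u ≠ 0) (hu' : Q₁ u' ≠ 0)
    (e : g * zU W Q₁ u * g⁻¹ = zU W Q₁ u') : IsSquare (Q₁ u * Q₁ u') := by
  obtain ⟨α, β, a1⟩ := mem_tenStab.1 hg'
  have : Nontrivial W := nontrivial_of_finrank_pos (R := F) (by have := h.dimW; omega)
  obtain ⟨w, hw⟩ := exists_ne (0 : W)
  obtain ⟨r, hr⟩ := h.nd₂.exists_eq hw 1
  rw [CForm.ofQuad_B] at hr
  have a2 : ∀ a b, polar Q₁ (α a) (α b) * polar Q₂ (β w) (β r) = polar Q₁ a b := fun a b => by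
    simpa [a1, h.pB, hr] using h.iso hg (a ⊗ₜ w) (b ⊗ₜ r)
  have a3 : polar Q₂ (β w) (β r) ≠ 0 := fun c => by
    simpa [c, polar_self', h.two, hu, eq_comm] using a2 u u
  obtain ⟨d, hd⟩ := isSquare_of_sim (A := α.toLinearMap) h.nd₁ (by rw [h.dimU]; decide) (inv_ne_zero a3)
    fun a b => by rw [← a2 a b, mul_comm, mul_inv_cancel_right₀ a3]; rfl
  obtain ⟨y, hy⟩ := exists_of_zU (Q₁ := Q₁) (u := u') (x := g (u ⊗ₜ w)) h.two (by
    simp [← e, inv_apply_apply, zU_self hu])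
  obtain ⟨φ, hφ⟩ := exists_dual_one (F := F) (β.map_ne_zero_iff.2 hw)
  have a4 : α u = φ y • u' := by simpa [a1, hφ] using congrArg (cR U φ) hy
  have a5 := a2 u u
  rw [a4, polar_self', polar_self', Q_smul, ← eq_mul_inv_iff_mul_eq₀ a3, hd] at a5
  have a6 : d ≠ 0 := by rintro rfl; simp [a3] at hd
  exact ⟨φ y * Q₁ u' / d, by field_simp; exact mul_left_cancel₀ h.two (by linear_combination -a5)⟩

theorem le_tenStab [Finite F] (hW : finrank F W = 4) (hz : ∀ u, Q₁ u ≠ 0 → zU W Q₁ u ∈ X) :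
    X ≤ tenStab F U W := fun x hx => by
  have : Finite (U ⊗[F] W) := finite_of_finite F
  have : Finite ((U ⊗[F] W) ≃ₗ[F] (U ⊗[F] W)) := DFunLike.finite _
  have : Nontrivial W := nontrivial_of_finrank_pos (R := F) (by omega)
  have key : ∀ {g u u'}, g ∈ X → Q₁ u ≠ 0 → Q₁ u' ≠ 0 → g * zU W Q₁ u * g⁻¹ = zU W Q₁ u' →
      g ∈ tenStab F U W := fun hg hu hu' => h.of_conj_z (h.ku_le hW.ge hu') hg hu hu'
  obtain ⟨c, c0, c1⟩ := exists_nonsquare' h.two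
  obtain ⟨u, hu⟩ := exists_Q_eq h.nd₁ (by rw [h.dimU]; decide) one_ne_zero
  obtain ⟨v, hv⟩ := exists_Q_eq h.nd₁ (by rw [h.dimU]; decide) c0
  have hu' : Q₁ u ≠ 0 := by simp [hu]
  have hv' : Q₁ v ≠ 0 := by simp [hv, c0]
  have a1 := mul_mem (mul_mem hx (hz v hv')) (inv_mem hx)
  have a2 := conj_invol (zU_sq (W := W) (Q₁ := Q₁) v) x
  obtain ⟨t, b1, b2, b3, b4, b5, y, b6, b7⟩ := exists_dihedral' (hz u hu') a1 (zU_sq u) a2
    (even_of_not_conj (hz u hu') a1 (zU_sq u) a2 fun y b1 b2 => c1 (by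
      have b3 : x⁻¹ * y * zU W Q₁ u * (x⁻¹ * y)⁻¹ = zU W Q₁ v := by
        rw [← inv_mul_cancel_left x (zU W Q₁ v), ← inv_mul_cancel_right (x * _) x, ← b2]; group
      have b4 := mul_mem (inv_mem hx) b1
      simpa [hu, hv] using h.sim_of_conj b4 (key b4 hu' hv' b3) hu' hv' b3))
  have d1 := key b1 hu' hu' (by rw [b4, mul_inv_cancel_right])
  obtain ⟨s, d2, d3⟩ := eq_zU_of_dp h.toTF h.two h.dimU hW (mul_mem d1 (congr_mem _ _))
    (h.le (mul_mem b1 (hz u hu'))) (k := t * zU W Q₁ u)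
    (by rw [mul_assoc, ← mul_assoc _ t, ← b4, mul_assoc, zU_sq, mul_one, b3])
    (by rcases b7 with e | e <;> simp only [e, dp_conj, dp_zU h.two hu', dp_zU h.two hv', hW])
  have d4 : t = zU W Q₁ s * zU W Q₁ u := by rw [← d3, mul_assoc, zU_sq, mul_one]
  obtain ⟨r, d5, -, -, d6⟩ := exists_zU_mul (W := W) h.nd₁ h.two h.dimU d2 hu' (perp_of_zU_comm (W := W)
    h.two d2 hu' (by rw [← d4, ← d3, ← mul_assoc, ← b4, mul_assoc, zU_sq, mul_one])
    fun e => b2 (by rw [d4, e, zU_sq]))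
  have d7 := mul_mem (mul_mem (inv_mem hx) b1) (inv_mem (inv_mem hx))
  obtain ⟨r', d8, d9⟩ := eq_zU_of_dp h.toTF h.two h.dimU hW (key d7 hv' hv' (by
    rw [mul_inv_eq_iff_eq_mul, ← mul_left_cancel_iff (a := x), ← mul_right_cancel_iff (a := x⁻¹)]
    simpa [mul_assoc] using b5)) (h.le d7) (conj_invol b3 _)
    (by rw [dp_conj, d4, d6, dp_zU h.two d5, hW])
  exact key hx d8 d5 (by rw [← d9, ← d6, ← d4]; group)

end OPT

omit [FiniteDimensional F U] [FiniteDimensional F W] in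
theorem tf_quad (hQ : QNondeg Q) (h₁ : QNondeg Q₁) (h₂ : QNondeg Q₂) (h2 : (2 : F) ≠ 0)
    (hB : ∀ u w u' w', polar Q (u ⊗ₜ w) (u' ⊗ₜ w') = polar Q₁ u u' * polar Q₂ w w')
    (hU : 0 < finrank F U) : TF (CForm.ofQuad Q) (CForm.ofQuad Q₁) (CForm.ofQuad Q₂) :=
  ⟨hQ, h₁, h₂, fun _ => rfl,
    fun _ => rfl, by simp [quadType], by simp [quadType], hB, fun u w u' w' a b => by
      simp only [CForm.ofQuad_N] at a b ⊢
      exact mul_left_cancel₀ h2 (by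
        rw [← polar_self', ← polar_self', hB, hB, polar_self', polar_self', a, b, polar_self',
          polar_self']), quad_sing h2, hU⟩

theorem OX.not_le [Finite F] (h : OX Q Q₁ Q₂ X) : ¬ OmegaV Q ≤ tenStab F U W := fun hle => by
  obtain ⟨w, hw0, hw⟩ := exists_singular Q₂ h.dimW
  obtain ⟨e, he0, he⟩ := exists_singular Q₁ h.dimU.ge
  obtain ⟨y, hy0, hy⟩ := exists_ns_perp h.nd₁ h.two h.dimU.ge he
  obtain ⟨r, hr⟩ := h.nd₂.exists_eq hw0 1
  rw [CForm.ofQuad_B] at hr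
  have b1 := h.qt e hw
  have b2 : polar Q (e ⊗ₜ w) (y ⊗ₜ w) = 0 := by simp [h.pB, hy]
  obtain ⟨B, b3⟩ := isR_of_perp (Y := ⊥) (z := w)
    (hle (eich_mem_OmegaV h.nd (notExc_of_two_ne_zero h.two) b1 b2)) hw0 fun u => by
      simp [eich_apply b1 b2, h.pB, polar_self', hw]
  have b4 := b3 e r
  have b5 := b3 y r
  simp only [eich_apply b1 b2, h.pB, hy, polar_comm Q₁ y e, polar_self', he, hr, mul_zero, zero_mul,
    zero_smul, add_zero, sub_zero, mul_one] at b4 b5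
  rw [← tmul_right_inj he0 b4, add_eq_left] at b5
  exact smul_ne_zero (mul_ne_zero h.two hy0) (tmul_ne_zero he0 hw0) b5

theorem isMaximalIn_o3_o4 [Finite F] (hQ : QNondeg Q) (h₁ : QNondeg Q₁) (h₂ : QNondeg Q₂)
    (h2 : (2 : F) ≠ 0)
    (hB : ∀ u w u' w', polar Q (u ⊗ₜ w) (u' ⊗ₜ w') = polar Q₁ u u' * polar Q₂ w w')
    (hU : finrank F U = 3) (hW : finrank F W = 4) (hex : ∃ t : F, t ≠ 0 ∧ t * t ≠ 1)
    (hm : ∀ e b, ¬ TSP (CForm.ofQuad Q₂) e b) :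
    Cfsg.Geo.IsMaximalIn (OmegaV Q) (tenStab F U W ⊓ OmegaV Q) := by
  have h := tf_quad hQ h₁ h₂ h2 hB (by omega)
  have hX : ∀ X, tenStab F U W ⊓ OmegaV Q ≤ X → X ≤ OmegaV Q → OX Q Q₁ Q₂ X := fun X a1 a2 =>
    ⟨h, h2, a2.trans OmegaV_le, fun w y b1 b2 => a1 ⟨rH_mem _, map_mem_OmegaV (rH F U W)
      (fun β => h.congr_isom (one_mem _)) _ (eich_mem_OmegaV h₂ (notExc_of_two_ne_zero h2) b1 b2)⟩,
    fun w y b1 b2 b3 b4 => by_contra fun c => hm w y ⟨b1, b3, b4, b2, c⟩, hU, by omega⟩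
  refine isMaximalIn_of _ _ inf_le_right (fun hle => (hX _ le_rfl inf_le_right).not_le
    (hle.trans inf_le_left)) fun X a1 a2 g a3 a4 => by_contra fun hc => a4 ⟨?_, a2 a3⟩
  have hz : ∀ u, Q₁ u ≠ 0 → zU W Q₁ u ∈ X := fun u hu =>
    a1 ⟨congr_mem _ _, zU_mem h h2 (by rw [hU]; decide) (by rw [hW]; decide) hu⟩
  have hX := hX X a1 a2
  have hZ : OZ Q Q₁ Q₂ X := ⟨hX, fun w S b1 b2 b3 => by_contra fun c => hc (hX.omega_le
    (fun e y c1 c2 => a1 ⟨congr_mem _ _, map_mem_OmegaV (lH F U W)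
      (fun α hα => h.congr_isom hα (one_mem _)) _
      (eich_mem_OmegaV h₁ (notExc_of_two_ne_zero h2) c1 c2)⟩) b1 b2 b3 c),
    fun w u Φ _ _ hu hΦ => hΦ.conj_lH (hz u hu) (zU_eq u), hex⟩
  exact OPT.le_tenStab ⟨hX, fun g hg w w₁ b1 b2 => hZ.pt b1 b2 (P := fun u => Q₁ u ≠ 0)
    (fun S => scalar_of_ns h₁ h2 hU.ge) (fun u hu => ⟨hu, hz u hu⟩) (fun γ m c1 c2 u hu c3 =>
      by simpa [polar_self', c3, c1, h2, hu, eq_comm] using c2 u u) hg⟩ hW hz a3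

end H12
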