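import Cfsg.Agent.H12.O2e
import Cfsg.Agent.H12.RQ4
import Cfsg.Agent.H12.Char2

/-!
# Three orthogonal planes: root elements
-/

set_option autoImplicit false
set_option maxHeartbeats 400000

namespace H12

open Module H11 QuadraticMap

variable {F : Type*} [Field F] [Fintype F] {V : Type*} [AddCommGroup V] [Module F V]
  {Q : QuadraticForm F V} [FiniteDimensional F V] {X : Subgroup (V ≃ₗ[F] V)}
  {κ : Type*} [Fintype κ] {D : κ → Submodule F V} {π : κ → V →ₗ[F] V}

local notation "𝓒" => CForm.ofQuad Q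

theorem Pl.le_of_ns (hQ : QNondeg Q) {P W : Submodule F V} (h : Pl Q P) {w : V} (hw : w ∈ P)
    (hw0 : w ≠ 0) (hW : ∀ x ∈ P, Q x ≠ 0 → polar Q x w ≠ 0 → x ∈ W) : P ≤ W := by
  classical
  obtain ⟨d, hd, d0, d1⟩ := h.exists_ne hQ one_ne_zero hw hw0
  have d2 := hW d hd (d0.trans_ne one_ne_zero) d1
  intro x hx
  obtain ⟨t, t1, t2⟩ : ∃ t : F, polar Q (x + t • d) w ≠ 0 ∧ Q (x + t • d) ≠ 0 := by
    have k : ∀ t : F, t ≠ -(polar Q x w / polar Q d w) → polar Q (x + t • d) w ≠ 0 := fun t ht e =>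
      ht (by
        rw [polar_add_left, polar_smul_left, smul_eq_mul] at e
        field_simp
        linear_combination e)
    rcases h.big with h3 | h3
    · obtain ⟨t, ht⟩ := _root_.exists_ne (-(polar Q x w / polar Q d w))
      refine ⟨t, k t ht, fun e => k t ht ?_⟩
      rw [h3.1 _ (add_mem hx (P.smul_mem t hd)) e, polar_zero_left]
    · have c1 := card_qrts (a := Q d) (b := polar Q x d) (c := Q x) fun e =>
        one_ne_zero (d0.symm.trans e.1)
      obtain ⟨t, ht⟩ := exists_notMem_card (s := insert (-(polar Q x w / polar Q d w))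
        (qrts (Q d) (polar Q x d) (Q x))) ((Finset.card_insert_le _ _).trans_lt (by omega))
      rw [Finset.mem_insert, not_or, mem_qrts] at ht
      refine ⟨t, k t ht.1, fun e => ht.2 ?_⟩
      rw [Q_add, Q_smul, polar_smul_right, smul_eq_mul] at e
      linear_combination e
  have := sub_mem (hW _ (add_mem hx (P.smul_mem t hd)) t2 t1) (W.smul_mem t d2)
  rwa [add_sub_cancel_right] at this

variable (Q X D π) in
/-- An overgroup of the stabiliser of an orthogonal decomposition into three planes. -/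
structure P3 : Prop where
  nd : QNondeg Q
  dec : OrthDec (CForm.ofQuad Q) D
  proj : IsProj D π
  pl : ∀ i, Pl Q (D i)
  three : Fintype.card κ = 3
  ge : decStab D ⊓ OmegaV Q ≤ X
  le : X ≤ OmegaV Q

namespace P3

variable (h : P3 Q X D π)
include h

theorem dim : finrank F V = 6 := by
  have := h.proj.finrank_eq fun i => (h.pl i).two
  have := h.three
  omega

theorem ne : NotExc F V := Or.inr (by have := h.dim; omega)

theorem spec : Spec 𝓒 (OmegaV Q) := spec_quad h.nd h.ne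

theorem orth {g : V ≃ₗ[F] V} (hg : g ∈ X) : g ∈ orth Q := OmegaV_le (h.le hg)

theorem fresh (l : List κ) (hl : l.length ≤ 2) : ∃ x, x ∉ l :=
  exists_notMem_list l (by have := h.three; omega)

theorem third {i j : κ} : ∃ o, o ≠ i ∧ o ≠ j := by
  obtain ⟨o, ho⟩ := h.fresh [i, j] (by simp)
  simp only [List.mem_cons, List.not_mem_nil, or_false, not_or] at ho
  exact ⟨o, ho⟩

theorem cases3 {i j k : κ} (n1 : i ≠ j) (n2 : i ≠ k) (n3 : j ≠ k) (l : κ) :
    l = i ∨ l = j ∨ l = k := by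
  classical
  by_contra hc
  push Not at hc
  have := Finset.card_le_univ ({l, i, j, k} : Finset κ)
  rw [Finset.card_insert_of_notMem (by simp [hc]), Finset.card_insert_of_notMem (by simp [n1, n2]),
    Finset.card_pair n3, h.three] at this
  omega

theorem sum3 {i j k : κ} (n1 : i ≠ j) (n2 : i ≠ k) (n3 : j ≠ k) (x : V) :
    x = π i x + π j x + π k x := by
  rw [← sub_eq_zero]
  refine h.proj.eq_zero fun l => ?_
  have m := h.proj.mem
  rw [map_sub, map_add, map_add]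
  rcases h.cases3 n1 n2 n3 l with rfl | rfl | rfl
  · rw [h.proj.self (m _ _), h.proj.other _ _ n1 _ (m _ _), h.proj.other _ _ n2 _ (m _ _)]; simp
  · rw [h.proj.self (m _ _), h.proj.other _ _ n1.symm _ (m _ _), h.proj.other _ _ n3 _ (m _ _)]
    simp
  · rw [h.proj.self (m _ _), h.proj.other _ _ n2.symm _ (m _ _),
      h.proj.other _ _ n3.symm _ (m _ _)]
    simp

theorem o {i j : κ} (hij : i ≠ j) {x y : V} (hx : x ∈ D i) (hy : y ∈ D j) : polar Q x y = 0 :=
  h.dec.B_eq_zero hij hx hy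

theorem bp {i : κ} {x : V} (hx : x ∈ D i) (y : V) : polar Q x (π i y) = polar Q x y :=
  h.dec.B_proj h.proj hx y

theorem b0 {i : κ} {x y : V} (hx : x ∈ D i) (hy : π i y = 0) : polar Q x y = 0 := by
  rw [← h.bp hx, hy, polar_zero_right]

theorem proj_eq_zero {i : κ} {y : V} (hy : ∀ x ∈ D i, polar Q x y = 0) : π i y = 0 :=
  (h.pl i).nd.eq_zero (h.proj.mem i y) ((𝓒).mem_perp.2 fun x hx => (h.bp hx y).trans (hy x hx))

theorem perp {i : κ} {y : V} (hy : π i y = 0) : y ∈ (𝓒).perp (D i) :=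
  (𝓒).mem_perp.2 fun _ hx => h.b0 hx hy

theorem polar_eq_sum (x y : V) : polar Q x y = ∑ i, polar Q (π i x) (π i y) := by
  conv_lhs => rw [← h.proj.sum x]
  rw [← polarBilin_apply_apply, map_sum, LinearMap.sum_apply]
  exact Finset.sum_congr rfl fun i _ => (h.bp (h.proj.mem i x) y).symm

theorem proj_map {k : V ≃ₗ[F] V} (hk : k ∈ H12.orth Q) {a b : κ}
    (e : (D a).map (k : V →ₗ[F] V) = D b) (y : V) : π b (k y) = k (π a y) := by
  have h1 : k (π a y) ∈ D b := e ▸ ⟨_, h.proj.mem a y, rfl⟩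
  rw [← sub_eq_zero, ← h.proj.self h1, ← map_sub]
  refine h.proj_eq_zero fun x hx => ?_
  obtain ⟨x, hx', rfl⟩ := e.ge hx
  rw [polar_sub_right, LinearEquiv.coe_coe, orth_polar ⟨k, hk⟩, orth_polar ⟨k, hk⟩, h.bp hx',
    sub_self]

theorem proj_sub {S : Subgroup (V ≃ₗ[F] V)} {i : κ} {k : V ≃ₗ[F] V} (hk : k ∈ subG 𝓒 S (D i))
    (y : V) : k y - y = k (π i y) - π i y := by
  have := hk.2.2 (y - π i y) (h.perp (by rw [map_sub, h.proj.self (h.proj.mem i y), sub_self]))
  rw [map_sub] at this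
  linear_combination (norm := module) this

theorem sub_mem {S : Subgroup (V ≃ₗ[F] V)} {i : κ} {k : V ≃ₗ[F] V} (hk : k ∈ subG 𝓒 S (D i))
    {x : V} (hx : x ∈ D i) : k x ∈ D i := (subG_le_glStab h.nd (Or.inr le_rfl) hk x).1 hx

theorem subX {i : κ} {k : V ≃ₗ[F] V} (hk : k ∈ subG 𝓒 (OmegaV Q) (D i)) : k ∈ X :=
  h.ge (h.dec.subG_le h.nd i hk)

theorem rr {i j : κ} {a b : V} (ha : a ∈ D i) (hb : b ∈ D j) (ha0 : Q a ≠ 0) (hb0 : Q b ≠ 0)
    (hs : IsSquare (Q a * Q b)) : RR Q X a b := h.dec.rr h.nd h.ge i j a ha b hb ha0 hb0 hs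

theorem rr' {i j : κ} {a b : V} (ha : a ∈ D i) (hb : b ∈ D j) (ha0 : Q a ≠ 0) (e : Q b = Q a) :
    RR Q X a b := h.rr ha hb ha0 (e.trans_ne ha0) ⟨Q a, by rw [e]⟩

theorem nw_mem {i : κ} {a : V} (ha : a ∈ D i) (ha0 : Q a ≠ 0) : Nw Q X D a :=
  ⟨ha0, fun _ _ hc hc0 hs => h.rr hc ha hc0 ha0 hs⟩

theorem nw_rr {y z : V} (hy : Nw Q X D y) (hz : RR Q X z y) : Nw Q X D z :=
  ⟨hz.1, fun i c hc hc0 hs => (hy.2 i c hc hc0
    (isSquare_trans hc0 hz.1 hy.1 hs (hz.isSquare h.nd h.ne h.le))).trans hz.symm⟩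

theorem map_rr {y : V} (hy : Nw Q X D y) {k : V ≃ₗ[F] V} (hk : k ∈ decStab D) (hX : k ∈ X) :
    RR Q X (k y) y := by
  obtain ⟨i, -⟩ := h.fresh [] (by simp)
  obtain ⟨c, hc, e⟩ := (h.pl i).exists_Q h.nd hy.1
  obtain ⟨τ, hτ⟩ := hk
  have h1 : Q (k c) = Q y := (orth_Q ⟨k, h.orth hX⟩ c).trans e
  exact ((hy.2 i c hc (e.trans_ne hy.1) ⟨Q y, by rw [e]⟩).conj hX (h.orth hX)).symm.trans
    (hy.2 (τ i) _ (hτ i ▸ ⟨c, hc, rfl⟩) (h1.trans_ne hy.1) ⟨Q y, by rw [h1]⟩)

theorem refl_mem {i : κ} {a : V} (ha : a ∈ D i) : (refl Q a).1 ∈ decStab D :=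
  (h.dec.subG_le (G := (𝓒).isom) h.nd i ((mem_subG le_rfl).2 ⟨(refl Q a).2, fun x hx =>
    refl_apply_of_orth ((𝓒).mem_perp.1 hx a ha)⟩)).1

theorem refl_rr {y : V} (hy : Nw Q X D y) {i j : κ} {a b : V} (ha : a ∈ D i) (hb : b ∈ D j)
    (hab : RR Q X a b) : RR Q X ((refl Q a).1 ((refl Q b).1 y)) y :=
  h.map_rr hy (k := (refl Q a * refl Q b).1) (mul_mem (h.refl_mem ha) (h.refl_mem hb)) hab.2.2

/-- A vector with a vanishing component can be moved by the full stabiliser. -/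
theorem map_rr' {y : V} (hy : Nw Q X D y) {o : κ} (ho : π o y = 0) {k : V ≃ₗ[F] V}
    (hk : k ∈ decStab D) (hk' : k ∈ H12.orth Q) : RR Q X (k y) y := by
  obtain ⟨s, hs, h1, h2⟩ := h.spec.plane _ (h.pl o).nd (h.pl o).two.ge k hk'
  have h3 : k * s ∈ decStab D :=
    mul_mem hk (h.dec.subG_le (G := (𝓒).isom) h.nd o ⟨hs, hs, h1⟩).1
  have := h.map_rr hy h3 (h.ge ⟨h3, h2⟩)
  rwa [LinearEquiv.mul_apply, h1 y (h.perp ho)] at this

/-- An element of `X` acting on the `j`-th block as a reflection. -/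
theorem exists_refl {j o : κ} {d : V} (hd : d ∈ D j) (hd0 : Q d ≠ 0) :
    ∃ k ∈ X, ∀ x, π o x = 0 → k x = (refl Q d).1 x := by
  obtain ⟨d', hd', e⟩ := (h.pl o).exists_Q h.nd hd0
  exact ⟨_, (h.rr' hd hd' hd0 e).2.2, fun x hx => by
    rw [orth_mul_apply, refl_apply_of_orth (h.b0 hd' hx)]⟩

theorem fill {u w : V} {j o : κ} (hjo : j ≠ o) (hj : π j u = 0) (ho : π o u = 0)
    (hw : w ∈ RS Q X u) (hw0 : π j w ≠ 0) : D j ≤ RS Q X u ∧ D o ≤ RS Q X u := by
  obtain ⟨ρ, hρ, h1⟩ := (h.pl j).exists_rot h.nd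
  have h2 := RS.conj hw (h.subX hρ) (h.orth (h.subX hρ))
  rw [hρ.2.2 u (h.perp hj)] at h2
  have h3 := Submodule.sub_mem _ h2 hw
  rw [h.proj_sub hρ] at h3
  have h4 := Submodule.sub_mem _ (h.sub_mem hρ (h.proj.mem j w)) (h.proj.mem j w)
  have h5 : D j ≤ RS Q X u := (h.pl j).le_of_refl h.nd h4 (fun e => hw0 (h1 _ (h.proj.mem j w) (by
    rw [sub_eq_zero] at e; rw [e, e]))) h3 fun d hd hd0 => by
      obtain ⟨k, hk, e⟩ := h.exists_refl (o := o) hd hd0
      have := RS.conj h3 hk (h.orth hk)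
      rwa [e u ho, refl_apply_of_orth (h.b0 hd hj), e _ (h.proj.other o j hjo.symm _ h4)] at this
  refine ⟨h5, ?_⟩
  obtain ⟨g, hg, e1, -, e3⟩ := h.dec.exists_swap_isom h.nd j o
  obtain ⟨s, hs, a1, a2⟩ := h.spec.plane _ (h.pl j).nd (h.pl j).two.ge g hg.2
  have hs' : s ∈ subG 𝓒 (𝓒).isom (D j) := ⟨hs, hs, a1⟩
  have hX := h.ge ⟨mul_mem hg.1 (h.dec.subG_le h.nd j hs').1, a2⟩
  have hu : (g * s) u = u := by
    rw [LinearEquiv.mul_apply, a1 u (h.perp hj)]
    conv_lhs => rw [← h.proj.sum u]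
    rw [map_sum]
    refine (Finset.sum_congr rfl fun l _ => ?_).trans (h.proj.sum u)
    by_cases b1 : l = j
    · rw [b1, hj, map_zero]
    by_cases b2 : l = o
    · rw [b2, ho, map_zero]
    exact e3 l b1 b2 _ (h.proj.mem l u)
  intro x hx
  obtain ⟨x, hx', rfl⟩ := e1.ge hx
  have := RS.conj (h5 (h.sub_mem (inv_mem hs') hx')) hX (h.orth hX)
  rwa [hu, LinearEquiv.mul_apply, apply_inv_apply] at this

/-- A root element centred in one block. -/
theorem fin {v w : V} {i j : κ} (hji : j ≠ i) (hv : v ∈ D i) (hv0 : v ≠ 0) (hw : Ei Q X v w)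
    (hw0 : π j w ≠ 0) : OmegaV Q ≤ X := by
  obtain ⟨o, oi, oj⟩ := h.third (i := i) (j := j)
  have vj := h.proj.other j i hji _ hv
  have vo := h.proj.other o i oi _ hv
  let A : AddSubgroup V :=
    { carrier := {w | Ei Q X v w}
      add_mem' := Ei.add
      zero_mem' := ei_zero_right hw.1
      neg_mem' := Ei.neg }
  have hr : ∀ w ∈ A, w ∈ D j → ∀ d ∈ D j, Q d ≠ 0 → (refl Q d).1 w ∈ A := fun w hw hw' d hd hd0 => by
    obtain ⟨k, hk, e⟩ := h.exists_refl (o := o) hd hd0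
    have := Ei.conj hw hk (h.orth hk)
    rwa [e v vo, refl_apply_of_orth (h.b0 hd vj), e _ (h.proj.other o j oj _ hw')] at this
  obtain ⟨ρ, hρ, h1⟩ := (h.pl j).exists_rot h.nd
  have h2 := hw.conj (h.subX hρ) (h.orth (h.subX hρ))
  rw [hρ.2.2 v (h.perp vj)] at h2
  have h3 := h2.sub hw
  rw [h.proj_sub hρ] at h3
  have h4 := Submodule.sub_mem _ (h.sub_mem hρ (h.proj.mem j w)) (h.proj.mem j w)
  have h5 : ρ (π j w) - π j w ≠ 0 := fun e => hw0 (h1 _ (h.proj.mem j w) (by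
    rw [sub_eq_zero] at e; rw [e, e]))
  generalize ρ (π j w) - π j w = c at h3 h4 h5
  obtain ⟨c, hc, c0, c1⟩ : ∃ c ∈ D j, Q c ≠ 0 ∧ c ∈ A := by
    by_cases e : Q c = 0
    swap
    · exact ⟨c, h4, e, h3⟩
    obtain ⟨d, hd, d0, d1⟩ := (h.pl j).exists_ne h.nd one_ne_zero h4 h5
    refine ⟨c + (refl Q d).1 c, add_mem h4 ?_, ?_,
      add_mem h3 (hr c h3 h4 d hd (d0.trans_ne one_ne_zero))⟩
    · rw [refl_apply]; exact Submodule.sub_mem _ h4 (Submodule.smul_mem _ _ hd)
    · rw [Q_add, orth_Q, e, refl_apply, polar_sub_right, polar_smul_right, polar_self', e, d0,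
        polar_comm Q c d]
      simpa using d1
  obtain ⟨h6, h7⟩ := h.fill oj.symm vj vo (w := c) ((mem_RS hw.1).2 fun μ =>
    (h.pl j).smul_mem h.nd (A := A) hc c0 c1 hr μ) (by rw [h.proj.self hc]; exact ne_zero_of_Q c0)
  obtain ⟨d, hd, d0, d1⟩ := (h.pl i).exists_ne h.nd one_ne_zero hv hv0
  obtain ⟨k, hk, e⟩ := h.exists_refl (o := o) hd (d0.trans_ne one_ne_zero)
  refine Fu.omega_le h.nd h.ne (by have := h.dim; omega) (u := v) (fun x _ hx => ?_) hw.1 hk
    (h.orth hk) ?_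
  · rw [h.sum3 hji.symm oi.symm oj.symm x]
    refine Ei.add (Ei.add ?_ (RS.ei (h6 (h.proj.mem j x)) hw.1)) (RS.ei (h7 (h.proj.mem o x)) hw.1)
    have n : d ∉ Submodule.span F {v} := fun e => by
      obtain ⟨c, rfl⟩ := Submodule.mem_span_singleton.1 e
      rw [Q_smul, hw.1, mul_zero] at d0
      exact zero_ne_one d0
    obtain ⟨a, b, e'⟩ := (h.pl i).eq_add hv hd hv0 n (h.proj.mem i x)
    rw [← h.bp hv, e', polar_add_right, polar_smul_right, polar_smul_right, polar_self', hw.1,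
      polar_comm] at hx
    obtain rfl : b = 0 := by simpa [d1] using hx
    rw [e', zero_smul, add_zero]
    exact ei_smul_self hw.1 a
  · rw [e v vo, refl_apply, polar_sub_right, polar_smul_right, polar_self', hw.1, d0,
      polar_comm Q v d]
    simpa using d1

theorem core3 (hq : Fintype.card F ≠ 2) {v : V} {m i j : κ} (n1 : i ≠ j) (n2 : i ≠ m)
    (n3 : j ≠ m) (hv : Q v = 0) (hm : π m v = 0) (hi : π i v ≠ 0) (hj : π j v ≠ 0)
    (hR : D m ≤ RS Q X v) : OmegaV Q ≤ X := by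
  have hQ := h.nd
  obtain ⟨d, hd, d0, d1, d2⟩ := (h.pl i).exists_ne' hQ (h.proj.mem i v) hi
  rw [h.bp hd] at d1
  obtain ⟨d', hd', e⟩ := (h.pl m).exists_Q h.nd d0
  have hk := (h.rr' hd hd' d0 e).2.2
  set k := (refl Q d * refl Q d').1 with hk'
  have hku : k v = (refl Q d).1 v := by
    rw [hk', orth_mul_apply, refl_apply_of_orth (h.b0 hd' hm)]
  have w4 : D m ≤ RS Q X (k v) := fun x hx => by
    have h3 : (refl Q d').1 x ∈ D m := by
      rw [refl_apply]; exact Submodule.sub_mem _ hx (Submodule.smul_mem _ _ hd')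
    have := RS.conj (hR h3) hk (h.orth hk)
    rwa [hk', orth_mul_apply _ _ ((refl Q d').1 x), ← orth_mul_apply (refl Q d'), refl_mul_self,
      orth_one_apply, refl_apply_of_orth (h.o n2 hd hx)] at this
  have hf : Q (k v) = 0 := (orth_Q ⟨k, h.orth hk⟩ v).trans hv
  have huf : polar Q v (k v) ≠ 0 := by
    rw [hku, refl_apply, polar_sub_right, polar_self', hv, polar_smul_right, polar_comm Q v d]
    simpa using ⟨d0, d1⟩
  have fm : π m (k v) = 0 := by
    rw [hku, refl_apply, map_sub, map_smul, hm, h.proj.other m i n2.symm _ hd]; simp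
  have fj : π j (k v) = π j v := by
    rw [hku, refl_apply, map_sub, map_smul, h.proj.other j i n1.symm _ hd]; simp
  have fi : ∃ c : F, c ≠ 0 ∧ π i (k v) = π i v - c • d :=
    ⟨_, mul_ne_zero (inv_ne_zero d0) d1, by
      rw [hku, refl_apply, map_sub, map_smul, h.proj.self hd]⟩
  generalize k v = f at *
  have hP : (𝓒).NondegOn (Submodule.span F {v, f}) := by
    have := nondegOn_pair (e := v) (f := (polar Q v f)⁻¹ • f) hv (by rw [Q_smul, hf, mul_zero])
      (by rw [polar_smul_right, smul_eq_mul, inv_mul_cancel₀ huf])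
    rwa [Submodule.span_insert, Submodule.span_singleton_smul_eq
      (IsUnit.mk0 _ (inv_ne_zero huf)), ← Submodule.span_insert] at this
  have hPW : D m ≤ (𝓒).perp (Submodule.span F {v, f}) := fun x hx =>
    (𝓒).mem_perp.2 fun y hy => by
      obtain ⟨a, b, rfl⟩ := Submodule.mem_span_pair.1 hy
      rw [CForm.ofQuad_B, polar_comm, h.b0 hx (by rw [map_add, map_smul, map_smul, hm, fm]; simp)]
  have v0 : v ≠ 0 := fun e => hi (by rw [e, map_zero])
  have d3 := finrank_sup_of_perp hP hPW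
  have d4 := finrank_span_pair_of_not_mem (F := F) v0 (w := f) fun e => by
    obtain ⟨c, rfl⟩ := Submodule.mem_span_singleton.1 e
    exact huf (by rw [polar_smul_right, polar_self', hv]; simp)
  rw [d4, (h.pl m).two] at d3
  have fu : ∀ a b : V, Q a = 0 → polar Q a b ≠ 0 → D m ≤ RS Q X a → π m a = 0 →
      Fu Q X (Submodule.span F {a, b} ⊔ D m) a := fun a b ha hab hW' haM x hx h0 => by
    obtain ⟨y, hy, z, hz, rfl⟩ := Submodule.mem_sup.1 hx
    obtain ⟨α, β, rfl⟩ := Submodule.mem_span_pair.1 hy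
    rw [polar_add_right, polar_add_right, polar_smul_right, polar_smul_right, polar_self', ha,
      polar_comm Q a z, h.b0 hz haM] at h0
    obtain rfl : β = 0 := by simpa [hab] using h0
    rw [zero_smul, add_zero]
    exact (ei_smul_self ha α).add (RS.ei (hW' hz) ha)
  have hS : (𝓒).NondegOn (Submodule.span F {v, f} ⊔ D m) := nondegOn_sup hP (h.pl m).nd hPW
  have vS : v ∈ Submodule.span F {v, f} ⊔ D m :=
    Submodule.mem_sup_left (Submodule.subset_span (by simp))
  have h3 := Fu.subG_le hQ h.ne hS (Or.inl (by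
      obtain ⟨t, t0, t1⟩ := exists_ne_ne hq (1 : F); exact ⟨t, t0, t1⟩)) (by omega)
    (fu v f hv huf hR hm)
    (by rw [Set.pair_comm]; exact fu f v hf (by rwa [polar_comm]) w4 fm) vS
    (Submodule.mem_sup_left (Submodule.subset_span (by simp))) hv hf huf
  have sj : ∀ x ∈ D j, x ∈ Submodule.span F {v, f} ⊔ D m → x = 0 := fun x hx e => by
    obtain ⟨y, hy, z, hz, rfl⟩ := Submodule.mem_sup.1 e
    obtain ⟨α, β, rfl⟩ := Submodule.mem_span_pair.1 hy
    obtain ⟨c, c0, c1⟩ := fi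
    have a1 := h.proj.other i j n1 _ hx
    have a2 := h.proj.self hx
    rw [map_add, map_add, map_smul, map_smul, h.proj.other i m n2 _ hz, c1, add_zero] at a1
    rw [map_add, map_add, map_smul, map_smul, h.proj.other j m n3 _ hz, fj, add_zero] at a2
    have b1 : β = 0 := by
      by_contra b1
      refine d2 ((Submodule.smul_mem_iff _ (mul_ne_zero b1 c0)).1 ?_)
      rw [show (β * c) • d = (α + β) • π i v by linear_combination (norm := module) -a1]
      exact Submodule.smul_mem _ _ (Submodule.mem_span_singleton_self _)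
    have b2 : α = 0 := by simpa [b1, hi] using a1
    rw [← a2, b1, b2]; simp
  have mS : D m ≤ Submodule.span F {v, f} ⊔ D m := le_sup_right
  generalize Submodule.span F {v, f} ⊔ D m = S at *
  have d5 := hQ.finrank_add_finrank_perp S
  have d6 := h.dim
  obtain ⟨p, p1, p2⟩ : ∃ p : V →ₗ[F] V, (∀ x, p x ∈ (𝓒).perp S) ∧ ∀ x, x - p x ∈ S :=
    ⟨Submodule.projection _ _ (hQ.isCompl_perp hS).symm, Submodule.projection_apply_mem _,
      Submodule.sub_projection_mem _⟩
  have key : D j ≤ (eiSub Q X S).comap p := (h.pl j).le_of_ns hQ (h.proj.mem j v) hj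
    fun x hx x0 x1 => by
      obtain ⟨a, ha, e⟩ := (h.pl m).exists_Q hQ x0
      have r := h.rr' hx ha x0 e
      rw [← sub_add_cancel x (p x)] at r
      refine r.mem_eiSub hQ h.ne hS (by omega) h3 (p2 x) (fun e => x1 ?_) (p1 x)
        (Or.inl (mS ha)) (Or.inr (Or.inl hq))
      rw [h.bp hx, sub_eq_zero.1 e, polar_comm]
      exact (𝓒).mem_perp.1 (p1 x) v vS
  refine omega_le_of_perp_le hQ h.ne hS (by omega) h3 vS v0 hv fun r hr => ?_
  obtain ⟨x, hx, rfl⟩ := exists_map_eq_of_inj (A := D j) (B := (𝓒).perp S) p (fun x _ => p1 x)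
    (fun x hx e => sj x hx (by simpa [e] using p2 x)) (by rw [(h.pl j).two]; omega) hr
  exact (key hx).2 v vS hv

theorem tan_vec {y u : V} {m : κ} (hy : Nw Q X D y) (h1 : RR Q X (y + u) y) (hu : Q u = 0)
    (huy : polar Q u y = 0) (hm : π m u = 0) (hy0 : π m y ≠ 0) :
    ∃ c ∈ D m, ∃ a : F, a ≠ 0 ∧ RR Q X c y ∧ RR Q X (c + a • u) y := by
  obtain ⟨c, hc, e, h2⟩ := (h.pl m).exists_ne h.nd hy.1 (h.proj.mem m y) hy0
  rw [h.bp hc] at h2
  have h3 := hy.2 m c hc (e.trans_ne hy.1) ⟨Q y, by rw [e]⟩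
  have h4 := (h3.refl_apply (rr_self hy.1)).refl_apply h1
  refine ⟨c, hc, (Q y)⁻¹ * polar Q y c, mul_ne_zero (inv_ne_zero hy.1) (by rwa [polar_comm]), h3, ?_⟩
  convert h4 using 1
  have h5 : Q (y + u) = Q y := by rw [Q_add, hu, polar_comm, huy]; simp
  have h6 := hy.1
  rw [refl_apply, refl_apply, h5, polar_add_left, polar_sub_right, polar_sub_right,
    polar_smul_right, polar_smul_right, huy, polar_self', polar_comm Q u c, h.b0 hc hm]
  simp only [smul_eq_mul]
  match_scalars <;> field_simp <;> ring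

/-- A tangent pair of reflections generates everything. -/
theorem tan (hq : Fintype.card F ≠ 2) (han : ∀ i, ∀ x ∈ D i, Q x = 0 → x = 0) {y u : V} {m : κ}
    (hy : Nw Q X D y) (h1 : RR Q X (y + u) y) (hu0 : u ≠ 0) (hu : Q u = 0)
    (huy : polar Q u y = 0) (hm : π m u = 0) (hy0 : π m y ≠ 0) : OmegaV Q ≤ X := by
  obtain ⟨c, hc, a, ha, h2, h3⟩ := h.tan_vec hy h1 hu huy hm hy0
  have h4 := (h3.trans h2.symm).ei (by rw [Q_smul, hu, mul_zero])
    (by rw [polar_smul_left, polar_comm, h.b0 hc hm, smul_zero])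
  have v0 : (Q c)⁻¹ • a • u ≠ 0 := smul_ne_zero (inv_ne_zero h2.1) (smul_ne_zero ha hu0)
  have vm : π m ((Q c)⁻¹ • a • u) = 0 := by rw [map_smul, map_smul, hm, smul_zero, smul_zero]
  generalize (Q c)⁻¹ • a • u = v at *
  obtain ⟨i, n2, -⟩ := h.third (i := m) (j := m)
  obtain ⟨j, n3, n1⟩ := h.third (i := m) (j := i)
  replace n1 := n1.symm
  have s := h.sum3 n1 n2 n3 v
  rw [vm, add_zero] at s
  have mi := h.proj.mem i v
  have mj := h.proj.mem j v
  have q0 : Q (π j v) = -Q (π i v) := by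
    have := h4.1
    rw [s, Q_add, h.o n1 mi mj] at this
    linear_combination this
  have qi : Q (π i v) ≠ 0 := fun e => v0 (by
    rw [s, han i _ mi e, han j _ mj (by rw [q0, e, neg_zero]), add_zero])
  have qj : Q (π j v) ≠ 0 := q0.trans_ne (neg_ne_zero.2 qi)
  obtain ⟨x, hx, x0, x1⟩ := (h.pl i).exists_perp_ns h.nd mi qi
  obtain ⟨z, hz, z0, z1⟩ := (h.pl j).exists_perp_ns h.nd mj qj
  have an : ∀ l, ∀ a ∈ D l, ∀ b ∈ D l, Q a ≠ 0 → Q b ≠ 0 → polar Q a b = 0 → (2 : F) ≠ 0 →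
      ¬ IsSquare (-Q a * Q b) := fun l a ha b hb a0 b0 e two ⟨r, hr⟩ => by
    have h5 := congrArg (polar Q b) (han l _ (add_mem ((D l).smul_mem r ha)
      ((D l).smul_mem (Q a) hb)) (by
        rw [Q_add, Q_smul, Q_smul, polar_smul_left, polar_smul_right, e]
        simp only [smul_eq_mul]
        linear_combination -Q a * hr))
    rw [polar_add_right, polar_smul_right, polar_smul_right, polar_comm, e, polar_self',
      polar_zero_right] at h5
    simp [a0, b0, two] at h5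
  let A : AddSubgroup V :=
    { carrier := {w | Ei Q X v w}
      add_mem' := Ei.add
      zero_mem' := ei_zero_right h4.1
      neg_mem' := Ei.neg }
  have hr : ∀ w ∈ A, w ∈ D m → ∀ d ∈ D m, Q d ≠ 0 → (refl Q d).1 w ∈ A := by
    intro w hw hw' d hd d0
    have k1 : ∀ l, l ≠ m → ∀ a ∈ D l, Q a ≠ 0 → polar Q (π l v) a = 0 → IsSquare (Q d * Q a) →
        (refl Q d).1 w ∈ A := fun l hl a ha a0 a1 hs => by
      have hk := (h.rr hd ha d0 a0 hs).2.2
      have := Ei.conj hw hk (h.orth hk)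
      rwa [orth_mul_apply, orth_mul_apply,
        refl_apply_of_orth (show polar Q a v = 0 by rwa [← h.bp ha, polar_comm]),
        refl_apply_of_orth (h.b0 hd vm), refl_apply_of_orth (h.o hl ha hw')] at this
    by_cases s1 : IsSquare (Q d * Q x)
    · exact k1 i n2 x hx x0 x1 s1
    by_cases s2 : IsSquare (Q d * Q z)
    · exact k1 j n3 z hz z0 z1 s2
    have two : (2 : F) ≠ 0 := fun e => s1 (isSquare_of_two_eq_zero e _)
    obtain ⟨d', hd', d1, d2⟩ := (h.pl m).exists_perp_ns h.nd hd d0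
    have a1 := an i _ mi _ hx qi x0 x1 two
    have a2 := an j _ mj _ hz qj z0 z1 two
    have a3 := an m _ hd _ hd' d0 d1 d2 two
    rw [← q0] at a1
    rw [q0, neg_neg] at a2
    have b1 := isSquare_of_not d0 qj x0 s1 a1
    have b2 := isSquare_of_not d0 qi z0 s2 a2
    have b3 : IsSquare (Q (π i v) * Q (π j v)) :=
      isSquare_trans qi d0 qj (by rwa [mul_comm]) b1
    have b4 : IsSquare (Q d' * Q x) := isSquare_of_not d1 x0 d0 (fun ⟨r, hr⟩ => a3 (by
      obtain ⟨t, ht⟩ := b3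
      refine ⟨r * t / Q (π i v), ?_⟩
      rw [q0] at ht
      field_simp
      linear_combination -(Q (π i v)) ^ 2 * hr + r * r * ht)) (by rwa [mul_comm])
    have hk := mul_mem (h.rr hd' hx d1 x0 b4).2.2 (h.rr mi mj qi qj b3).2.2
    have := Ei.conj hw hk (h.orth hk)
    have e1 : (refl Q (π i v)).1 ((refl Q (π j v)).1 v) = (-1 : F) • v := by
      rw [refl_apply, refl_apply, polar_sub_right, polar_smul_right, h.o n1 mi mj, ← h.bp mi,
        ← h.bp mj, polar_self', polar_self']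
      conv_rhs => rw [s]
      nth_rewrite 1 [s]
      simp only [smul_eq_mul]
      match_scalars <;> field_simp <;> ring
    have e2 : (refl Q d').1 w = (-1 : F) • (refl Q d).1 w := by
      obtain ⟨α, β, rfl⟩ := (h.pl m).eq_add hd hd' (ne_zero_of_Q d0) (fun e => by
        obtain ⟨c, rfl⟩ := Submodule.mem_span_singleton.1 e
        rw [polar_smul_right, polar_self'] at d2
        rw [Q_smul] at d1
        simp [two, d0] at d2
        simp [d2] at d1) hw'
      simp only [refl_apply, polar_add_right, polar_smul_right, polar_self', d2,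
        polar_comm Q d' d, smul_eq_mul]
      match_scalars <;> field_simp <;> ring
    rw [LinearEquiv.mul_apply, LinearEquiv.mul_apply, orth_mul_apply, orth_mul_apply,
      orth_mul_apply, orth_mul_apply, e1, map_smul, map_smul,
      refl_apply_of_orth (show polar Q x v = 0 by rwa [← h.bp hx, polar_comm]),
      refl_apply_of_orth (h.b0 hd' vm), refl_apply_of_orth (h.o n3 mj hw'),
      refl_apply_of_orth (h.o n2 mi hw'), refl_apply_of_orth (h.o n2 hx hw'), e2] at this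
    have h6 := this.smul_right h4.1 (by
      rw [polar_smul_right, polar_comm, h.b0 (by
        rw [refl_apply]; exact Submodule.sub_mem _ hw' (Submodule.smul_mem _ _ hd)) vm, smul_zero])
    rwa [smul_smul, neg_mul_neg, one_mul, one_smul] at h6
  have hc' : c ∈ RS Q X v := (mem_RS h4.1).2 fun μ =>
    (h.pl m).smul_mem h.nd (A := A) hc h2.1 h4 hr μ
  refine h.core3 hq n1 n2 n3 h4.1 vm (ne_zero_of_Q qi) (ne_zero_of_Q qj)
    ((h.pl m).le_of_refl h.nd hc (ne_zero_of_Q h2.1) hc' fun d hd hd0 =>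
      (mem_RS h4.1).2 fun μ => ?_)
  rw [← map_smul]
  exact hr _ ((mem_RS h4.1).1 hc' μ) ((D m).smul_mem μ hc) d hd hd0

end P3

end H12
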