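import Cfsg.Agent.H12.P3a

/-!
# Counting squares on conics
-/

set_option autoImplicit false
set_option maxHeartbeats 400000

namespace H12

open Finset Pointwise

variable {F : Type*} [Field F] [Fintype F] [DecidableEq F]

theorem card_sq_lin (hn : ¬ IsSquare (-1 : F)) {a b : F} (hb : b ≠ 0) {S : Finset F}
    (hS : ∀ s ∈ S, IsSquare (a + b * s)) : 2 * S.card ≤ Fintype.card F + 1 := by
  have i1 : Function.Injective fun s : F => a + b * s := fun s t e =>
    mul_left_cancel₀ hb (add_left_cancel e)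
  have i2 : Function.Injective fun s : F => -(a + b * s) := neg_injective.comp i1
  have h1 := card_union_add_card_inter (S.image fun s => a + b * s) (S.image fun s => -(a + b * s))
  have h2 := card_le_univ ((S.image fun s => a + b * s) ∪ (S.image fun s => -(a + b * s)))
  have h3 : (S.image fun s => a + b * s) ∩ (S.image fun s => -(a + b * s)) ⊆ {0} := fun x hx => by
    obtain ⟨h4, h5⟩ := mem_inter.1 hx
    obtain ⟨s, hs, rfl⟩ := mem_image.1 h4
    obtain ⟨t, ht, e⟩ := mem_image.1 h5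
    obtain ⟨u, hu⟩ := hS s hs
    obtain ⟨v, hv⟩ := hS t ht
    rw [mem_singleton]
    by_contra h0
    have : u ≠ 0 := fun e => h0 (by rw [hu, e, mul_zero])
    exact hn ⟨v / u, by field_simp; linear_combination hu + hv + e⟩
  have h4 := card_le_card h3
  rw [card_image_of_injective _ i1, card_image_of_injective _ i2] at h1
  rw [card_singleton] at h4
  omega

theorem card_sq_quad (two : (2 : F) ≠ 0) {c : F} (hc : c ≠ 0) {S : Finset F}
    (hS : ∀ s ∈ S, IsSquare (1 - 2 * c * s - c * (1 - c) * s * s)) :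
    2 * S.card ≤ Fintype.card F + 3 := by
  choose! y hy using hS
  have k : ∀ {s t u v : F}, s ≠ 0 → t ≠ 0 → 1 - 2 * c * s - c * (1 - c) * s * s = u * u →
      1 - 2 * c * t - c * (1 - c) * t * t = v * v → (u - 1) / s = (v - 1) / t →
      s = t ∧ (u - 1) / s ≠ -c := fun {s t u v} hs ht e1 e2 e => by
    obtain ⟨m, hm⟩ : ∃ m, m = (u - 1) / s := ⟨_, rfl⟩
    have a1 : u = 1 + m * s := by rw [hm]; field_simp; ring
    have a2 : v = 1 + m * t := by rw [hm, e]; field_simp; ring
    have b1 : s * (m * m + c * (1 - c)) = -2 * (c + m) :=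
      mul_left_cancel₀ hs (by rw [a1] at e1; linear_combination -e1)
    have b2 : t * (m * m + c * (1 - c)) = -2 * (c + m) :=
      mul_left_cancel₀ ht (by rw [a2] at e2; linear_combination -e2)
    have b3 : m ≠ -c := fun e => mul_ne_zero hs hc (by rw [e] at b1; linear_combination b1)
    refine ⟨mul_right_cancel₀ (fun e => b3 ?_) (b1.trans b2.symm), hm ▸ b3⟩
    rw [e, mul_zero] at b1
    exact mul_left_cancel₀ two (by linear_combination b1)
  set R := qrts (-(c * (1 - c))) (-(2 * c)) 1 with hR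
  have h1 : R.card ≤ 2 := card_qrts fun e => one_ne_zero e.2.2
  have h2 := pred_card_le_card_erase (s := S) (a := 0)
  set A := S.erase 0 with hA
  have h3 := le_card_sdiff R A
  set B := A \ R with hB
  have m1 : ∀ s ∈ A, s ≠ 0 ∧ 1 - 2 * c * s - c * (1 - c) * s * s = y s * y s := fun s hs =>
    ⟨(mem_erase.1 hs).1, hy s (mem_erase.1 hs).2⟩
  have m2 : ∀ s ∈ B, s ≠ 0 ∧ 1 - 2 * c * s - c * (1 - c) * s * s = -y s * -y s := fun s hs =>
    ⟨(m1 s (mem_sdiff.1 hs).1).1, by rw [neg_mul_neg]; exact (m1 s (mem_sdiff.1 hs).1).2⟩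
  have h4 : (A.image fun s => (y s - 1) / s).card = A.card := card_image_of_injOn
    fun s hs t ht e => (k (m1 s hs).1 (m1 t ht).1 (m1 s hs).2 (m1 t ht).2 e).1
  have h5 : (B.image fun s => (-y s - 1) / s).card = B.card := card_image_of_injOn
    fun s hs t ht e => (k (m2 s hs).1 (m2 t ht).1 (m2 s hs).2 (m2 t ht).2 e).1
  have h6 : Disjoint (A.image fun s => (y s - 1) / s) (B.image fun s => (-y s - 1) / s) :=
    disjoint_left.2 fun x hx hx' => by
      obtain ⟨s, hs, rfl⟩ := mem_image.1 hx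
      obtain ⟨t, ht, e⟩ := mem_image.1 hx'
      obtain rfl := (k (m2 t ht).1 (m1 s hs).1 (m2 t ht).2 (m1 s hs).2 e).1
      have a1 := (m1 t hs).1
      have a2 : y t = 0 := mul_left_cancel₀ two (by field_simp at e; linear_combination -e)
      refine (mem_sdiff.1 ht).2 (mem_qrts.2 ?_)
      have := (m1 t hs).2
      rw [a2] at this
      linear_combination this
  have h7 : (A.image fun s => (y s - 1) / s) ∪ (B.image fun s => (-y s - 1) / s) ⊆
      univ.erase (-c) := fun x hx => by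
    refine mem_erase.2 ⟨?_, mem_univ _⟩
    rcases mem_union.1 hx with e | e <;> obtain ⟨s, hs, rfl⟩ := mem_image.1 e
    · exact (k (m1 s hs).1 (m1 s hs).1 (m1 s hs).2 (m1 s hs).2 rfl).2
    · exact (k (m2 s hs).1 (m2 s hs).1 (m2 s hs).2 (m2 s hs).2 rfl).2
  have h8 := card_le_card h7
  rw [card_union_of_disjoint h6, card_erase_of_mem (mem_univ _), card_univ, h4, h5] at h8
  have := Fintype.card_pos (α := F)
  omega

omit [Fintype F] [DecidableEq F] in
theorem sq_add_ne (hn : ¬ IsSquare (-1 : F)) {α β : F} (h : α ≠ 0 ∨ β ≠ 0) :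
    α * α + β * β ≠ 0 := fun e => by
  rcases h with h | h
  · exact hn ⟨β / α, by field_simp; linear_combination -e⟩
  · exact hn ⟨α / β, by field_simp; linear_combination -e⟩

theorem card_dvd_of_add_mem {G : Type*} [AddCommGroup G] [Finite G] (Λ : AddSubgroup G)
    {T : Finset G} (h : ∀ x ∈ Λ, ∀ s ∈ T, x + s ∈ T) : Nat.card Λ ∣ T.card := by
  classical
  rw [card_eq_sum_card_image (QuotientAddGroup.mk : G → G ⧸ Λ) T]
  refine dvd_sum fun b hb => dvd_of_eq ?_
  obtain ⟨s, hs, rfl⟩ := mem_image.1 hb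
  rw [← Nat.card_eq_finsetCard]
  refine Nat.card_congr ⟨fun x => ⟨x + s, mem_filter.2 ⟨h x x.2 s hs, ?_⟩⟩,
    fun t => ⟨t - s, ?_⟩, fun x => by simp, fun t => by simp⟩
  · exact QuotientAddGroup.eq.2 (by simp)
  · have := QuotientAddGroup.eq.1 (mem_filter.1 t.2).2.symm
    rwa [neg_add_eq_sub] at this

theorem no_bad (hn : ¬ IsSquare (-1 : F)) {κ : Type*} {c : κ → F} {i j k : κ} (n1 : i ≠ j)
    (n2 : i ≠ k) (n3 : j ≠ k) (h1 : c i + c j + c k = 1)
    (h0 : ∀ l, c l ≠ 0) (hs : ∀ l, IsSquare (c l))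
    (H1 : ∀ l, ∀ α β s : F, α ≠ 0 ∨ β ≠ 0 → s * (α * α + β * β) = -4 * (α * α) →
      IsSquare (1 - 2 * c l * s - c l * (1 - c l) * s * s))
    (H2 : ∀ l m, l ≠ m → c l = c m → ∀ α β s : F, α ≠ 0 ∨ β ≠ 0 →
      s * (α * α + β * β) = -4 * (α * α) →
      IsSquare ((4 * c l - 1) * (4 * c l - 1) + (4 * c l - 2) * s)) : False := by
  classical
  have two : (2 : F) ≠ 0 := fun e => hn ⟨1, by linear_combination -e⟩
  have four : (4 : F) ≠ 0 := fun e => mul_ne_zero two two (by linear_combination e)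
  set T : Finset F :=
    univ.filter fun s => ∃ α β : F, (α ≠ 0 ∨ β ≠ 0) ∧ s * (α * α + β * β) = -4 * (α * α) with hT
  have mT : ∀ {s}, s ∈ T ↔ ∃ α β : F, (α ≠ 0 ∨ β ≠ 0) ∧ s * (α * α + β * β) = -4 * (α * α) := by
    simp [hT]
  have t1 : Fintype.card F + 3 ≤ 2 * T.card := by
    have a1 := card_qval (one_ne_zero (α := F)) 0 0
    have a2 : ∀ x ∈ qval (1 : F) 0 0, x + 1 ≠ 0 ∧ ∃ α, x = α * α := fun x hx => by
      obtain ⟨α, rfl⟩ := mem_qval.1 hx
      exact ⟨by simpa using sq_add_ne hn (α := α) (Or.inr one_ne_zero), α, by ring⟩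
    have a3 : ((qval (1 : F) 0 0).image fun x => -4 * x / (x + 1)).card = (qval (1 : F) 0 0).card :=
      card_image_of_injOn fun x hx y hy e => by
        have b1 := (a2 x hx).1
        have b2 := (a2 y hy).1
        field_simp at e
        linear_combination -e
    have a4 : insert (-4) ((qval (1 : F) 0 0).image fun x => -4 * x / (x + 1)) ⊆ T := fun s hs => by
      rcases mem_insert.1 hs with rfl | hs
      · exact mT.2 ⟨1, 0, Or.inl one_ne_zero, by ring⟩
      obtain ⟨x, hx, rfl⟩ := mem_image.1 hs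
      obtain ⟨b1, α, rfl⟩ := a2 x hx
      exact mT.2 ⟨α, 1, Or.inr one_ne_zero, by rw [mul_one, div_mul_cancel₀ _ b1]⟩
    have a5 := card_le_card a4
    rw [card_insert_of_notMem (fun e => by
      obtain ⟨x, hx, e⟩ := mem_image.1 e
      have b1 := (a2 x hx).1
      field_simp at e
      exact one_ne_zero (α := F) (by linear_combination e)), a3] at a5
    have a6 := odd_card_iff.2 two
    obtain ⟨r, hr⟩ := a6
    omega
  have t2 : ∀ s ∈ T, -4 - s ∈ T := fun s hs => by
    obtain ⟨α, β, a1, a2⟩ := mT.1 hs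
    exact mT.2 ⟨β, α, a1.symm, by linear_combination -a2⟩
  have ne : ∀ l m n, l ≠ m → c l + c m + c n = 1 → c l ≠ c m := fun l m n hlm e1 e => by
    have := card_sq_lin hn (a := (4 * c l - 1) * (4 * c l - 1)) (b := 4 * c l - 2) (S := T)
      (fun e' => mul_ne_zero two (h0 n) (by linear_combination 2 * e1 - e' + 2 * e))
      fun s hs => let ⟨α, β, a1, a2⟩ := mT.1 hs; H2 l m hlm e α β s a1 a2
    omega
  have c1 : ∀ l, 1 - c l ≠ 0 := fun l e => by
    have := card_sq_lin hn (a := 1) (b := -2) (S := T) (neg_ne_zero.2 two) fun s hs => by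
      obtain ⟨α, β, a1, a2⟩ := mT.1 hs
      have := H1 l α β s a1 a2
      rwa [e, ← sub_eq_zero.1 e, show (1 : F) - 2 * 1 * s - 1 * 0 * s * s = 1 + -2 * s by ring]
        at this
    omega
  let Λ := AddAction.stabilizer F T
  have t3 : ∀ l, 4 - 2 / (1 - c l) ∈ Λ := fun l => by
    set S : Finset F := univ.filter fun s => IsSquare (1 - 2 * c l * s - c l * (1 - c l) * s * s)
      with hS
    have a1 : T ⊆ S := fun s hs => mem_filter.2 ⟨mem_univ _,
      let ⟨α, β, a1, a2⟩ := mT.1 hs; H1 l α β s a1 a2⟩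
    have a2 := card_sq_quad two (h0 l) (S := S) fun s hs => (mem_filter.1 hs).2
    have a3 : T = S := eq_of_subset_of_card_le a1 (by omega)
    refine AddAction.mem_stabilizer_iff.2 (eq_of_subset_of_card_le (fun x hx => ?_) (by simp))
    obtain ⟨s, hs, rfl⟩ := mem_vadd_finset.1 hx
    have a4 := (mem_filter.1 (a1 (t2 s hs))).2
    rw [a3]
    refine mem_filter.2 ⟨mem_univ _, ?_⟩
    convert a4 using 1
    have := c1 l
    simp only [vadd_eq_add]
    field_simp
    ring
  have t4 : Nat.card Λ ∣ T.card := card_dvd_of_add_mem Λ fun x hx s hs =>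
    AddAction.mem_stabilizer_iff.1 hx ▸ vadd_mem_vadd_finset hs
  have t5 : Nat.card Λ ∣ Fintype.card F := by
    rw [← Nat.card_eq_fintype_card]; exact AddSubgroup.card_addSubgroup_dvd_card Λ
  have t6 : 2 * T.card = Fintype.card F + 3 := by
    have := card_sq_quad two (h0 i) (S := T) fun s hs =>
      let ⟨α, β, a1, a2⟩ := mT.1 hs; H1 i α β s a1 a2
    omega
  have t7 : Nat.card Λ ∣ 3 := (Nat.dvd_add_right t5).1 (t6 ▸ t4.mul_left 2)
  have inj : ∀ l m, c l ≠ c m → 4 - 2 / (1 - c l) ≠ 4 - 2 / (1 - c m) := fun l m hlm e => by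
    have a1 := c1 l
    have a2 := c1 m
    field_simp at e
    exact hlm (mul_left_cancel₀ two (by linear_combination -e))
  have p1 := inj _ _ (ne i j k n1 h1)
  have p2 := inj _ _ (ne i k j n2 (by linear_combination h1))
  have p3 := inj _ _ (ne j k i n3 (by linear_combination h1))
  have sub : ∀ s : Finset F, (∀ x ∈ s, x ∈ Λ) → s.card ≤ Nat.card Λ := fun s hs => by
    rw [← Set.ncard_coe_finset]
    exact Set.ncard_le_ncard (t := (Λ : Set F)) hs
  have t8 : Nat.card Λ = 3 := le_antisymm (Nat.le_of_dvd (by norm_num) t7) (by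
    have := sub {4 - 2 / (1 - c i), 4 - 2 / (1 - c j), 4 - 2 / (1 - c k)} (by simp [t3])
    rwa [card_insert_of_notMem (by simp only [mem_insert, mem_singleton, not_or]; exact ⟨p1, p2⟩),
      card_pair p3] at this)
  have three : (3 : F) = 0 := by
    obtain ⟨x, hx, hx0⟩ : ∃ x ∈ Λ, x ≠ 0 := by
      by_cases e : 4 - 2 / (1 - c i) = 0
      · exact ⟨_, t3 j, fun e' => p1 (e.trans e'.symm)⟩
      · exact ⟨_, t3 i, e⟩
    have := congrArg Subtype.val (card_nsmul_eq_zero' (G := Λ) (x := ⟨x, hx⟩))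
    rw [t8] at this
    simpa [hx0] using this
  have nz : ∀ l, (0 : F) ≠ 4 - 2 / (1 - c l) := fun l e => by
    have a1 := c1 l
    field_simp at e
    refine hn ?_
    convert hs l using 1
    linear_combination -e + (c l - 1) * three
  have := sub {0, 4 - 2 / (1 - c i), 4 - 2 / (1 - c j), 4 - 2 / (1 - c k)} (by simp [t3])
  rw [card_insert_of_notMem (by simp only [mem_insert, mem_singleton, not_or]; exact ⟨nz _, nz _, nz _⟩),
    card_insert_of_notMem (by simp only [mem_insert, mem_singleton, not_or]; exact ⟨p1, p2⟩),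
    card_pair p3] at this
  omega

end H12
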