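import Cfsg.Agent.H12.P3b

/-!
# Three orthogonal planes: supports and anisotropic planes
-/

set_option autoImplicit false
set_option maxHeartbeats 400000

namespace H12

open Module H11 QuadraticMap

variable {F : Type*} [Field F] [Fintype F] {V : Type*} [AddCommGroup V] [Module F V]
  {Q : QuadraticForm F V} [FiniteDimensional F V] {X : Subgroup (V ≃ₗ[F] V)}
  {κ : Type*} [Fintype κ] {D : κ → Submodule F V} {π : κ → V →ₗ[F] V}

local notation "𝓒" => CForm.ofQuad Q

namespace P3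

variable (h : P3 Q X D π)
include h

theorem mv {y : V} (hy : Nw Q X D y) {l p : κ} (hp : π p y = 0) :
    ∃ y', RR Q X y' y ∧ π l y' = 0 ∧ (π l y ≠ 0 → π p y' ≠ 0) ∧
      ∀ r, r ≠ l → r ≠ p → π r y' = π r y := by
  obtain ⟨g, hg, e1, e2, e3⟩ := h.dec.exists_swap_isom h.nd l p
  refine ⟨g y, h.map_rr' hy hp hg.1 hg.2, by rw [h.proj_map hg.2 e2, hp, map_zero], fun h0 e => ?_,
    fun r a b => ?_⟩
  · rw [h.proj_map hg.2 e1] at e
    exact h0 (g.injective (e.trans (map_zero g).symm))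
  · rw [h.proj_map hg.2 (mem_glStab_iff_map.1 (mem_glStab_of_mapsTo fun x hx => by
      rwa [e3 r a b x hx])), e3 r a b _ (h.proj.mem r y)]

theorem tw {y : V} (hy : Nw Q X D y) {i o : κ} (ho : π o y = 0) (hi : π i y ≠ 0) :
    ∃ y', RR Q X y' y ∧ π i y' ∉ Submodule.span F {π i y} ∧ polar Q (π i y) (π i y') ≠ 0 ∧
      ∀ r, r ≠ i → π r y' = π r y := by
  obtain ⟨d, hd, e, h1, h2⟩ := (h.pl i).exists_twin h.nd (h.proj.mem i y) hi
  obtain ⟨g, hg, -, h3⟩ := h.nd.witt_sub (h.pl i).nd bot_le (h.proj.mem i y) hd (by simpa)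
    (fun e => h2 (((Submodule.mem_bot F).1 e).symm ▸ zero_mem _)) (by simp) e
  have h4 := h.proj_sub hg y
  rw [h3, sub_eq_iff_eq_add] at h4
  have h5 : π i (g y) = d := by
    rw [h4, map_add, map_sub, h.proj.self hd, h.proj.self (h.proj.mem i y), sub_add_cancel]
  refine ⟨g y, h.map_rr' hy ho (h.dec.subG_le h.nd i hg).1 hg.1, h5 ▸ h2, h5 ▸ h1, fun r hr => ?_⟩
  rw [h4, map_add, map_sub, h.proj.other r i hr _ hd, h.proj.other r i hr _ (h.proj.mem i y),
    sub_self, zero_add]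

theorem comb {y y' : V} (hy : Nw Q X D y) (h1 : RR Q X y' y) {i : κ} (hi : π i y ≠ 0)
    (h2 : π i y' ∉ Submodule.span F {π i y}) (h3 : polar Q (π i y) (π i y') ≠ 0)
    (h4 : ∀ r, r ≠ i → π r y = 0 ∨ π r y' = 0) :
    ∃ c : F, c ≠ 0 ∧ RR Q X (y' - c • y) y ∧
      ∀ r, (π r y ≠ 0 ∨ π r y' ≠ 0) → π r (y' - c • y) ≠ 0 := by
  have h5 : (Q y)⁻¹ * polar Q y y' ≠ 0 := by
    rw [h.polar_eq_sum, Finset.sum_eq_single i (fun r _ hr => by
      rcases h4 r hr with e | e <;> simp [e]) (fun e => absurd (Finset.mem_univ _) e)]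
    exact mul_ne_zero (inv_ne_zero hy.1) h3
  refine ⟨_, h5, h1.refl_apply (rr_self hy.1), fun r hr e => ?_⟩
  rw [map_sub, map_smul, sub_eq_zero] at e
  by_cases h6 : r = i
  · subst h6
    exact h2 (e ▸ Submodule.smul_mem _ _ (Submodule.mem_span_singleton_self _))
  rcases h4 r h6 with e' | e'
  · rw [e', smul_zero] at e
    exact hr.elim (fun a => a e') fun a => a e
  · rw [e', eq_comm, smul_eq_zero, or_iff_right h5] at e
    exact hr.elim (fun a => a e) fun a => a e'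

theorem grow {y : V} (hy : Nw Q X D y) {i l : κ} (hli : l ≠ i) (hi : π i y ≠ 0) (hl : π l y ≠ 0) :
    ∃ z, RR Q X z y ∧ (∀ r, π r z ≠ 0) ∧ ∃ c : F, c ≠ 0 ∧ π l z = c • π l y := by
  obtain ⟨p, p1, p2⟩ := h.third (i := i) (j := l)
  by_cases h1 : π p y = 0
  swap
  · exact ⟨y, rr_self hy.1, fun r => by
      rcases h.cases3 hli.symm p1.symm p2.symm r with rfl | rfl | rfl <;> assumption,
      1, one_ne_zero, (one_smul _ _).symm⟩
  obtain ⟨y₁, a1, a2, a3, a4⟩ := h.mv hy (l := l) h1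
  have a5 := a4 i hli.symm p1.symm
  obtain ⟨y₂, b1, b2, b3, b4⟩ := h.tw (h.nw_rr hy a1) a2 (a5 ▸ hi)
  rw [a5] at b2 b3
  obtain ⟨c, c0, hz, c1⟩ := h.comb hy (b1.trans a1) hi b2 b3 fun r hr => by
    rcases h.cases3 hli.symm p1.symm p2.symm r with rfl | rfl | rfl
    · exact absurd rfl hr
    · exact Or.inr (by rw [b4 r hr, a2])
    · exact Or.inl h1
  refine ⟨_, hz, fun r => c1 r ?_, -c, neg_ne_zero.2 c0, by
    rw [map_sub, map_smul, b4 l hli, a2, zero_sub, neg_smul]⟩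
  rcases h.cases3 hli.symm p1.symm p2.symm r with rfl | rfl | rfl
  · exact Or.inl hi
  · exact Or.inl hl
  · exact Or.inr (by rw [b4 r p1]; exact a3 hl)

theorem grow3 {y : V} (hy : Nw Q X D y) (h0 : ∀ j, y ∉ D j) :
    ∃ z, Nw Q X D z ∧ ∀ r, π r z ≠ 0 := by
  obtain ⟨i, hi⟩ : ∃ l, π l y ≠ 0 := by
    by_contra hc
    push Not at hc
    exact ne_zero_of_Q hy.1 (h.proj.eq_zero hc)
  obtain ⟨l, hli, hl⟩ : ∃ j, j ≠ i ∧ π j y ≠ 0 := by
    by_contra hc
    push Not at hc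
    exact h0 i (h.proj.mem_iff.2 hc)
  obtain ⟨z, a, b, -⟩ := h.grow hy hli hi hl
  exact ⟨z, h.nw_rr hy a, b⟩

theorem refl_two {y a b : V} {i j : κ} (hij : i ≠ j) (ha : a ∈ D i) (hb : b ∈ D j)
    (h1 : polar Q a y = 1) (h2 : polar Q b y = 1) (h3 : Q a + Q b = 0) :
    (refl Q a).1 ((refl Q b).1 y) = y + (Q a)⁻¹ • (b - a) := by
  rw [refl_apply, refl_apply, polar_sub_right, polar_smul_right, h.o hij ha hb, h1, h2,
    show Q b = -Q a by linear_combination h3, inv_neg]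
  module

theorem two_aux {y a b : V} {i j : κ} (hij : i ≠ j) (ha : a ∈ D i) (hb : b ∈ D j)
    (h1 : polar Q a y = 1) (h2 : polar Q b y = 1) (h3 : Q a + Q b = 0) (ha0 : Q a ≠ 0) :
    Q ((Q a)⁻¹ • (b - a)) = 0 ∧ polar Q ((Q a)⁻¹ • (b - a)) y = 0 ∧
      π i ((Q a)⁻¹ • (b - a)) = (-(Q a)⁻¹) • a ∧ π j ((Q a)⁻¹ • (b - a)) = (Q a)⁻¹ • b ∧
      ∀ r, r ≠ i → r ≠ j → π r ((Q a)⁻¹ • (b - a)) = 0 := by
  refine ⟨?_, ?_, ?_, ?_, fun r a1 a2 => ?_⟩
  · rw [Q_smul, Q_sub, h.o hij.symm hb ha]; linear_combination (Q a)⁻¹ * (Q a)⁻¹ * h3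
  · rw [polar_smul_left, polar_sub_left, h1, h2, sub_self, smul_zero]
  · rw [map_smul, map_sub, h.proj.self ha, h.proj.other i j hij _ hb]; module
  · rw [map_smul, map_sub, h.proj.self hb, h.proj.other j i hij.symm _ ha, sub_zero]
  · rw [map_smul, map_sub, h.proj.other r i a1 _ ha, h.proj.other r j a2 _ hb, sub_self, smul_zero]

theorem refl_any {y x d : V} (hy : Nw Q X D y) {o j : κ} (hx : x ∈ D o) (hx0 : Q x ≠ 0)
    (h1 : polar Q x y = 0) (h2 : ¬ IsSquare (Q x * Q y)) (hd : d ∈ D j) (hd0 : Q d ≠ 0) :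
    RR Q X ((refl Q d).1 y) y := by
  by_cases h3 : IsSquare (Q d * Q y)
  · exact (rr_self hy.1).refl_apply (hy.2 j d hd hd0 h3)
  · have := h.refl_rr hy hd hx (h.rr hd hx hd0 hx0 (isSquare_of_not hd0 hx0 hy.1 h3 h2))
    rwa [refl_apply_of_orth h1] at this

variable (han : ∀ i, ∀ x ∈ D i, Q x = 0 → x = 0)
include han

theorem pair_an {y : V} {i j : κ} (hi : π i y ≠ 0) (hj : π j y ≠ 0) :
    ∃ a ∈ D i, ∃ b ∈ D j, polar Q a y = 1 ∧ polar Q b y = 1 ∧ Q a + Q b = 0 ∧ Q a ≠ 0 := by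
  classical
  have k : ∀ i, π i y ≠ 0 → ∃ p ∈ D i, ∃ p' ∈ D i, Q p' ≠ 0 ∧
      (∀ s : F, polar Q (p + s • p') y = 1 ∧ Q (p + s • p') ≠ 0 ∧
        Q p' * s * s + polar Q p p' * s + Q p = Q (p + s • p')) := fun i hi => by
    obtain ⟨p, hp, h1⟩ := (h.pl i).nd.exists_eq (h.proj.mem i y) hi 1
    rw [CForm.ofQuad_B, polar_comm, h.bp hp] at h1
    obtain ⟨p', hp', h2, h3⟩ := (h.pl i).exists_perp h.nd y
    refine ⟨p, hp, p', hp', fun e => h2 (han i _ hp' e), fun s => ?_⟩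
    have h4 : polar Q (p + s • p') y = 1 := by
      rw [polar_add_left, polar_smul_left, h1, polar_comm, h3]; simp
    refine ⟨h4, fun e => ?_, by rw [Q_add, Q_smul, polar_smul_right, smul_eq_mul]; ring⟩
    rw [han i _ (add_mem hp ((D i).smul_mem s hp')) e] at h4
    simp at h4
  obtain ⟨p, hp, p', hp', a1, a2⟩ := k i hi
  obtain ⟨r, hr, r', hr', b1, b2⟩ := k j hj
  obtain ⟨s, s', e⟩ := exists_qval_add a1 b1 (fun s => (a2 s).2.2.trans_ne (a2 s).2.1)
    fun s => (b2 s).2.2.trans_ne (b2 s).2.1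
  rw [(a2 s).2.2, (b2 s').2.2] at e
  exact ⟨_, add_mem hp ((D i).smul_mem s hp'), _, add_mem hr ((D j).smul_mem s' hr'), (a2 s).1,
    (b2 s').1, e, (a2 s).2.1⟩

theorem tan_two (hq : Fintype.card F ≠ 2) {y a b : V} (hy : Nw Q X D y) {i j m : κ} (hij : i ≠ j)
    (hmi : m ≠ i) (hmj : m ≠ j) (ha : a ∈ D i) (hb : b ∈ D j) (h1 : polar Q a y = 1)
    (h2 : polar Q b y = 1) (h3 : Q a + Q b = 0) (ha0 : Q a ≠ 0) (hm : π m y ≠ 0)
    (hr : RR Q X ((refl Q a).1 ((refl Q b).1 y)) y) : OmegaV Q ≤ X := by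
  obtain ⟨a1, a2, a3, -, a5⟩ := h.two_aux hij ha hb h1 h2 h3 ha0
  rw [h.refl_two hij ha hb h1 h2 h3] at hr
  refine h.tan hq han hy hr (fun e => ?_) a1 a2 (a5 m hmi hmj) hm
  rw [e, map_zero] at a3
  exact smul_ne_zero (neg_ne_zero.2 (inv_ne_zero ha0)) (ne_zero_of_Q ha0) a3.symm

theorem free_case (hq : Fintype.card F ≠ 2) {y : V} (hy : Nw Q X D y) {i j m o : κ} (hij : i ≠ j)
    (hmi : m ≠ i) (hmj : m ≠ j) (hoj : o ≠ j) (hi : π i y ≠ 0) (hj : π j y ≠ 0) (hm : π m y ≠ 0)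
    (hf : IsSquare (-1 : F) ∨
      ∃ x ∈ D o, Q x ≠ 0 ∧ polar Q x y = 0 ∧ ¬ IsSquare (Q x * Q y)) : OmegaV Q ≤ X := by
  obtain ⟨a, ha, b, hb, h1, h2, h3, h4⟩ := h.pair_an han hi hj
  have h5 : Q b = -Q a := by linear_combination h3
  have h6 : Q b ≠ 0 := h5.trans_ne (neg_ne_zero.2 h4)
  refine h.tan_two han hq hy hij hmi hmj ha hb h1 h2 h3 h4 hm ?_
  rcases hf with ⟨ι, hι⟩ | ⟨x, hx, x0, x1, x2⟩
  · exact h.refl_rr hy ha hb (h.rr ha hb h4 h6 ⟨ι * Q a, by rw [h5]; linear_combination Q a * Q a * hι⟩)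
  · have h7 := h.refl_any hy hx x0 x1 x2 hb h6
    refine (h.refl_any (h.nw_rr hy h7) hx x0 ?_ (by rwa [orth_Q]) ha h4).trans h7
    rw [refl_apply, polar_sub_right, polar_smul_right, x1, h.o hoj hx hb]; simp

variable (hn : ¬ IsSquare (-1 : F))
include hn

theorem exists_perp_eq {l : κ} {a : V} (ha : a ∈ D l) (a0 : a ≠ 0) :
    ∃ x ∈ D l, polar Q a x = 0 ∧ Q x = Q a := by
  have two : (2 : F) ≠ 0 := fun e => hn ⟨1, by linear_combination -e⟩
  have a1 : Q a ≠ 0 := fun e => a0 (han l a ha e)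
  obtain ⟨b, hb, b0, e⟩ := (h.pl l).exists_perp_ns h.nd ha a1
  obtain ⟨r, hr⟩ : IsSquare (Q a * Q b) := isSquare_of_not a1 b0 (neg_ne_zero.2 a1)
    (fun ⟨r, hr⟩ => hn ⟨r / Q a, by field_simp; linear_combination hr⟩) fun ⟨r, hr⟩ => by
      have h5 := congrArg (polar Q b) (han l _ (add_mem ((D l).smul_mem r ha)
        ((D l).smul_mem (Q a) hb)) (by
          rw [Q_add, Q_smul, Q_smul, polar_smul_left, polar_smul_right, e]
          simp only [smul_eq_mul]
          linear_combination -Q a * hr))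
      rw [polar_add_right, polar_smul_right, polar_smul_right, polar_comm, e, polar_self',
        polar_zero_right] at h5
      simp [a1, b0, two] at h5
  refine ⟨(r / Q b) • b, (D l).smul_mem _ hb, by rw [polar_smul_right, e, smul_zero], ?_⟩
  rw [Q_smul]
  field_simp
  linear_combination -hr

theorem free3 {y : V} (hy : Nw Q X D y) {l : κ} (hl : π l y ≠ 0)
    (hs : ¬ IsSquare (Q (π l y) * Q y)) : OmegaV Q ≤ X := by
  have hq : Fintype.card F ≠ 2 := fun e => hn ⟨1, by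
    have := FiniteField.cast_card_eq_zero F
    rw [e] at this
    linear_combination -this⟩
  obtain ⟨i, hli, hi⟩ : ∃ j, j ≠ l ∧ π j y ≠ 0 := by
    by_contra hc
    push Not at hc
    rw [h.proj.self (h.proj.mem_iff.2 hc)] at hs
    exact hs ⟨_, rfl⟩
  obtain ⟨z, z1, z2, c, c0, z3⟩ := h.grow hy hli.symm hi hl
  obtain ⟨x, hx, x1, x2⟩ := h.exists_perp_eq han hn (h.proj.mem l z) (z2 l)
  obtain ⟨m, m1, m2⟩ := h.third (i := l) (j := i)
  have q0 : Q (π l y) ≠ 0 := fun e => hl (han l _ (h.proj.mem l y) e)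
  have x0 : Q x ≠ 0 := by rw [x2, z3, Q_smul]; exact mul_ne_zero (mul_ne_zero c0 c0) q0
  refine h.free_case han hq (h.nw_rr hy z1) hli.symm m1 m2 hli.symm (z2 _) (z2 _) (z2 _)
    (Or.inr ⟨x, hx, x0, by rwa [← h.bp hx, polar_comm], fun e => hs ?_⟩)
  obtain ⟨r, hr⟩ := isSquare_trans x0 z1.1 hy.1 e (z1.isSquare h.nd h.ne h.le)
  rw [x2, z3, Q_smul] at hr
  exact ⟨r / c, by field_simp; linear_combination hr⟩

theorem move {y : V} (hy : Nw Q X D y) (hX : ¬ OmegaV Q ≤ X) {i j : κ} (hij : i ≠ j)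
    (hi : π i y ≠ 0) (hj : π j y ≠ 0) (si : IsSquare (Q (π i y) * Q y))
    (sj : IsSquare (Q (π j y) * Q y)) {α β γ δ s t k : F} (h1 : α ≠ 0 ∨ β ≠ 0)
    (h2 : γ * γ + δ * δ = α * α + β * β) (hs : s * (α * α + β * β) = -4 * (α * α))
    (ht : t * (α * α + β * β) = -4 * (γ * γ))
    (hk : k = 1 + s * (Q (π i y) / Q y) + t * (Q (π j y) / Q y)) :
    IsSquare (k * k - s * k - s) := by
  by_contra hc
  have n0 := sq_add_ne hn h1
  have mi := h.proj.mem i y
  have mj := h.proj.mem j y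
  obtain ⟨x, hx, x1, x2⟩ := h.exists_perp_eq han hn mi hi
  obtain ⟨z, hz, z1, z2⟩ := h.exists_perp_eq han hn mj hj
  have qi : Q (π i y) ≠ 0 := fun e => hi (han i _ mi e)
  have qj : Q (π j y) ≠ 0 := fun e => hj (han j _ mj e)
  have ma := add_mem ((D i).smul_mem α mi) ((D i).smul_mem β hx)
  have mb := add_mem ((D j).smul_mem γ mj) ((D j).smul_mem δ hz)
  have qa : Q (α • π i y + β • x) = (α * α + β * β) * Q (π i y) := by
    rw [Q_add, Q_smul, Q_smul, polar_smul_left, polar_smul_right, x1, x2]; simp; ring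
  have qb : Q (γ • π j y + δ • z) = (α * α + β * β) * Q (π j y) := by
    rw [Q_add, Q_smul, Q_smul, polar_smul_left, polar_smul_right, z1, z2, ← h2]; simp; ring
  have pa : polar Q (α • π i y + β • x) y = 2 * α * Q (π i y) := by
    rw [← h.bp ma, polar_add_left, polar_smul_left, polar_smul_left, polar_self', polar_comm, x1]
    simp; ring
  have pb : polar Q (γ • π j y + δ • z) y = 2 * γ * Q (π j y) := by
    rw [← h.bp mb, polar_add_left, polar_smul_left, polar_smul_left, polar_self', polar_comm, z1]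
    simp; ring
  have hN := hy.1
  have h3 := (h.refl_rr hy ma mb (h.rr ma mb (qa.trans_ne (mul_ne_zero n0 qi))
    (qb.trans_ne (mul_ne_zero n0 qj)) (by
      obtain ⟨r, hr⟩ := isSquare_trans qi hN qj si (by rwa [mul_comm])
      exact ⟨(α * α + β * β) * r, by
        rw [qa, qb]; linear_combination (α * α + β * β) ^ 2 * hr⟩))).refl_apply (rr_self hN)
  have h4 : π i ((refl Q y).1 ((refl Q (α • π i y + β • x)).1 ((refl Q (γ • π j y + δ • z)).1 y))) =
      (s / 2 - k) • π i y - (2 * α * β / (α * α + β * β)) • x := by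
    have two : (2 : F) ≠ 0 := fun e => hn ⟨1, by linear_combination -e⟩
    have e1 : s = -4 * (α * α) / (α * α + β * β) := eq_div_of_mul_eq n0 hs
    have e2 : t = -4 * (γ * γ) / (α * α + β * β) := eq_div_of_mul_eq n0 ht
    have e3 := h.proj.self ma
    have e4 := h.proj.other i j hij _ mb
    have e5 := h.o hij ma mb
    generalize ha : α • π i y + β • x = a at *
    generalize γ • π j y + δ • z = b at *
    simp only [refl_apply, polar_sub_right, polar_smul_right, pa, pb, qa, qb, e5, map_sub, map_smul,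
      e3, e4, polar_comm Q y a, polar_comm Q y b, polar_self', smul_eq_mul]
    rw [← ha, hk, e1, e2]
    generalize α * α + β * β = n at *
    match_scalars <;> field_simp <;> ring
  have h5 : Q ((s / 2 - k) • π i y - (2 * α * β / (α * α + β * β)) • x) =
      (k * k - s * k - s) * Q (π i y) := by
    have two : (2 : F) ≠ 0 := fun e => hn ⟨1, by linear_combination -e⟩
    have e1 : s = -4 * (α * α) / (α * α + β * β) := eq_div_of_mul_eq n0 hs
    rw [Q_sub, Q_smul, Q_smul, polar_smul_left, polar_smul_right, x1, x2, e1]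
    have : β * β = (α * α + β * β) - α * α := by ring
    generalize α * α + β * β = n at *
    simp only [smul_eq_mul]
    field_simp
    linear_combination 16 * α ^ 2 * Q (π i y) * this
  have k0 : k * k - s * k - s ≠ 0 := fun e => hc (e ▸ IsSquare.zero)
  refine hX (h.free3 han hn (h.nw_rr hy h3) (l := i) (ne_zero_of_Q (Q := Q) ?_) fun e => hc ?_)
  · rw [h4, h5]; exact mul_ne_zero k0 qi
  · rw [h4, h5, orth_Q, orth_Q, orth_Q] at e
    obtain ⟨r, hr⟩ := e
    obtain ⟨u, hu⟩ := si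
    have : u ≠ 0 := fun e => mul_ne_zero qi hN (by rw [hu, e, mul_zero])
    exact ⟨r / u, by field_simp; linear_combination hr - (k * k - s * k - s) * hu⟩

omit hn in
theorem an_case (hq : Fintype.card F ≠ 2) {y : V} (hy : Nw Q X D y) (h0 : ∀ j, y ∉ D j) :
    OmegaV Q ≤ X := by
  classical
  obtain ⟨y, hy, hz⟩ := h.grow3 hy h0
  obtain ⟨i, -⟩ := h.fresh [] (by simp)
  obtain ⟨j, n1, -⟩ := h.third (i := i) (j := i)
  obtain ⟨k, n2, n3⟩ := h.third (i := i) (j := j)
  by_cases hn : IsSquare (-1 : F)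
  · exact h.free_case han hq hy n1.symm n2 n3 n1.symm (hz _) (hz _) (hz _) (Or.inl hn)
  by_contra hX
  have hs : ∀ l, IsSquare (Q (π l y) * Q y) := fun l => by
    by_contra e
    exact hX (h.free3 han hn hy (hz l) e)
  have hN := hy.1
  have sm : ∀ {i j k}, i ≠ j → i ≠ k → j ≠ k →
      Q (π i y) / Q y + Q (π j y) / Q y + Q (π k y) / Q y = 1 := fun {i j k} n1 n2 n3 => by
    have m := fun l => h.proj.mem l y
    have := congrArg Q (h.sum3 n1 n2 n3 y)
    rw [Q_add, Q_add, polar_add_left, h.o n1 (m _) (m _), h.o n2 (m _) (m _),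
      h.o n3 (m _) (m _)] at this
    field_simp
    linear_combination -this
  refine no_bad hn (c := fun l => Q (π l y) / Q y) n1.symm n2.symm n3.symm
    (sm n1.symm n2.symm n3.symm)
    (fun l => div_ne_zero (fun e => hz l (han l _ (h.proj.mem l y) e)) hN)
    (fun l => let ⟨r, hr⟩ := hs l; ⟨r / Q y, by field_simp; linear_combination hr⟩)
    (fun l α β s a1 a2 => ?_) fun l m hlm e α β s a1 a2 => ?_
  · obtain ⟨i, n1, -⟩ := h.third (i := l) (j := l)
    obtain ⟨j, n2, n3⟩ := h.third (i := l) (j := i)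
    have := h.move han hn hy hX n3.symm (hz i) (hz j) (hs i) (hs j) a1 rfl a2 a2 rfl
    have e := sm n3.symm n1 n2
    convert this using 1
    rw [show Q (π l y) / Q y = 1 - Q (π i y) / Q y - Q (π j y) / Q y by linear_combination e]
    ring
  · have := h.move han hn hy hX hlm (hz l) (hz m) (hs l) (hs m) (γ := β) (δ := α) (t := -4 - s) a1
      (add_comm _ _) a2 (by linear_combination -a2) rfl
    convert this using 1
    beta_reduce at e
    rw [← e]
    ring

omit hn in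
theorem two_case (hq : Fintype.card F = 2) {y : V} (hy : Nw Q X D y) (h0 : ∀ j, y ∉ D j) :
    OmegaV Q ≤ X := by
  have two : (2 : F) = 0 := by
    have := FiniteField.cast_card_eq_zero F
    rwa [hq] at this
  have q1 : ∀ l, ∀ a ∈ D l, a ≠ 0 → Q a = 1 := fun l a ha a0 =>
    eq_one_of_card_two hq fun e => a0 (han l a ha e)
  obtain ⟨y, hy, hz⟩ := h.grow3 hy h0
  have step : ∀ z, RR Q X z y → ∀ l, π l z ≠ 0 → ∀ a ∈ D l, a ≠ 0 →
      RR Q X (z - π l z + a) y := fun z hz l z0 a ha a0 => by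
    by_cases e : a = π l z
    · rwa [e, sub_add_cancel]
    have m := h.proj.mem l z
    have m' := Submodule.sub_mem _ m ha
    have b0 := q1 l _ m' (sub_ne_zero.2 (Ne.symm e))
    have b1 := q1 l _ m z0
    have b2 := q1 l _ ha a0
    have := (h.refl_rr (h.nw_rr hy hz) m' m (h.rr' m' m (b0.trans_ne one_ne_zero)
      (b1.trans b0.symm))).trans hz
    have b3 : polar Q (π l z) z = 0 := by rw [← h.bp m, polar_self', two, zero_mul]
    have b4 : polar Q (π l z - a) z = 1 := by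
      rw [Q_sub, b1, b2] at b0
      rw [polar_sub_left, b3, ← h.bp ha, polar_comm]
      linear_combination b0 - two
    rw [refl_apply_of_orth b3, refl_apply, b0, b4] at this
    convert this using 1
    simp only [inv_one, mul_one, one_smul]
    abel
  obtain ⟨i, -⟩ := h.fresh [] (by simp)
  obtain ⟨j, n1, -⟩ := h.third (i := i) (j := i)
  obtain ⟨k, n2, n3⟩ := h.third (i := i) (j := j)
  have all : ∀ x, Q x ≠ 0 → RR Q X x y := fun x hx => by
    have m := fun l => h.proj.mem l x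
    have blk : ∀ l, x ∈ D l → RR Q X x y := fun l e =>
      hy.2 l x e hx (isSquare_of_two_eq_zero two _)
    have qs := congrArg Q (h.sum3 n1.symm n2.symm n3.symm x)
    rw [Q_add, Q_add, polar_add_left, h.o n1.symm (m _) (m _), h.o n2.symm (m _) (m _),
      h.o n3.symm (m _) (m _), eq_one_of_card_two hq hx] at qs
    have s := h.sum3 n1.symm n2.symm n3.symm x
    by_cases a : π i x = 0 <;> by_cases b : π j x = 0 <;> by_cases c : π k x = 0
    · exact absurd (by rw [s, a, b, c]; simp) hx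
    · exact blk k (by rw [s, a, b]; simpa using m k)
    · exact blk j (by rw [s, a, c]; simpa using m j)
    · rw [a, q1 j _ (m j) b, q1 k _ (m k) c, map_zero] at qs
      exact absurd (by linear_combination qs + two) (one_ne_zero (α := F))
    · exact blk i (by rw [s, b, c]; simpa using m i)
    · rw [b, q1 i _ (m i) a, q1 k _ (m k) c, map_zero] at qs
      exact absurd (by linear_combination qs + two) (one_ne_zero (α := F))
    · rw [c, q1 i _ (m i) a, q1 j _ (m j) b, map_zero] at qs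
      exact absurd (by linear_combination qs + two) (one_ne_zero (α := F))
    have o : ∀ {l r} (z : V), l ≠ r → π l (π r z) = 0 := fun z e =>
      h.proj.other _ _ e _ (h.proj.mem _ z)
    have s1 := step y (rr_self hy.1) i (hz i) _ (m i) a
    have e1 : π j (y - π i y + π i x) = π j y := by simp [o _ n1]
    have s2 := step _ s1 j (e1 ▸ hz j) _ (m j) b
    rw [e1] at s2
    have e2 : π k (y - π i y + π i x - π j y + π j x) = π k y := by simp [o _ n2, o _ n3]
    have s3 := step _ s2 k (e2 ▸ hz k) _ (m k) c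
    rw [e2] at s3
    convert s3 using 1
    linear_combination (norm := module) s - h.sum3 n1.symm n2.symm n3.symm y
  rintro _ ⟨g, hg, rfl⟩
  rw [SetLike.mem_coe, commutator_eq_ker_dickson h.nd h.ne two,
    ker_dickson_eq_closure h.nd h.ne] at hg
  refine (Subgroup.closure_le (X.subgroupOf _)).2 ?_ hg
  rintro _ ⟨a, b, ha, hb, rfl⟩
  exact ((all a ha).trans (all b hb).symm).2.2

end P3

end H12
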