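/-
S5855, chunk PG: LA (see notes/PG.md).
-/
import Cfsg.Agent.H4.PG0

set_option autoImplicit false
set_option linter.unusedSectionVars false
set_option linter.unusedVariables false
set_option linter.unusedSimpArgs false

open Module H4.PG
open scoped commutatorElement
namespace H12.PG

variable {F : Type*} [Field F] [Fintype F] {σ : F →+* F} {q : ℕ}
variable {G : Type*} [Group G] [Finite G] {ρ : G →* Matrix (Fin 7) (Fin 7) F}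

/-- lines in the plane -/
theorem line (h : FD σ q) {a b : F} (n : a ≠ 0 ∨ b ≠ 0) : {c : F × F | a * c.1 + b * c.2 = 0}.ncard ≤ q ^ 2 := by
  rw [← h.cF]
  rcases n with n | n
  · refine Set.ncard_le_ncard_of_injOn (·.2) (fun _ _ => trivial) fun c hc d hd e => Prod.ext (mul_left_cancel₀ n ?_) e
    have e : c.2 = d.2 := e
    have hc : a * c.1 + b * c.2 = 0 := hc
    have hd : a * d.1 + b * d.2 = 0 := hd
    linear_combination hc - hd - b * e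
  · refine Set.ncard_le_ncard_of_injOn (·.1) (fun _ _ => trivial) fun c hc d hd e => Prod.ext e (mul_left_cancel₀ n ?_)
    have e : c.1 = d.1 := e
    have hc : a * c.1 + b * c.2 = 0 := hc
    have hd : a * d.1 + b * d.2 = 0 := hd
    linear_combination hc - hd - a * e

/-- the chain `K₂ ≤ B ≤ K₄` when `g₂₃ ≡ 0` -/
theorem chA (h : Md σ q ρ) (z : ∀ g, ρ g 2 3 = 0) {S T : Set (F × F)} (hS : ∀ g, K4 ρ g → (ρ g 2 4, ρ g 3 4) ∈ S)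
    (hT : ∀ b, K4 ρ b → ρ b 2 4 = 0 → ρ b 3 4 = 0 → (ρ b 2 5, ρ b 3 5) ∈ T) :
    h.S2.index ≤ T.ncard * (S.ncard * q ^ 2) := by
  have ad : ∀ g ∈ h.S4, ∀ k ∈ h.S4, (fun g => (ρ g 2 4, ρ g 3 4)) (g * k) =
      (fun g => (ρ g 2 4, ρ g 3 4)) g + (fun g => (ρ g 2 4, ρ g 3 4)) k := fun g _ k _ => by simp [h.m24, h.m34, z]
  have mb : ∀ b, b ∈ ks h.S4 (fun g => (ρ g 2 4, ρ g 3 4)) ad → K4 ρ b ∧ ρ b 2 4 = 0 ∧ ρ b 3 4 = 0 := fun b a => by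
    have e : (ρ b 2 4, ρ b 3 4) = (0, 0) := a.2
    exact ⟨h.mem4.1 a.1, Prod.mk.inj e⟩
  refine (idx (H' := h.S2) (H := ks h.S4 (fun g => (ρ g 2 4, ρ g 3 4)) ad) (fun g a => ?_) (fun g => (ρ g 2 5, ρ g 3 5)) (Set.toFinite T)
    (fun g a => hT g (mb g a).1 (mb g a).2.1 (mb g a).2.2) fun g a k b e => ?_).trans (Nat.mul_le_mul_left _
      ((ks_idx (φ := fun g => (ρ g 2 4, ρ g 3 4)) ad (Set.toFinite S) fun g a => hS g (h.mem4.1 a)).trans (Nat.mul_le_mul_left _ h.i4)))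
  · have a := h.mem2.1 a
    exact ⟨h.mem4.2 a.toK4, Prod.ext a.h24 a.h34⟩
  · obtain ⟨c, c2, c3⟩ := mb _ (mul_mem a (inv_mem b))
    obtain ⟨e2, e3⟩ := Prod.mk.inj e
    exact h.mem2.2 ⟨⟨c, c3, by rw [h.d35, c3, e3]; ring⟩, z _, c2, by rw [h.d25, z, c2, e2]; ring⟩

/-- commutators with elements of `B` lie in `K₂` -/
theorem kB (h : Md σ q ρ) (z : ∀ g, ρ g 2 3 = 0) {b : G} (a : K4 ρ b) (b2 : ρ b 2 4 = 0) (b3 : ρ b 3 4 = 0) (g : G) :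
    K2 ρ ⁅b, g⁆ := by
  have e : ρ ⁅b, g⁆ 2 4 = 0 := by simp [h.c24, z]
  exact ⟨⟨h.n4 a g, h.c34 b g, by simp [h.c35, b3, a.h45]⟩, h.c23 b g, e, by rw [h.c25, e]; simp [z, b2, a.h45]⟩

/-- commutators with constant elements of `K₃` lie in `K₂` -/
theorem kC (h : Md σ q ρ) {b : G} (a : K3 ρ b) (b3 : ρ b 2 3 = 0) (b4 : ρ b 2 4 = 0) (g : G) : K2 ρ ⁅b, g⁆ := by
  have e : ρ ⁅b, g⁆ 2 4 = 0 := by simp [h.c24, b3, a.h34]
  exact ⟨h.n3 a g, h.c23 b g, e, by rw [h.c25, e]; simp [b3, b4, a.h35, a.h45]⟩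

theorem t3 (h : Md σ q ρ) (z : ∀ g, K4 ρ g → ρ g 3 4 = 0) : h.S3.index ≤ q ^ 4 :=
  (h.i3 (fun g => ρ g 3 5) Set.finite_univ (fun _ _ => trivial) fun g k a b e => ⟨by rw [z g a, z k b], e⟩).trans
    (by rw [h.cF, show 4 = 2 + 2 from rfl, pow_add]; exact Nat.mul_le_mul_left _ h.i4)

theorem t2 (h : Md σ q ρ) (z : ∀ g, K3 ρ g → ρ g 2 3 = 0 ∧ ρ g 2 4 = 0) : h.S2.index ≤ q ^ 8 :=
  (h.i2 (fun g => ρ g 2 5) Set.finite_univ (fun _ _ => trivial) fun g k a b e =>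
    ⟨by rw [(z g a).1, (z k b).1], by rw [(z g a).2, (z k b).2], e⟩).trans
    (by rw [h.cF, show 8 = 2 + 6 from rfl, pow_add]; exact Nat.mul_le_mul_left _ h.j3)

/-- `s₂₃ ≡ 0` on `K₃`: counting by the values of `s₂₄` -/
theorem t24 (h : Md σ q ρ) (z : ∀ g, K3 ρ g → ρ g 2 3 = 0) {S : Set F} (hS : ∀ g, K3 ρ g → ρ g 2 4 ∈ S) :
    h.S2.index ≤ S.ncard * q ^ 2 * h.S3.index :=
  (h.i2 (fun g => (ρ g 2 4, ρ g 2 5)) (S := S ×ˢ Set.univ) (Set.toFinite _) (fun g a => ⟨hS g a, trivial⟩)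
    fun g k a b e => ⟨by rw [z g a, z k b], (Prod.mk.inj e).1, (Prod.mk.inj e).2⟩).trans (by rw [Set.ncard_prod, h.cF])

theorem laA (h : Md σ q ρ) (fx : FX2 ρ) (k0 : ∀ g, K2 ρ g → K0 ρ g) (i2 : q ^ 10 ≤ h.S2.index)
    (z : ∀ g, ρ g 2 3 = 0) : False := by
  have k : ∀ b, K4 ρ b → ρ b 2 4 = 0 → ρ b 3 4 = 0 → ∀ g, ρ b 1 2 * ρ g 2 4 + ρ b 1 3 * ρ g 3 4 = 0 ∧
      ρ b 1 2 * ρ g 2 5 + ρ b 1 3 * ρ g 3 5 + ρ b 1 4 * ρ g 4 5 = ρ g 1 2 * ρ b 2 5 + ρ g 1 3 * ρ b 3 5 :=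
    fun b a b2 b3 g => by
    have c := k0 _ (kB h z a b2 b3 g)
    constructor
    · have := h.c14 b g
      rw [c.h14, c.h13, b2, b3] at this
      linear_combination -this
    · have := h.c15 b g
      rw [c.h15, c.h14, c.h13, a.h45] at this
      linear_combination -this
  by_cases l : ∃ x y : F, (x ≠ 0 ∨ y ≠ 0) ∧ ∀ g, x * ρ g 2 4 + y * ρ g 3 4 = 0
  · obtain ⟨x, y, n, l⟩ := l
    have := i2.trans ((chA h z (S := {c | x * c.1 + y * c.2 = 0}) (T := Set.univ) (fun g _ => l g)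
      fun _ _ _ _ => trivial).trans (Nat.mul_le_mul h.cF2.le (Nat.mul_le_mul_right _ (line h.toFD n))))
    rw [← pow_add, ← pow_add] at this
    exact absurd (h.no this) (by norm_num)
  have p : ∀ b, K4 ρ b → ρ b 2 4 = 0 → ρ b 3 4 = 0 → ρ b 1 2 = 0 ∧ ρ b 1 3 = 0 := fun b a b2 b3 => by
    by_contra n
    exact l ⟨_, _, not_and_or.1 n, fun g => (k b a b2 b3 g).1⟩
  obtain ⟨g0, -, -, -, -, a0⟩ := h.tr 0 0 0 0 1
  by_cases l' : ∃ g, ρ g 1 2 - ρ g 4 5 * ρ g0 1 2 ≠ 0 ∨ ρ g 1 3 - ρ g 4 5 * ρ g0 1 3 ≠ 0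
  · obtain ⟨g, n⟩ := l'
    have := i2.trans ((chA h z (S := Set.univ) (T := {c | (ρ g 1 2 - ρ g 4 5 * ρ g0 1 2) * c.1 +
      (ρ g 1 3 - ρ g 4 5 * ρ g0 1 3) * c.2 = 0}) (fun g _ => trivial) fun b a b2 b3 => by
        have e := (k b a b2 b3 g).2
        have e0 := (k b a b2 b3 g0).2
        rw [(p b a b2 b3).1, (p b a b2 b3).2] at e e0
        rw [a0] at e0
        change _ * ρ b 2 5 + _ * ρ b 3 5 = 0
        linear_combination ρ g 4 5 * e0 - e).trans (Nat.mul_le_mul (line h.toFD n) (Nat.mul_le_mul_right _ h.cF2.le)))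
    rw [← pow_add, ← pow_add] at this
    exact absurd (h.no this) (by norm_num)
  push Not at l'
  obtain ⟨e1, e2, -⟩ := fx (ρ g0 1 3) (-ρ g0 1 2) 0 fun g => ⟨by
    linear_combination ρ g0 1 3 * (l' g).1 - ρ g0 1 2 * (l' g).2, by simp [z], by simp⟩
  exact one_ne_zero (fx 1 0 0 fun g => ⟨by linear_combination (l' g).1 - ρ g 4 5 * e2, by simp, by simp⟩).1

theorem laB (h : Md σ q ρ) (fx : FX2 ρ) (k0 : ∀ g, K2 ρ g → K0 ρ g) (i2 : q ^ 10 ≤ h.S2.index)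
    {g1 : G} (n1 : ρ g1 2 3 ≠ 0) : False := by
  obtain ⟨s0, a0, n0⟩ : ∃ s, K3 ρ s ∧ (ρ s 2 3 ≠ 0 ∨ ρ s 2 4 ≠ 0) := by
    by_contra! n
    exact absurd (h.no (i2.trans (t2 h n))) (by norm_num)
  have k : ∀ b, K3 ρ b → ρ b 2 3 = 0 → ρ b 2 4 = 0 → ∀ g, ρ b 1 3 * ρ g 3 4 = 0 ∧
      ρ g 1 2 * ρ b 2 5 = ρ b 1 3 * ρ g 3 5 + ρ b 1 4 * ρ g 4 5 := fun b a b3 b4 g => by
    have b2 : ρ b 1 2 = 0 := by
      have := h.c13 b g1
      rw [(k0 _ (kC h a b3 b4 g1)).h13, b3] at this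
      simpa [n1] using this
    have c := k0 _ (kC h a b3 b4 g)
    constructor
    · have := h.c14 b g
      rw [c.h14, c.h13, b2, b4, a.h34] at this
      linear_combination -this
    · have := h.c15 b g
      rw [c.h15, c.h14, c.h13, b2, a.h35, a.h45] at this
      linear_combination this
  obtain ⟨b1, a1, b3, b4, b5⟩ := h.nc2 a0 n0 1
  have x : ∀ g, ρ g 1 2 = ρ b1 1 3 * ρ g 3 5 + ρ b1 1 4 * ρ g 4 5 := fun g => by
    simpa [b5] using (k b1 a1 b3 b4 g).2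
  obtain ⟨g2, n2⟩ : ∃ g, ρ g 1 2 ≠ 0 := by
    by_contra! n
    exact one_ne_zero (fx 1 0 0 fun g => ⟨by simp [n], by simp, by simp⟩).1
  have nx : ρ b1 1 4 ≠ 0 ∨ -ρ b1 1 3 ≠ 0 := by
    by_contra! n
    exact n2 (by rw [x, n.1, neg_eq_zero.1 n.2]; ring)
  obtain ⟨g3, -, -, -, e3, f3⟩ := h.tr 0 0 0 1 0
  obtain ⟨g4, -, -, -, e4, f4⟩ := h.tr 0 0 0 0 1
  have y : ∀ b, K3 ρ b → ρ b 2 3 = 0 → ρ b 2 4 = 0 → ρ b 1 3 = ρ b 2 5 * ρ b1 1 3 ∧ ρ b 1 4 = ρ b 2 5 * ρ b1 1 4 :=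
    fun b a b3 b4 => by
    have u := (k b a b3 b4 g3).2
    have v := (k b a b3 b4 g4).2
    rw [x, e3, f3] at u
    rw [x, e4, f4] at v
    exact ⟨by linear_combination -u, by linear_combination -v⟩
  have s2 : ∀ s, K3 ρ s → ρ s 1 2 = 0 := fun s a => by rw [x, a.h35, a.h45]; ring
  by_cases t : ∀ g, ρ g 3 4 = 0
  · have l : ∀ s, K3 ρ s → ρ b1 1 4 * ρ s 2 3 + -ρ b1 1 3 * ρ s 2 4 = 0 := fun s a => by
      obtain ⟨u, v⟩ := y _ (h.n3 a g2) (h.c23 s g2) (by simp [h.c24, t])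
      rw [h.c13, s2 s a] at u
      rw [h.c14, s2 s a, t, t, t] at v
      exact mul_left_cancel₀ n2 (by linear_combination ρ b1 1 3 * v - ρ b1 1 4 * u)
    have := i2.trans ((h.i2 (fun g => ((ρ g 2 3, ρ g 2 4), ρ g 2 5))
      (S := {c : F × F | ρ b1 1 4 * c.1 + -ρ b1 1 3 * c.2 = 0} ×ˢ Set.univ) (Set.toFinite _)
      (fun g a => ⟨l g a, trivial⟩) fun g k a b e => ⟨congrArg (·.1.1) e, congrArg (·.1.2) e, congrArg (·.2) e⟩).trans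
      (Nat.mul_le_mul (show _ ≤ q ^ 2 * q ^ 2 by
        rw [Set.ncard_prod, h.cF]; exact Nat.mul_le_mul_right _ (line h.toFD nx)) (t3 h fun g _ => t g)))
    rw [← pow_add, ← pow_add] at this
    exact absurd (h.no this) (by norm_num)
  push Not at t
  obtain ⟨g5, t⟩ := t
  have x3 : ρ b1 1 3 = 0 := (mul_eq_zero.1 (k b1 a1 b3 b4 g5).1).resolve_right t
  have κ : ρ b1 1 4 ≠ 0 := nx.resolve_right (by simp [x3])
  have z3 : ρ g3 1 2 = 0 := by rw [x, x3, f3]; ring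
  have z4 : ρ g4 1 2 = ρ b1 1 4 := by rw [x, x3, f4]; ring
  have s3 : ∀ s, K3 ρ s → ρ s 2 3 = 0 → ρ s 1 3 = 0 := fun s a e => by
    have u : ρ ⁅s, g3⁆ 2 4 = 0 := by simp [h.c24, e, a.h34]
    have c := k0 _ ⟨h.n3 a g3, h.c23 s g3, u, by rw [h.c25, u]; simp [e, f3, a.h35, a.h45]⟩
    have := h.c15 s g3
    rw [c.h15, c.h14, c.h13, s2 s a, e3, f3, z3, a.h35, a.h45] at this
    linear_combination -this
  have s23 : ∀ s, K3 ρ s → ρ s 2 3 = 0 := fun s a => by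
    have := s3 _ (h.n3 a g4) (h.c23 s g4)
    rw [h.c13, s2 s a, z4] at this
    simpa [κ] using this
  have fu : ∀ t, ∃ s, K3 ρ s ∧ ρ s 2 4 = t := fun t => by
    by_contra! n
    have := i2.trans ((t24 h s23 (S := {t}ᶜ) n).trans (Nat.mul_le_mul_left _ h.j3))
    have e : ({t}ᶜ : Set F).ncard < q ^ 2 := by
      rw [← h.cF]
      exact Set.ncard_lt_ncard (Set.ssubset_univ_iff.2 (by simp)) (Set.toFinite _)
    have : 0 < q ^ 8 := pow_pos (by linarith [h.q2]) _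
    nlinarith
  obtain ⟨r, ar, nr⟩ : ∃ r, K4 ρ r ∧ ρ r 3 4 ≠ 0 := by
    by_contra! n
    have := i2.trans ((t24 h s23 (S := Set.univ) fun _ _ => trivial).trans (Nat.mul_le_mul_left _ (t3 h n)))
    rw [h.cF, ← pow_add, ← pow_add] at this
    exact absurd (h.no this) (by norm_num)
  have two : (2 : F) = 0 := by
    obtain ⟨s, a, e⟩ := fu 1
    have u : ρ ⁅s, g4⁆ 2 4 = 0 := by simp [h.c24, s23 s a, a.h34]
    have v := (y _ (h.n3 a g4) (h.c23 s g4) u).2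
    rw [h.c14, h.c25, u, s3 _ (h.n3 a g4) (h.c23 s g4), s2 s a, s3 s a (s23 s a), s23 s a, e, f4, z4, a.h34, a.h35,
      a.h45] at v
    exact mul_right_cancel₀ κ (by linear_combination -v)
  have r2 : ρ r 1 2 = 0 := by rw [x, x3, ar.h45]; ring
  have c5 : ρ ⁅r, g4⁆ 3 5 = ρ r 3 4 := by rw [h.c35, f4, ar.h45]; ring
  have c3 : ρ ⁅r, g4⁆ 1 3 = 0 := by
    have c := k0 (⁅r, g4⁆ * ⁅r, g4⁆) ⟨⟨⟨by simp [h.m45, h.c45]⟩, by simp [h.m34, h.c34], by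
      rw [h.m35, h.c34]; linear_combination ρ ⁅r, g4⁆ 3 5 * two⟩, by simp [h.m23, h.c23], by
      rw [h.m24, h.c23]; linear_combination ρ ⁅r, g4⁆ 2 4 * two, by
      rw [h.m25, h.c23, h.c45]; linear_combination ρ ⁅r, g4⁆ 2 5 * two⟩
    have := h.m15 ⁅r, g4⁆ ⁅r, g4⁆
    rw [c.h15, h.c12, h.c45, c5] at this
    exact mul_right_cancel₀ nr (by linear_combination -this - ρ ⁅r, g4⁆ 1 5 * two)
  obtain ⟨s, a, e⟩ := fu (ρ ⁅r, g4⁆ 2 4)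
  obtain ⟨c, hc⟩ : ∃ c, c = ⁅r, g4⁆ * s⁻¹ := ⟨_, rfl⟩
  have d45 : ρ c 4 5 = 0 := by rw [hc, h.d45, h.c45, a.h45, sub_zero]
  have d34 : ρ c 3 4 = 0 := by rw [hc, h.d34, h.c34, a.h34, sub_zero]
  have d35 : ρ c 3 5 = ρ r 3 4 := by rw [hc, h.d35, c5, a.h35, a.h45]; ring
  have d23 : ρ c 2 3 = 0 := by rw [hc, h.d23, h.c23, s23 s a, sub_zero]
  have d24 : ρ c 2 4 = 0 := by rw [hc, h.d24, e, a.h34]; ring
  have d12 : ρ c 1 2 = 0 := by rw [hc, h.d12, h.c12, s2 s a, sub_zero]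
  have d13 : ρ c 1 3 = 0 := by rw [hc, h.d13, c3, s3 s a (s23 s a), s23 s a]; ring
  have u : ρ ⁅c, g1⁆ 2 4 = 0 := by simp [h.c24, d23, d34]
  have v := (y _ ⟨⟨h.c45 c g1⟩, h.c34 c g1, by simp [h.c35, d34, d45]⟩ (h.c23 c g1) u).2
  rw [h.c14, h.c25, u, h.c13, d12, d13, d23, d24, d34, d35, d45] at v
  exact mul_ne_zero (mul_ne_zero n1 nr) κ (by linear_combination v)

theorem la (h : Md σ q ρ) : LA ρ := fun fx k0 => by
  have i2 : q ^ 10 ≤ h.S2.index := h.i0.trans (Subgroup.index_antitone fun g a => h.mem0.2 (k0 g (h.mem2.1 a)))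
  by_cases z : ∀ g, ρ g 2 3 = 0
  · exact laA h fx k0 i2 z
  · push Not at z
    exact laB h fx k0 i2 z.choose_spec

end H12.PG
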