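import Cfsg.Agent.H12.RatO
import Cfsg.Agent.H12.UF1

/-!
# Orthogonal subfield subgroups of unitary groups in dimension at least six: points
-/

set_option autoImplicit false
set_option maxHeartbeats 400000

namespace H12

open Module H11 Submodule QuadraticMap Cfsg.Geo

variable {K F : Type*} [Field K] [Field F] [Algebra K F] {V₀ V : Type*} [AddCommGroup V₀]
  [Module K V₀] [AddCommGroup V] [Module F V] [Module K V] [IsScalarTower K F V]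
  {ι : V₀ →ₗ[K] V} {X : Subgroup (V ≃ₗ[F] V)} {σ : F →+* F} {hσ2 : ∀ a, σ (σ a) = a}
  {C : CForm (hermType σ hσ2) V} {C₀ : CForm (quadType K) V₀} {θ : F}

local notation "𝔣" => algebraMap K F
local notation "𝐒" => C.isom ⊓ SLV F V

theorem herm_sg' (a : F) : (hermType σ hσ2).σ a = σ a := rfl

theorem su_rq [FiniteDimensional F V] {v y : V} {a : F} (hv : C.N v = 0) (hy : C.B v y = 0)
    (ha : a + σ a = C.N y) : Rq C 𝐒 v y a :=
  ⟨(rho C hv hy ha).1, ⟨(rho C hv hy ha).2, rho_mem_sisom hv hy ha⟩, fun x => by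
    rw [rho_apply, herm_symm x y]; rfl⟩

theorem urq_tv' [FiniteDimensional F V] (hσ : σ ≠ RingHom.id F) (hC : C.Nondeg)
    (hd : 3 ≤ finrank F V) {v : V} (hv : C.N v = 0) (h : ∀ y, C.B v y = 0 → ∃ a, Rq C X v y a)
    {a : F} (ha : a + σ a = 0) : Rq C X v 0 a := by
  obtain ⟨θ, hθ⟩ := exists_ne_of_ne_id hσ
  obtain ⟨t, rfl⟩ : ∃ t, a = t - σ t := by
    have h1 := sub_ne_zero.2 hθ
    have h2 := sub_ne_zero.2 hθ.symm
    refine ⟨a * θ / (θ - σ θ), ?_⟩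
    rw [map_div₀, map_mul, map_sub, hσ2, eq_neg_of_add_eq_zero_right ha]
    field_simp
    ring
  have h1 := hC.finrank_add_finrank_perp (span F {v})
  have h2 := finrank_span_singleton_le (F := F) v
  obtain ⟨y, y1, y2⟩ := exists_mem_not_mem_of_finrank_lt (W := span F {v})
    (W' := C.perp (span F {v})) (by omega)
  obtain ⟨z, z1, z2⟩ := hC.exists_perp_eq y2 t
  rw [C.mem_perp_singleton] at y1 z1
  obtain ⟨b, e⟩ := h y y1
  obtain ⟨b', e'⟩ := h z z1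
  have hv' := C.B_self_of_zero hv
  convert (e.mul e' hv' y1 z1).div (e'.mul e hv' z1 y1) hv' (by simp [y1, z1]) (by simp [y1, z1])
    using 1
  · abel
  · simp [add_comm z, herm_symm y z, z2, herm_sg', hσ2]
    ring

variable (ι C C₀ θ X) in
/-- An overgroup of an orthogonal subfield subgroup in a special unitary group. -/
structure RO : Prop where
  rat : Rat F ι
  hB : ∀ x y, C.B (ι x) (ι y) = 𝔣 (C₀.B x y)
  hK : ∀ k, σ (𝔣 k) = 𝔣 k
  fix : ∀ a, σ a = a → ∃ k, a = 𝔣 k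
  nd : C.Nondeg
  dim : 6 ≤ finrank K V₀
  two : (2 : F) ≠ 0
  θ0 : θ ≠ 0
  σθ : σ θ = -θ
  le : X ≤ 𝐒
  ge : ratStab F ι ⊓ 𝐒 ≤ X
  spec : ∃ G ≤ SLV K V₀, Spec C₀ G
  rep : ∀ W, C₀.NondegOn W → 2 ≤ finrank K W → ∀ c ≠ 0, ∃ w ∈ W, C₀.N w = c

namespace RO

variable (h : RO ι X C C₀ θ)
include h

theorem isom {g : V ≃ₗ[F] V} (hg : g ∈ X) : g ∈ C.isom := (h.le hg).1

theorem two₀ : (2 : K) ≠ 0 := fun e => h.two (by rw [← map_ofNat 𝔣, e, map_zero])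

theorem hσ : σ ≠ RingHom.id F := fun e => h.θ0 (mul_left_cancel₀ h.two (by
  have := h.σθ
  rw [e, RingHom.id_apply] at this
  linear_combination this))

theorem nd₀ : C₀.Nondeg := h.rat.nondeg₀ h.nd h.hB

theorem iso : Iso3 C₀ := let ⟨_, _, e⟩ := h.spec; e.iso3

theorem hN (x : V₀) : C.N (ι x) = 𝔣 (2 * C₀.N x) := by
  rw [← herm_B_self, h.hB, C₀.B_self]; rfl

theorem N0 {x : V₀} (e : C₀.N x = 0) : C.N (ι x) = 0 := by
  rw [h.hN, e, mul_zero, map_zero]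

theorem N0' {x : V₀} (e : C.N (ι x) = 0) : C₀.N x = 0 := by
  rw [h.hN, map_eq_zero] at e
  exact (mul_eq_zero.1 e).resolve_left h.two₀

theorem B0 {x y : V₀} (e : C₀.B x y = 0) : C.B (ι x) (ι y) = 0 := by rw [h.hB, e, map_zero]

theorem B1 {x y : V₀} (e : C₀.B x y = 1) : C.B (ι x) (ι y) = 1 := by rw [h.hB, e, map_one]

theorem B0' {x y : V₀} (e : C.B (ι x) (ι y) = 0) : C₀.B x y = 0 := by
  rwa [h.hB, map_eq_zero] at e

theorem symm (x y : V₀) : C.B (ι y) (ι x) = C.B (ι x) (ι y) := by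
  rw [herm_symm, h.hB, h.hK]

theorem dec (α : F) : ∃ k k', α = 𝔣 k + 𝔣 k' * θ := by
  have h2 : σ 2 = 2 := map_ofNat σ 2
  have := h.two
  have := h.θ0
  obtain ⟨k, hk⟩ := h.fix ((α + σ α) / 2) (by rw [map_div₀, map_add, hσ2, h2, add_comm])
  obtain ⟨k', hk'⟩ := h.fix ((α - σ α) / (2 * θ)) (by
    rw [map_div₀, map_sub, hσ2, map_mul, h2, h.σθ]; field_simp; ring)
  exact ⟨k, k', by rw [← hk, ← hk']; field_simp; ring⟩

theorem ind {k k' : K} (e : 𝔣 k + θ * 𝔣 k' = 0) : k = 0 ∧ k' = 0 := by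
  have h1 := congrArg σ e
  rw [map_add, map_mul, h.hK, h.hK, h.σθ, map_zero] at h1
  have h2 : 𝔣 k = 0 := mul_left_cancel₀ h.two (by linear_combination e + h1)
  rw [h2, zero_add, mul_eq_zero, or_iff_right h.θ0] at e
  exact ⟨(map_eq_zero _).1 h2, (map_eq_zero _).1 e⟩

theorem two_perp {a p q : V₀} (e : C.B (ι a) (ι p + θ • ι q) = 0) :
    C₀.B a p = 0 ∧ C₀.B a q = 0 := h.ind (by simpa [h.hB] using e)

theorem map_tsp {v c : V₀} (e : TSP C₀ v c) : TSP C (ι v) (ι c) :=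
  ⟨h.N0 e.hv, h.N0 e.hc, h.B0 e.hB, h.rat.ne_zero e.ne, h.rat.not_mem_span_singleton e.nm⟩

theorem mono {Y : Subgroup (V ≃ₗ[F] V)} (h1 : X ≤ Y) (h2 : Y ≤ 𝐒) : RO ι Y C C₀ θ :=
  { h with le := h2, ge := h.ge.trans h1 }

variable [FiniteDimensional K V₀] [FiniteDimensional F V] [Finite F] [Finite V₀]

omit [FiniteDimensional F V] [Finite V₀] [Finite F] in
theorem tsp {v : V₀} (hv : C₀.N v = 0) (hv0 : v ≠ 0) : ∃ c, TSP C₀ v c :=
  h.iso.exists_tsp h.nd₀ (by have := h.dim; omega) hv hv0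

omit [FiniteDimensional F V] [Finite V₀] [Finite F] in
theorem sing : ∃ v, C₀.N v = 0 ∧ v ≠ 0 :=
  let ⟨v, a, b⟩ := h.iso.exists_iso (by have := h.dim; omega); ⟨v, b, a⟩

omit [FiniteDimensional F V] [Finite V₀] [Finite F] in
theorem partner {v : V₀} (hv : C₀.N v = 0) (hv0 : v ≠ 0) : ∃ w, C₀.N w = 0 ∧ C₀.B v w = 1 :=
  let ⟨w, _, a, b⟩ := h.nd₀.exists_partner (Z := ⊥) (x := v) (by simpa) hv
    (by simp [CForm.perp_bot]); ⟨w, a, b⟩

omit [FiniteDimensional K V₀] [FiniteDimensional F V] [Finite F] in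
theorem ext {g : V₀ ≃ₗ[K] V₀} (hg : g ∈ C₀.isom) (hg' : g ∈ SLV K V₀) :
    ∃ k ∈ X, ∀ x, k (ι x) = ι (g x) := by
  obtain ⟨k, hk⟩ := h.rat.exists_extend g
  exact ⟨k, h.ge ⟨h.rat.mem_ratStab_one fun x => ⟨_, hk x⟩, herm_mem_isom fun x y =>
    h.rat.B_ext (fun x y => by rw [hk, hk, h.hB, h.hB, CForm.isom_B hg]) x y,
    mem_SLV.2 (by rw [h.rat.det_eq hk, mem_SLV.1 hg', map_one])⟩, hk⟩

omit [FiniteDimensional F V] [Finite F] in
theorem w1 {u v : V₀} (hu : C₀.N u = 0) (hv : C₀.N v = 0) (hu0 : u ≠ 0) (hv0 : v ≠ 0) :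
    ∃ k ∈ X, IsRat ι k ∧ k (ι u) = ι v := by
  obtain ⟨G, h1, h2⟩ := h.spec
  obtain ⟨g, hg, e'⟩ := h2.witt_one (by have := h.dim; omega) hu0 hv0 (hv.trans hu.symm)
  obtain ⟨k, hk, e⟩ := h.ext (h2.le hg) (h1 hg)
  exact ⟨k, hk, fun x => ⟨_, e x⟩, by rw [e, e']⟩

omit [FiniteDimensional F V] [Finite F] in
theorem w2 {v c v' c' : V₀} (a1 : v ≠ 0) (a2 : c ∉ span K {v}) (a3 : v' ≠ 0)
    (a4 : c' ∉ span K {v'}) (b1 : C₀.N v' = C₀.N v) (b2 : C₀.N c' = C₀.N c)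
    (b3 : C₀.B c' v' = C₀.B c v) : ∃ k ∈ X, IsRat ι k ∧ k (ι v) = ι v' ∧ k (ι c) = ι c' := by
  obtain ⟨G, h1, h2⟩ := h.spec
  obtain ⟨g, hg, e1, e2⟩ := h2.witt_two h.dim (linearIndependent_of_not_mem a1 a2)
    (linearIndependent_of_not_mem a3 a4) b2 b1 b3
  obtain ⟨k, hk, e⟩ := h.ext (h2.le hg) (h1 hg)
  exact ⟨k, hk, fun x => ⟨_, e x⟩, by rw [e, e2], by rw [e, e1]⟩

omit [FiniteDimensional F V] [Finite F] in
theorem witt2 {v c v' c' : V₀} (h1 : TSP C₀ v c) (h2 : TSP C₀ v' c') :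
    ∃ k ∈ X, IsRat ι k ∧ k (ι v) = ι v' ∧ k (ι c) = ι c' :=
  h.w2 h1.ne h1.nm h2.ne h2.nm (h2.hv.trans h1.hv.symm) (h2.hc.trans h1.hc.symm)
    (h2.symm.hB.trans h1.symm.hB.symm)

omit [FiniteDimensional K V₀] [Finite F] in
theorem rho₀ {v y : V₀} (hv : C₀.N v = 0) (hy : C₀.B v y = 0) : Rq C X (ι v) (ι y) (𝔣 (C₀.N y)) :=
  (h.rat.rq_rat (C₀ := C₀) h.hB h.hK (su_rq (h.N0 hv) (h.B0 hy) (by
    rw [h.hK, h.hN, two_mul, map_add]))).mono h.ge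

theorem le_of_not (hQ : ¬ RatQ ι C C₀ X) : 𝐒 ≤ X := by
  have hd := h.dim
  have hd' := h.rat.finrank_eq
  simp only [RatQ, not_forall, not_exists] at hQ
  obtain ⟨v, hv, hv0, y, a, hy, hr, hn⟩ := hQ
  obtain ⟨p, q, rfl⟩ := h.rat.exists_two h.dec y
  obtain ⟨p1, q1⟩ := h.two_perp hy
  have hv' := h.N0 hv
  have r0 : ∀ x, C₀.B v x = 0 → ι x ∈ urS C X hv' := fun x hx => ⟨h.B0 hx, _, h.rho₀ hv hx⟩
  let A : AddSubgroup V₀ := (urS C X hv').comap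
    ((DistribSMul.toAddMonoidHom V θ).comp ι.toAddMonoidHom)
  have mA : ∀ x, x ∈ A ↔ θ • ι x ∈ urS C X hv' := fun _ => Iff.rfl
  have tr : ∀ x x', x ∈ A → x ∉ span K {v} → x' ∉ span K {v} → C₀.N x' = C₀.N x → C₀.B v x' = 0 →
      x' ∈ A := fun x x' ⟨a1, b, a2⟩ a3 a4 a5 a6 => by
    replace a1 : C.B (ι v) (θ • ι x) = 0 := a1
    replace a2 : Rq C X (ι v) (θ • ι x) b := a2
    obtain ⟨k, hk, -, e1, e2⟩ := h.w2 hv0 a3 hv0 a4 rfl a5 (by
      rw [C₀.B_swap_zero a6, C₀.B_swap_zero (h.two_perp (p := 0) (by simpa using a1)).2])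
    exact (mA _).2 ⟨by simp [h.B0 a6], b, by simpa [e1, e2] using a2.conj hk (h.isom hk)⟩
  have q2 : q ∈ A := (mA _).2 ((add_mem_cancel_left (r0 p p1)).1 ⟨hy, a, hr⟩)
  have q3 : q ∉ span K {v} := fun e => by
    obtain ⟨t, rfl⟩ := mem_span_singleton.1 e
    exact hn p (θ * 𝔣 t) (by rw [ι_smul (F := F), smul_smul])
  obtain ⟨u, u1, u2⟩ : ∃ u, TSP C₀ v u ∧ u ∈ A := by
    by_cases h0 : C₀.N q = 0
    · exact ⟨q, ⟨hv, h0, q1, hv0, q3⟩, q2⟩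
    obtain ⟨u, u1, u2, u3⟩ := h.iso.exists_perpL h.nd₀ [v, q] [v] (by simpa)
    have u4 : C₀.N (q + u) = C₀.N q := by
      simpa [u3] using C₀.N_add_of_orth (u1 q (by simp))
    refine ⟨u, ⟨hv, u3, u1 v (by simp), hv0, not_mem_span_of_spanL u2 (by simp)⟩,
      (add_mem_cancel_left q2).1 (tr q _ q2 q3 (fun e => ?_) u4 (by simp [q1, u1 v]))⟩
    obtain ⟨t, e⟩ := mem_span_singleton.1 e
    exact h0 (by rw [← u4, ← e]; exact C₀.N_smul_of_zero hv t)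
  have hA : ∀ y, C.B (ι v) y = 0 → ∃ a, Rq C X (ι v) y a := fun y hy => by
    obtain ⟨p, q, rfl⟩ := h.rat.exists_two h.dec y
    exact (add_mem (r0 p (h.two_perp hy).1) ((mA q).1 (u1.perp_add h.nd₀ A (fun x e =>
      tr u x u2 u1.nm e.nm (e.hc.trans u1.hc.symm) e.hB) (h.two_perp hy).2))).2
  obtain ⟨w, w1, w2⟩ := h.partner hv hv0
  have a1 : Q1 C 𝐒 X (ι v) := q1_of_rho inf_le_left h.le hv' (h.B1 w2) hA fun a ha =>
    urq_tv' h.hσ h.nd (by omega) hv' hA (by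
      simpa [hermType] using (ha.tvOk inf_le_left hv' (h.B1 w2)).1)
  obtain ⟨k, hk, -, e⟩ := h.w1 hv w1 hv0 (by rintro rfl; simp at w2)
  exact (rootG_herm h.hσ (exists_norm_of_finite hσ2 h.hσ) h.nd (by omega)).fin X _ _ hv' (h.N0 w1)
    (by rw [h.B1 w2]; exact one_ne_zero) a1 (e ▸ a1.conj inf_le_left hk (h.le hk))

omit [Finite F] in
theorem zf {v w : V₀} (hv : C₀.N v = 0) (hw : C₀.N w = 0) (e : C₀.B v w = 1) :
    ∃ z ∈ X, ∀ x, z x = x - (2 * C.B (ι w) x) • ι v - (2 * C.B (ι v) x) • ι w := by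
  have a1 := h.B1 e
  have a2 : C.B (ι w) (ι v) = 1 := by rw [h.symm, a1]
  have a3 := C.B_self_of_zero (h.N0 hv)
  have a4 := C.B_self_of_zero (h.N0 hw)
  have b1 : C.N (ι v + ι w) = 2 := by rw [← herm_B_self]; simp [a1, a2, a3, a4]; norm_num
  have b2 : C.N (ι v - ι w) = -2 := by rw [← herm_B_self]; simp [a1, a2, a3, a4]; norm_num
  have b3 : (1 : F) + σ 1 + 1 * σ 1 * C.N (ι v - ι w) = 0 := by rw [b2, map_one]; ring
  have b4 : ∀ x, (uq C (ι v + ι w) (-1) * uq C (ι v - ι w) 1) x =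
      x - (2 * C.B (ι w) x) • ι v - (2 * C.B (ι v) x) • ι w := fun x => by
    rw [LinearEquiv.mul_apply, uq_apply (uq_ok2 b1), uq_apply b3]
    simp [a1, a2, a3, a4]
    module
  refine ⟨_, h.ge ⟨h.rat.mem_ratStab_one fun x => ⟨x - (2 * C₀.B w x) • v - (2 * C₀.B v x) • w,
    ?_⟩, mul_mem uq_isom uq_isom, mem_SLV.2 ?_⟩, b4⟩
  · rw [b4, map_sub, map_sub, ι_smul (F := F), ι_smul (F := F), map_mul, map_mul, h.hB, h.hB,
      map_ofNat]
  · rw [LinearEquiv.coe_toLinearMap_mul, map_mul, det_uq (uq_ok2 b1), det_uq b3, b1, b2]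
    ring

variable (hQ : RatQ ι C C₀ X)
include hQ

theorem tv0 {v : V₀} (hv : C₀.N v = 0) (hv0 : v ≠ 0) {a : F} (ha : Rq C X (ι v) 0 a) : a = 0 := by
  obtain ⟨u, e⟩ := h.tsp hv hv0
  obtain ⟨a', -, d1, d2, -⟩ := e.exists_dual h.nd₀
  have a1 : a + σ a = 0 := by
    simpa [hermType] using (ha.tvOk (h.le.trans inf_le_left) (h.N0 hv) (h.B1 d1)).1
  obtain ⟨t, ht, et⟩ := ha
  have a2 := (h.rho₀ e.hc d2).conj ht (h.isom ht)
  rw [et, et, h.B0 e.hB, h.B1 d1] at a2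
  simp only [map_zero, smul_zero, add_zero, mul_zero, zero_smul, sub_zero, zero_add, mul_one] at a2
  obtain ⟨p, μ, e'⟩ := hQ u e.hc e.symm.ne _ _ (by simp [h.B0 d2, h.B0 e.symm.hB]) a2
  obtain ⟨φ₀, φ, f1, f2, f3⟩ := h.rat.exists_one_zero e.symm.nm
  have a3 := congrArg φ e'
  simp only [map_add, map_sub, map_smul, f3, f2 u (mem_span_singleton_self _), f1 p, f1 a',
    smul_eq_mul] at a3
  have a4 : a = 𝔣 (φ₀ a' - φ₀ p) := by rw [map_sub]; linear_combination -a3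
  rw [a4, h.hK, ← a4] at a1
  exact mul_left_cancel₀ h.two (by linear_combination a1)

theorem hT {u : V₀} (hu : C₀.N u = 0) {s : V ≃ₗ[F] V} (hs : s ∈ X) (hs' : s ∈ cen (span F {ι u})) :
    s = 1 := by
  by_contra h1
  obtain ⟨a, a0, ha⟩ := rq_of_cen h.nd (h.le.trans inf_le_left) hs hs' h1
  exact a0 (h.tv0 hQ hu (by rintro rfl; exact not_mem_cen_bot h1 (by simpa using hs')) ha)

theorem pt' {g : V ≃ₗ[F] V} (hg : g ∈ X) {v : V₀} (hv : C₀.N v = 0) (hv0 : v ≠ 0) {c : F}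
    (e : g (ι v) = c • ι v) : g ∈ ratStab F ι := by
  have hc : c ≠ 0 := by rintro rfl; simpa [h.rat.ne_zero hv0] using e
  have hc' : σ c ≠ 0 := (map_ne_zero σ).2 hc
  have hv' := h.N0 hv
  have a3 := C.B_self_of_zero hv'
  obtain ⟨w, w1, w2⟩ := h.partner hv hv0
  have b0 : ∀ x, C.B (ι v) (σ c • g x) = C.B (ι v) x := fun x => by
    rw [map_smul, smul_eq_mul, ← herm_B_smul_left, ← e, CForm.isom_B (h.isom hg)]
  have b1 := (b0 (ι w)).trans (h.B1 w2)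
  obtain ⟨z, hz, ez⟩ := h.zf hv w1 w2
  have b2 : ∀ x, (g * z * g⁻¹) x = x - (2 * C.B (σ c • g (ι w)) x) • ι v -
      (2 * C.B (ι v) x) • σ c • g (ι w) := fun x => by
    obtain ⟨x, rfl⟩ := g.surjective x
    rw [LinearEquiv.mul_apply, LinearEquiv.mul_apply, inv_apply_apply, ez, herm_B_smul_left, hσ2,
      CForm.isom_B (h.isom hg), ← b0 x, map_sub, map_sub, map_smul, map_smul, map_smul, e,
      smul_eq_mul]
    module
  have b3 : C.N (σ c • g (ι w)) = 0 := C.N_smul_of_zero (by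
    rw [CForm.isom_N (h.isom hg), h.N0 w1]) _
  generalize hw₁ : σ c • g (ι w) = w₁ at b1 b2 b3
  have h2 : σ 2 = 2 := map_ofNat σ 2
  obtain ⟨p, μ, b4⟩ := hQ v hv hv0 ((2 : F) • (w₁ - ι w)) (-4 * C.B w₁ (ι w))
    (by simp [b1, h.B1 w2]) ⟨g * z * g⁻¹ * z, mul_mem (mul_mem (mul_mem hg hz) (inv_mem hg)) hz,
      fun x => by
        rw [LinearEquiv.mul_apply, b2, ez, herm_sg', ← herm_symm]
        simp [a3, h.B1 w2, herm_symm (ι v) w₁, b1, herm_sg', h2]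
        module⟩
  obtain ⟨k₀, k₁, hk⟩ := h.dec (μ / 2)
  have b5 : w₁ = ι (w + (2⁻¹ : K) • p + k₀ • v) + (𝔣 k₁ * θ) • ι v := by
    have := h.two
    refine smul_right_injective V h.two ?_
    simp only [map_add, ι_smul (F := F), map_inv₀, map_ofNat, smul_add, smul_smul]
    rw [mul_inv_cancel₀ this, one_smul, add_assoc, ← add_smul,
      show 2 * 𝔣 k₀ + 2 * (𝔣 k₁ * θ) = μ by rw [← mul_add, ← hk]; field_simp]
    linear_combination (norm := module) b4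
  generalize w + (2⁻¹ : K) • p + k₀ • v = w' at b5
  have ok : -(𝔣 k₁ * θ) + σ (-(𝔣 k₁ * θ)) + -(𝔣 k₁ * θ) * σ (-(𝔣 k₁ * θ)) * C.N (ι v) = 0 := by
    rw [hv', map_neg, map_mul, h.hK, h.σθ]; ring
  set τ := uq C (ι v) (-(𝔣 k₁ * θ))
  have t1 : τ ∈ 𝐒 := ⟨uq_isom, mem_SLV.2 (by rw [det_uq ok, hv']; simp)⟩
  have t2 : σ c • (τ * g) (ι w) = ι w' := by
    rw [LinearEquiv.mul_apply, ← map_smul, hw₁, uq_apply ok, b1, b5]; module
  have t3 : C.B (ι w') (ι v) = 1 := by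
    rw [h.symm, ← b1, b5]; simp [a3]
  have t4 : ∀ y, C₀.B v y = 0 → C₀.B w y = 0 → ∃ y', σ c • (τ * g) (ι y) = ι y' :=
    fun y y1 y2 => by
    have c1 := (h.rho₀ hv y1).conj hg (h.isom hg)
    rw [e] at c1
    have c2 := (b0 (ι y)).trans (h.B0 y1)
    obtain ⟨y', ν, c3⟩ := hQ v hv hv0 _ _ c2 c1.smul_left'
    have c4 : σ c • (τ * g) (ι y) = ι y' + ν • ι v := by
      rw [LinearEquiv.mul_apply, ← map_smul, uq_of_perp c2, c3]
    have c5 : C.B (ι w') (ι y' + ν • ι v) = 0 := by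
      rw [← c4, ← t2, herm_B_smul_left, map_smul,
        CForm.isom_B (mul_mem t1.1 (h.isom hg)), h.B0 y2]; simp
    rw [map_add, map_smul, t3, h.hB, smul_eq_mul, mul_one] at c5
    exact ⟨y' - C₀.B w' y' • v, by
      rw [c4, map_sub, ι_smul (F := F), eq_neg_of_add_eq_zero_right c5]; module⟩
  obtain ⟨n, hn⟩ := h.fix (σ c * c) (by rw [map_mul, hσ2, mul_comm])
  have t5 : τ * g ∈ ratStab F ι := h.rat.mem_ratStab (inv_ne_zero hc') fun x => by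
    obtain ⟨y', hy⟩ := t4 (x - C₀.B v x • w - C₀.B w x • v)
      (by simp [w2, C₀.B_self_of_zero hv])
      (by simp [C₀.B_self_of_zero w1, (quad_symm C₀ v w).trans w2])
    refine ⟨y' + C₀.B v x • w' + (C₀.B w x * n) • v, (eq_inv_smul_iff₀ hc').2 ?_⟩
    have c1 : σ c • (τ * g) (ι v) = 𝔣 n • ι v := by
      rw [LinearEquiv.mul_apply, e, map_smul, uq_of_perp a3, smul_smul, hn]
    simp only [map_sub, map_add, ι_smul (F := F), map_smul (τ * g), smul_sub, map_mul] at hy ⊢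
    rw [← hy, ← t2, mul_smul, ← c1]
    module
  have t6 : τ ∈ X := by
    simpa using mul_mem (h.ge ⟨t5, mul_mem t1 (h.le hg)⟩) (inv_mem hg)
  rwa [h.hT hQ hv t6 fun x => by
    rw [uq_apply ok, add_sub_cancel_left]; exact smul_mem _ _ (mem_span_singleton_self _),
    one_mul] at t5

theorem pt {g : V ≃ₗ[F] V} (hg : g ∈ X) {v v' : V₀} (hv : C₀.N v = 0) (hv0 : v ≠ 0) {c : F}
    (e : g (ι v) = c • ι v') : g ∈ ratStab F ι := by
  have n0 : c • ι v' ≠ 0 := by rw [← e]; simpa using h.rat.ne_zero hv0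
  obtain ⟨k, hk, k1, k2⟩ := h.w1 (u := v') (h.N0' (by
    rw [← inv_smul_smul₀ (left_ne_zero_of_smul n0) (ι v'), ← e, C.N_smul_of_zero]
    rw [CForm.isom_N (h.isom hg), h.N0 hv])) hv (by rintro rfl; simp at n0) hv0
  exact (mul_mem_cancel_left (h.rat.mem_ratStab_one k1)).1 (h.pt' hQ (mul_mem hk hg) hv hv0
    (c := c) (by rw [LinearEquiv.mul_apply, e, map_smul, k2]))

end RO

end H12
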