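import Cfsg.Agent.H12.UF7

/-!
# Stabilisers of orthonormal frames in dimension six, odd characteristic
-/

set_option autoImplicit false
set_option maxHeartbeats 400000

namespace H12

open Module H11 QuadraticMap Equiv Finset

variable {F : Type*} [Field F] {V : Type*} [AddCommGroup V] [Module F V] {σ : F →+* F}
  {hσ2 : ∀ a, σ (σ a) = a} {C : CForm (hermType σ hσ2) V} {X : Subgroup (V ≃ₗ[F] V)}
  {κ : Type*} {e : κ → V} {g k : V ≃ₗ[F] V} {x y : V} {ω : F}

local notation "𝐌" => decStab (frD F e)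
local notation "𝐳" a:max b:max => uss C (e a) (e b) (-1)

namespace UFr

variable (h : UFr C e)
include h

theorem sup4 [Fintype κ] (hx : C.N x = 1) (hy : C.N y = 1) (hxy : C.B x y = 0) (hω : ω * σ ω = 1)
    (h1 : ω ≠ 1) (H : uss C x y ω ∈ 𝐌) :
    ∃ S : Finset κ, S.card ≤ 4 ∧ ∀ l, l ∈ S ↔ C.B x (e l) ≠ 0 ∨ C.B y (e l) ≠ 0 := by
  classical
  refine ⟨univ.filter fun l => C.B x (e l) ≠ 0 ∨ C.B y (e l) ≠ 0, ?_, by simp⟩
  have a1 := sub_ne_zero.2 h1
  have a2 : σ ω - 1 ≠ 0 := fun H => a1 (by simpa [hσ2] using congrArg σ H)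
  choose τ c hc e1 using of_mem_frD h.e_ne H
  have e0 : ∀ l, c l • e (τ l) - e l =
      ((ω - 1) * C.B x (e l)) • x + ((σ ω - 1) * C.B y (e l)) • y := fun l => by
    rw [← e1, uss_apply hx hy hxy hω]; abel
  have e2 : ∀ l p, (if p = τ l then c l else 0) - (if p = l then 1 else 0) =
      (ω - 1) * C.B x (e l) * C.B (e p) x + (σ ω - 1) * C.B y (e l) * C.B (e p) y :=
    fun l p => by simpa [h.be] using congrArg (C.B (e p)) (e0 l)
  have e3 : ∀ l, C.B x (e l) ≠ 0 ∨ C.B y (e l) ≠ 0 → (if l = τ l then c l else 0) - 1 ≠ 0 := by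
    intro l hl h0
    have h1 : l = τ l ∧ c l = 1 := by clear * - h0; grind
    have h2 := congrArg (C.B x) (e0 l)
    have h3 := congrArg (C.B y) (e0 l)
    rw [← h1.1, h1.2, one_smul, sub_self] at h2 h3
    simp [hxy, C.B_swap_zero hxy, herm_B_self, hx, hy, a1, a2] at h2 h3
    exact hl.elim (· h2) (· h3)
  by_contra h4
  have ex : ∀ s : Finset κ, s.card < 5 → ∃ p, (C.B x (e p) ≠ 0 ∨ C.B y (e p) ≠ 0) ∧ p ∉ s :=
    fun s hs => by
      simpa only [mem_filter, mem_univ, true_and] using exists_mem_notMem_of_card_lt_card (s := s)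
        (t := univ.filter fun l => C.B x (e l) ≠ 0 ∨ C.B y (e l) ≠ 0) (by omega)
  obtain ⟨p, hp, -⟩ := ex ∅ (by simp)
  obtain ⟨q, hq, h5⟩ := ex {p, τ p} (card_le_two.trans_lt (by omega))
  obtain ⟨r, hr, h6⟩ := ex {q, τ q, p, τ p} (card_le_four.trans_lt (by omega))
  simp only [mem_insert, mem_singleton, not_or] at h5 h6
  obtain ⟨α, β, γ, h7, h8, h9⟩ := exists_ker_three (LinearMap.fst F F F) (LinearMap.snd F F F)
    (C.B x (e p), C.B y (e p)) (C.B x (e q), C.B y (e q)) (C.B x (e r), C.B y (e r))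
  simp only [LinearMap.fst_apply, LinearMap.snd_apply, Prod.smul_mk, Prod.mk_add_mk,
    smul_eq_mul] at h8 h9
  have k : ∀ t, α * ((if t = τ p then c p else 0) - if t = p then 1 else 0) +
      β * ((if t = τ q then c q else 0) - if t = q then 1 else 0) +
      γ * ((if t = τ r then c r else 0) - if t = r then 1 else 0) = 0 := fun t => by
    rw [e2, e2, e2]
    linear_combination (ω - 1) * C.B (e t) x * h8 + (σ ω - 1) * C.B (e t) y * h9
  have k1 : γ = 0 := by simpa [h6, e3 r hr] using k r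
  have k2 : β = 0 := by simpa [h5, e3 q hq, k1] using k q
  exact h7 ⟨by simpa [e3 p hp, k1, k2] using k p, k2, k1⟩

variable [DecidableEq κ]

theorem dg_conj' (hg : g ∈ 𝐌) (hg' : g ∈ C.isom) {a b : κ} (hab : a ≠ b) :
    ∃ a' b', a' ≠ b' ∧ UDg C e (g * 𝐳 a b * g⁻¹) {a', b'} := by
  obtain ⟨a', c, hc, e1⟩ := of_mem_frD h.e_ne hg a
  obtain ⟨b', d, hd, e2⟩ := of_mem_frD h.e_ne hg b
  have : a' ≠ b' := by
    rintro rfl
    have := (CForm.isom_B hg' (e a) (e b)).trans (h.orth _ _ hab)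
    simp [e1, e2, h.bee, hc, hd, hermσ] at this
  refine ⟨a', b', this, ?_⟩
  convert h.dg_zz this using 1
  rw [uss_conj hg', e1, e2, uss, uss,
    uq_smul (by simpa [e1, herm_N_smul, h.one] using CForm.isom_N hg' (e a)),
    uq_smul (by simpa [e2, herm_N_smul, h.one] using CForm.isom_N hg' (e b))]

theorem dg_apply {J : Finset κ} (H : UDg C e k J) (p : κ) :
    k (e p) = if p ∈ J then -e p else e p := h.ext fun l => by
  rw [H, h.be]
  split_ifs <;> simp_all [h.be]

end UFr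

namespace UX

variable [DecidableEq κ] [Fintype κ] [FiniteDimensional F V] (h : UX C X e) [Fintype F]
  (hσ : σ ≠ RingHom.id F) (hN : ∀ a, σ a = a → ∃ b, b * σ b = a) (h6 : 6 ≤ Fintype.card κ)
  (hn : ¬ C.isom ⊓ SLV F V ≤ X) (two : (2 : F) ≠ 0)
include h hσ hN h6 hn two

theorem zb2 (hg : g ∈ X) {i l m : κ} (hlm : l ≠ m) (hl : C.B (e l) (g (e i)) = 0)
    (hm : C.B (e m) (g (e i)) = 0) : g ∈ 𝐌 := by
  obtain ⟨ω, a1, a2, a3, a4⟩ : ∃ ω : F, ω * σ ω = 1 ∧ σ ω ≠ ω ∧ ω ≠ -1 ∧ ω + σ ω ≠ -1 := by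
    obtain ⟨ω, a1, a2, a3, a4⟩ := exists_nOne' hσ hσ2
    by_cases H : ω + σ ω = -1
    · exact ⟨-ω, by simpa using a1, by simpa using a4, by simpa using a2, fun e => two (by
        rw [map_neg] at e; linear_combination e + H)⟩
    · exact ⟨ω, a1, a4, a3, H⟩
  have a5 : ω ≠ 1 := by rintro rfl; simp at a2
  have hg' := inv_mem hg
  have b0 := (h.le hg').1
  have b1 := h.mon_of_fix6 hσ hN h6 hn (mul_mem (mul_mem hg' (h.ss_mem l m a1))
    (inv_mem hg')) (o := i) (c := 1) (by
      rw [inv_inv, LinearEquiv.mul_apply, LinearEquiv.mul_apply,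
        uss_apply (h.one l) (h.one m) (h.orth _ _ hlm) a1]
      simp [hl, hm, inv_apply_apply])
  rw [uss_conj b0] at b1
  have n1 := (CForm.isom_N b0 (e l)).trans (h.one l)
  have n2 := (CForm.isom_N b0 (e m)).trans (h.one m)
  have n3 := (CForm.isom_B b0 (e l) (e m)).trans (h.orth _ _ hlm)
  obtain ⟨S, b2, hS⟩ := h.sup4 n1 n2 n3 a1 a5 b1
  refine inv_mem_iff.1 (by_contra fun hc => ?_)
  have b3 : ∀ j p, g⁻¹ (e j) ∉ F ∙ e p := fun j p H =>
    let ⟨_, hc'⟩ := Submodule.mem_span_singleton.1 H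
    hc (h.mon_of_eq6 hσ hN h6 hn hg' hc'.symm)
  have b4 := fun Z => h.zb6 hσ hN h6 hn hg' (i := l) (Z := Z)
  have c1 := b3 l
  have c2 := b3 m
  generalize g⁻¹ (e l) = x at *
  generalize g⁻¹ (e m) = y at *
  have n4 := C.B_swap_zero n3
  have d1 : ∀ p, (ω - 1) * (σ (C.B (e p) x) * C.B (e p) x) +
      (σ ω - 1) * (σ (C.B (e p) y) * C.B (e p) y) = if p ∈ S then -1 else 0 := fun p => by
    split_ifs with hp
    swap
    · simp only [hS, not_or, not_not] at hp
      simp [C.B_swap_zero hp.1, C.B_swap_zero hp.2]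
    rw [hS] at hp
    rcases h.alt b1 p with ⟨c, e1⟩ | e1
    · rw [uss_apply n1 n2 n3 a1] at e1
      have e2 := congrArg (C.B x) e1
      have e3 := congrArg (C.B y) e1
      simp only [map_add, map_smul, herm_B_self, n1, n2, n3, n4, smul_eq_mul] at e2 e3
      by_cases H : C.B x (e p) = 0
      · refine (c2 p ((Submodule.smul_mem_iff _ (mul_ne_zero (fun H => a5 (by
          simpa [hσ2] using congrArg σ (sub_eq_zero.1 H))) (hp.resolve_left (· H)) :
          (σ ω - 1) * C.B y (e p) ≠ 0)).1 (Submodule.mem_span_singleton.2 ⟨c - 1, ?_⟩))).elim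
        rw [H] at e1
        linear_combination (norm := module) -e1
      have e4 : c = ω := mul_right_cancel₀ H (by linear_combination -e2)
      have e5 : C.B y (e p) = 0 :=
        mul_left_cancel₀ (sub_ne_zero.2 a2) (by linear_combination e3 + C.B y (e p) * e4)
      refine (c1 p ((Submodule.smul_mem_iff _ (mul_ne_zero (sub_ne_zero.2 a5) H)).1
        (Submodule.mem_span_singleton.2 ⟨c - 1, ?_⟩))).elim
      rw [e5] at e1
      linear_combination (norm := module) -e1
    · rw [uss_apply n1 n2 n3 a1] at e1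
      simp only [map_add, map_smul, h.bee, smul_eq_mul, ufr_eb e x, ufr_eb e y] at e1
      linear_combination e1
  have d2 := sum_congr (s₁ := univ) rfl fun p _ => d1 p
  rw [sum_add_distrib, ← mul_sum, ← mul_sum, ← h.B_eq, ← h.B_eq, herm_B_self, herm_B_self, n1, n2,
    sum_ite_mem, univ_inter, sum_const] at d2
  have d3 : S.card ≤ 2 := by
    by_contra H
    obtain H | H : S.card = 3 ∨ S.card = 4 := by omega
    · rw [H] at d2
      exact a4 (by simp at d2; linear_combination d2)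
    · rw [H] at d2
      exact a3 (eq_neg_of_add_eq_zero_left (mul_self_eq_zero.1 (by
        simp at d2; linear_combination ω * d2 - a1)))
  have d4 := card_compl S
  exact hc (b4 Sᶜ (by omega) fun p hp => C.B_swap_zero (by
    simp only [hS, mem_compl, not_or, not_not] at hp
    exact hp.1))

theorem ll6 (hg : g ∈ X) {a b : κ} (hab : a ≠ b) (H : g * 𝐳 a b * g⁻¹ ∈ 𝐌) : g ∈ 𝐌 := by
  have hg' := (h.le hg).1
  rw [uss_conj hg'] at H
  obtain ⟨S, h4, hS⟩ := h.sup4 ((CForm.isom_N hg' _).trans (h.one a)) ((CForm.isom_N hg' _).trans (h.one b))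
    ((CForm.isom_B hg' _ _).trans (h.orth _ _ hab)) (by simp)
    (fun e => two (by linear_combination -e)) H
  have h5 := card_compl S
  obtain ⟨l, hl, m, hm, hlm⟩ := one_lt_card.1 (show 1 < Sᶜ.card by omega)
  simp only [hS, mem_compl, not_or, not_not] at hl hm
  exact h.zb2 hσ hN h6 hn two hg hlm (C.B_swap_zero hl.1) (C.B_swap_zero hm.1)

theorem ce0 (hk : k ∈ C.isom) {i l m : κ} {ε : F} (hε : ε = 1 ∨ ε = -1) (hlm : l ≠ m)
    (hi : k (e i) = ε • e i) (hl : k (e l) = -ε • e l) (hm : k (e m) = -ε • e m) (hg : g ∈ X)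
    (hc : Commute k g) : g ∈ 𝐌 := by
  have key : ∀ l, k (e l) = -ε • e l → C.B (e l) (g (e i)) = 0 := fun l hl => by
    have := CForm.isom_B hk (e l) (g (e i))
    rw [show k (g (e i)) = g (k (e i)) from congrArg (· (e i)) hc.eq, hi, hl] at this
    rcases hε with rfl | rfl <;> simp at this <;>
      exact mul_left_cancel₀ two (by linear_combination -this)
  exact h.zb2 hσ hN h6 hn two hg hlm (key l hl) (key m hm)

theorem ce3 (hk : k ∈ C.isom) {D J : Finset κ}
    (H : ∀ p ∈ D, k (e p) = if p ∈ J then -e p else e p) (h3 : 3 ≤ D.card) {i j : κ} (hi : i ∈ D)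
    (hi' : i ∈ J) (hj : j ∈ D) (hj' : j ∉ J) (hg : g ∈ X) (hc : Commute k g) : g ∈ 𝐌 := by
  have := card_filter_add_card_filter_not (s := D) (· ∈ J)
  by_cases h2 : 1 < (D.filter (· ∈ J)).card
  · obtain ⟨l, hl, m, hm, hlm⟩ := one_lt_card.1 h2
    rw [mem_filter] at hl hm
    exact h.ce0 hσ hN h6 hn two hk (i := j) (.inl rfl) hlm (by simp [H, hj, hj'])
      (by simp [H, hl]) (by simp [H, hm]) hg hc
  · obtain ⟨l, hl, m, hm, hlm⟩ := one_lt_card.1 (show 1 < (D.filter (· ∉ J)).card by omega)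
    rw [mem_filter] at hl hm
    exact h.ce0 hσ hN h6 hn two hk (i := i) (.inr rfl) hlm (by simp [H, hi, hi'])
      (by simp [H, hl]) (by simp [H, hm]) hg hc

theorem le_of_odd6 : X ≤ 𝐌 := by
  intro g hg
  have hi : X ≤ C.isom := fun g hg => (h.le hg).1
  have zm : ∀ a b, 𝐳 a b ∈ X := fun a b => h.ss_mem a b (by simp)
  obtain ⟨a, b, c, d, h1, h2, h3, h4, h5, h7⟩ := exists_four (κ := κ) (by omega)
  have ex : ∀ J : Finset κ, J.card ≤ 5 → ∃ j, j ∉ J := fun J hJ => by
    simpa using exists_mem_notMem_of_card_lt_card (s := J) (t := univ) (by rw [card_univ]; omega)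
  have sd : ∀ u v : κ, ∀ J : Finset κ, (symmDiff {u, v} J).card ≤ 2 + J.card := fun u v J =>
    (card_le_card (symmDiff_le_sup (a := ({u, v} : Finset κ)) (b := J))).trans
      ((card_union_le _ _).trans (Nat.add_le_add_right card_le_two _))
  have dg : ∀ {k : V ≃ₗ[F] V} {J : Finset κ}, k ∈ X → UDg C e k J → k ≠ 1 → J.card ≤ 5 →
      ∀ g ∈ X, Commute k g → g ∈ 𝐌 := fun {k J} hk H h0 hJ g hg hc => by
    obtain ⟨i, hi'⟩ := nonempty_iff_ne_empty.2 fun e => h0 (h.dg_empty (e ▸ H))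
    obtain ⟨j, hj⟩ := ex J hJ
    exact h.ce3 hσ hN h6 hn two (hi hk) (D := univ) (fun p _ => h.dg_apply H p)
      (by rw [card_univ]; omega) (mem_univ i) hi' (mem_univ j) hj hg hc
  have z1 : 𝐳 a b ≠ 1 := fun H => two (by
    have := congrArg (C.B (e a)) (h.dg_apply (h.dg_zz h1) a)
    simp [H, h.bee] at this
    linear_combination this)
  have key : ∀ c, a ≠ c → b ≠ c →
      g * (uq C (e a - e b) (-1) * uq C (e c) (-1 - 1)) * g⁻¹ ∈ 𝐌 := by
    intro c h2 h4
    have hy := h.sw_memX h1 c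
    have ym : uq C (e a - e b) (-1) * uq C (e c) (-1 - 1) ∈ 𝐌 :=
      mul_mem (h.sw_mem h1) (h.q_mem (by simp) c)
    have y0 : ∀ x p, C.B (e p) ((uq C (e a - e b) (-1) * uq C (e c) (-1 - 1)) x) =
        if p = c then -C.B (e p) x else C.B (e (swap a b p)) x := fun x p => by
      rw [LinearEquiv.mul_apply, h.co_sw h1, h.co_q (by simp)]
      simp only [swap_apply_eq_iff, swap_apply_of_ne_of_ne h2.symm h4.symm]
      split_ifs with H
      · simp [H, swap_apply_of_ne_of_ne h2.symm h4.symm]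
      · rfl
    generalize uq C (e a - e b) (-1) * uq C (e c) (-1 - 1) = y at hy ym y0
    have y1 : y * y = 1 := LinearEquiv.ext fun x => h.ext fun p => by
      rw [LinearEquiv.mul_apply, y0, y0, y0]
      simp only [swap_apply_eq_iff, swap_apply_of_ne_of_ne h2.symm h4.symm, swap_apply_self]
      split_ifs <;> simp
    have y2 : y (e a) = e b := h.ext fun p => by
      simp only [y0, h.be, swap_apply_eq_iff, swap_apply_left]; grind
    have y2' : y (e b) = e a := h.ext fun p => by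
      simp only [y0, h.be, swap_apply_eq_iff, swap_apply_right]; grind
    have y3 : ∀ p ∈ ({a, b} : Finset κ)ᶜ, y (e p) = if p ∈ ({c} : Finset κ) then -e p else e p :=
      fun p hp => h.ext fun l => by
        simp only [mem_compl, mem_insert, mem_singleton, not_or] at hp
        simp only [y0, h.be, swap_apply_eq_iff, swap_apply_of_ne_of_ne hp.1 hp.2, mem_singleton]
        split_ifs <;> simp_all [h.be]
    have y4 : 3 ≤ ({a, b} : Finset κ)ᶜ.card := by rw [card_compl, card_pair h1]; omega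
    haveI : Finite V := Module.finite_of_finite F
    haveI : Finite (V ≃ₗ[F] V) := DFunLike.finite _
    rcases dihedral_alt (zm a b) (mul_mem (mul_mem hg hy) (inv_mem hg)) (h.dg_sq (h.dg_zz h1))
      (by rw [conj_mul, y1]; simp) with ⟨k, hk, e1⟩ | ⟨z, hz, e1, e2, e3, k, hk, e4 | e4⟩
    · have e2 : y = g⁻¹ * k * 𝐳 a b * (g⁻¹ * k)⁻¹ := by
        simpa [mul_assoc] using congrArg (g⁻¹ * · * g) e1
      have hk' := mul_mem (inv_mem hg) hk
      obtain ⟨a', b', h7⟩ := h.dg_conj (h.ll6 hσ hN h6 hn two hk' h1 (e2 ▸ ym)) (hi hk') h1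
      have := congrArg (C.B (e b)) (h.dg_apply (e2 ▸ h7) a)
      rw [y2] at this
      split_ifs at this <;> simp [h.be, h1.symm] at this
    · have b1 := dg (zm a b) (h.dg_zz h1) z1 (card_le_two.trans (by omega)) z hz e2.symm
      obtain ⟨a', b', h7⟩ := h.dg_conj (h.ll6 hσ hN h6 hn two hk h1
        (e4 ▸ mul_mem b1 (h.dg_mem (h.dg_zz h1)))) (hi hk) h1
      have h9 := h7.mul (h.dg_zz h1)
      rw [← e4, mul_assoc, h.dg_sq (h.dg_zz h1), mul_one] at h9
      exact dg hz h9 e1 ((sd _ _ _).trans (by rw [card_pair h1]; omega)) _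
        (mul_mem (mul_mem hg hy) (inv_mem hg)) e3
    · have c1 := mul_mem (mul_mem (inv_mem hg) hz) hg
      have c2 : Commute (g⁻¹ * z * g) y := by simpa [mul_assoc] using (e3.map (MulAut.conj g⁻¹))
      have c3 : g⁻¹ * z * g * y = g⁻¹ * k * 𝐳 a b * (g⁻¹ * k)⁻¹ := by
        simpa [mul_assoc] using congrArg (g⁻¹ * · * g) e4
      have c4 : Commute (g⁻¹ * z * g) (g⁻¹ * 𝐳 a b * g⁻¹⁻¹) := by
        simpa [mul_assoc] using (e2.map (MulAut.conj g⁻¹))
      generalize g⁻¹ * z * g = z at c1 c2 c3 c4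
      obtain ⟨j, hj⟩ := ex {a, b, c} (card_le_three.trans (by omega))
      have b1 := h.ce3 hσ hN h6 hn two (hi hy) y3 y4 (i := c) (j := j) (by simp [h2.symm, h4.symm])
        (by simp) (by rw [mem_compl]; clear * - hj; grind) (by clear * - hj; grind) c1 c2.symm
      have hk' := mul_mem (inv_mem hg) hk
      obtain ⟨u, v, huv, h7⟩ := h.dg_conj' (h.ll6 hσ hN h6 hn two hk' h1 (c3 ▸ mul_mem b1 ym))
        (hi hk') h1
      rw [← c3] at h7
      have b2 : ∀ p ∈ ({a, b} : Finset κ)ᶜ,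
          z (e p) = if p ∈ symmDiff ({u, v} : Finset κ) {c} then -e p else e p := fun p hp => by
        have := h.dg_apply h7 p
        rw [LinearEquiv.mul_apply, y3 p hp] at this
        by_cases d1 : p ∈ ({u, v} : Finset κ) <;> by_cases d2 : p ∈ ({c} : Finset κ) <;>
          simpa only [Finset.mem_symmDiff, d1, d2, if_true, if_false, map_neg, neg_inj,
            not_true, not_false_iff, and_false, and_true, or_self, true_or, or_true,
            neg_eq_iff_eq_neg, neg_neg] using this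
      have b3 : a ∈ ({u, v} : Finset κ) ↔ b ∈ ({u, v} : Finset κ) := by
        have d1 := congrArg (C.B (e b)) (congrArg (· (e a))
          ((c2.mul_left (Commute.refl y)).eq))
        simp only [LinearEquiv.mul_apply (z * y), LinearEquiv.mul_apply y, y2,
          h.dg_apply h7] at d1
        clear * - d1 two h y2
        by_contra H
        refine two ?_
        split_ifs at d1 <;> simp only [map_neg, y2, h.bee] at d1
        · tauto
        · linear_combination -d1
        · linear_combination d1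
        · tauto
      obtain ⟨i, b4, b5⟩ : ∃ i ∈ ({a, b} : Finset κ)ᶜ, i ∈ symmDiff ({u, v} : Finset κ) {c} := by
        simp only [Finset.mem_symmDiff, mem_compl, mem_insert, mem_singleton] at b3 ⊢
        clear * - b3 huv h1 h2 h4
        by_cases d1 : c = u
        · exact ⟨v, by grind⟩
        by_cases d2 : c = v
        · exact ⟨u, by grind⟩
        exact ⟨c, by grind⟩
      obtain ⟨j, hj⟩ := ex {a, b, c, u, v} card_le_five
      have h8 := h.ll6 hσ hN h6 hn two (inv_mem hg) h1 (h.ce3 hσ hN h6 hn two (hi c1) b2 y4 b4 b5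
        (j := j) (by rw [mem_compl]; clear * - hj; grind) (by rw [Finset.mem_symmDiff]; clear * - hj; grind)
        (mul_mem (mul_mem (inv_mem hg) (zm a b)) (inv_mem (inv_mem hg))) c4)
      exact mul_mem (mul_mem (inv_mem_iff.1 h8) ym) h8
  refine h.ll6 hσ hN h6 hn two hg h7 ?_
  convert mul_mem (inv_mem (key c h2 h4)) (key d h3 h5) using 1
  have : (uq C (e c) (-1 - 1))⁻¹ = uq C (e c) (-1 - 1) := inv_eq_of_mul_eq_one_right (by
    rw [uq_mul (h.one c) (by simp) (by simp)]; simp [uq_zero])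
  rw [uss, map_neg, map_one]
  nth_rw 1 [← this]
  group

end UX

theorem OrthDec.isMaximalIn_uframe6 [Fintype κ] [FiniteDimensional F V] [Fintype F]
    (hσ : σ ≠ RingHom.id F) (hN : ∀ a, σ a = a → ∃ b, b * σ b = a) {D : κ → Submodule F V}
    (hD : OrthDec C D) (hC : C.Nondeg) (h1 : ∀ i, finrank F (D i) = 1) (h8 : 6 ≤ Fintype.card κ)
    (hq : ∃ a, σ a = a ∧ a ≠ 0 ∧ a ≠ 1) :
    Cfsg.Geo.IsMaximalIn (C.isom ⊓ SLV F V) (decStab D ⊓ (C.isom ⊓ SLV F V)) := by
  classical
  haveI : Nontrivial κ := Fintype.one_lt_card_iff_nontrivial.1 (by omega)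
  have : ∀ j, ∃ y ∈ D j, C.N y = 1 := fun j => by
    obtain ⟨x, hx, hx0⟩ := herm_exists_nonisotropic hσ (hD.nondeg j) (hD.ne_bot j)
    obtain ⟨b, hb⟩ := hN (C.N x)⁻¹ (by rw [map_inv₀, herm_σN])
    exact ⟨b • x, (D j).smul_mem b hx, by rw [herm_N_smul, hb, inv_mul_cancel₀ hx0]⟩
  choose e he he' using this
  obtain rfl : D = frD F e := funext fun j => (Submodule.eq_of_le_of_finrank_eq
    ((Submodule.span_singleton_le_iff_mem _ _).2 (he j)) (by
      rw [h1, finrank_span_singleton (ne_of_apply_ne C.N (by simp [he', C.N_zero]))])).symm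
  have hF : UFr C e := ⟨hC, he', fun i j hij => hD.B_eq_zero hij (he i) (he j),
    fun y hy => hD.eq_zero hC fun j => C.mem_perp_singleton.2 (hy j)⟩
  obtain ⟨π, hπ⟩ := hD.exists_isProj
  have h3 := hπ.finrank_eq h1
  refine isMaximalIn_of _ _ inf_le_right (fun e => (spec_herm hσ hN hC).not_le_decStab (by omega)
    hD (e.trans inf_le_left)) fun M h4 h5 g hg hg' => ?_
  by_contra hc
  have hM : UX C M e := ⟨hF, h5, h4⟩
  by_cases h2 : (2 : F) = 0
  · exact hg' ⟨hM.le_of_even6 hσ hN h8 hc h2 hq hg, h5 hg⟩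
  · exact hg' ⟨hM.le_of_odd6 hσ hN h8 hc h2 hg, h5 hg⟩

end H12
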