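import Cfsg.Agent.H12.RO6a
import Cfsg.Agent.H12.SUList
import Cfsg.Agent.H12.UF8

/-!
# Orthogonal subfield subgroups of unitary groups in dimension at least six: lines
-/

set_option autoImplicit false
set_option maxHeartbeats 400000

namespace H12

open Module H11 Submodule QuadraticMap Cfsg.Geo

theorem exists_binary {F : Type*} [Field F] [Finite F] (h2 : (2 : F) ≠ 0) (A B D : F) {v : F}
    (hv : v ≠ 0) : ∃ s t : F, (s ≠ 0 ∨ t ≠ 0) ∧
      (s * s * A + s * t * B + t * t * D = 0 ∨ s * s * A + s * t * B + t * t * D = v) := by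
  by_cases hA : A = 0
  · exact ⟨1, 0, Or.inl one_ne_zero, Or.inl (by simp [hA])⟩
  have h4 : (4 : F) ≠ 0 := by rw [show (4 : F) = 2 * 2 by norm_num]; exact mul_ne_zero h2 h2
  by_cases hD : D - B * B / (4 * A) = 0
  · refine ⟨-B / (2 * A), 1, Or.inr one_ne_zero, Or.inl ?_⟩
    rw [← hD]; field_simp; ring
  obtain ⟨x, y, e⟩ := exists_sq_add_sq h2 hA hD v
  refine ⟨x - B * y / (2 * A), y, ?_, Or.inr ?_⟩
  · by_contra hc
    push Not at hc
    obtain ⟨a, rfl⟩ := hc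
    exact hv (by rw [← e, show x = 0 by simpa using a]; simp)
  · rw [← e]; field_simp; ring

theorem MaxK.symm {F V : Type*} [Field F] [AddCommGroup V] [Module F V]
    {X H : Subgroup (V ≃ₗ[F] V)} {L : Submodule F V} {k : V ≃ₗ[F] V} (h : MaxK X H L k) :
    MaxK X H L k⁻¹ := by
  refine ⟨inv_mem h.mem, fun e => h.nm (inv_mem_iff.1 e), fun k' a b => (h.max k' a b).trans ?_⟩
  rw [← finrank_map_equiv _ k⁻¹, Submodule.map_inf _ (k⁻¹).injective, ← Submodule.map_comp,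
    inf_comm]
  exact le_of_eq (by
    rw [show ((k⁻¹ : V ≃ₗ[F] V) : V →ₗ[F] V) ∘ₗ (k : V →ₗ[F] V) = LinearMap.id from
      LinearMap.ext (inv_apply_apply k), Submodule.map_id])

variable {K F : Type*} [Field K] [Field F] [Algebra K F] {V₀ V : Type*} [AddCommGroup V₀]
  [Module K V₀] [AddCommGroup V] [Module F V] [Module K V] [IsScalarTower K F V]
  {ι : V₀ →ₗ[K] V} {X : Subgroup (V ≃ₗ[F] V)} {σ : F →+* F} {hσ2 : ∀ a, σ (σ a) = a}
  {C : CForm (hermType σ hσ2) V} {C₀ : CForm (quadType K) V₀} {θ : F}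
  [FiniteDimensional K V₀] [FiniteDimensional F V] [Finite F] [Finite V₀]

local notation "𝔣" => algebraMap K F
local notation "𝐒" => C.isom ⊓ SLV F V

namespace RO

variable (h : RO ι X C C₀ θ)
include h

omit [Finite F] [Finite V₀] [FiniteDimensional F V] in
theorem exists_d (a b : V₀) : ∃ d, C₀.B a d = 0 ∧ C₀.B b d = 0 ∧ d ∉ span K {a, b} := by
  have h1 := h.nd₀.finrank_add_finrank_perp (span K {a, b})
  have h2 := finrank_span_pair_le (F := K) a b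
  have h3 := h.dim
  obtain ⟨d, c1, c2⟩ := exists_mem_not_mem_of_finrank_lt (W := span K {a, b})
    (W' := C₀.perp (span K {a, b})) (by omega)
  exact ⟨d, (C₀.mem_perp_pair.1 c1).1, (C₀.mem_perp_pair.1 c1).2, c2⟩

omit [Finite F] [Finite V₀] [FiniteDimensional F V] in
theorem mem_of_perp {a b : V₀} (e : TSP C₀ a b) {z : V}
    (hz : ∀ y, C₀.B a y = 0 → C₀.B b y = 0 → C.B z (ι y) = 0) : z ∈ span F {ι a, ι b} := by
  obtain ⟨a', b', d1, d2, d3, d4⟩ := e.exists_dual h.nd₀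
  refine mem_span_pair.2 ⟨σ (C.B z (ι a')), σ (C.B z (ι b')),
    h.nd.ext fun w => sub_eq_zero.1 (h.rat.map_eq_zero (φ := C.B _ - C.B _) (fun x => ?_) w)⟩
  have := hz (x - C₀.B a x • a' - C₀.B b x • b') (by simp [d1, d3]) (by simp [d2, d4])
  simp only [map_sub, ι_smul (F := F), map_smul, smul_eq_mul] at this
  simp only [LinearMap.sub_apply, C.B_add_left, herm_B_smul_left, hσ2, h.hB]
  linear_combination -this

omit [Finite V₀] [FiniteDimensional F V] in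
theorem exists_pair {a b : V₀} {d : K} (hd : d ≠ 0) : ∃ p q, C₀.B a p = 0 ∧ C₀.B b p = 0 ∧
    C₀.B a q = 0 ∧ C₀.B b q = 0 ∧ C₀.N q ≠ 0 ∧ C₀.N p = d * C₀.N q := by
  have h2 := finrank_span_pair_le (F := K) a b
  have h3 := h.dim
  obtain ⟨P, a1, a2, a3⟩ := h.nd₀.exists_nondegOn_perp (span K {a, b})
  obtain ⟨p, p1, p2⟩ := h.rep P a2 (by omega) d hd
  obtain ⟨q, q1, q2⟩ := h.rep P a2 (by omega) 1 one_ne_zero
  exact ⟨p, q, (C₀.mem_perp_pair.1 (a1 p1)).1, (C₀.mem_perp_pair.1 (a1 p1)).2,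
    (C₀.mem_perp_pair.1 (a1 q1)).1, (C₀.mem_perp_pair.1 (a1 q1)).2, by simp [q2], by simp [p2, q2]⟩

variable (hQ : RatQ ι C C₀ X)
include hQ

theorem line {g : V ≃ₗ[F] V} (hg : g ∈ X) {a b a₁ b₁ : V₀} (e : TSP C₀ a b) (e₁ : TSP C₀ a₁ b₁)
    (ha : g (ι a) ∈ span F {ι a₁, ι b₁}) (hb : g (ι b) ∈ span F {ι a₁, ι b₁}) :
    g ∈ ratStab F ι := by
  have t₁ := h.map_tsp e₁
  have h1 : (span F {ι a, ι b}).map (g : V →ₗ[F] V) = span F {ι a₁, ι b₁} :=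
    eq_of_le_of_finrank_eq (by
      rw [map_span_le]; rintro _ (rfl | rfl); exacts [ha, hb])
      (by rw [finrank_map_equiv, (h.map_tsp e).finrank_eq, t₁.finrank_eq])
  obtain ⟨y, y2, y3, y4⟩ := h.exists_d a b
  have h2 : g (ι y) ∈ C.perp (span F {ι a₁, ι b₁}) := by
    rw [← h1, ← CForm.map_perp (h.isom hg)]
    exact ⟨_, C.mem_perp_pair.2 ⟨h.B0 y2, h.B0 y3⟩, rfl⟩
  obtain ⟨y', y5, y6, y7⟩ : ∃ y', C₀.B a₁ y' = 0 ∧ C₀.B b₁ y' = 0 ∧ C.B (g (ι y)) (ι y') ≠ 0 := by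
    by_contra hc
    push Not at hc
    obtain ⟨z, hz, e'⟩ := h1.ge (h.mem_of_perp e₁ hc)
    exact y4 (h.rat.mem_pair (g.injective e' ▸ hz))
  obtain ⟨k, hk, ek⟩ := (h.rho₀ e.hv y2).conj hg (h.isom hg)
  have k1 : k (ι a₁) = ι a₁ := by
    rw [ek, t₁.ts.2 _ ha _ (mem_pair_left _ _), C.mem_perp.1 h2 _ (mem_pair_left _ _)]; simp
  obtain ⟨u, hu⟩ := h.rat.isRat_of_sub (Z := ⊥) (h.pt hQ hk e₁.hv e₁.ne (c := 1) (v' := a₁)
    (by simp [k1]))    (x := a₁) (by simpa using e₁.ne) (by simp [k1]) y'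
  rw [ek, C.mem_perp.1 (C.mem_perp_pair.2 ⟨h.B0 y5, h.B0 y6⟩) _ ha, herm_sg', ← herm_symm] at hu
  exact h.pt hQ hg e.hv e.ne (v' := y' - u) (c := (C.B (g (ι y)) (ι y'))⁻¹)
    ((eq_inv_smul_iff₀ y7).2 (by rw [map_sub, ← hu]; module))

theorem exists_two {s : V ≃ₗ[F] V} (hs : s ∈ X) (hs' : s ∈ ratStab F ι) {L : Submodule F V}
    (hL : C.TS L) (hsL : s ∈ cen L) (h1 : s ≠ 1) :
    ∃ x y u w, s (ι x) - ι x = ι u ∧ s (ι y) - ι y = ι w ∧ TSP C₀ u w := by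
  have h2 := h.rat.isRat_of_unip hs' fun x => h.nd.cen_fix (h.isom hs) hsL
    (C.mem_perp.2 fun y hy => hL.2 y hy _ (hsL x))
  obtain ⟨x, u, a1, a2⟩ := h.rat.exists_sub h2 (not_mem_cen_bot h1)
  have a3 := h.N0' (hL.1 _ (a1 ▸ hsL _))
  obtain ⟨y, w, b1, b2⟩ := h.rat.exists_sub h2 (mt (h.hT hQ a3 hs) h1)
  exact ⟨x, y, u, w, a1, b1, a3, h.N0' (hL.1 _ (b1 ▸ hsL _)),
    h.B0' (hL.2 _ (a1 ▸ hsL _) _ (b1 ▸ hsL _)), by rintro rfl; simp at a2, fun e => b2 (by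
      obtain ⟨c, rfl⟩ := mem_span_singleton.1 e
      rw [ι_smul (F := F)]; exact smul_mem _ _ (mem_span_singleton_self _))⟩

theorem ti {a b : V₀} (e : TSP C₀ a b) : TI C X (ratStab F ι) (span F {ι a, ι b}) := by
  have te := h.map_tsp e
  have h1 : span F {ι a, ι b} ≤ C.perp (span F {ι a, ι b}) := fun x hx =>
    C.mem_perp.2 fun y hy => te.ts.2 y hy x hx
  have h2 : ∀ s ∈ X, s ∈ cen (span F {ι a, ι b}) → s ∈ ratStab F ι := fun s hs hs' =>
    h.pt hQ hs e.hv e.ne (c := 1) (v' := a) (by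
      rw [h.nd.cen_fix (h.isom hs) hs' (h1 (mem_pair_left _ _)), one_smul])
  refine ⟨h.nd, h.le.trans inf_le_left, h1, fun s hs hs' h0 l hl => ?_, h2,
    fun k hk s hs hs' h0 e' => ?_, ?_⟩
  · obtain ⟨x, y, u, w, a1, a2, a3⟩ := h.exists_two hQ hs (h2 s hs hs') te.ts hs' h0
    have : span F {ι u, ι w} = span F {ι a, ι b} := eq_of_le_of_finrank_eq (span_le.2 (by
      rintro _ (rfl | rfl); exacts [a1 ▸ hs' _, a2 ▸ hs' _]))
      (by rw [(h.map_tsp a3).finrank_eq, te.finrank_eq])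
    obtain ⟨c, d, rfl⟩ := mem_span_pair.1 (this ▸ hl)
    exact ⟨c • ι x + d • ι y, by rw [← a1, ← a2, map_add, map_smul, map_smul]; module⟩
  · obtain ⟨x, y, u, w, a1, a2, a3⟩ := h.exists_two hQ (mul_mem (mul_mem (inv_mem hk) hs) hk) e'
      (te.ts.map (h.isom (inv_mem hk))) (by simpa using conj_mem_cen (k := k⁻¹) hs')
      (conj_ne_one h0)
    refine h.line hQ hk a3 e ?_ ?_
    · rw [← a1, map_sub, LinearEquiv.mul_apply, LinearEquiv.mul_apply, apply_inv_apply]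
      exact hs' _
    · rw [← a2, map_sub, LinearEquiv.mul_apply, LinearEquiv.mul_apply, apply_inv_apply]
      exact hs' _
  · obtain ⟨s, hs, e'⟩ := h.rho₀ e.hv e.hB
    obtain ⟨a', -, d1, d2, -⟩ := te.exists_dual h.nd
    refine ⟨s, hs, fun x => ?_, fun e'' => ?_⟩
    · rw [e', add_sub_right_comm, add_sub_right_comm, sub_sub_cancel_left]
      exact add_mem (neg_mem (smul_mem _ _ (mem_pair_left _ _))) (smul_mem _ _ (mem_pair_right _ _))
    · simpa [e'', d1, C.B_swap_zero d2, te.symm.ne, e.hc] using e' a'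

theorem rat_of_meet {a b : V₀} (e : TSP C₀ a b) {k : V ≃ₗ[F] V}
    (hk : MaxK X (ratStab F ι) (span F {ι a, ι b}) k) {l : V} (a1 : l ∈ span F {ι a, ι b})
    (a2 : l ∈ (span F {ι a, ι b}).map (k : V →ₗ[F] V)) : ∃ (c : F) (u : V₀), l = c • ι u := by
  have := Module.finite_of_finite F (M := V)
  have ti := h.ti hQ e
  have te := h.map_tsp e
  obtain ⟨g, g1, g2, -, g3, g4, g5⟩ := ti.fr_odd h.two hk
  obtain ⟨d, d1, d2, d3⟩ := h.exists_d a b
  obtain ⟨x, t, b1, b2⟩ := h.rat.exists_sub (h.rat.isRat_of_sub g2 d3 (span_pair_le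
    (g5 _ (C.mem_perp_pair.2 ⟨h.B0 d1, h.B0 d2⟩)))) g4
  have b3 := b1 ▸ g3 (ι x)
  have b4 : C.B (ι t) l = 0 := by
    obtain ⟨l', hl, m, hm, e'⟩ := mem_sup.1 b3
    rw [← e', C.B_add_left, te.ts.2 _ hl _ a1, (te.ts.map (h.isom hk.mem)).2 _ hm _ a2, add_zero]
  obtain ⟨α, β, rfl⟩ := mem_span_pair.1 a1
  simp only [map_add, map_smul, smul_eq_mul, h.hB] at b4
  by_cases c1 : C₀.B t a = 0
  · have c2 : C₀.B t b ≠ 0 := fun c2 => b2 (ti.mem_of_sup_perp hk b3 (C.mem_perp_pair.2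
      ⟨h.B0 (C₀.B_swap_zero c1), h.B0 (C₀.B_swap_zero c2)⟩))
    exact ⟨α, a, by simp [show β = 0 by simpa [c1, c2] using b4]⟩
  · have c2 := (map_ne_zero 𝔣).2 c1
    refine ⟨β / 𝔣 (C₀.B t a), C₀.B t a • b - C₀.B t b • a, ?_⟩
    rw [map_sub, ι_smul (F := F), ι_smul (F := F)]
    match_scalars <;> field_simp
    linear_combination b4

theorem le_ratStab : X ≤ ratStab F ι := by
  obtain ⟨a, ha, ha0⟩ := h.sing
  obtain ⟨b, e⟩ := h.tsp ha ha0
  have te := h.map_tsp e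
  have ti := h.ti hQ e
  by_contra hc
  obtain ⟨k, hk⟩ := exists_maxK (L := span F {ι a, ι b}) hc
  have h0 : span F {ι a, ι b} ⊓ (span F {ι a, ι b}).map (k : V →ₗ[F] V) = ⊥ := by
    refine (Submodule.eq_bot_iff _).2 fun l ⟨a1, a2⟩ => by_contra fun h0 => ?_
    obtain ⟨c, u, e1⟩ := h.rat_of_meet hQ e hk a1 a2
    obtain ⟨l', hl, rfl⟩ := a2
    obtain ⟨c', u', rfl⟩ := h.rat_of_meet hQ e hk.symm hl ⟨_, a1, inv_apply_apply k l'⟩
    have n0 : c' • ι u' ≠ 0 := fun e => h0 (by simp [e])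
    have n1 := left_ne_zero_of_smul n0
    refine hk.nm (h.pt hQ hk.mem (h.N0' (te.ts.1 _ ((smul_mem_iff _ n1).1 hl)))
      (by rintro rfl; simp at n0) (c := c'⁻¹ * c) (v' := u) ?_)
    rw [mul_smul, ← e1, LinearEquiv.coe_coe, map_smul, inv_smul_smul₀ n1]
  have key : ∀ u w, TSP C₀ u w → ∀ x ∈ (span F {ι a, ι b}).map (k : V →ₗ[F] V),
      C.B (ι u) x = 0 → C.B (ι w) x = 0 → x = 0 := fun u w e' x hx a1 a2 => by
    obtain ⟨g, hg, b1, b2, b3⟩ := h.witt2 e e'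
    exact ti.perp_eq_zero hk h0 hg (h.rat.mem_ratStab_one b1) hx fun l hl => by
      obtain ⟨c, d, rfl⟩ := mem_span_pair.1 hl
      simp [b2, b3, a1, a2]
  obtain ⟨d, hd⟩ := h.fix (θ * θ) (by rw [map_mul, h.σθ, neg_mul_neg])
  have hd0 : d ≠ 0 := by rintro rfl; simpa [h.θ0] using hd
  have ns : ∀ s t : K, s * s = d * (t * t) → t = 0 := fun s t e => by
    have := congrArg 𝔣 e
    simp only [map_mul, ← hd] at this
    rcases mul_self_eq_mul_self_iff.1 (this.trans (by ring : _ = θ * 𝔣 t * (θ * 𝔣 t))) with c | c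
    · exact neg_eq_zero.1 (h.ind (k := s) (by rw [map_neg]; linear_combination c)).2
    · exact (h.ind (k := s) (by linear_combination c)).2
  have ind : ∀ p q, C₀.N q ≠ 0 → C₀.N p = d * C₀.N q → q ≠ 0 ∧ p ∉ span K {q} :=
    fun p q c1 c2 => ⟨by rintro rfl; simp at c1, fun e => by
      obtain ⟨s, rfl⟩ := mem_span_singleton.1 e
      exact one_ne_zero (ns s 1 (mul_right_cancel₀ c1 (by
        rw [mul_one, mul_one, ← c2, C₀.N_smul]; rfl)))⟩
  obtain ⟨p₀, q₀, c1, c2, c3, c4, c5, c6⟩ := h.exists_pair (a := a) (b := b) hd0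
  have c7 : 2 * 𝔣 d * 𝔣 (2 * C₀.N q₀) + 2 * θ * 𝔣 (C₀.B p₀ q₀) ≠ 0 := fun e => by
    have := (h.ind (k := 2 * d * (2 * C₀.N q₀)) (k' := 2 * C₀.B p₀ q₀) (by
      simp only [map_mul, map_ofNat] at e ⊢; linear_combination e)).1
    simp [h.two₀, hd0, c5] at this
  have tM := te.ts.map (h.isom hk.mem)
  have m1 : k (ι a) ∈ (span F {ι a, ι b}).map (k : V →ₗ[F] V) := ⟨_, mem_pair_left _ _, rfl⟩
  have m2 : k (ι b) ∈ (span F {ι a, ι b}).map (k : V →ₗ[F] V) := ⟨_, mem_pair_right _ _, rfl⟩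
  obtain ⟨p₁, q₁, e₁⟩ := h.rat.exists_two h.dec (k (ι a))
  obtain ⟨p₂, q₂, e₂⟩ := h.rat.exists_two h.dec (k (ι b))
  obtain ⟨s, t, st, hst⟩ := exists_binary h.two (C.B (ι p₁ - θ • ι q₁) (k (ι a)))
    (C.B (ι p₁ - θ • ι q₁) (k (ι b)) + C.B (ι p₂ - θ • ι q₂) (k (ι a)))
    (C.B (ι p₂ - θ • ι q₂) (k (ι b))) c7
  have x0 : s • k (ι a) + t • k (ι b) ≠ 0 := fun e => by
    have := te.ind (k.injective (by rw [map_add, map_smul, map_smul, e, map_zero]))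
    tauto
  have x1 := add_mem (smul_mem _ s m1) (smul_mem _ t m2)
  obtain ⟨p, q, x2, x3⟩ : ∃ p q, s • k (ι a) + t • k (ι b) = ι p + θ • ι q ∧
      σ s • (ι p₁ - θ • ι q₁) + σ t • (ι p₂ - θ • ι q₂) = ι p - θ • ι q := by
    obtain ⟨s₀, s₁, rfl⟩ := h.dec s
    obtain ⟨t₀, t₁, rfl⟩ := h.dec t
    refine ⟨s₀ • p₁ + (s₁ * d) • q₁ + t₀ • p₂ + (t₁ * d) • q₂,
      s₁ • p₁ + s₀ • q₁ + t₁ • p₂ + t₀ • q₂, ?_, ?_⟩ <;>
    simp only [e₁, e₂, map_add, ι_smul (F := F), map_mul, h.hK, h.σθ, ← hd] <;> module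
  have x4 : s * s * C.B (ι p₁ - θ • ι q₁) (k (ι a)) + s * t * (C.B (ι p₁ - θ • ι q₁) (k (ι b)) +
      C.B (ι p₂ - θ • ι q₂) (k (ι a))) + t * t * C.B (ι p₂ - θ • ι q₂) (k (ι b)) =
      C.B (ι p - θ • ι q) (ι p + θ • ι q) := by
    rw [← x2, ← x3]
    simp only [herm_B_smul_left, map_add, LinearMap.add_apply, map_smul, smul_eq_mul, hσ2]
    ring
  rw [x2] at x0 x1
  have x5 : C₀.N p = d * C₀.N q := by
    have := tM.2 _ x1 _ x1
    simp only [LinearMap.add_apply, herm_B_smul_left, map_add, map_smul, smul_eq_mul, h.σθ,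
      herm_B_self, h.hN, h.symm p q, map_mul, map_ofNat] at this
    refine (𝔣).injective (mul_left_cancel₀ h.two ?_)
    rw [map_mul, ← hd]
    linear_combination this
  have x6 : C.B (ι p - θ • ι q) (ι p + θ • ι q) =
      2 * 𝔣 d * 𝔣 (2 * C₀.N q) + 2 * θ * 𝔣 (C₀.B p q) := by
    simp only [C.B_sub_left, herm_B_smul_left, map_add, map_smul, smul_eq_mul, h.σθ, herm_B_self,
      h.hN, h.symm p q, map_mul, map_ofNat, x5, ← hd]
    rw [h.hB]; ring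
  rw [x4, x6] at hst
  refine x0 ?_
  rcases hst with c | c
  · obtain ⟨y1, y2⟩ := h.ind (k := 2 * d * (2 * C₀.N q)) (k' := 2 * C₀.B p q) (by
      simp only [map_mul, map_ofNat] at c ⊢; linear_combination c)
    have y3 : C₀.N q = 0 := by simpa [h.two₀, hd0] using y1
    have y4 : C₀.B p q = 0 := by simpa [h.two₀] using y2
    rw [y3, mul_zero] at x5
    obtain ⟨u, w, e', y5⟩ : ∃ u w, TSP C₀ u w ∧ p ∈ span K {u, w} ∧ q ∈ span K {u, w} := by
      by_cases hp : p = 0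
      · by_cases hq : q = 0
        · exact ⟨a, b, e, by simp [hp], by simp [hq]⟩
        · obtain ⟨c, hc⟩ := h.tsp y3 hq
          exact ⟨q, c, hc, by simp [hp], mem_pair_left _ _⟩
      by_cases hq : q ∈ span K {p}
      · obtain ⟨c, hc⟩ := h.tsp x5 hp
        exact ⟨p, c, hc, mem_pair_left _ _, span_mono (by simp) hq⟩
      · exact ⟨p, q, ⟨x5, y3, y4, hp, hq⟩, mem_pair_left _ _, mem_pair_right _ _⟩
    exact key u w e' _ x1 (by simp [h.B0 (e'.ts.2 u (mem_pair_left _ _) _ y5.1),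
      h.B0 (e'.ts.2 u (mem_pair_left _ _) _ y5.2)]) (by simp [h.B0 (e'.ts.2 w
        (mem_pair_right _ _) _ y5.1), h.B0 (e'.ts.2 w (mem_pair_right _ _) _ y5.2)])
  · obtain ⟨y1, y2⟩ := h.ind (k := 2 * d * (2 * (C₀.N q - C₀.N q₀)))
      (k' := 2 * (C₀.B p q - C₀.B p₀ q₀)) (by
        simp only [map_mul, map_ofNat, map_sub] at c ⊢; linear_combination c)
    have y3 : C₀.N q = C₀.N q₀ := by simpa [h.two₀, hd0, sub_eq_zero] using y1
    have y4 : C₀.B p q = C₀.B p₀ q₀ := by simpa [h.two₀, sub_eq_zero] using y2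
    obtain ⟨g, hg, g1, g2, g3⟩ := h.w2 (ind p₀ q₀ c5 c6).1 (ind p₀ q₀ c5 c6).2
      (ind p q (y3 ▸ c5) x5).1 (ind p q (y3 ▸ c5) x5).2 y3 (by rw [x5, y3, c6]) y4
    exact ti.perp_eq_zero hk h0 hg (h.rat.mem_ratStab_one g1) x1 fun l hl => by
      rw [← g2, ← g3, ← map_smul, ← map_add, CForm.isom_B (h.isom hg)]
      exact C.mem_perp.1 (C.mem_perp_pair.2 ⟨by simp [h.B0 c1, h.B0 c3], by
        simp [h.B0 c2, h.B0 c4]⟩) l hl

end RO

theorem isMaximalIn_rat_herm_quad6 (hR : Rat F ι) (hmax : MaxSub K F) (hσ : σ ≠ RingHom.id F)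
    (hC : C.Nondeg) (hd : 6 ≤ finrank K V₀) (hK : ∀ k, σ (𝔣 k) = 𝔣 k) (h2 : (2 : F) ≠ 0)
    (hr : ∀ x y, ∃ k, C.B (ι x) (ι y) = 𝔣 k) : IsMaximalIn 𝐒 (ratStab F ι ⊓ 𝐒) := by
  have := Finite.of_injective _ (𝔣).injective
  obtain ⟨B₀, hB⟩ := exists_restrB C (σ₀ := RingHom.id K) hK hr
  have h3 : (2 : K) ≠ 0 := fun e => h2 (by rw [← map_ofNat 𝔣, e, map_zero])
  let Q₀ : QuadraticForm K V₀ := LinearMap.BilinMap.toQuadraticMap ((2⁻¹ : K) • B₀)
  have hB' : ∀ x y, C.B (ι x) (ι y) = 𝔣 ((CForm.ofQuad Q₀).B x y) := fun x y => by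
    rw [CForm.ofQuad_B, LinearMap.BilinMap.polar_toQuadraticMap, hB,
      LinearMap.smul_apply, LinearMap.smul_apply, LinearMap.smul_apply, LinearMap.smul_apply,
      show B₀ y x = B₀ x y from (𝔣).injective (by rw [← hB, herm_symm, hB, hK])]
    congr 1
    simp only [smul_eq_mul]; field_simp; ring
  have h0 : QNondeg Q₀ := hR.nondeg₀ (C₀ := CForm.ofQuad Q₀) hC hB'
  obtain ⟨θ, θ0, hθ⟩ := exists_trace_zero' (hσ2 := hσ2) hσ
  obtain ⟨η, hη⟩ := exists_ne_of_ne_id hσ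
  have h : RO ι (ratStab F ι ⊓ 𝐒) C (CForm.ofQuad Q₀) θ := ⟨hR, hB', hK, fun a ha =>
    by_contra fun hc => hη (hmax (σ.eqLocus (RingHom.id F)) hK a ha (by simpa using hc) η), hC, hd,
    h2, θ0, eq_neg_of_add_eq_zero_right hθ, inf_le_right, le_rfl,
    ⟨_, OmegaV_le_SLV, spec_quad h0 (notExc_of_two_ne_zero h3)⟩,
    fun W a b c d => exists_Q_eq_of_nondegOn h0 a b d⟩
  clear_value Q₀
  generalize CForm.ofQuad Q₀ = C₀ at h
  refine isMaximalIn_of _ _ inf_le_right (fun hle => ?_) fun Y hY hYX g hg hg' => by_contra fun hc =>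
    hg' ⟨(h.mono hY hYX).le_ratStab (not_not.1 (mt (h.mono hY hYX).le_of_not hc)) hg, hYX hg⟩
  obtain ⟨v, hv, hv0⟩ := h.sing
  obtain ⟨w, w1, w2⟩ := h.partner hv hv0
  obtain ⟨g, hg, e⟩ := su_rq (y := 0) (a := -θ) (h.N0 hv) (by simp) (by simp [h.σθ])
  refine hR.not_mem_ratStab (α := θ) (fun k e => θ0 (mul_left_cancel₀ h2 ?_)) (y₁ := v) (y₂ := w)
    (by rintro rfl; simp at w2) (fun e' => ?_) (x := w) (by simp [e, h.B1 w2, add_comm]) (hle hg).1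
  · rw [e, hK, ← e] at hθ; linear_combination hθ
  · obtain ⟨s, rfl⟩ := mem_span_singleton.1 e'
    simp [C₀.B_self_of_zero w1] at w2

section

open Cfsg

variable {F : Type*} [Field F] [Fintype F] {n q : ℕ} (hF : Fintype.card F = q ^ 2)
include hF

local notation "𝓖" => GU n F q ⊓ specialLinear (Fin n) F

theorem sul_orth6 (hn : 6 ≤ n) (hodd : Odd q) {F₀ : Subfield F} {P : GL (Fin n) F}
    (hcard : Fintype.card F = Nat.card F₀ ^ 2)
    (hP : IsFormRationalStructure (hermForm n F q) F₀ 1 P) :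
    IsMaximalIn 𝓖 (subfieldSubgroup F₀ P ⊓ 𝓖) := by
  have hc : Nat.card F = Nat.card F₀ ^ 2 := by rwa [Nat.card_eq_fintype_card]
  rw [SU_eq hF, subfieldSubgroup_eq, ← Subgroup.comap_inf]
  exact isMaximalIn_comap _ (isMaximalIn_rat_herm_quad6 (rat_ratMap F₀ P)
    (maxSub_subfield Nat.prime_two hc) (frob_ne_id hF) (hermC_nondeg hF) (by simpa)
    (fix_of_card_two hF hcard) (odd_card_iff.1 (hF ▸ hodd.pow)) fun x y =>
      ⟨⟨_, hP _ _ (fun i => (y i).2) fun i => (x i).2⟩, by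
        rw [hermC_B_eq, ratMap_apply, ratMap_apply]; exact (one_mul _).symm⟩)

theorem sul_frame6 (hn : 6 ≤ n) (hq : 3 ≤ q) {D : Fin n → Submodule F (Fin n → F)}
    (hD : IsNondegenerateMDecomposition (hermForm n F q) 1 D) :
    IsMaximalIn 𝓖 (decompositionStabilizer D ⊓ 𝓖) := by
  have hC := hermC_nondeg (ι := Fin n) hF
  have h1 := fun i => nondegOn_of_geo _ (Or.inr (hermC_B_eq hF n)) (hD.nondegenerate i)
  have h2 := hD.decomp.finrank_eq
  have hD' := orthDec_of_geo _ (Or.inr (hermC_B_eq hF n)) hD fun i j =>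
    hermT_iso hF ((CForm.restrict_nondeg_iff _).2 (h1 i))
      ((CForm.restrict_nondeg_iff _).2 (h1 j)) (by rw [h2, h2])
  rw [SU_eq hF, decompositionStabilizer_eq, ← Subgroup.comap_inf]
  exact isMaximalIn_comap _ (hD'.isMaximalIn_uframe6 (frob_ne_id hF)
    (exists_norm_of_finite (frob_frob hF) (frob_ne_id hF)) hC h2 (by simpa)
    (exists_fixed_ne hF (by omega)))

end

end H12
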