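import Cfsg.Agent.H12.RatTor

/-!
# Subfield subgroups of `Sp`, `SU`, `Ω` are maximal
-/

set_option autoImplicit false
set_option maxHeartbeats 400000

namespace H12

open Module H11 Submodule QuadraticMap Cfsg.Geo

variable {K F : Type*} [Field K] [Field F] [Algebra K F] {V₀ V : Type*} [AddCommGroup V₀]
  [Module K V₀] [AddCommGroup V] [Module F V] [Module K V] [IsScalarTower K F V]
  {ι : V₀ →ₗ[K] V} {G X : Subgroup (V ≃ₗ[F] V)}

local notation "𝔣" => algebraMap K F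

theorem exists_restrB {T : FormType F} (C : CForm T V) {σ₀ : K →+* K}
    (hσ : ∀ k, T.σ (𝔣 k) = 𝔣 (σ₀ k)) (hr : ∀ x y, ∃ k, C.B (ι x) (ι y) = 𝔣 k) :
    ∃ B₀ : V₀ →ₛₗ[σ₀] V₀ →ₗ[K] K, ∀ x y, C.B (ι x) (ι y) = 𝔣 (B₀ x y) := by
  choose b hb using hr
  refine ⟨LinearMap.mk₂'ₛₗ σ₀ (RingHom.id K) b (fun _ _ _ => ?_) (fun _ _ _ => ?_) (fun _ _ _ => ?_)
    (fun _ _ _ => ?_), hb⟩ <;> apply (𝔣).injective
  · simp [← hb]
  · rw [← hb, ι_smul (F := F), C.B_smul_left, hσ, hb, smul_eq_mul, map_mul]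
  · simp [← hb]
  · rw [← hb, ι_smul (F := F), C.B_smul_right, hb, smul_eq_mul, map_mul]; rfl

theorem RatX.tv_rat [Finite V₀] {T : FormType F} {T₀ : FormType K} {C : CForm T V}
    {C₀ : CForm T₀ V₀} (h : RatX ι C C₀ X) {v : V₀} {k : K} (hr : Rq C X (ι v) 0 (𝔣 k)) :
    Rq C (ratStab F ι ⊓ X) (ι v) 0 (𝔣 k) :=
  let ⟨g, hg, e⟩ := hr
  ⟨g, ⟨h.rat.mem_ratStab_one fun x => ⟨x - (k * C₀.B v x) • v, by
    rw [e, h.hB, map_sub, ι_smul (F := F)]; simp⟩, hg⟩, e⟩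

theorem MaxSub.two (hmax : MaxSub K F) {σ : F →+* F} (hσ : σ ≠ RingHom.id F)
    (hσ2 : ∀ a, σ (σ a) = a) (hK : ∀ k, σ (𝔣 k) = 𝔣 k) :
    ∃ θ : F, ∀ α, ∃ k k', α = 𝔣 k + 𝔣 k' * θ := by
  obtain ⟨θ, hθ⟩ := exists_ne_of_ne_id hσ
  have h1 : ∀ a, σ a = a → ∃ k, a = 𝔣 k := fun a ha => by_contra fun hc =>
    hθ (hmax (σ.eqLocus (RingHom.id F)) hK a ha (by simpa using hc) θ)
  have h2 := sub_ne_zero.2 hθ
  have h3 := sub_ne_zero.2 hθ.symm
  refine ⟨θ, fun α => ?_⟩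
  have h4 : σ ((σ α - α) / (σ θ - θ)) = (σ α - α) / (σ θ - θ) := by
    rw [map_div₀, map_sub, map_sub, hσ2, hσ2]; field_simp; ring
  obtain ⟨k', hk'⟩ := h1 _ h4
  obtain ⟨k, hk⟩ := h1 (α - (σ α - α) / (σ θ - θ) * θ) (by
    rw [map_sub, map_mul, h4]; field_simp; ring)
  exact ⟨k, k', by rw [← hk, ← hk', sub_add_cancel]⟩

variable [FiniteDimensional K V₀] [FiniteDimensional F V] [Finite F] [Finite V₀]
  (hR : Rat F ι) (hmax : MaxSub K F) (hne : ∃ α : F, ∀ k : K, α ≠ algebraMap K F k)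
  (hd : 11 ≤ finrank K V₀)
include hR hmax hne hd

theorem isMaximalIn_rat_alt {C : CForm (altType F) V} (hC : C.Nondeg) {ζ : F} (hζ : ζ ≠ 0)
    (hr : ∀ x y, ∃ k, ζ * C.B (ι x) (ι y) = 𝔣 k) : IsMaximalIn C.isom (ratStab F ι ⊓ C.isom) := by
  obtain ⟨B₀, hB⟩ := exists_restrB (C.scale hζ) (σ₀ := RingHom.id K) (fun _ => rfl) hr
  have hG := (rootG_alt hC).scale hζ
  have h : RatX ι (C.scale hζ) (CForm.ofAlt B₀ fun x => (𝔣).injective (by
      rw [← hB, CForm.scale_B, alt_B_self, mul_zero, map_zero])) C.isom :=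
    ⟨hR, hB, fun _ _ => alt_N _, fun _ => rfl, hG.nd, iso3_alt _, hd, hG.le,
      fun v u _ _ e => hG.rho _ _ (alt_N _) (alt_N _) (by rw [hB]; exact (map_eq_zero _).2 e)⟩
  have hT : ∀ v, Rq (C.scale hζ) (ratStab F ι ⊓ C.isom) (ι v) 0 1 := fun v => by
    simpa using h.tv_rat (k := 1) ((rho_scale hζ).2 ⟨_, (tv C (alt_N (ι v)) (tvOk_alt (-ζ))).2,
      fun x => by simp [tv_apply, sub_eq_add_neg]⟩)
  refine h.isMaximalIn hG hmax hne (fun Y hY hle hA v hv h0 a _ _ => ?_)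
    fun Y hY hle hQ g hg x hx => hY.not_irr_tv one_ne_zero (fun β β' hI => ⟨0, 1, by
      simpa using hI.right_ne, fun e => ?_⟩) (fun v _ => (hT v).mono hle) hQ
      (by simpa using ((hT x).mono hle).conj hg (hY.le hg)) (by simp [CForm.scale_B, alt_B_self])
  · have key : ∀ α : F, Rq (C.scale hζ) Y (ι v) 0 (α * α) := fun α =>
      one_mul (α * α) ▸ hY.tv_of_sq hA (fun v _ => (hT v).mono hle) hv h0 α
    by_cases h2 : ringChar F = 2
    · obtain ⟨α, rfl⟩ := FiniteField.isSquare_of_char_two h2 a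
      exact key α
    · have := Ring.two_ne_zero h2
      convert (key ((a + 1) / 2)).div (key ((a - 1) / 2)) (by simp [CForm.scale_B, alt_B_self])
        (by simp) (by simp) using 1
      · simp
      · simp; field_simp; ring
  · simp only [map_zero, map_one, zero_mul, one_mul, zero_add] at e
    rcases mul_self_eq_mul_self_iff.1 (e : β' * β' = β * β) with e | e
    exacts [hI.2 1 (by simp [e]), hI.2 (-1) (by simp [e])]

theorem isMaximalIn_rat_quad {Q : QuadraticForm F V} (hQ : QNondeg Q) {ζ : F} (hζ : ζ ≠ 0)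
    (hr : ∀ x, ∃ k, ζ * Q (ι x) = 𝔣 k) : IsMaximalIn (OmegaV Q) (ratStab F ι ⊓ OmegaV Q) := by
  have := Finite.of_injective _ (𝔣).injective
  choose q hq using hr
  have h1 : ∀ x y, ζ * polar Q (ι x) (ι y) = 𝔣 (polar q x y) := fun x y => by
    simp [polar, ← hq, mul_sub]
  let Q₀ : QuadraticForm K V₀ := QuadraticMap.ofPolar q
    (fun a x => (𝔣).injective (by
      rw [← hq, ι_smul (F := F), QuadraticMap.map_smul, smul_eq_mul, smul_eq_mul, map_mul, map_mul,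
        ← hq]; ring))
    (fun x x' y => (𝔣).injective (by simp [← h1, mul_add]))
    fun a x y => (𝔣).injective (by
      rw [← h1, ι_smul (F := F), polar_smul_left, smul_eq_mul, smul_eq_mul, map_mul, ← h1]; ring)
  have hG := (rootG_quad hQ (by rw [← hR.finrank_eq]; omega)).scale hζ
  have h2 : ∀ x, Q₀ x = 0 → Q (ι x) = 0 := fun x e => (mul_eq_zero.1 ((hq x).trans
    ((map_eq_zero _).2 e))).resolve_left hζ
  have h : RatX ι ((CForm.ofQuad Q).scale hζ) (CForm.ofQuad Q₀) (OmegaV Q) :=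
    ⟨hR, h1, h2, fun _ => rfl, hG.nd, iso3_quad _, hd, hG.le, fun v u a b e =>
      hG.rho _ _ (h2 v a) (h2 u b) ((h1 v u).trans ((map_eq_zero _).2 e))⟩
  refine h.isMaximalIn hG hmax hne (fun Y hY hle hA v hv h0 a _ e => ?_)
    fun Y hY hle hQ g hg x hx => hY.not_irr_of_sm hQ hg hx fun b e =>
      hY.sm_quad (fun _ => rfl) (fun x y => congrArg (ζ * ·) (polar_comm Q y x)) hQ
        ((hY.rho _ _ e.hv e.hc e.hB).conj hg (hY.le hg))
        (by rw [CForm.isom_B (hY.le hg), hY.B0 (CForm.B_self_of_zero _ e.hv)])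
        (by rw [CForm.isom_B (hY.le hg), hY.B0 e.hB])
        (by rw [CForm.isom_B (hY.le hg), hY.B0 (CForm.B_self_of_zero _ e.hc)])
        (by simpa using hR.ne_zero e.ne) fun e' => hR.not_mem_span_singleton e.nm (by
          obtain ⟨c, hc⟩ := mem_span_singleton.1 e'
          exact mem_span_singleton.2 ⟨c, g.injective (by rw [map_smul, hc])⟩)
  change ζ⁻¹ * (a * (1 * ζ / ζ)) = 0 at e
  obtain rfl : a = 0 := by simpa [hζ] using e
  exact rho_zero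

variable {σ : F →+* F} {hσ2 : ∀ a, σ (σ a) = a} {C : CForm (hermType σ hσ2) V}
  (hσ : σ ≠ RingHom.id F) (hC : C.Nondeg)
include hσ hC

theorem isMaximalIn_rat_herm_aux {ζ : F} (hζ : ζ ≠ 0) {T₀ : FormType K} {C₀ : CForm T₀ V₀}
    (hB : ∀ x y, ζ * C.B (ι x) (ι y) = 𝔣 (C₀.B x y)) (hN : ∀ x, C₀.N x = 0 → C.N (ι x) = 0)
    (hσ' : ∀ k, σ (𝔣 k) = 𝔣 (T₀.σ k)) (hi : Iso3 C₀)
    (hT : ∀ Y, RatX ι (C.scale hζ) C₀ (C.isom ⊓ SLV F V) → RatX ι (C.scale hζ) C₀ Y →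
      ratStab F ι ⊓ (C.isom ⊓ SLV F V) ≤ Y → RatQ ι (C.scale hζ) C₀ Y → ∀ g ∈ Y, ∀ x, C₀.N x = 0 →
        ¬ Irrat F ι (g (ι x))) :
    IsMaximalIn (C.isom ⊓ SLV F V) (ratStab F ι ⊓ (C.isom ⊓ SLV F V)) := by
  have hG := (rootG_herm hσ (exists_norm_of_finite hσ2 hσ) hC
    (by rw [← hR.finrank_eq]; omega)).scale hζ
  have h : RatX ι (C.scale hζ) C₀ (C.isom ⊓ SLV F V) := ⟨hR, hB, hN, hσ', hG.nd, hi, hd, hG.le,
    fun v u a b e => hG.rho _ _ (hN v a) (hN u b) ((hB v u).trans ((map_eq_zero _).2 e))⟩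
  refine h.isMaximalIn hG hmax hne (fun Y hY hle hA v hv h0 a e _ => ?_) fun Y => hT Y h
  obtain ⟨θ, hθ⟩ := exists_trace_eq hσ hσ2 (map_one σ)
  have := (map_ne_zero σ).2 hζ
  convert hY.tv_of_comm hA hv h0 (ζ / σ ζ * a * θ) using 1
  change a * (1 * ζ / σ ζ) + σ a = 0 at e
  change _ = σ (1 * ζ / σ ζ) * _ - σ _
  simp only [map_mul, map_div₀, hσ2, one_mul, eq_neg_of_add_eq_zero_right e]
  field_simp
  linear_combination -a * hθ

theorem isMaximalIn_rat_herm {σ₀ : K →+* K} (hσ' : ∀ k, σ (𝔣 k) = 𝔣 (σ₀ k))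
    (hσ₀ : σ₀ ≠ RingHom.id K) (hr : ∀ x y, ∃ k, C.B (ι x) (ι y) = 𝔣 k) :
    IsMaximalIn (C.isom ⊓ SLV F V) (ratStab F ι ⊓ (C.isom ⊓ SLV F V)) := by
  have := Finite.of_injective _ (𝔣).injective
  obtain ⟨B₀, hB⟩ := exists_restrB C hσ' hr
  have h2 : ∀ k, σ₀ (σ₀ k) = k := fun k => (𝔣).injective (by rw [← hσ', ← hσ', hσ2])
  obtain ⟨k₀, h3, h4⟩ := exists_trace_zero' (hσ2 := h2) hσ₀
  refine isMaximalIn_rat_herm_aux hR hmax hne hd hσ hC one_ne_zero (C₀ := CForm.ofHerm σ₀ hσ₀ h2 B₀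
    ⟨fun x y => (𝔣).injective (by rw [← hσ', ← hB, ← hB, ← herm_symm])⟩)
    (fun x y => (one_mul _).trans (hB x y)) (fun x e => by
      rw [← herm_B_self, hB]; exact (map_eq_zero _).2 e) hσ'
    (iso3_herm (exists_norm_of_finite h2 hσ₀) _) fun Y h hY hle hQ g hg x hx => ?_
  have hT := fun v hv => (h.tv_rat (v := v) (k := k₀) ((rho_scale one_ne_zero).2 (by
    obtain ⟨g, hg, e⟩ := tr_of_tv (C := C) (h.hN v hv) (tvOk_herm.2 (show -𝔣 k₀ + σ (-𝔣 k₀) = 0 by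
      rw [map_neg, hσ', ← neg_add, ← map_add, h4]; simp))
    exact ⟨g, hg, fun x => by simp [e, sub_eq_add_neg]⟩))).mono hle
  refine hY.not_irr_tv ((map_ne_zero _).2 h3) (fun β β' hI => ?_) hT hQ
    (by simpa using (hT x hx).conj hg (hY.le hg))
    (by rw [CForm.isom_B (hY.le hg), hY.B0 (CForm.B_self_of_zero _ hx)])
  by_contra hc
  push Not at hc
  have h5 : ∀ k, (β + 𝔣 k * β') * (σ β + 𝔣 (σ₀ k) * σ β') = β * σ β := fun k => by
    by_cases hk : k = 0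
    · simp [hk]
    have := hc 1 k fun e => hI.2 (-k⁻¹) (by
      have := (map_ne_zero 𝔣).2 hk
      rw [map_neg, map_inv₀]; field_simp; linear_combination e - β * (map_one 𝔣))
    rw [map_one, one_mul] at this
    rw [← hσ', ← map_mul, ← map_add]
    exact this
  obtain ⟨k, hk⟩ := exists_trace_eq hσ₀ h2 (map_one σ₀)
  have h6 := h5 k
  have h7 := h5 1
  have h8 := h5 (k + 1)
  have h9 := congrArg 𝔣 hk
  simp only [map_add, map_one] at h7 h8 h9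
  exact mul_ne_zero hI.right_ne ((map_ne_zero σ).2 hI.right_ne)
    (by linear_combination h8 - h6 - h7 - β' * σ β' * h9)

theorem isMaximalIn_rat_herm_quad (hK : ∀ k, σ (𝔣 k) = 𝔣 k) (h2 : (2 : F) ≠ 0)
    (hr : ∀ x y, ∃ k, C.B (ι x) (ι y) = 𝔣 k) :
    IsMaximalIn (C.isom ⊓ SLV F V) (ratStab F ι ⊓ (C.isom ⊓ SLV F V)) := by
  have := Finite.of_injective _ (𝔣).injective
  obtain ⟨B₀, hB⟩ := exists_restrB C (σ₀ := RingHom.id K) hK hr
  obtain ⟨θ, hθ⟩ := hmax.two hσ hσ2 hK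
  have h3 : (2 : K) ≠ 0 := fun e => h2 (by rw [← map_ofNat 𝔣, e, map_zero])
  refine isMaximalIn_rat_herm_aux hR hmax hne hd hσ hC one_ne_zero
    (C₀ := CForm.ofQuad (LinearMap.BilinMap.toQuadraticMap ((2⁻¹ : K) • B₀))) (fun x y => ?_)
    (fun x e => ?_) hK (iso3_quad _) fun Y _ hY _ hQ g hg x hx =>
      hY.not_irr_of_sm hQ hg hx fun _ _ => hR.sm_of_two hθ _ _
  · rw [CForm.ofQuad_B, LinearMap.BilinMap.polar_toQuadraticMap, one_mul, hB,
      LinearMap.smul_apply, LinearMap.smul_apply, LinearMap.smul_apply, LinearMap.smul_apply,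
      show B₀ y x = B₀ x y from (𝔣).injective (by rw [← hB, herm_symm, hB, hK])]
    congr 1
    simp only [smul_eq_mul]; field_simp; ring
  · rw [← herm_B_self, hB, show B₀ x x = 0 by simpa [h3] using e, map_zero]

theorem isMaximalIn_rat_herm_alt (hK : ∀ k, σ (𝔣 k) = 𝔣 k) {ζ : F} (hζ : ζ ≠ 0)
    (hr : ∀ x y, ∃ k, ζ * C.B (ι x) (ι y) = 𝔣 k) (h0 : ∀ x, C.B (ι x) (ι x) = 0) :
    IsMaximalIn (C.isom ⊓ SLV F V) (ratStab F ι ⊓ (C.isom ⊓ SLV F V)) := by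
  obtain ⟨B₀, hB⟩ := exists_restrB (C.scale hζ) (σ₀ := RingHom.id K) hK hr
  obtain ⟨θ, hθ⟩ := hmax.two hσ hσ2 hK
  exact isMaximalIn_rat_herm_aux hR hmax hne hd hσ hC hζ (C₀ := CForm.ofAlt B₀ fun x =>
    (𝔣).injective (by rw [← hB, CForm.scale_B, h0, mul_zero, map_zero])) hB
    (fun x _ => by rw [← herm_B_self, h0]) hK (iso3_alt _) fun Y _ hY _ hQ g hg x hx =>
      hY.not_irr_of_sm hQ hg hx fun _ _ => hR.sm_of_two hθ _ _

end H12
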