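import Cfsg.Agent.H12.RatRoot

/-!
# Rational structures on spaces with forms: overgroups without irrational root elements
-/

set_option autoImplicit false
set_option maxHeartbeats 400000

namespace H12

open Module H11 Submodule

variable {K F : Type*} [Field K] [Field F] [Algebra K F] {V₀ V : Type*} [AddCommGroup V₀]
  [Module K V₀] [AddCommGroup V] [Module F V] [Module K V] [IsScalarTower K F V]
  {ι : V₀ →ₗ[K] V} {T : FormType F} {T₀ : FormType K} {C : CForm T V} {C₀ : CForm T₀ V₀}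
  {G X : Subgroup (V ≃ₗ[F] V)}

local notation "𝔣" => algebraMap K F

variable (F ι) in
/-- An irrational vector. -/
def Irrat (w : V) : Prop := ∀ (c : F) y, w ≠ c • ι y

variable (F ι) in
/-- Two vectors with small support. -/
def Sm (w w' : V) : Prop :=
  ∃ Z : Submodule K V₀, finrank K Z ≤ 4 ∧ w ∈ span F (ι '' Z) ∧ w' ∈ span F (ι '' Z)

variable (ι C C₀ X) in
/-- All elements of `X` in the radicals of rational points are rational. -/
def RatQ : Prop := ∀ v, C₀.N v = 0 → v ≠ 0 → ∀ y a, C.B (ι v) y = 0 → Rq C X (ι v) y a →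
  ∃ (p : V₀) (μ : F), y = ι p + μ • ι v

theorem map_eq_zero_of_span {Z : Set V₀} {φ : Dual F V} (hφ : ∀ z ∈ Z, φ (ι z) = 0) {w : V}
    (hw : w ∈ span F (ι '' Z)) : φ w = 0 :=
  (span_le (p := LinearMap.ker φ)).2 (by rintro _ ⟨y, hy, rfl⟩; exact hφ y hy) hw

theorem mem_span_image {Z : Submodule K V₀} {x : V₀} (hx : x ∈ Z) : ι x ∈ span F (ι '' Z) :=
  subset_span ⟨x, hx, rfl⟩

theorem Rat.mem_of_irr (h : Rat F ι) {w : V} (hw : Irrat F ι w) {p q : V₀}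
    (h1 : w ∈ span F {ι p, ι q}) {Z : Submodule K V₀} (h2 : w ∈ span F (ι '' Z)) : q ∈ Z := by
  by_contra hq
  obtain ⟨φ₀, φ, a1, a2, a3⟩ := h.exists_one_zero hq
  have := map_eq_zero_of_span a2 h2
  obtain ⟨γ, δ, rfl⟩ := mem_span_pair.1 h1
  rw [map_add, map_smul, map_smul, a3, a1, smul_eq_mul, smul_eq_mul] at this
  refine hw γ (p - φ₀ p • q) ?_
  rw [map_sub, ι_smul (F := F), show δ = -(γ * 𝔣 (φ₀ p)) by linear_combination this]
  module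

theorem span_pair_le {p q : V₀} : span F {ι p, ι q} ≤ span F (ι '' span K {p, q}) :=
  span_mono (by rintro _ (rfl | rfl) <;> exact ⟨_, subset_span (by simp), rfl⟩)

theorem Rat.not_irr_of_lines (h : Rat F ι) {w w₁ w₂ : V} (n1 : w₁ ∉ span F {w})
    (n2 : w₂ ∉ span F {w, w₁})
    (h1 : ∃ p q, ι p ∈ span F {w, w₁} ∧ ι q ∈ span F {w, w₁} ∧ w ∈ span F {ι p, ι q})
    (h2 : ∃ p q, ι p ∈ span F {w, w₂} ∧ ι q ∈ span F {w, w₂} ∧ w ∈ span F {ι p, ι q}) :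
    ¬ Irrat F ι w := fun hi => by
  obtain ⟨p, q, a1, a2, a3⟩ := h1
  obtain ⟨p', q', a4, a5, a6⟩ := h2
  have n3 : ∀ x, ι x ∈ span F {w, w₁} → x ∈ span K {p', q'} → ι x = 0 := fun x e e' => by
    have : ι x ∈ span F {w, w₂} := by
      obtain ⟨s, t, rfl⟩ := mem_span_pair.1 e'
      rw [map_add, ι_smul (F := F), ι_smul (F := F)]
      exact add_mem (smul_mem _ _ a4) (smul_mem _ _ a5)
    obtain ⟨c, hc⟩ := mem_span_singleton.1 (mem_span_of_mem_pairs e this n1 n2)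
    by_contra h0
    exact hi c⁻¹ x (by rw [← hc, inv_smul_smul₀ (by rintro rfl; exact h0 (by simpa using hc.symm))])
  have a7 := n3 q a2 (h.mem_of_irr hi a3 (span_pair_le a6))
  have a8 := n3 p a1 (h.mem_of_irr (p := q) hi (by rwa [Set.pair_comm]) (span_pair_le a6))
  obtain ⟨s, t, e⟩ := mem_span_pair.1 a3
  exact hi 0 0 (by rw [← e, a7, a8, smul_zero, smul_zero, zero_smul, add_zero])

theorem Rat.eq_smul (h : Rat F ι) {Z : Submodule K V₀} (hZ : 3 ≤ finrank K Z) {z : V}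
    (hz : Irrat F ι z) {g : V ≃ₗ[F] V} {l : F} (h1 : ∀ a ∈ Z, ¬ Irrat F ι (g (ι a)))
    (h2 : ∀ a ∈ Z, g (ι a) - l • ι a ∈ span F {z}) {a : V₀} (ha : a ∈ Z) : g (ι a) = l • ι a := by
  have key : ∀ a ∈ Z, g (ι a) ≠ l • ι a → ∃ p, z ∈ span F {ι p, ι a} := fun a ha e => by
    obtain ⟨c, p, e1⟩ : ∃ (c : F) (p : V₀), g (ι a) = c • ι p := by simpa [Irrat] using h1 a ha
    obtain ⟨s, e2⟩ := mem_span_singleton.1 (h2 a ha)
    have hs : s ≠ 0 := by rintro rfl; exact e (sub_eq_zero.1 (by rw [← e2, zero_smul]))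
    exact ⟨p, mem_span_pair.2 ⟨c / s, -l / s, smul_right_injective V hs (by
      simp only [smul_add, smul_smul, mul_div_cancel₀ _ hs, e2, e1]; module)⟩⟩
  by_contra e
  obtain ⟨p, hp⟩ := key a ha e
  have h3 : ∀ b ∈ Z, b ∉ span K {p, a} → g (ι b) = l • ι b := fun b hb hb' => by_contra fun e' =>
    let ⟨_, hq⟩ := key b hb e'; hb' (h.mem_of_irr hz hq (span_pair_le hp))
  have := FiniteDimensional.span_of_finite K (Set.toFinite {p, a})
  obtain ⟨b, hb, hb'⟩ : ∃ b ∈ Z, b ∉ span K {p, a} := SetLike.not_le_iff_exists.1 fun e' => by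
    have := Submodule.finrank_mono e'
    have := finrank_span_pair_le (F := K) p a
    omega
  have := h3 (a + b) (add_mem ha hb) fun e' => hb' ((add_mem_cancel_left (subset_span (by simp))).1 e')
  rw [map_add, map_add, h3 b hb hb', smul_add] at this
  exact e (add_right_cancel this)

theorem exists_det {w w' : V} {S : V₀ → Prop} (hw : w ≠ 0) (hw' : w' ∉ span F {w})
    (hS : ∀ z ∈ span F {w, w'}, (∀ u, S u → C.B z (ι u) = 0) → z = 0) :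
    ∃ u₁ u₂, S u₁ ∧ S u₂ ∧ C.B w' (ι u₁) * C.B w (ι u₂) - C.B w (ι u₁) * C.B w' (ι u₂) ≠ 0 := by
  by_contra hc
  push Not at hc
  obtain ⟨u, h1, h2⟩ : ∃ u, S u ∧ C.B w (ι u) ≠ 0 := by
    by_contra hc
    push Not at hc
    exact hw (hS w (subset_span (by simp)) hc)
  have := hS (T.σ (C.B w' (ι u)) • w - T.σ (C.B w (ι u)) • w') (sub_mem (smul_mem _ _ (subset_span
    (by simp))) (smul_mem _ _ (subset_span (by simp)))) fun u' h3 => by
      simpa [T.σσ] using hc u u' h1 h3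
  exact hw' ((smul_mem_iff _ (T.σ_ne_zero h2)).1
    (sub_eq_zero.1 this ▸ smul_mem _ _ (mem_span_singleton_self w)))

theorem exists_torus_fam [Finite F] {J : Type*} {Y : Subgroup (V ≃ₗ[F] V)} {R : Submodule F V}
    (hR : ∀ y ∈ Y, ∀ r ∈ R, y r ∈ R) {e w : J → V} {s₁ s₂ t : V ≃ₗ[F] V} (h1 : s₁ ∈ Y)
    (h2 : s₂ ∈ Y) (ht : t ∈ Y) {a₁ a₂ b : F} (e1 : ∀ j, s₁ (e j) - e j ∈ R)
    (e1' : ∀ j, s₁ (w j) - (a₁ • e j + w j) ∈ R) (e2 : ∀ j, s₂ (e j) - e j ∈ R)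
    (e2' : ∀ j, s₂ (w j) - (a₂ • e j + w j) ∈ R) (et : ∀ j, t (e j) - (e j + b • w j) ∈ R)
    (et' : ∀ j, t (w j) - w j ∈ R) (n1 : a₁ ≠ 0) (n2 : a₂ ≠ 0) (n12 : a₁ ≠ a₂) (nb : b ≠ 0) :
    ∃ h ∈ Y, ∃ l : F, l ≠ 1 ∧ ∀ j, h (e j) - l • e j ∈ R := by
  let Φ : (V ≃ₗ[F] V) →* ((J → V) ≃ₗ[F] (J → V)) :=
    { toFun y := LinearEquiv.piCongrRight fun _ => y
      map_one' := rfl
      map_mul' _ _ := rfl }
  obtain ⟨_, ⟨h, hh, rfl⟩, l, -, -, c1, c2, -⟩ := exists_torus_mod (Y := Y.map Φ)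
    (R := Submodule.pi Set.univ fun _ => R) (e := e) (w := w)
    (by rintro _ ⟨y, hy, rfl⟩ r hr j _; exact hR y hy _ (hr j trivial)) ⟨s₁, h1, rfl⟩ ⟨s₂, h2, rfl⟩
    ⟨t, ht, rfl⟩ (fun j _ => e1 j) (fun j _ => e1' j) (fun j _ => e2 j) (fun j _ => e2' j)
    (fun j _ => et j) (fun j _ => et' j) n1 n2 n12 nb
  exact ⟨h, hh, l, c1, fun j => c2 j trivial⟩

theorem finrank_three [FiniteDimensional K V₀] {a b c : V₀} (ha : a ≠ 0) (hb : b ∉ span K {a})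
    (hc : c ∉ spanL K [a, b]) : finrank K (spanL K [a, b, c]) = 3 := by
  have h1 := finrank_span_singleton (K := K) ha
  have h2 := finrank_lt_finrank_of_lt (SetLike.lt_iff_le_and_exists.2
    ⟨(span_singleton_le_iff_mem _ _).2 (mem_spanL (l := [a, b]) (by simp)), b, mem_spanL (by simp), hb⟩)
  have h3 := finrank_lt_finrank_of_lt (SetLike.lt_iff_le_and_exists.2
    ⟨spanL_mono (m := [a, b, c]) (by simp), c, mem_spanL (by simp), hc⟩)
  have := finrank_span_list_le (F := K) [a, b, c]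
  simp only [List.length_cons, List.length_nil] at this
  omega

theorem ts_three {a b c : V₀} (ha : C₀.N a = 0) (hb : C₀.N b = 0) (hc : C₀.N c = 0)
    (h1 : C₀.B a b = 0) (h2 : C₀.B a c = 0) (h3 : C₀.B b c = 0) : C₀.TS (spanL K [a, b, c]) :=
  CForm.ts_span (by simp [ha, hb, hc]) (by simp [h1, h2, h3, C₀.B_swap_zero h1, C₀.B_swap_zero h2,
    C₀.B_swap_zero h3, C₀.B_self_of_zero ha, C₀.B_self_of_zero hb, C₀.B_self_of_zero hc])

namespace RatX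

variable [FiniteDimensional K V₀] [FiniteDimensional F V] (h : RatX ι C C₀ X)
include h

theorem mem_span_of_perp {v : V₀} {z : V} (hz : ∀ u, C₀.N u = 0 ∧ C₀.B v u = 0 → C.B z (ι u) = 0) :
    z ∈ span F {ι v} := by
  rw [← h.nd.perp_perp (span F {ι v}), C.mem_perp']
  exact fun y hy => h.perp_mem (Z := LinearMap.ker (C.B z)) (fun u a b _ => hz u ⟨a, b⟩)
    (C.mem_perp_singleton.1 hy)

theorem line (hQ : RatQ ι C C₀ X) {w w' : V} (hr : Rq C X w w' 0) (h3 : C.B w w = 0)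
    (h4 : C.B w w' = 0) (h5 : C.B w' w' = 0) (hw : w ≠ 0) (hw' : w' ∉ span F {w})
    (hs : Sm F ι w w') :
    ∃ p q, ι p ∈ span F {w, w'} ∧ ι q ∈ span F {w, w'} ∧ w ∈ span F {ι p, ι q} := by
  obtain ⟨Z, hZ, m1, m2⟩ := hs
  obtain ⟨v, a1, a2, a3⟩ := h.iso.exists_perp h.nd₀ Z Z (by have := h.dim; omega)
  obtain ⟨φ₀, φ, b1, b2, b3⟩ := h.rat.exists_one_zero a2
  have hle : span F {w, w'} ≤ span F (ι '' Z) := span_le.2 (by rintro _ (rfl | rfl) <;> assumption)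
  have c1 : ∀ {x}, x ∈ span F (ι '' Z) → C.B (ι v) x = 0 :=
    map_eq_zero_of_span fun z hz => h.B0 (C₀.mem_perp'.1 a1 z hz)
  have m3 : ∀ s t : F, s • w - t • w' ∈ span F {w, w'} := fun s t =>
    sub_mem (smul_mem _ _ (subset_span (by simp))) (smul_mem _ _ (subset_span (by simp)))
  have key : ∀ u, C₀.N u = 0 ∧ C₀.B v u = 0 →
      ∃ p, (T.σ T.ε * C.B w' (ι u)) • w - C.B w (ι u) • w' = ι p := fun u ⟨d1, d2⟩ => by
    obtain ⟨k, hk, e⟩ := h.rho v u a3 d1 d2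
    have := hr.conj hk (h.le hk)
    simp only [e, c1 m1, c1 m2, zero_smul, add_zero, zero_mul] at this
    obtain ⟨a, ha⟩ := this.shift hr (c1 m1) (c1 m2) h3 h4 h5
    rw [T.σσ, T.σσ] at ha
    obtain ⟨p, μ, e'⟩ := hQ v a3 (ne_zero_of_not_mem a2) _ _ (c1 (hle (m3 _ _))) ha
    have := map_eq_zero_of_span b2 (hle (m3 (T.σ T.ε * C.B w' (ι u)) (C.B w (ι u))))
    rw [e', map_add, map_smul, b3, b1, smul_eq_mul] at this
    exact ⟨p - φ₀ p • v, by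
      rw [e', map_sub, ι_smul (F := F), show μ = -𝔣 (φ₀ p) by linear_combination this]; module⟩
  obtain ⟨u₁, u₂, d1, d2, d3⟩ := exists_det (S := fun u => C₀.N u = 0 ∧ C₀.B v u = 0) hw hw'
    fun z hz hz' => by
      obtain ⟨c, rfl⟩ := mem_span_singleton.1 (h.mem_span_of_perp hz')
      have := map_eq_zero_of_span b2 (hle hz)
      simp_all
  obtain ⟨p, hp⟩ := key u₁ d1
  obtain ⟨q, hq⟩ := key u₂ d2
  refine ⟨p, q, hp ▸ m3 _ _, hq ▸ m3 _ _, (smul_mem_iff _ (mul_ne_zero (T.σ_ne_zero T.ε_ne) d3)).1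
    (mem_span_pair.2 ⟨C.B w (ι u₂), -C.B w (ι u₁), ?_⟩)⟩
  rw [← hp, ← hq]; module

theorem not_irr (hQ : RatQ ι C C₀ X) {g : V ≃ₗ[F] V} (hg : g ∈ X) {a b b' : V₀} (h1 : TSP C₀ a b)
    (h2 : TSP C₀ a b') (h3 : b' ∉ spanL K [a, b]) (s1 : Sm F ι (g (ι a)) (g (ι b)))
    (s2 : Sm F ι (g (ι a)) (g (ι b'))) : ¬ Irrat F ι (g (ι a)) := by
  have n1 : ∀ {s : Set V} {x : V}, x ∉ span F s → g x ∉ span F (g '' s) := fun hx e => by
    rw [← LinearEquiv.coe_coe, ← Submodule.map_span] at e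
    obtain ⟨y, hy, e⟩ := e
    exact hx (g.injective e ▸ hy)
  have n2 : ∀ {b}, TSP C₀ a b → g (ι b) ∉ span F {g (ι a)} := fun e => by
    simpa using n1 (h.rat.not_mem_span_singleton e.nm)
  have key : ∀ {b}, TSP C₀ a b → Sm F ι (g (ι a)) (g (ι b)) → ∃ p q, ι p ∈ span F {g (ι a), g (ι b)}
      ∧ ι q ∈ span F {g (ι a), g (ι b)} ∧ g (ι a) ∈ span F {ι p, ι q} := fun e =>
    h.line hQ ((h.rho _ _ e.hv e.hc e.hB).conj hg (h.le hg))
      (by rw [CForm.isom_B (h.le hg), h.B0 (C₀.B_self_of_zero e.hv)])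
      (by rw [CForm.isom_B (h.le hg), h.B0 e.hB])
      (by rw [CForm.isom_B (h.le hg), h.B0 (C₀.B_self_of_zero e.hc)])
      (by simpa using h.rat.ne_zero e.ne) (n2 e)
  have := n1 (h.rat.not_mem_span (s := {a, b}) fun e => h3 (mem_spanL_pair.2 (mem_span_pair.1 e)))
  rw [Set.image_pair, Set.image_pair] at this
  exact h.rat.not_irr_of_lines (n2 h1) this (key h1 s1) (key h2 s2)

theorem not_irr_of_stab (hQ : RatQ ι C C₀ X) {g : V ≃ₗ[F] V} (hg : g ∈ X) {Z : Submodule K V₀}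
    (hZ : C₀.TS Z) (h3 : finrank K Z = 3) (hs : ∀ a ∈ Z, g (ι a) ∈ span F (ι '' Z)) {a : V₀}
    (ha : a ∈ Z) : ¬ Irrat F ι (g (ι a)) := by
  by_cases h0 : a = 0
  · exact fun hi => hi 0 0 (by simp [h0])
  obtain ⟨b, hb, hb'⟩ := exists_mem_not_mem_of_finrank_lt (W := span K {a}) (W' := Z)
    (by have := finrank_span_singleton_le (F := K) a; omega)
  obtain ⟨c, hc, hc'⟩ := exists_mem_not_mem_of_finrank_lt (W := spanL K [a, b]) (W' := Z)
    (by have := finrank_span_list_le (F := K) [a, b]; simp at this; omega)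
  exact h.not_irr hQ hg ⟨hZ.1 a ha, hZ.1 b hb, hZ.2 a ha b hb, h0, hb'⟩
    ⟨hZ.1 a ha, hZ.1 c hc, hZ.2 a ha c hc, h0, not_mem_span_of_spanL hc' (by simp)⟩ hc'
    ⟨Z, by omega, hs a ha, hs b hb⟩ ⟨Z, by omega, hs a ha, hs c hc⟩

theorem exists_indep {v : V₀} {y : V} (hy : ∀ (c μ : F) p, y ≠ c • ι p + μ • ι v) :
    ∃ u₁ u₂, C₀.N u₁ = 0 ∧ C₀.N u₂ = 0 ∧ C₀.B v u₁ = 0 ∧ C₀.B v u₂ = 0 ∧ C₀.B u₁ u₂ = 0 ∧
      Indep K (C.B (ι u₁) y) (C.B (ι u₂) y) := by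
  have hd := h.dim
  obtain ⟨u₁, a1, a2, u₂, a3, a4, hI⟩ : ∃ u₁, C₀.N u₁ = 0 ∧ C₀.B v u₁ = 0 ∧ ∃ u₂, C₀.N u₂ = 0 ∧
      C₀.B v u₂ = 0 ∧ Indep K (C.B (ι u₁) y) (C.B (ι u₂) y) := by
    by_contra hc
    simp only [Indep, not_exists, not_and, not_forall, not_not] at hc
    by_cases h0 : ∀ u, C₀.N u = 0 → C₀.B v u = 0 → C.B (ι u) y = 0
    · obtain ⟨p, μ, e⟩ := h.rat_mod fun u a b => ⟨0, by rw [h0 u a b, map_zero]⟩
      exact hy 1 μ p (by rwa [one_smul])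
    push Not at h0
    obtain ⟨u, a1, a2, a3⟩ := h0
    obtain ⟨p, μ, e⟩ := h.rat_mod (y := (C.B (ι u) y)⁻¹ • y) fun u' a b => by
      obtain ⟨k, hk⟩ := hc u a1 a2 u' a b a3
      exact ⟨k, by rw [map_smul, hk, smul_eq_mul]; field_simp⟩
    exact hy (C.B (ι u) y) (C.B (ι u) y * μ) p (by rw [mul_smul, ← smul_add, ← e, smul_inv_smul₀ a3])
  have key : ∀ p, C₀.N p = 0 → (∀ x ∈ [v, u₁, u₂], C₀.B x p = 0) → C.B (ι p) y ≠ 0 → ∃ u₁ u₂,
      C₀.N u₁ = 0 ∧ C₀.N u₂ = 0 ∧ C₀.B v u₁ = 0 ∧ C₀.B v u₂ = 0 ∧ C₀.B u₁ u₂ = 0 ∧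
      Indep K (C.B (ι u₁) y) (C.B (ι u₂) y) := fun p b1 b2 b3 =>
    (hI.or b3).elim (fun e => ⟨u₁, p, a1, b1, a2, b2 _ (by simp), b2 _ (by simp), e⟩)
      fun e => ⟨p, u₂, b1, a3, b2 _ (by simp), a4, C₀.B_swap_zero (b2 _ (by simp)), e⟩
  obtain ⟨p, b1, b2, b3⟩ := h.iso.exists_perpL h.nd₀ [v, u₁, u₂] [v, u₁, u₂] (by simp; omega)
  obtain ⟨p', c1, c2, c3⟩ := h.iso.exists_perp_eq h.nd₀ b2
    (by have := finrank_span_list_le (F := K) [v, u₁, u₂]; simp at this; omega) (-C₀.B u₁ u₂)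
  rw [mem_perp_spanL] at c1
  by_cases d1 : C.B (ι p) y = 0
  swap; · exact key p b3 b1 d1
  by_cases d2 : C.B (ι p') y = 0
  swap; · exact key p' c2 c1 d2
  simp only [List.mem_cons, List.not_mem_nil, or_false, forall_eq_or_imp, forall_eq] at b1 c1
  exact ⟨u₁ + p, u₂ + p', by simp [C₀.N_add, a1, b3, b1], by simp [C₀.N_add, a3, c2, c1],
    by simp [a2, b1], by simp [a4, c1], by simp [c1, c3, C₀.B_swap_zero b1.2.2],
    by simpa [d1, d2] using hI⟩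

end RatX

end H12
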