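import Cfsg.Agent.H12.SLList

/-!
# Subfield subgroups of the special linear group in small dimension
-/

set_option autoImplicit false
set_option maxHeartbeats 400000

namespace H12

open Module H11

variable {K F : Type*} [Field K] [Field F] [Algebra K F] {V₀ V : Type*} [AddCommGroup V₀]
  [Module K V₀] [AddCommGroup V] [Module F V] [Module K V] [IsScalarTower K F V]
  {ι : V₀ →ₗ[K] V} {X : Subgroup (V ≃ₗ[F] V)}

local notation "𝔣" => algebraMap K F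

theorem exists_mem_ker_one [FiniteDimensional K V₀] (φ : Dual K V₀) (l : List V₀)
    (h : l.length + 1 < finrank K V₀) : ∃ x, x ∉ spanL K l ∧ φ x = 0 := by
  obtain ⟨x, -, h1, h2⟩ := exists_mem_ker_not_mem (W := ⊤) ![φ] (spanL K l) (by
    have := finrank_span_list_le (F := K) l
    simp; omega)
  exact ⟨x, h1, h2 0⟩

variable [FiniteDimensional F V] [FiniteDimensional K V₀] [Finite V₀]

theorem Rat.sl_all4 (h : Rat F ι) (hd : 4 ≤ finrank K V₀) (hX : ratStab F ι ⊓ SLV F V ≤ X) {α : F}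
    {x : V₀} {φ₀ : Dual K V₀} {φ : Dual F V} (e : ∀ x, φ (ι x) = 𝔣 (φ₀ x)) (hx : φ₀ x = 0)
    (hx0 : x ≠ 0) (hφ : φ₀ ≠ 0) (ht : Tr X (α • ι x) φ) (x' : V₀) (φ₀' : Dual K V₀)
    (φ' : Dual F V) (e' : ∀ x, φ' (ι x) = 𝔣 (φ₀' x)) (hx' : φ₀' x' = 0) : Tr X (α • ι x') φ' := by
  have M1 : ∀ {x x' : V₀} {φ₀ : Dual K V₀} {φ : Dual F V}, (∀ x, φ (ι x) = 𝔣 (φ₀ x)) → φ₀ x = 0 →
      φ₀ x' = 0 → x ∉ Submodule.span K {x'} → Tr X (α • ι x) φ → Tr X (α • ι x') φ := by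
    intro x x' φ₀ φ e a1 a2 a3 a4
    obtain ⟨χ₀, b1, b2⟩ := exists_dual_eq_one a3
    obtain ⟨χ, hχ⟩ := h.exists_ext χ₀
    have b3 := b1 _ (Submodule.mem_span_singleton_self _)
    simpa [hχ, b2] using (h.tr hX hχ b3).comm a4 (by simp [hχ, b3]) (by simp [e, a1]) (by simp [e, a2])
  have M2 : ∀ {x y : V₀} {φ₀ χ₀ : Dual K V₀} {φ χ : Dual F V}, (∀ x, φ (ι x) = 𝔣 (φ₀ x)) →
      (∀ x, χ (ι x) = 𝔣 (χ₀ x)) → φ₀ x = 0 → χ₀ x = 0 → φ₀ y = 1 → χ₀ y = 0 →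
      Tr X (α • ι x) φ → Tr X (α • ι x) χ := by
    intro x y φ₀ χ₀ φ χ e e' a1 a2 a3 a4 a5
    simpa [e, a3] using a5.comm (h.tr hX e' a4) (by simp [e, a1]) (by simp [e', a4]) (by simp [e', a2])
  obtain ⟨y, hy⟩ : ∃ y, φ₀ y = 1 := LinearMap.surjective_of_ne_zero hφ 1
  obtain ⟨a, a1, a2⟩ := exists_mem_ker_one φ₀ [x, x'] (by simp; omega)
  have d1 : a ∉ Submodule.span K {x} := fun e => a1
    ((Submodule.span_singleton_le_iff_mem _ _).2 (mem_spanL (by simp)) e)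
  have d2 : a ∉ Submodule.span K {x'} := fun e => a1
    ((Submodule.span_singleton_le_iff_mem _ _).2 (mem_spanL (by simp)) e)
  by_cases hc : φ₀' a = 0 ∧ φ₀' y = 0
  · exact M1 e' hc.1 hx' d2 (M2 e e' a2 hc.1 hy hc.2 (M1 e hx a2 (not_mem_span_of_not_mem hx0 d1
      (by rintro rfl; exact d1 (zero_mem _))) ht))
  obtain ⟨y', b2, b1⟩ : ∃ y' ∈ LinearMap.ker φ₀', y' ∉ spanL K [a, y, x'] := by
    by_contra! hn
    have a3 := finrank_span_list_le (F := K) [a, y, x']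
    have a4 := LinearMap.finrank_range_add_finrank_ker φ₀'
    have a5 := Submodule.finrank_le (LinearMap.range φ₀')
    have a6 := Submodule.eq_of_le_of_finrank_le hn (by simp at a3 a5; omega)
    exact hc ⟨a6.ge (mem_spanL (by simp)), a6.ge (mem_spanL (by simp))⟩
  obtain ⟨χ₀, c1, c2⟩ := exists_dual_eq_one b1
  obtain ⟨χ, hχ⟩ := h.exists_ext χ₀
  exact M2 hχ e' (c1 _ (mem_spanL (by simp))) hx' c2 b2 (M1 hχ (c1 _ (mem_spanL (by simp)))
    (c1 _ (mem_spanL (by simp))) d2 (M2 e hχ a2 (c1 _ (mem_spanL (by simp))) hy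
      (c1 _ (mem_spanL (by simp))) (M1 e hx a2 (not_mem_span_of_not_mem hx0 d1
        (by rintro rfl; exact d1 (zero_mem _))) ht)))

theorem Rat.SLV_le_of_irrational4 (h : Rat F ι) (hmax : MaxSub K F) (hd : 4 ≤ finrank K V₀)
    (hX : ratStab F ι ⊓ SLV F V ≤ X) {x y : V₀} {ψ : Dual F V} (hx : ψ (ι x) = 0) (hx0 : x ≠ 0)
    (ht : Tr X (ι x) ψ) (hy : ∀ k, ψ (ι y) ≠ 𝔣 k) : SLV F V ≤ X := by
  let A : Subring F :=
    { carrier := {α | ∀ (x : V₀) (φ₀ : Dual K V₀) (φ : Dual F V), (∀ x, φ (ι x) = 𝔣 (φ₀ x)) →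
        φ₀ x = 0 → Tr X (α • ι x) φ}
      zero_mem' := fun _ _ _ _ _ => by rw [zero_smul]; exact tr_zero_left
      one_mem' := fun _ _ _ e e' => by rw [one_smul]; exact h.tr hX e e'
      add_mem' := fun ha hb x φ₀ φ e e' => by
        rw [add_smul]; exact (ha x φ₀ φ e e').add_left (hb x φ₀ φ e e') (by simp [e, e'])
      neg_mem' := fun ha x φ₀ φ e e' => by
        rw [neg_smul]; exact (ha x φ₀ φ e e').neg_left (by simp [e, e'])
      mul_mem' := fun {a b} ha hb x φ₀ φ e e' => by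
        obtain ⟨y, a1, a2, -⟩ := exists_mem_ker_two φ₀ 0 [x] (by simp; omega)
        obtain ⟨χ₀, c1, c2⟩ := exists_dual_eq_one a1
        obtain ⟨χ, hχ⟩ := h.exists_ext χ₀
        have c3 := c1 x (mem_spanL (by simp))
        simpa [hχ, c2, mul_smul] using (hb x χ₀ χ hχ c3).comm (ha y φ₀ φ e a2) (by simp [hχ, c3])
          (by simp [e, a2]) (by simp [e, e']) }
  have hA : ∀ β, β ∈ A := by
    obtain ⟨z, hz⟩ := exists_not_mem_of_ne_top (W := Submodule.span K {x, y}) (ne_top_of_finrank_lt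
      (by have := finrank_span_pair_le (F := K) x y; omega))
    obtain ⟨χ₀, c1, c2⟩ := exists_dual_eq_one hz
    obtain ⟨χ, hχ⟩ := h.exists_ext χ₀
    have c3 := c1 x (Submodule.subset_span (by simp))
    have c4 := c1 y (Submodule.subset_span (by simp))
    exact hmax A (fun k x φ₀ φ e e' => by
      rw [← ι_smul (F := F)]; exact h.tr hX e (by simp [e'])) _
      (h.sl_all4 hd hX hχ c3 hx0 (by rintro rfl; simp at c2)
        (ht.comm (h.tr hX hχ c4) hx (by simp [hχ, c4]) (by simp [hχ, c3]))) hy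
  let T : V → Prop := fun v => ∀ ψ : Dual F V, ψ v = 0 → Tr X v ψ
  have T1 : ∀ (c : F) v, T v → T (c • v) := fun c v hv ψ e => by
    by_cases hc : c = 0
    · rw [hc, zero_smul]; exact tr_zero_left
    · exact (tr_smul c).2 (hv _ (by simpa using e))
  have T2 : ∀ x, T (ι x) := fun x ψ e => by
    by_cases hx : x = 0
    · rw [hx, map_zero]; exact tr_zero_left
    let Z : Submodule F (Dual F V) :=
      { carrier := {ψ | ψ (ι x) = 0 ∧ ∀ c : F, Tr X (ι x) (c • ψ)}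
        zero_mem' := ⟨rfl, fun c => by rw [smul_zero]; exact tr_zero_right⟩
        add_mem' := fun ha hb => ⟨by simp [ha.1, hb.1], fun c => by
          rw [smul_add]; exact (ha.2 c).add_right (hb.2 c) (by simp [ha.1])⟩
        smul_mem' := fun c _ ha => ⟨by simp [ha.1], fun d => by rw [smul_smul]; exact ha.2 _⟩ }
    simpa using (h.dual_mem_of_zero hx (Z := Z) (fun φ₀ φ e e' =>
      ⟨by simp [e, e'], fun c => (tr_smul c).1 (hA c x φ₀ φ e e')⟩) e).2 1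
  let Z : Submodule F V :=
    { carrier := {v | ∀ w, T w → ∀ c : F, T (w + c • v)}
      zero_mem' := fun w hw c => by simpa using hw
      add_mem' := fun ha hb w hw c => by rw [smul_add, ← add_assoc]; exact hb _ (ha w hw c) c
      smul_mem' := fun d _ ha w hw c => by rw [smul_smul]; exact ha w hw _ }
  refine SLV_le_of_tr fun v => ?_
  have := h.mem (Z := Z) (fun x w hw c => ?_) v 0 (fun _ _ => tr_zero_left) 1
  · simpa using this
  by_cases hw' : w ∈ Submodule.span F {ι x}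
  · obtain ⟨d, rfl⟩ := Submodule.mem_span_singleton.1 hw'
    rw [← add_smul]; exact T1 _ _ (T2 x)
  obtain ⟨φ, a1, a2⟩ := exists_dual_eq_one hw'
  obtain ⟨k, hk, e⟩ := T2 x (c • φ) (by simp [a1 _ (Submodule.mem_span_singleton_self _)])
  intro ψ hψ
  have a3 : k w = w + c • ι x := by simp [e, a2]
  exact (hw (ψ ∘ₗ k) (by simpa [a3] using hψ)).conj' hk a3 fun _ => rfl

theorem Rat.isMaximalIn_SLV4 [Finite F] (h : Rat F ι) (hmax : MaxSub K F)
    (hne : ∃ α : F, ∀ k, α ≠ 𝔣 k) (hd : 4 ≤ finrank K V₀) :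
    Cfsg.Geo.IsMaximalIn (SLV F V) (ratStab F ι ⊓ SLV F V) := by
  refine isMaximalIn_of _ _ inf_le_right (fun hle => ?_) fun X hX hXG g hg hg' => ?_
  · obtain ⟨α, hα⟩ := hne
    obtain ⟨y₂, a1, -⟩ := exists_mem_ker_two (0 : Dual K V₀) 0 [] (by simp; omega)
    obtain ⟨y₁, a2, -⟩ := exists_mem_ker_two (0 : Dual K V₀) 0 [y₂] (by simp; omega)
    have a3 : y₂ ≠ 0 := by rintro rfl; exact a1 (zero_mem _)
    have a4 : y₁ ∉ Submodule.span K {y₂} := fun e => a2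
      ((Submodule.span_singleton_le_iff_mem _ _).2 (mem_spanL (by simp)) e)
    obtain ⟨-, φ, -, b1, b2⟩ := h.exists_one_zero (not_mem_span_of_not_mem a3 a4
      (by rintro rfl; exact a4 (zero_mem _)))
    obtain ⟨g, hg, e⟩ := (tr_SLV (φ := φ) (v := α • ι y₁)
      (by simp [b1 _ (Submodule.mem_span_singleton_self _)])).exists_apply (ι y₂)
    exact h.not_mem_ratStab hα a3 a4 (by rw [e, b2, one_smul, add_comm]) (hle hg).1
  obtain ⟨x₀, hw⟩ : ∃ x₀, ∀ (c : F) y, g (ι x₀) ≠ c • ι y := by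
    by_contra hc
    push Not at hc
    obtain ⟨x₀, a1, -⟩ := exists_mem_ker_two (0 : Dual K V₀) 0 [] (by simp; omega)
    refine hg' ⟨h.mem_ratStab_of_points Set.univ trivial (x₀ := x₀)
      (by rintro rfl; exact a1 (zero_mem _)) (fun A hA x => hA x trivial)
      (fun x _ x' _ _ _ => ?_) fun x _ => hc x, hXG hg⟩
    obtain ⟨z, a2, -⟩ := exists_mem_ker_one (0 : Dual K V₀) [x, x'] (by simp; omega)
    exact ⟨z, trivial, fun e => a2
      ((Submodule.span_singleton_le_iff_mem _ _).2 (mem_spanL (by simp)) e), fun e => a2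
      ((Submodule.span_singleton_le_iff_mem _ _).2 (mem_spanL (by simp)) e), trivial, trivial⟩
  have hx₀ : x₀ ≠ 0 := by rintro rfl; exact hw 0 0 (by simp)
  obtain ⟨φ₀, χ₀, φ, χ, e1, e2, hI⟩ := h.exists_indep_dual hw
  obtain ⟨v, a1, a2, a3⟩ := exists_mem_ker_two φ₀ χ₀ [] (by simp; omega)
  have hv : v ≠ 0 := by rintro rfl; exact a1 (zero_mem _)
  obtain ⟨θ₀, θ, e3, a4, a5⟩ : ∃ (θ₀ : Dual K V₀) (θ : Dual F V), (∀ x, θ (ι x) = 𝔣 (θ₀ x)) ∧
      θ₀ x₀ = 0 ∧ θ (g⁻¹ (ι v)) ≠ 0 := by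
    by_contra hc
    push Not at hc
    have : g⁻¹ (ι v) ∈ Submodule.span F {ι x₀} := by
      by_contra h'
      obtain ⟨ψ, b1, b2⟩ := exists_dual_eq_one h'
      have : ψ (g⁻¹ (ι v)) = 0 := h.dual_mem_of_zero hx₀
        (Z := LinearMap.ker (Dual.eval F V (g⁻¹ (ι v)))) hc
        (b1 _ (Submodule.mem_span_singleton_self _))
      exact one_ne_zero (b2.symm.trans this)
    obtain ⟨c, hc⟩ := Submodule.mem_span_singleton.1 this
    have h1 : ι v = c • g (ι x₀) := by rw [← map_smul, hc, apply_inv_apply]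
    exact hw c⁻¹ v (by
      rw [h1, inv_smul_smul₀ (by rintro rfl; exact h.ne_zero hv (by simpa using h1))])
  set w := g (ι x₀) with hw0
  obtain ⟨s₁, b1, b2⟩ := h.tr hX e1 a2
  obtain ⟨s₂, b3, b4⟩ := h.tr hX e2 a3
  obtain ⟨t, b5, b6⟩ := (h.tr hX e3 a4).conj hg
  have m1 : ι v ∈ Submodule.span F {ι v, w} := Submodule.subset_span (by simp)
  have m2 : w ∈ Submodule.span F {ι v, w} := Submodule.subset_span (by simp)
  obtain ⟨k, ⟨hk, hk'⟩, l, m, c1, c2, c3, c4⟩ := exists_torus_mod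
    (Y := X ⊓ triv (Submodule.span F {ι v, w})) (R := ⊥) (e := ι v) (w := w)
    (fun y _ r hr => by simpa using hr) (s₁ := s₁) (s₂ := s₂) (t := t)
    ⟨b1, fun x => by simpa [b2] using Submodule.smul_mem _ _ m1⟩
    ⟨b3, fun x => by simpa [b4] using Submodule.smul_mem _ _ m1⟩
    ⟨b5, fun x => by rw [b6, add_sub_cancel_left]; exact Submodule.smul_mem _ _ m2⟩
    (by simp [b2, e1, a2]) (by rw [b2, add_comm]; simp) (by simp [b4, e2, a3])
    (by rw [b4, add_comm]; simp) (by rw [b6]; simp [hw0])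
    (by simp [b6, hw0, inv_apply_apply, e3, a4]) hI.1 hI.right_ne hI.ne a5
  rw [Submodule.mem_bot, sub_eq_zero] at c3 c4
  by_contra hc
  have d1 : ∀ (ψ₀ : Dual K V₀) (ψ : Dual F V), (∀ x, ψ (ι x) = 𝔣 (ψ₀ x)) → ψ₀ v = 0 →
      ∀ y, ∃ c, l * ψ (k⁻¹ (ι y)) = 𝔣 c := fun ψ₀ ψ e e' y => by
    by_contra h'
    push Not at h'
    have := (h.tr hX e e').conj hk
    rw [c3, tr_smul] at this
    refine hc (h.SLV_le_of_irrational4 hmax hd hX ?_ hv this h')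
    have : k⁻¹ (ι v) = l⁻¹ • ι v := by
      rw [← inv_apply_apply k (l⁻¹ • ι v), map_smul, c3, inv_smul_smul₀ c1]
    rw [LinearMap.smul_apply, LinearMap.comp_apply, LinearEquiv.coe_coe, this, map_smul, e, e']; simp
  have d2 : ∀ y, ∃ t : F, ∀ (ψ₀ : Dual K V₀) (ψ : Dual F V), (∀ x, ψ (ι x) = 𝔣 (ψ₀ x)) → ψ₀ v = 0 →
      ψ (k⁻¹ (ι y)) = 𝔣 (ψ₀ y) + t * ψ w := fun y => by
    obtain ⟨s, t, e⟩ := Submodule.mem_span_pair.1 ((triv _).inv_mem hk' (ι y))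
    exact ⟨t, fun ψ₀ ψ e' e'' => by
      rw [(sub_eq_iff_eq_add.1 e.symm : k⁻¹ (ι y) = _)]; simp [e', e'', add_comm]⟩
  obtain ⟨l₀, hl₀⟩ : ∃ l₀, l = 𝔣 l₀ := by
    obtain ⟨y, f1, f2, f3⟩ := exists_mem_ker_two φ₀ χ₀ [v] (by simp; omega)
    obtain ⟨t, ht⟩ := d2 y
    obtain ⟨k₁, f4⟩ := d1 φ₀ φ e1 a2 y
    obtain ⟨k₂, f5⟩ := d1 χ₀ χ e2 a3 y
    rw [ht _ _ e1 a2, f2, map_zero, zero_add, ← mul_assoc] at f4
    rw [ht _ _ e2 a3, f3, map_zero, zero_add, ← mul_assoc] at f5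
    have f6 := (mul_eq_zero.1 (hI.eq_zero f4 f5)).resolve_left c1
    obtain ⟨ψ₀, f7, f8⟩ := exists_dual_eq_one f1
    obtain ⟨ψ, hψ⟩ := h.exists_ext ψ₀
    obtain ⟨k₃, f9⟩ := d1 ψ₀ ψ hψ (f7 _ (mem_spanL (by simp))) y
    exact ⟨k₃, by rwa [ht _ _ hψ (f7 _ (mem_spanL (by simp))), f6, f8, map_one, zero_mul, add_zero,
      mul_one] at f9⟩
  have d3 := h.map_eq_zero (φ := φ ∘ₗ (k⁻¹ : V ≃ₗ[F] V).toLinearMap - φ) (fun y => by
    obtain ⟨t, ht⟩ := d2 y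
    obtain ⟨k₁, f4⟩ := d1 φ₀ φ e1 a2 y
    obtain ⟨k₂, f5⟩ := d1 χ₀ χ e2 a3 y
    rw [ht _ _ e1 a2] at f4
    rw [ht _ _ e2 a3] at f5
    have f6 := (mul_eq_zero.1 (hI.eq_zero (γ := l * t) (k := k₁ - l₀ * φ₀ y) (k' := k₂ - l₀ * χ₀ y)
      (by rw [map_sub, map_mul, ← hl₀]; linear_combination f4)
      (by rw [map_sub, map_mul, ← hl₀]; linear_combination f5))).resolve_left c1
    rw [LinearMap.sub_apply, LinearMap.comp_apply, LinearEquiv.coe_coe, ht _ _ e1 a2, f6, e1]; simp) (k w)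
  simp only [LinearMap.sub_apply, LinearMap.comp_apply, LinearEquiv.coe_coe, inv_apply_apply] at d3
  rw [c4, map_add, map_smul, map_smul, e1, a2, map_zero, smul_zero, zero_add, smul_eq_mul] at d3
  exact c2 (inv_eq_one.1 (mul_right_cancel₀ hI.1 (by linear_combination -d3)))

theorem sl4_field {F : Type*} [Field F] [Fintype F] {n : ℕ} (hn : 4 ≤ n) (F₀ : Subfield F) (r : ℕ)
    (P : GL (Fin n) F) (hr : r.Prime) (hcard : Fintype.card F = Nat.card F₀ ^ r) :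
    Cfsg.Geo.IsMaximalIn (Cfsg.Geo.specialLinear (Fin n) F)
      (Cfsg.Geo.subfieldSubgroup F₀ P ⊓ Cfsg.Geo.specialLinear (Fin n) F) := by
  have hc : Nat.card F = Nat.card F₀ ^ r := by rwa [Nat.card_eq_fintype_card]
  rw [specialLinear_eq, subfieldSubgroup_eq, ← Subgroup.comap_inf]
  exact isMaximalIn_comap _ ((rat_ratMap F₀ P).isMaximalIn_SLV4
    (maxSub_subfield hr hc) (exists_not_mem_subfield hr hc) (by simp; omega))

end H12
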