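import Cfsg.Agent.H12.RatLine

/-!
# Subfield subgroups of the classical groups with a form are maximal
-/

set_option autoImplicit false
set_option maxHeartbeats 400000

namespace H12

open Module H11 Submodule

variable {K F : Type*} [Field K] [Field F] [Algebra K F] {V₀ V : Type*} [AddCommGroup V₀]
  [Module K V₀] [AddCommGroup V] [Module F V] [Module K V] [IsScalarTower K F V]
  {ι : V₀ →ₗ[K] V} {T : FormType F} {T₀ : FormType K} {C : CForm T V} {C₀ : CForm T₀ V₀}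
  {G X : Subgroup (V ≃ₗ[F] V)}

local notation "𝔣" => algebraMap K F

/-- The pointwise stabiliser of a subspace. -/
def fixV (R : Submodule F V) : Subgroup (V ≃ₗ[F] V) where
  carrier := {g | ∀ r ∈ R, g r = r}
  one_mem' _ _ := rfl
  mul_mem' ha hb r hr := by rw [LinearEquiv.mul_apply, hb r hr, ha r hr]
  inv_mem' {a} ha r hr := by rw [← ha r hr, inv_apply_apply, ha r hr]

theorem span_image_le {l : List V₀} {W : Submodule F V} (h : ∀ x ∈ l, ι x ∈ W) :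
    span F (ι '' spanL K l) ≤ W :=
  span_le.2 (by
    rintro _ ⟨x, hx, rfl⟩
    exact (span_le (p := (W.restrictScalars K).comap ι)).2 h hx)

theorem Rat.sm_of_two (h : Rat F ι) {θ : F} (h2 : ∀ α, ∃ k k', α = 𝔣 k + 𝔣 k' * θ) (w w' : V) :
    Sm F ι w w' := by
  have key : ∀ w : V, ∃ p q, w = ι p + θ • ι q := fun w => by
    simpa using h.mem (Z :=
      { carrier := {w | ∀ c : F, ∃ p q, c • w = ι p + θ • ι q}
        zero_mem' := fun _ => ⟨0, 0, by simp⟩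
        add_mem' := fun ha hb c => by
          obtain ⟨p, q, e⟩ := ha c
          obtain ⟨p', q', e'⟩ := hb c
          exact ⟨p + p', q + q', by rw [smul_add, e, e', map_add, map_add]; module⟩
        smul_mem' := fun d _ ha c => by rw [smul_smul]; exact ha _ })
      (fun x c => let ⟨k, k', e⟩ := h2 c
        ⟨k • x, k' • x, by rw [e, ι_smul (F := F), ι_smul (F := F)]; module⟩) w 1
  obtain ⟨p, q, rfl⟩ := key w
  obtain ⟨p', q', rfl⟩ := key w'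
  exact ⟨spanL K [p, q, p', q'], finrank_span_list_le _,
    add_mem (mem_span_image (mem_spanL (by simp))) (smul_mem _ _ (mem_span_image (mem_spanL (by simp)))),
    add_mem (mem_span_image (mem_spanL (by simp))) (smul_mem _ _ (mem_span_image (mem_spanL (by simp))))⟩

namespace RatX

variable [FiniteDimensional K V₀] [FiniteDimensional F V] (h : RatX ι C C₀ X)
include h

theorem not_irr_of_sm (hQ : RatQ ι C C₀ X) {g : V ≃ₗ[F] V} (hg : g ∈ X) {a : V₀} (ha : C₀.N a = 0)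
    (hs : ∀ b, TSP C₀ a b → Sm F ι (g (ι a)) (g (ι b))) : ¬ Irrat F ι (g (ι a)) := by
  have hd := h.dim
  by_cases h0 : a = 0
  · exact fun hi => hi 0 0 (by simp [h0])
  obtain ⟨b, b1, b2, b3⟩ := h.iso.exists_perpL h.nd₀ [a] [a] (by simp; omega)
  obtain ⟨c, c1, c2, c3⟩ := h.iso.exists_perpL h.nd₀ [a] [a, b] (by simp; omega)
  have h1 : TSP C₀ a b := ⟨ha, b3, b1 a (by simp), h0, not_mem_span_of_spanL b2 (by simp)⟩
  have h2 : TSP C₀ a c := ⟨ha, c3, c1 a (by simp), h0, not_mem_span_of_spanL c2 (by simp)⟩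
  exact h.not_irr hQ hg h1 h2 c2 (hs b h1) (hs c h2)

omit [FiniteDimensional K V₀] [FiniteDimensional F V] in
theorem indep_nm {y : V} {a b c : V₀} (hI : Indep K (C.B (ι a) y) (C.B (ι b) y))
    (hc : C.B (ι c) y = 0) : b ∉ spanL K [c, a] ∧ a ∉ spanL K [c, b] := by
  have key : ∀ (s t : K) x, C.B (ι (s • c + t • x)) y = 𝔣 (T₀.σ t) * C.B (ι x) y := fun s t x => by
    rw [map_add, ι_smul (F := F), ι_smul (F := F), C.B_add_left, C.B_smul_left, C.B_smul_left, hc,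
      h.hσ t, mul_zero, zero_add]
  refine ⟨fun e => ?_, fun e => ?_⟩ <;> obtain ⟨s, t, rfl⟩ := mem_spanL_pair.1 e
  · exact hI.2 _ (key s t a)
  · have := hI.1
    refine hI.2 (T₀.σ t)⁻¹ ?_
    rw [key] at this ⊢
    rw [map_inv₀, inv_mul_cancel_left₀ (left_ne_zero_of_mul this)]

variable [Finite F]

theorem sm_quad (hσ : ∀ a, T.σ a = a) (hs : ∀ x y, C.B y x = C.B x y) (hQ : RatQ ι C C₀ X)
    {w w' : V} (hr : Rq C X w w' 0) (h3 : C.B w w = 0) (h4 : C.B w w' = 0) (h5 : C.B w' w' = 0)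
    (hw : w ≠ 0) (hw' : w' ∉ span F {w}) : Sm F ι w w' := by
  by_contra hn
  obtain ⟨v, hv, hy⟩ : ∃ v, C₀.N v = 0 ∧ ∀ (c μ : F) p,
      C.B w (ι v) • w' - C.B w' (ι v) • w ≠ c • ι p + μ • ι v := by
    by_contra hc
    push Not at hc
    obtain ⟨u₁, u₂, d1, d2, d3⟩ := exists_det (ι := ι) (C := C) (S := fun u => C₀.N u = 0) hw hw'
      fun z _ hz' => by simpa using h.mem_span_of_perp (v := 0) fun u e => hz' u e.1
    obtain ⟨c₁, μ₁, p₁, e₁⟩ := hc u₁ d1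
    obtain ⟨c₂, μ₂, p₂, e₂⟩ := hc u₂ d2
    have m : ∀ s t : F, s • (c₁ • ι p₁ + μ₁ • ι u₁) - t • (c₂ • ι p₂ + μ₂ • ι u₂) ∈
        span F (ι '' spanL K [p₁, u₁, p₂, u₂]) := fun s t => by
      refine sub_mem (smul_mem _ _ (add_mem ?_ ?_)) (smul_mem _ _ (add_mem ?_ ?_)) <;>
        exact smul_mem _ _ (mem_span_image (mem_spanL (by simp)))
    refine hn ⟨_, finrank_span_list_le [p₁, u₁, p₂, u₂], (smul_mem_iff _ d3).1 ?_,
      (smul_mem_iff _ d3).1 ?_⟩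
    · convert m (-C.B w (ι u₂)) (-C.B w (ι u₁)) using 1
      rw [← e₁, ← e₂]; module
    · convert m (-C.B w' (ι u₂)) (-C.B w' (ι u₁)) using 1
      rw [← e₁, ← e₂]; module
  obtain ⟨u₁, u₂, a1, a2, a3, a4, a5, hI⟩ := h.exists_indep hy
  have hv0 : v ≠ 0 := by rintro rfl; exact hy 0 0 0 (by simp)
  obtain ⟨n1, n2⟩ := h.indep_nm (c := v) hI (by simp [hs w, hs w', mul_comm])
  have hZ := finrank_three hv0 (not_mem_span_of_spanL n2 (by simp)) n1
  obtain ⟨s₁, b1, b2⟩ := h.rho v u₁ hv a1 a3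
  obtain ⟨s₂, b3, b4⟩ := h.rho v u₂ hv a2 a4
  obtain ⟨t, b5, b6⟩ := hr
  simp only [hσ, zero_mul, add_zero] at b2 b4 b6
  simp only [map_sub, map_smul, smul_eq_mul, hs w, hs w'] at hI
  have c0 := h.B0 (C₀.B_self_of_zero hv)
  have c1 := h.B0 (C₀.B_self_of_zero a1)
  have c2 := h.B0 (C₀.B_self_of_zero a2)
  have c3 := h.B0 a3
  have c4 := h.B0 a4
  have c5 := h.B0 a5
  obtain ⟨z, hz⟩ : ∃ z, z = (C.B w (ι u₁) * C.B w' (ι u₂) - C.B w' (ι u₁) * C.B w (ι u₂)) • ι v -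
    (C.B w (ι v) * C.B w' (ι u₂) - C.B w' (ι v) * C.B w (ι u₂)) • ι u₁ +
    (C.B w (ι v) * C.B w' (ι u₁) - C.B w' (ι v) * C.B w (ι u₁)) • ι u₂ := ⟨_, rfl⟩
  have z1 : C.B w z = 0 := by simp [hz]; ring
  have z2 : C.B w' z = 0 := by simp [hz]; ring
  obtain ⟨k, ⟨hk, hk'⟩, l, d1, d2⟩ := exists_torus_fam
    (Y := X ⊓ MulAction.stabilizer (V ≃ₗ[F] V) z) (R := span F {z}) (e := ![ι v, ι u₁, ι u₂])
    (w := fun j => t (![ι v, ι u₁, ι u₂] j) - ![ι v, ι u₁, ι u₂] j) (b := 1)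
    (fun y hy r hr => by
      obtain ⟨c, rfl⟩ := mem_span_singleton.1 hr
      rw [map_smul, show y z = z from hy.2]; exact hr) (s₁ := s₁) (s₂ := s₂) (t := t)
    ⟨b1, show s₁ z = z by simp [b2, hz, c0, c1, c3, c4, c5, hs (ι u₁) (ι u₂)]⟩
    ⟨b3, show s₂ z = z by simp [b4, hz, c0, c2, c3, c4, c5]⟩
    ⟨b5, show t z = z by simp [b6, z1, hs w', z2]⟩
    (fun j => by fin_cases j <;> simp [b2, c0, c1, c3, c4, c5, hs (ι u₁) (ι u₂)])
    (fun j => mem_span_singleton.2 (by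
      fin_cases j <;> [refine ⟨0, ?_⟩; refine ⟨0, ?_⟩; refine ⟨1, ?_⟩] <;>
        simp [b2, b6, hz, hs w, hs w', hσ] <;> module))
    (fun j => by fin_cases j <;> simp [b4, c0, c2, c3, c4, c5])
    (fun j => mem_span_singleton.2 (by
      fin_cases j <;> [refine ⟨0, ?_⟩; refine ⟨-1, ?_⟩; refine ⟨0, ?_⟩] <;>
        simp [b4, b6, hz, hs w, hs w', hσ] <;> module))
    (fun j => by simp) (fun j => by simp [b6, h3, h4, h5, hs w w'])
    (neg_ne_zero.2 hI.1) (neg_ne_zero.2 hI.right_ne) (neg_injective.ne hI.ne) one_ne_zero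
  have m : z ∈ span F (ι '' spanL K [v, u₁, u₂]) := by
    rw [hz]
    refine add_mem (sub_mem ?_ ?_) ?_ <;> exact smul_mem _ _ (mem_span_image (mem_spanL (by simp)))
  have d3 : ∀ x ∈ span F (ι '' spanL K [v, u₁, u₂]), k x - l • x ∈ span F {z} := fun x hx =>
    mem_comap.1 (span_image_le (W := (span F {z}).comap (k.toLinearMap - l • LinearMap.id))
      (by simpa using ⟨d2 0, d2 1, d2 2⟩) hx)
  have hi : Irrat F ι z := fun c p e => by
    obtain ⟨φ₀, φ, f1, f2, f3⟩ := h.rat.exists_one_zero n1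
    obtain ⟨ψ₀, ψ, f4, f5, f6⟩ := h.rat.exists_one_zero n2
    have f7 := congrArg φ (hz.symm.trans e)
    have f8 := congrArg ψ (hz.symm.trans e)
    simp only [map_add, map_sub, map_smul, f3, f6, f2 v (mem_spanL (by simp)), f1 p, f4 p,
      f2 u₁ (mem_spanL (by simp)), f5 v (mem_spanL (by simp)), f5 u₂ (mem_spanL (by simp)),
      smul_eq_mul, mul_zero, mul_one, sub_zero, zero_add, add_zero, zero_sub] at f7 f8
    have := hI.1
    rw [f7] at this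
    refine hI.2 (-ψ₀ p / φ₀ p) ?_
    rw [f7, map_div₀, map_neg, neg_eq_iff_eq_neg.1 f8]
    have := right_ne_zero_of_mul this
    field_simp
  have d4 := fun a => h.rat.eq_smul hZ.ge hi (fun a => h.not_irr_of_stab hQ hk
    (ts_three hv a1 a2 a3 a4 a5) hZ fun a ha => by
      simpa using add_mem ((span_singleton_le_iff_mem _ _).2 m (d3 _ (mem_span_image ha)))
        (smul_mem _ l (mem_span_image ha))) (fun a ha => d3 _ (mem_span_image ha)) (a := a)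
  have d5 : k z - l • z = 0 := LinearMap.mem_ker.1 (span_image_le
    (W := LinearMap.ker (k.toLinearMap - l • LinearMap.id))
      (fun x hx => by simpa [sub_eq_zero] using d4 x (mem_spanL hx)) m)
  rw [show k z = z from hk'] at d5
  exact hi 0 0 (by
    rw [zero_smul]; exact smul_right_injective V (sub_ne_zero.2 d1.symm) (by simpa [sub_smul]))

theorem not_irr_tv {a₀ : F} (ha₀ : a₀ ≠ 0) (hsep : ∀ β β' : F, Indep K β β' → ∃ k k' : K,
      𝔣 k * β + 𝔣 k' * β' ≠ 0 ∧ (𝔣 k * β + 𝔣 k' * β') * T.σ (𝔣 k * β + 𝔣 k' * β') ≠ β * T.σ β)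
    (hT : ∀ v, C₀.N v = 0 → Rq C X (ι v) 0 a₀) (hQ : RatQ ι C C₀ X) {w : V}
    (hr : Rq C X w 0 a₀) (hw : C.B w w = 0) : ¬ Irrat F ι w := fun hi => by
  have hd := h.dim
  obtain ⟨v₁, v₂, a1, a2, -, -, a5, hI⟩ := h.exists_indep (v := 0) (y := w)
    (by simpa [Irrat] using hi)
  obtain ⟨n1, n2⟩ := h.indep_nm (c := 0) hI (by simp)
  obtain ⟨v₃, a3, n3, a4⟩ := h.iso.exists_perpL h.nd₀ [v₁, v₂] [v₁, v₂] (by simp; omega)
  have hZ := finrank_three (ne_zero_of_not_mem n2) (not_mem_span_of_spanL n1 (by simp)) n3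
  have hts := ts_three a1 a2 a4 a5 (a3 _ (by simp)) (a3 _ (by simp))
  set Z := spanL K [v₁, v₂, v₃]
  replace hI : Indep K (C.B w (ι v₁)) (C.B w (ι v₂)) := ⟨C.B_swap_ne hI.1, fun k e =>
    hI.2 (T₀.σ k) (by rw [C.symm w, C.symm w, e, map_mul, h.hσ]; ring)⟩
  obtain ⟨k₁, k₂, e1, e2⟩ := hsep _ _ hI
  have m1 : v₁ ∈ Z := mem_spanL (by simp)
  have m2 : v₂ ∈ Z := mem_spanL (by simp)
  obtain ⟨v, m3, e3⟩ : ∃ v ∈ Z, C.B w (ι v) = 𝔣 k₁ * C.B w (ι v₁) + 𝔣 k₂ * C.B w (ι v₂) :=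
    ⟨k₁ • v₁ + k₂ • v₂, add_mem (smul_mem _ _ m1) (smul_mem _ _ m2), by
      simp [Algebra.smul_def]⟩
  rw [← e3] at e1 e2
  obtain ⟨s₁, b1, b2⟩ := hT v₁ a1
  obtain ⟨s₂, b3, b4⟩ := hT v (hts.1 v m3)
  obtain ⟨t, b5, b6⟩ := hr
  simp only [map_zero, smul_zero, zero_add, add_zero] at b2 b4 b6
  have c1 : ∀ a ∈ Z, ∀ x ∈ span F (ι '' Z), C.B (ι a) x = 0 := fun a ha x =>
    map_eq_zero_of_span fun z hz => h.B0 (hts.2 a ha z hz)
  have c2 : ∀ x ∈ span F (ι '' Z), x - (C.B w x / C.B w (ι v₁)) • ι v₁ ∈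
      span F (ι '' Z) ⊓ LinearMap.ker (C.B w) := fun x hx =>
    ⟨sub_mem hx (smul_mem _ _ (mem_span_image m1)), by simp [hI.1]⟩
  obtain ⟨k, ⟨hk, hk'⟩, l, -, -, d1, d2, -⟩ := exists_torus_mod
    (Y := X ⊓ fixV (span F (ι '' Z) ⊓ LinearMap.ker (C.B w)))
    (R := span F (ι '' Z) ⊓ LinearMap.ker (C.B w)) (e := ι v₁) (w := w)
    (a₁ := -(a₀ * C.B (ι v₁) w)) (a₂ := -(a₀ * C.B (ι v) w * (C.B w (ι v) / C.B w (ι v₁))))
    (b := -(a₀ * C.B w (ι v₁)))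
    (fun y hy r hr => by rwa [hy.2 r hr]) (s₁ := s₁) (s₂ := s₂) (t := t)
    ⟨b1, fun r hr => by simp [b2, c1 v₁ m1 r hr.1]⟩ ⟨b3, fun r hr => by simp [b4, c1 v m3 r hr.1]⟩
    ⟨b5, fun r hr => by simp [b6, show C.B w r = 0 from hr.2]⟩
    (by simp [b2, c1 v₁ m1 _ (mem_span_image m1)]) (by simp [b2, sub_eq_neg_add])
    (by simp [b4, c1 v m3 _ (mem_span_image m1)])
    (by rw [b4]; convert smul_mem _ (-(a₀ * C.B (ι v) w)) (c2 _ (mem_span_image m3)) using 1; module)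
    (by simp [b6, sub_eq_add_neg]) (by simp [b6, hw])
    (neg_ne_zero.2 (mul_ne_zero ha₀ (C.B_swap_ne hI.1)))
    (neg_ne_zero.2 (mul_ne_zero (mul_ne_zero ha₀ (C.B_swap_ne e1)) (div_ne_zero e1 hI.1)))
    (fun e => e2 (mul_left_cancel₀ (mul_ne_zero ha₀ T.ε_ne) (by
      rw [C.symm w, C.symm w, neg_inj, ← mul_div_assoc, eq_div_iff hI.1] at e
      linear_combination -e))) (neg_ne_zero.2 (mul_ne_zero ha₀ hI.1))
  obtain ⟨y, hy⟩ : ∃ y, y = (C.B w (ι v₁))⁻¹ • (k (ι v₁) - ι v₁) := ⟨_, rfl⟩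
  have d3 : ∀ x ∈ span F (ι '' Z), k x = x + C.B w x • y := fun x hx => by
    have := hk' _ (c2 x hx)
    rw [map_sub, map_smul, sub_eq_iff_eq_add] at this
    rw [this, hy, div_eq_mul_inv]; module
  have d4 : C.B w y ≠ 0 := by
    have : C.B w _ = 0 := d2.2
    rw [map_sub, map_smul, sub_eq_zero] at this
    simpa [hy, this, hI.1, sub_eq_zero] using d1
  have d5 := fun a => h.not_irr_of_stab hQ hk hts hZ (a := a) fun a ha => by
    rw [d3 _ (mem_span_image ha), hy]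
    refine add_mem (mem_span_image ha) (smul_mem _ _ (smul_mem _ _ (sub_mem ?_ (mem_span_image m1))))
    simpa using add_mem d2.1 (smul_mem _ l (mem_span_image m1))
  by_cases hiy : Irrat F ι y
  · have := h.rat.eq_smul hZ.ge hiy (l := 1) d5 (fun a ha => by
      simpa [d3 _ (mem_span_image ha)] using smul_mem _ _ (mem_span_singleton_self y)) m1
    rw [hy, this] at d4
    simp at d4
  obtain ⟨c, p, e⟩ : ∃ (c : F) (p : V₀), y = c • ι p := by simpa [Irrat] using hiy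
  have d6 : ∀ a ∈ Z, a ∉ span K {p} → ∃ k, c * C.B w (ι a) = 𝔣 k := fun a ha ha' => by
    obtain ⟨c', p', e'⟩ : ∃ (c : F) (p : V₀), k (ι a) = c • ι p := by simpa [Irrat] using d5 a ha
    obtain ⟨k, hk⟩ := h.rat.coef (c₁ := c * C.B w (ι a)) (c₂ := 1) (c₃ := c') (y₃ := p')
      (ne_zero_of_not_mem ha') (not_mem_span_of_not_mem (by rintro rfl; simp [e] at d4) ha'
        (ne_zero_of_not_mem ha')) one_ne_zero (by rw [← e', d3 _ (mem_span_image ha), e]; module)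
    exact ⟨k, by rw [hk, mul_one]⟩
  have d7 : ∀ a ∈ Z, ∃ k, c * C.B w (ι a) = 𝔣 k := fun a ha => by
    by_cases ha' : a ∈ span K {p}
    swap; · exact d6 a ha ha'
    obtain ⟨b, hb, hb'⟩ := exists_mem_not_mem_of_finrank_lt (W := span K {p}) (W' := Z)
      (by have := finrank_span_singleton_le (F := K) p; omega)
    obtain ⟨k, hk⟩ := d6 b hb hb'
    obtain ⟨k', hk'⟩ := d6 (a + b) (add_mem ha hb) fun e => hb' ((add_mem_cancel_left ha').1 e)
    exact ⟨k' - k, by rw [map_sub, ← hk, ← hk']; simp [mul_add]⟩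
  obtain ⟨k₃, f1⟩ := d7 v₁ m1
  obtain ⟨k₄, f2⟩ := d7 v₂ m2
  simp [e, hI.eq_zero f1 f2] at d4

omit [Finite F] in
theorem isMaximalIn [Finite V₀] (hG : RootG C X) (hmax : MaxSub K F) (hne : ∃ α : F, ∀ k, α ≠ 𝔣 k)
    (hZ : ∀ Y, RatX ι C C₀ Y → ratStab F ι ⊓ X ≤ Y →
      (∀ (β : F) v c, TSP C₀ v c → Rq C Y (ι v) (β • ι c) 0) → ∀ v, C₀.N v = 0 → v ≠ 0 →
        ∀ a, a * T.ε + T.σ a = 0 → T.τ (a * T.ε) = 0 → Rq C Y (ι v) 0 a)
    (hT : ∀ Y, RatX ι C C₀ Y → ratStab F ι ⊓ X ≤ Y → RatQ ι C C₀ Y → ∀ g ∈ Y, ∀ x, C₀.N x = 0 →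
      ¬ Irrat F ι (g (ι x))) : Cfsg.Geo.IsMaximalIn X (ratStab F ι ⊓ X) := by
  have hd := h.dim
  refine isMaximalIn_of _ _ inf_le_right (fun hle => ?_) fun Y hY hYX g hg hg' => ?_
  · obtain ⟨α, hα⟩ := hne
    obtain ⟨v, -, a1, a2⟩ := h.iso.exists_perpL h.nd₀ [] [] (by simp; omega)
    obtain ⟨p, -, b1, b2⟩ := h.iso.exists_perp_one h.nd₀ a1 (by simp; omega)
    obtain ⟨u, c1, c2, c3⟩ := h.iso.exists_perpL h.nd₀ [v, p] [v] (by simp; omega)
    obtain ⟨g, hg, e⟩ := hG.rho (ι p) (α • ι u) (h.hN p b1) (C.N_smul_of_zero (h.hN u c3) _)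
      (by simp [h.B0 (c1 p (by simp))])
    exact h.rat.not_mem_ratStab hα (ne_zero_of_not_mem a1) (not_mem_span_of_spanL c2 (by simp))
      (x := v) (by simp [e, h.B1 b2, h.B0 (c1 v (by simp)), add_comm]) (hle hg).1
  have hY' : RatX ι C C₀ Y := { h with
    le := hYX.trans h.le
    rho := fun v u a b c => let ⟨k, hk, e⟩ := h.rho v u a b c
      ⟨k, hY ⟨h.rat.mem_ratStab_one fun x => ⟨x + C₀.B v x • u - T₀.σ (C₀.B x u) • v, by
        rw [e, h.hB, h.hB, h.hσ, map_sub, map_add, ι_smul (F := F), ι_smul (F := F), zero_mul,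
          add_zero]⟩, hk⟩, e⟩ }
  by_contra hc
  have hQ : RatQ ι C C₀ Y := fun v a1 a2 y a a3 a4 => by_contra fun hn =>
    have hA := fun β v c => hY'.all hmax a1 a2 a3 a4 (by simpa using hn) β (v' := v) (c' := c)
    hc (hY'.le_of_all hG hYX hA (hZ Y hY' hY hA))
  obtain ⟨x₀, -, a1, a2⟩ := h.iso.exists_perpL h.nd₀ [] [] (by simp; omega)
  refine hg' ⟨h.rat.mem_ratStab_of_points {x | C₀.N x = 0} a2 (ne_zero_of_not_mem a1)
    (h.iso.mem_of_iso h.nd₀ (by omega)) (fun x hx x' hx' _ _ => ?_)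
    fun x hx => by simpa [Irrat] using hT Y hY' hY hQ g hg x hx, hYX hg⟩
  obtain ⟨z, b1, b2, b3⟩ := h.iso.exists_perpL h.nd₀ [x, x'] [x, x'] (by simp; omega)
  exact ⟨z, b3, not_mem_span_of_spanL b2 (by simp), not_mem_span_of_spanL b2 (by simp),
    by simpa [C₀.N_add, b3, C₀.B_swap_zero (b1 x (by simp))] using hx,
    by simpa [C₀.N_add, b3, C₀.B_swap_zero (b1 x' (by simp))] using hx'⟩

end RatX

end H12
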