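import Cfsg.Agent.H12.RatU

/-!
# Rational structures on forms of Witt index at least three
-/

set_option autoImplicit false
set_option maxHeartbeats 400000

namespace H12

open Module H11 Submodule

variable {K F : Type*} [Field K] [Field F] [Algebra K F] {V₀ V : Type*} [AddCommGroup V₀]
  [Module K V₀] [AddCommGroup V] [Module F V] [Module K V] [IsScalarTower K F V]
  {ι : V₀ →ₗ[K] V} {T : FormType F} {T₀ : FormType K} {C : CForm T V} {C₀ : CForm T₀ V₀}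
  {G X : Subgroup (V ≃ₗ[F] V)} [FiniteDimensional K V₀]

local notation "𝔣" => algebraMap K F

variable (C C₀ ι X) in
/-- A rational structure compatible with the forms; `X` contains the rational group. -/
structure RW : Prop where
  rat : Rat F ι
  hB : ∀ x y, C.B (ι x) (ι y) = 𝔣 (C₀.B x y)
  hN : ∀ x, C₀.N x = 0 → C.N (ι x) = 0
  hN' : ∀ x, C.N (ι x) = 0 → C₀.N x = 0
  hσ : ∀ k, T.σ (𝔣 k) = 𝔣 (T₀.σ k)
  nd : C.Nondeg
  dim : 6 ≤ finrank K V₀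
  ix : Ix3 C₀
  le : X ≤ C.isom
  spec : Spec C₀ (ratG ι X ⊓ C₀.isom)
  rho : ∀ v u, C₀.N v = 0 → C₀.N u = 0 → C₀.B v u = 0 → Rq C X (ι v) (ι u) 0

namespace RW

variable (h : RW ι C C₀ X)
include h

theorem nd₀ : C₀.Nondeg := h.spec.nondeg

theorem iso : Iso3 C₀ := h.spec.iso3

theorem B0 {x y : V₀} (e : C₀.B x y = 0) : C.B (ι x) (ι y) = 0 := by rw [h.hB, e, map_zero]

theorem B1 {x y : V₀} (e : C₀.B x y = 1) : C.B (ι x) (ι y) = 1 := by rw [h.hB, e, map_one]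

theorem B0' {x y : V₀} (e : C.B (ι x) (ι y) = 0) : C₀.B x y = 0 := by
  rwa [h.hB, map_eq_zero] at e

theorem tsp {v : V₀} (hv : C₀.N v = 0) (hv0 : v ≠ 0) : ∃ c, TSP C₀ v c :=
  h.iso.exists_tsp h.nd₀ (by have := h.dim; omega) hv hv0

theorem map_tsp {v c : V₀} (e : TSP C₀ v c) : TSP C (ι v) (ι c) :=
  ⟨h.hN v e.hv, h.hN c e.hc, h.B0 e.hB, h.rat.ne_zero e.ne, h.rat.not_mem_span_singleton e.nm⟩

theorem sing : ∃ v, C₀.N v = 0 ∧ v ≠ 0 :=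
  let ⟨v, a, b⟩ := h.iso.exists_iso (by have := h.dim; omega); ⟨v, b, a⟩

theorem witt1 {u v : V₀} (hu : C₀.N u = 0) (hv : C₀.N v = 0) (hu0 : u ≠ 0) (hv0 : v ≠ 0) :
    ∃ k ∈ X, IsRat ι k ∧ k (ι u) = ι v := by
  obtain ⟨g, ⟨⟨k, hk, e⟩, -⟩, e'⟩ := h.spec.witt_one (by have := h.dim; omega) hu0 hv0
    (hv.trans hu.symm)
  exact ⟨k, hk, fun x => ⟨_, e x⟩, by rw [e, e']⟩

theorem witt2 {v c v' c' : V₀} (h1 : TSP C₀ v c) (h2 : TSP C₀ v' c') :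
    ∃ k ∈ X, IsRat ι k ∧ k (ι v) = ι v' ∧ k (ι c) = ι c' := by
  obtain ⟨g, ⟨⟨k, hk, e⟩, -⟩, e1, e2⟩ := h.spec.witt_two h.dim
    (linearIndependent_of_not_mem h1.symm.ne h1.symm.nm)
    (linearIndependent_of_not_mem h2.symm.ne h2.symm.nm) (h2.hv.trans h1.hv.symm)
    (h2.hc.trans h1.hc.symm) (h2.hB.trans h1.hB.symm)
  exact ⟨k, hk, fun x => ⟨_, e x⟩, by rw [e, e1], by rw [e, e2]⟩

theorem perp_add {v : V₀} (hv : C₀.N v = 0) (hv0 : v ≠ 0) (S : AddSubgroup V₀)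
    (hS : ∀ u, TSP C₀ v u → u ∈ S) {x : V₀} (hx : C₀.B v x = 0) : x ∈ S :=
  let ⟨_, hc⟩ := h.tsp hv hv0; hc.perp_add h.nd₀ S hS hx

theorem perp_mem {v : V₀} (hv : C₀.N v = 0) (hv0 : v ≠ 0) {Z : Submodule F V}
    (hZ : ∀ u, TSP C₀ v u → ι u ∈ Z) {y : V} (hy : C.B (ι v) y = 0) : y ∈ Z := by
  have h1 : ∀ x, C₀.B v x = 0 → ι x ∈ Z := fun x =>
    h.perp_add hv hv0 (Z.toAddSubgroup.comap ι.toAddMonoidHom) hZ
  obtain ⟨p, hp⟩ := h.nd₀.exists_eq hv0 1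
  have := h.rat.mem (Z := Z.comap (LinearMap.id - (C.B (ι v)).smulRight (ι p)))
    (fun x => by simpa [h.hB] using h1 (x - C₀.B v x • p) (by simp [hp])) y
  simpa [hy] using mem_comap.1 this

theorem rat_of_pair {y : V} (hy : ∀ x, ∃ k, C.B (ι x) y = 𝔣 k) : ∃ p, y = ι p :=
  h.rat.mem_range fun φ₀ φ e => by
    obtain ⟨z, hz⟩ := h.nd₀.exists_rep φ₀
    obtain ⟨k, hk⟩ := hy z
    exact ⟨k, by simpa [hk, sub_eq_zero] using
      h.rat.map_eq_zero (φ := φ - C.B (ι z)) (fun x => by simp [e, h.hB, hz]) y⟩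

theorem rat_mod {v : V₀} (hv : C₀.N v = 0) (hv0 : v ≠ 0) {y : V}
    (hy : ∀ u, TSP C₀ v u → ∃ k, C.B (ι u) y = 𝔣 k) : ∃ (p : V₀) (μ : F), y = ι p + μ • ι v := by
  have h1 : ∀ x, C₀.B v x = 0 → ∃ k, C.B (ι x) y = 𝔣 k := fun x => h.perp_add hv hv0
    { carrier := {x | ∃ k, C.B (ι x) y = 𝔣 k}
      zero_mem' := ⟨0, by simp⟩
      add_mem' := fun ⟨k, e⟩ ⟨k', e'⟩ => ⟨k + k', by simp [e, e']⟩
      neg_mem' := fun ⟨k, e⟩ => ⟨-k, by simp [e]⟩ } hy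
  obtain ⟨q, hq⟩ := h.nd₀.exists_eq hv0 1
  have h3 : C.B (ι q) (ι v) ≠ 0 := C.B_swap_ne (by rw [h.B1 hq]; exact one_ne_zero)
  obtain ⟨p, e⟩ := h.rat_of_pair (y := y - (C.B (ι q) y / C.B (ι q) (ι v)) • ι v) fun x => by
    obtain ⟨k, hk⟩ := h1 (x - C₀.B v x • q) (by simp [hq])
    have h4 := C.B_swap_zero (h.B0 (x := v) (y := x - C₀.B v x • q) (by simp [hq]))
    rw [map_sub, ι_smul (F := F), C.B_sub_left, C.B_smul_left] at hk h4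
    refine ⟨k, ?_⟩
    rw [map_sub, map_smul, sub_eq_zero.1 h4, ← hk, smul_eq_mul]
    field_simp
  exact ⟨p, _, eq_add_of_sub_eq e⟩

theorem trans {α : F} {v c v' c' : V₀} (h1 : TSP C₀ v c) (h2 : TSP C₀ v' c')
    (hr : Rq C X (ι v) (α • ι c) 0) : Rq C X (ι v') (α • ι c') 0 := by
  obtain ⟨k, hk, -, e1, e2⟩ := h.witt2 h1 h2
  simpa [e1, e2] using hr.conj hk (h.le hk)

theorem exists_hyp {v c : V₀} (e : TSP C₀ v c) : ∃ b d, C₀.N b = 0 ∧ C₀.N d = 0 ∧ C₀.B v b = 0 ∧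
    C₀.B c b = 0 ∧ C₀.B v d = 0 ∧ C₀.B c d = 0 ∧ C₀.B b d = 1 ∧ b ∉ span K {v, c} ∧
      d ∉ span K {v, c} := by
  obtain ⟨b, a1, a2, a3, a4⟩ := h.ix v c e
  obtain ⟨d, b1, b2, b3⟩ := h.nd₀.exists_partner a4 a1 (C₀.mem_perp_pair.2 ⟨a2, a3⟩)
  refine ⟨b, d, a1, b2, a2, a3, (C₀.mem_perp_pair.1 b1).1, (C₀.mem_perp_pair.1 b1).2, b3, a4,
    fun e' => ?_⟩
  obtain ⟨s, t, rfl⟩ := mem_span_pair.1 e'
  simp [C₀.B_swap_zero a2, C₀.B_swap_zero a3] at b3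

theorem all (hmax : MaxSub K F) {v : V₀} (hv : C₀.N v = 0) (hv0 : v ≠ 0) {y : V} {a : F}
    (hy : C.B (ι v) y = 0) (hr : Rq C X (ι v) y a) (hn : ∀ (p : V₀) (μ : F), y ≠ ι p + μ • ι v)
    (β : F) {v' c' : V₀} (h' : TSP C₀ v' c') : Rq C X (ι v') (β • ι c') 0 := by
  have hvv := h.B0 (C₀.B_self_of_zero hv)
  let A : Subring F :=
    { carrier := {α | ∀ v c, TSP C₀ v c → Rq C X (ι v) (α • ι c) 0}
      zero_mem' := fun _ _ _ => by rw [zero_smul]; exact rho_zero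
      one_mem' := fun v c e => by rw [one_smul]; exact h.rho v c e.hv e.hc e.hB
      add_mem' := fun ha hb v c e => by
        simpa [add_smul, h.B0 (C₀.B_self_of_zero e.hc)] using (ha v c e).mul (hb v c e)
          (h.B0 (C₀.B_self_of_zero e.hv)) (by simp [h.B0 e.hB]) (by simp [h.B0 e.hB])
      neg_mem' := fun ha v c e => by
        simpa [h.B0 (C₀.B_self_of_zero e.hc)] using rho_zero.div (ha v c e)
          (h.B0 (C₀.B_self_of_zero e.hv)) (by simp) (by simp [h.B0 e.hB])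
      mul_mem' := fun {α β} ha hb v c e => by
        obtain ⟨c', d, a2, a1, a5, a6, a3, a4, b3, a9, a8⟩ := h.exists_hyp e
        obtain ⟨k, hk, e'⟩ := hb c' c (TSP.symm ⟨e.hc, a2, a6, e.symm.ne, not_mem_right a9⟩)
        have := (ha v d ⟨e.hv, a1, a3, e.ne, not_mem_left a8⟩).comm hk (h.le hk)
          (by simp [e', h.B0 e.hB, h.B0 (C₀.B_swap_zero a5)]) (h.B0 (C₀.B_self_of_zero e.hv))
          (by simp [h.B0 a3])
        simpa [e', h.B1 b3, h.B0 (C₀.B_swap_zero a4), smul_smul] using this }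
  obtain ⟨a₁, a1, a3⟩ : ∃ u, TSP C₀ v u ∧ ∀ k, C.B (ι u) y ≠ 𝔣 k := by
    by_contra hc
    push Not at hc
    obtain ⟨p, μ, e⟩ := h.rat_mod hv hv0 hc
    exact hn p μ e
  obtain ⟨d, b, d1, b1, d2, d3, b2, b3, b4, -, -⟩ := h.exists_hyp a1
  obtain ⟨k, hk, e⟩ := h.rho a₁ b a1.hc b1 b3
  obtain ⟨k', hk', e'⟩ := h.rho d a₁ d1 a1.hc (C₀.B_swap_zero d3)
  have h1 := hr.comm hk (h.le hk) (by simp [e, h.B0 b2, h.B0 (C₀.B_swap_zero a1.hB)]) hvv hy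
  rw [show k y - y = C.B (ι a₁) y • ι b - T.σ (C.B y (ι b)) • ι a₁ by rw [e]; module] at h1
  have h2 := h1.comm hk' (h.le hk') (by simp [e', h.B0 a1.hB, h.B0 (C₀.B_swap_zero d2)]) hvv
    (by simp [h.B0 b2, h.B0 a1.hB])
  refine hmax A (fun k v c e => ?_) _ (fun v' c' e => h.trans a1 e ?_) a3 β v' c' h'
  · rw [← ι_smul (F := F)]
    exact h.rho v _ e.hv (C₀.N_smul_of_zero e.hc _) (by simp [e.hB])
  · simpa [e', h.B1 b4, h.B0 (C₀.B_swap_zero d3), h.B0 (C₀.B_swap_zero b3),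
      h.B0 (C₀.B_self_of_zero a1.hc)] using h2

theorem exists_rho (hA : ∀ (β : F) v c, TSP C₀ v c → Rq C X (ι v) (β • ι c) 0) {v : V₀}
    (hv : C₀.N v = 0) (hv0 : v ≠ 0) (y : V) (hy : C.B (ι v) y = 0) : ∃ a, Rq C X (ι v) y a := by
  simpa using (h.perp_mem hv hv0 (Z :=
    { carrier := {y | C.B (ι v) y = 0 ∧ ∀ β : F, ∃ a, Rq C X (ι v) (β • y) a}
      zero_mem' := ⟨by simp, fun _ => ⟨0, by simpa using rho_zero⟩⟩
      add_mem' := fun ⟨a1, a2⟩ ⟨a3, a4⟩ => ⟨by simp [a1, a3], fun β => by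
        obtain ⟨a, e⟩ := a2 β
        obtain ⟨a', e'⟩ := a4 β
        rw [smul_add]
        exact ⟨_, e.mul e' (h.B0 (C₀.B_self_of_zero hv)) (by simp [a1]) (by simp [a3])⟩⟩
      smul_mem' := fun c _ ⟨a1, a2⟩ => ⟨by simp [a1], fun β => by rw [smul_smul]; exact a2 _⟩ })
    (fun u a => ⟨h.B0 a.hB, fun β => ⟨0, hA β v u a⟩⟩) hy).2 1

theorem exists_rho₀ {v y : V₀} (hv : C₀.N v = 0) (hv0 : v ≠ 0) (hy : C₀.B v y = 0) :
    ∃ a, Rq C X (ι v) (ι y) a :=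
  (h.perp_add hv hv0
    { carrier := {y | C₀.B v y = 0 ∧ ∃ a, Rq C X (ι v) (ι y) a}
      zero_mem' := ⟨by simp, 0, by simpa using rho_zero⟩
      add_mem' := fun ⟨a1, a, e⟩ ⟨a3, a', e'⟩ => ⟨by simp [a1, a3], _, by
        rw [map_add]; exact e.mul e' (h.B0 (C₀.B_self_of_zero hv)) (h.B0 a1) (h.B0 a3)⟩
      neg_mem' := fun ⟨a1, a, e⟩ => ⟨by simp [a1], _, by
        simpa using rho_zero.div e (h.B0 (C₀.B_self_of_zero hv)) (by simp) (h.B0 a1)⟩ }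
    (fun u a => ⟨a.hB, 0, h.rho v u a.hv a.hc a.hB⟩) hy).2

theorem le_of_all (hG : RootG C G) (hX : X ≤ G)
    (hA : ∀ (β : F) v c, TSP C₀ v c → Rq C X (ι v) (β • ι c) 0)
    (hZ : ∀ v, C₀.N v = 0 → v ≠ 0 → ∀ a, a * T.ε + T.σ a = 0 → T.τ (a * T.ε) = 0 →
      Rq C X (ι v) 0 a) : G ≤ X := by
  have key : ∀ v p, C₀.N v = 0 → C₀.B v p = 1 → Q1 C G X (ι v) := fun v p hv hp => by
    have hv0 : v ≠ 0 := by rintro rfl; simp at hp
    exact q1_of_rho hG.le hX (h.hN v hv) (h.B1 hp) (h.exists_rho hA hv hv0) fun a ha =>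
      let ⟨e, e'⟩ := ha.tvOk hG.le (h.hN v hv) (h.B1 hp); hZ v hv hv0 a e e'
  obtain ⟨v, a2, a1⟩ := h.sing
  obtain ⟨p, -, b1, b2⟩ := h.nd₀.exists_partner (Z := ⊥) (x := v) (by simpa) a2
    (by simp [C₀.perp_bot])
  obtain ⟨q, hq⟩ := h.nd₀.exists_eq (show p ≠ 0 by rintro rfl; simp at b2) 1
  exact hG.fin X _ _ (h.hN v a2) (h.hN p b1) (by rw [h.B1 b2]; exact one_ne_zero) (key v p a2 b2)
    (key p q b1 hq)

theorem tv_of_comm (hA : ∀ (β : F) v c, TSP C₀ v c → Rq C X (ι v) (β • ι c) 0) {v : V₀}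
    (hv : C₀.N v = 0) (hv0 : v ≠ 0) (β : F) : Rq C X (ι v) 0 (T.σ T.ε * β - T.σ β) := by
  have hvv := h.B0 (C₀.B_self_of_zero hv)
  obtain ⟨c, hc⟩ := h.tsp hv hv0
  obtain ⟨d, b, -, -, d1, -, b1, -, d3, -⟩ := h.exists_hyp hc
  have c1 := h.B0 d1
  have c2 : C.B (ι v) (β • ι b) = 0 := by simp [h.B0 b1]
  obtain ⟨a, e⟩ := h.exists_rho hA hv hv0 _ c1
  obtain ⟨a', e'⟩ := h.exists_rho hA hv hv0 _ c2
  convert (e.mul e' hvv c1 c2).div (e'.mul e hvv c2 c1) hvv (by simp [c1, c2]) (by simp [c1, c2])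
    using 1
  · simp [add_comm]
  · simp [add_comm (ι d), C.σ_B (ι b), h.B1 d3, T.σσ]; ring

theorem tv_of_sq (hA : ∀ (β : F) v c, TSP C₀ v c → Rq C X (ι v) (β • ι c) 0) {a : F}
    (hT : ∀ v, C₀.N v = 0 → Rq C X (ι v) 0 a) {v : V₀} (hv : C₀.N v = 0) (hv0 : v ≠ 0) (α : F) :
    Rq C X (ι v) 0 (a * (α * T.σ α)) := by
  have hd := h.dim
  by_cases hα : α = 0
  · simpa [hα] using rho_zero
  obtain ⟨c, ⟨-, c3, c1, -, c2⟩⟩ := h.tsp hv hv0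
  have c4 : v ∉ spanL K [c] := fun e => not_mem_span_of_not_mem hv0 c2 (ne_zero_of_not_mem c2)
    (by simpa [spanL] using e)
  obtain ⟨d, d1, d2, d3⟩ := h.iso.exists_perp_one h.nd₀ (l := [v]) (z := c)
    (by simpa [spanL] using c2) (by simp; omega)
  obtain ⟨d', d4, d5, d6⟩ := h.iso.exists_perp_one h.nd₀ c4 (by simp; omega)
  replace d1 := C₀.B_swap_zero (d1 v (by simp))
  replace d4 := C₀.B_swap_zero (d4 c (by simp))
  obtain ⟨k, hk, e⟩ := hA α d v ⟨d2, hv, d1, by rintro rfl; simp at d3, fun e => by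
    obtain ⟨s, rfl⟩ := mem_span_singleton.1 e
    simp [d3, T₀.σ_eq_zero] at c1
    simp [c1] at hv0⟩
  obtain ⟨k', hk', e'⟩ := hA α⁻¹ d' c ⟨d5, c3, d4, by rintro rfl; simp at d6, fun e => by
    obtain ⟨s, rfl⟩ := mem_span_singleton.1 e
    simp [C₀.B_swap_ne (d6 ▸ one_ne_zero : C₀.B d' v ≠ 0)] at c1
    simp [c1] at c2⟩
  have e1 : k'⁻¹ (k (ι c)) = α • ι v := by
    rw [← inv_apply_apply k' (α • ι v), e, e']
    simp [h.B1 d3, h.B1 d6, h.B0 c1, h.B0 (C₀.B_swap_zero c1), hα, add_comm]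
  have := ((hT c c3).conj hk (h.le hk)).conj (inv_mem hk') (h.le (inv_mem hk'))
  rw [e1, map_zero, map_zero] at this
  exact this.smul_zero

variable (hQ : RatQ ι C C₀ X) {g : V ≃ₗ[F] V} (hg : g ∈ X)
include hQ hg

theorem good_data {p x : V₀} (e : TSP C₀ p x) (gp : Good ι g p) :
    ∃ (c : F) (q y : V₀) (μ : F), c ≠ 0 ∧ TSP C₀ q y ∧ g (ι p) = c • ι q ∧
      T.σ c • g (ι x) = ι y + μ • ι q := by
  obtain ⟨c, q, e1⟩ := gp
  have n0 : g (ι p) ≠ 0 := by simpa using h.rat.ne_zero e.ne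
  have hc : c ≠ 0 := by rintro rfl; simp [e1] at n0
  have hq0 : q ≠ 0 := by rintro rfl; simp [e1] at n0
  have hq : C.N (ι q) = 0 := by
    rw [← inv_smul_smul₀ hc (ι q), ← e1, C.N_smul_of_zero]
    rw [CForm.isom_N (h.le hg), h.hN p e.hv]
  have hr := (h.rho p x e.hv e.hc e.hB).conj hg (h.le hg)
  have hB : C.B (ι q) (T.σ c • g (ι x)) = 0 := by
    rw [map_smul, smul_eq_mul, ← C.B_smul_left, ← e1, CForm.isom_B (h.le hg), h.B0 e.hB]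
  rw [e1] at hr
  obtain ⟨y, μ, e2⟩ := hQ q (h.hN' q hq) hq0 _ _ hB hr.smul_left'
  have h1 : C.B (ι q) (ι y) = 0 := by simpa [e2, C.B_self_of_zero hq] using hB
  refine ⟨c, q, y, μ, hc, ⟨h.hN' q hq, h.hN' y ?_, h.B0' h1, hq0, fun e' => ?_⟩, e1, e2⟩
  · have : C.N (T.σ c • g (ι x)) = 0 :=
      C.N_smul_of_zero (by rw [CForm.isom_N (h.le hg), h.hN x e.hc]) _
    rwa [e2, C.N_add_of_orth (by simp [C.B_swap_zero h1]), C.N_smul_of_zero hq, add_zero] at this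
  · obtain ⟨t, rfl⟩ := mem_span_singleton.1 e'
    refine h.rat.not_mem_span_singleton e.nm (mem_span_singleton.2
      ⟨(T.σ c)⁻¹ * (𝔣 t + μ) * c⁻¹, g.injective (smul_right_injective V (T.σ_ne_zero hc) ?_)⟩)
    have := T.σ_ne_zero hc
    simp only [e2, map_smul g, e1, smul_smul, ι_smul (F := F), ← add_smul]
    congr 1; field_simp

theorem good_step {x p q : V₀} (e1 : TSP C₀ p x) (e2 : TSP C₀ q x) (hq : q ∉ span K {x, p})
    (gp : Good ι g p) (gq : Good ι g q) : Good ι g x := by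
  have key : ∀ p, TSP C₀ p x → Good ι g p →
      ∃ (c μ : F) (y : V₀), g (ι x) = c • ι y + μ • g (ι p) := fun p e gp => by
    obtain ⟨c, q, y, μ, a1, -, a2, a3⟩ := h.good_data hQ hg e gp
    refine ⟨(T.σ c)⁻¹, (T.σ c)⁻¹ * μ * c⁻¹, y, smul_right_injective V (T.σ_ne_zero a1) ?_⟩
    have := T.σ_ne_zero a1
    simp only [a3, a2, smul_add, smul_smul]
    congr 1
    · rw [mul_inv_cancel₀ this, one_smul]
    · congr 1; field_simp
  exact h.rat.good_of_two e1.symm.nm hq gp gq (key p e1 gp) (key q e2 gq)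

variable [Finite V₀]

theorem mem_of_two {a b : V₀} (e : TSP C₀ a b) (ga : Good ι g a) (gb : Good ι g b) :
    g ∈ ratStab F ι := by
  have hd := h.dim
  have h1 : ∀ y, C₀.N y = 0 → C₀.B a y = 0 → C₀.B b y = 0 → y ∉ span K {a, b} → Good ι g y :=
    fun y a1 a2 a3 a4 => h.good_step hQ hg ⟨e.hv, a1, a2, e.ne, not_mem_left a4⟩
      ⟨e.hc, a1, a3, e.symm.ne, not_mem_right a4⟩
      (by rw [Set.pair_comm]; exact not_mem_pair_swap e.nm a4) ga gb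
  have h2 : ∀ x y l, C₀.N x = 0 → C₀.N y = 0 → C₀.B a y = 0 → C₀.B b y = 0 → y ∉ span K {a, b} →
      l ∈ span K {a, b} → C₀.B x y = 0 → C₀.B x l = 0 → x ≠ 0 → l ∉ span K {x} →
      y ∉ span K {x, l} → Good ι g x := fun x y l a1 a2 a3 a4 a5 a6 a7 a8 a9 b1 b2 => by
    have c1 : C₀.B l y = 0 := C₀.mem_perp.1 (C₀.mem_perp_pair.2 ⟨a3, a4⟩) l a6
    have c2 : C₀.N (y + l) = 0 := by
      rw [C₀.N_add_of_orth (C₀.B_swap_zero c1), a2, e.ts.1 l a6, add_zero]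
    refine h.good_step hQ hg (p := y) (q := y + l) (TSP.symm ⟨a1, a2, a7, a9, not_mem_left b2⟩)
      (TSP.symm ⟨a1, c2, by simp [a7, a8], a9, fun e' => b2 ((add_mem_cancel_right
        (mem_pair_right x l)).1 (span_mono (by simp) e'))⟩)
      (fun e' => not_mem_pair_swap b1 b2 ((add_mem_cancel_left (mem_pair_right x y)).1 e'))
      (h1 y a2 a3 a4 a5) (h1 _ c2 (by simp [a3, e.ts.2 a (mem_pair_left a b) l a6])
        (by simp [a4, e.ts.2 b (mem_pair_right a b) l a6])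
        fun e' => a5 ((add_mem_cancel_right a6).1 e'))
  refine h.rat.mem_ratStab_of_points {x | C₀.N x = 0} e.hv e.ne
    (h.iso.mem_of_iso h.nd₀ (by omega)) (fun x hx x' hx' n n' => ?_) fun x hx => ?_
  · obtain ⟨z, b1, b2, b3, b4, b5⟩ := h.ix.exists_perp_two h.iso h.nd₀ (by omega) hx hx' n n'
    exact ⟨z, b1, b4, b5, by simpa [C₀.N_add, b1, C₀.B_swap_zero b2] using hx,
      by simpa [C₀.N_add, b1, C₀.B_swap_zero b3] using hx'⟩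
  by_cases h0 : x = 0
  · exact ⟨0, 0, by simp [h0]⟩
  obtain ⟨d, d1, d2, d3, d4⟩ := h.ix a b e
  by_cases hL : x ∈ span K {a, b}
  · obtain ⟨l, l1, l2⟩ := exists_mem_not_mem_of_finrank_lt (W := span K {x}) (W' := span K {a, b})
      (by rw [e.finrank_eq]; have := finrank_span_singleton_le (F := K) x; omega)
    exact h2 x d l hx d1 d2 d3 d4 l1 (C₀.mem_perp.1 (C₀.mem_perp_pair.2 ⟨d2, d3⟩) x hL)
      (e.ts.2 x hL l l1) h0 l2 fun e' => d4 (span_le.2 (by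
        rintro _ (rfl | rfl); exacts [hL, l1]) e')
  by_cases hP : C₀.B a x = 0 ∧ C₀.B b x = 0
  · exact h1 x hx hP.1 hP.2 hL
  obtain ⟨a', a1, a2⟩ : ∃ a' ∈ span K {a, b}, C₀.B x a' ≠ 0 := by
    rcases not_and_or.1 hP with c | c
    exacts [⟨a, mem_pair_left a b, C₀.B_swap_ne c⟩, ⟨b, mem_pair_right a b, C₀.B_swap_ne c⟩]
  obtain ⟨l, l1, l2, l3⟩ := exists_perp_in_pair C₀ e.nm e.ne x
  have c1 : ∀ z ∈ span K {a, b}, C₀.B z (d - (C₀.B x d / C₀.B x a') • a') = 0 := fun z hz => by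
    simp [C₀.mem_perp.1 (C₀.mem_perp_pair.2 ⟨d2, d3⟩) z hz, e.ts.2 z hz a' a1]
  have c2 : d - (C₀.B x d / C₀.B x a') • a' ∉ span K {a, b} := fun e' =>
    d4 ((sub_mem_iff_left _ (smul_mem _ _ a1)).1 e')
  have c3 : ∀ (s : K) z, z ∈ span K {a, b} → C₀.B a' (s • x + z) = 0 → s = 0 := fun s z hz e' => by
    simpa [e.ts.2 a' a1 z hz, C₀.B_swap_ne a2] using e'
  refine h2 x _ l hx ?_ (c1 a (mem_pair_left a b)) (c1 b (mem_pair_right a b)) c2 l1 (by simp [a2])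
    l3 h0 (fun e' => ?_) fun e' => ?_
  · rw [C₀.N_sub, d1, C₀.N_smul_of_zero (e.ts.1 a' a1), map_smul,
      C₀.B_swap_zero (C₀.mem_perp.1 (C₀.mem_perp_pair.2 ⟨d2, d3⟩) a' a1)]
    simp
  · obtain ⟨s, rfl⟩ := mem_span_singleton.1 e'
    exact hL ((smul_mem_iff _ (left_ne_zero_of_smul l2)).1 l1)
  · obtain ⟨s, t, e'⟩ := mem_span_pair.1 e'
    have := c3 s _ (smul_mem _ t l1) (by rw [e', c1 a' a1])
    exact c2 (by rw [← e', this, zero_smul, zero_add]; exact smul_mem _ _ l1)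

theorem mem_of_line {a b a₁ b₁ : V₀} (e : TSP C₀ a b) (e₁ : TSP C₀ a₁ b₁)
    (ha : g (ι a) ∈ span F {ι a₁, ι b₁}) (hb : g (ι b) ∈ span F {ι a₁, ι b₁}) :
    g ∈ ratStab F ι := by
  have t₁ := h.map_tsp e₁
  have := FiniteDimensional.span_of_finite F (Set.toFinite {ι a₁, ι b₁})
  have h1 : (span F {ι a, ι b}).map (g : V →ₗ[F] V) = span F {ι a₁, ι b₁} :=
    eq_of_le_of_finrank_eq (by
      rw [map_span_le]; rintro _ (rfl | rfl); exacts [ha, hb])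
      (by rw [finrank_map_equiv, (h.map_tsp e).finrank_eq, t₁.finrank_eq])
  obtain ⟨y, y1, y2, y3, y4⟩ := h.ix a b e
  have h2 : g (ι y) ∈ C.perp (span F {ι a₁, ι b₁}) := by
    rw [← h1, ← CForm.map_perp (h.le hg)]
    exact ⟨_, C.mem_perp_pair.2 ⟨h.B0 y2, h.B0 y3⟩, rfl⟩
  have h3 : g (ι y) ∉ span F {ι a₁, ι b₁} := by
    rw [← h1]
    rintro ⟨z, hz, e'⟩
    exact y4 (h.rat.mem_pair (g.injective e' ▸ hz))
  obtain ⟨a', b', d1, d2, d3, d4⟩ := e₁.exists_dual h.nd₀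
  obtain ⟨y', y5, y6, y7⟩ : ∃ y', C₀.B a₁ y' = 0 ∧ C₀.B b₁ y' = 0 ∧ C.B (ι y') (g (ι y)) ≠ 0 := by
    by_contra hc
    push Not at hc
    refine h3 (mem_span_pair.2 ⟨T.σ (C.B (g (ι y)) (ι a')), T.σ (C.B (g (ι y)) (ι b')),
      h.nd.ext fun z => sub_eq_zero.1 (h.rat.map_eq_zero (φ := C.B _ - C.B _) (fun x => ?_) z)⟩)
    have := C.B_swap_zero (hc (x - C₀.B a₁ x • a' - C₀.B b₁ x • b') (by simp [d1, d3])
      (by simp [d2, d4]))
    simp only [map_sub, ι_smul (F := F), map_smul, smul_eq_mul] at this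
    simp only [LinearMap.sub_apply, C.B_add_left, C.B_smul_left, T.σσ, h.hB]
    linear_combination -this
  have key : ∀ x, TSP C₀ x y → g (ι x) ∈ span F {ι a₁, ι b₁} → Good ι g x := fun x e' hx => by
    obtain ⟨k, hk, ek⟩ := (h.rho x y e'.hv e'.hc e'.hB).conj hg (h.le hg)
    have c1 : ∀ u ∈ span K {a₁, b₁}, u ≠ 0 → ∃ (p : V₀) (μ : F),
        -T.σ (C.B (ι y') (g (ι y))) • g (ι x) = ι p + μ • ι u := fun u hu hu0 => by
      have c2 : C₀.B u y' = 0 := C₀.mem_perp.1 (C₀.mem_perp_pair.2 ⟨y5, y6⟩) u hu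
      obtain ⟨s, hs⟩ := h.exists_rho₀ (e₁.ts.1 u hu) hu0 c2
      have c3 := hs.comm hk (h.le hk) (by
        rw [ek, t₁.ts.2 _ hx _ (ι_mem_pair hu), C.mem_perp.1 h2 _ (ι_mem_pair hu)]; simp)
        (t₁.ts.2 _ (ι_mem_pair hu) _ (ι_mem_pair hu)) (h.B0 c2)
      rw [show k (ι y') - ι y' = -T.σ (C.B (ι y') (g (ι y))) • g (ι x) by
        rw [ek, C.mem_perp.1 (C.mem_perp_pair.2 ⟨h.B0 y5, h.B0 y6⟩) _ hx]; module] at c3
      exact hQ u (e₁.ts.1 u hu) hu0 _ _ (by simp [t₁.ts.2 _ (ι_mem_pair hu) _ hx]) c3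
    obtain ⟨p, μ, c2⟩ := c1 a₁ (mem_pair_left _ _) e₁.ne
    obtain ⟨p', μ', c3⟩ := c1 b₁ (mem_pair_right _ _) e₁.symm.ne
    obtain ⟨φ₀, φ, f1, f2, f3⟩ := h.rat.exists_one_zero e₁.symm.nm
    have c4 := congrArg φ (c2.symm.trans c3)
    simp only [map_add, map_smul, f3, f2 b₁ (mem_span_singleton_self _), f1 p, f1 p', smul_eq_mul]
      at c4
    have c5 := neg_ne_zero.2 (T.σ_ne_zero y7)
    refine ⟨_⁻¹, p + (φ₀ p' - φ₀ p) • a₁, (eq_inv_smul_iff₀ c5).2 ?_⟩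
    rw [c2, map_add, ι_smul (F := F), map_sub, show μ = 𝔣 (φ₀ p') - 𝔣 (φ₀ p) by
      linear_combination c4]
  exact h.mem_of_two hQ hg e (key a ⟨e.hv, y1, y2, e.ne, not_mem_left y4⟩ ha)
    (key b ⟨e.hc, y1, y3, e.symm.ne, not_mem_right y4⟩ hb)

theorem mem_of_good {a : V₀} (ha : C₀.N a = 0) (ha0 : a ≠ 0) (ga : Good ι g a) :
    g ∈ ratStab F ι := by
  obtain ⟨b, e⟩ := h.tsp ha ha0
  obtain ⟨c, q, y, μ, a1, a2, a3, a4⟩ := h.good_data hQ hg e ga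
  exact h.mem_of_line hQ hg e a2 (a3 ▸ smul_mem _ _ (mem_pair_left _ _))
    ((smul_mem_iff _ (T.σ_ne_zero a1)).1 (a4 ▸ add_mem (mem_pair_right _ _)
      (smul_mem _ _ (mem_pair_left _ _))))

end RW

end H12
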