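import Cfsg.Agent.H12.RatW

/-!
# Subfield subgroups in small dimension: the trivial intersection argument
-/

set_option autoImplicit false
set_option maxHeartbeats 400000

namespace H12

open Module H11 Submodule

section

variable {F : Type*} [Field F] {T : FormType F} {V : Type*} [AddCommGroup V] [Module F V]
  {C : CForm T V} {X H : Subgroup (V ≃ₗ[F] V)} {L : Submodule F V}

theorem ne_inv_of_sq {s : V ≃ₗ[F] V} (h2 : (2 : F) ≠ 0) (h : ∀ x, s (s x - x) = s x - x)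
    (h1 : s ≠ 1) : s ≠ s⁻¹ := fun e => h1 (LinearEquiv.ext fun x => by
  have h3 := h x
  have h4 : s (s x) = x := by nth_rw 1 [e]; exact inv_apply_apply s x
  rw [map_sub, h4] at h3
  exact smul_right_injective V h2 (by
    simp only [LinearEquiv.coe_one, id]; linear_combination (norm := module) -h3))

theorem TI.fr_odd [FiniteDimensional F V] [Finite V] (h : TI C X H L) (h2 : (2 : F) ≠ 0)
    {k : V ≃ₗ[F] V} (hk : MaxK X H L k) :
    ∃ g ∈ X, g ∈ H ∧ g ∈ glStab L ∧ g ∈ cen (L ⊔ L.map (k : V →ₗ[F] V)) ∧ g ∉ cen L ∧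
      ∀ x ∈ C.perp L, g x - x ∈ L :=
  let ⟨_, a1, a2, a3⟩ := h.ex
  h.fr' hk a1 a2 (inv_mem a1) (inv_mem a2) a3 (inv_ne_one.2 a3) (ne_inv_of_sq h2 (h.sq a1 a2) a3)

theorem conj_sq {s k : V ≃ₗ[F] V} (h : ∀ x, s (s x - x) = s x - x) (x : V) :
    (k⁻¹ * s * k) ((k⁻¹ * s * k) x - x) = (k⁻¹ * s * k) x - x := by
  have : ∀ x, (k⁻¹ * s * k) x - x = k⁻¹ (s (k x) - k x) := fun x => by
    rw [map_sub, inv_apply_apply]; rfl
  rw [this, LinearEquiv.mul_apply, LinearEquiv.mul_apply, apply_inv_apply, h]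

theorem conj_ne_one {G : Type*} [Group G] {s k : G} (h : s ≠ 1) : k⁻¹ * s * k ≠ 1 := fun e =>
  h (by rw [show s = k * (k⁻¹ * s * k) * k⁻¹ by group, e]; simp)

theorem isom_B_fix {g : V ≃ₗ[F] V} (hg : g ∈ C.isom) {m : V} (hm : g m = m) (x : V) :
    C.B (g x - x) m = 0 := by
  rw [C.B_sub_left, ← hm, CForm.isom_B hg, hm, sub_self]

theorem TI.perp_eq_zero [FiniteDimensional F V] (h : TI C X H L) {k g : V ≃ₗ[F] V}
    (hk : MaxK X H L k) (h0 : L ⊓ L.map (k : V →ₗ[F] V) = ⊥) (hg : g ∈ X) (hg' : g ∈ H) {x : V}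
    (hx : x ∈ L.map (k : V →ₗ[F] V)) (hx' : ∀ l ∈ L, C.B (g l) x = 0) : x = 0 := by
  obtain ⟨h1, h2⟩ := hk.of_eq (mul_mem (inv_mem hg) hk.mem)
    (fun e => hk.nm ((mul_mem_cancel_left (inv_mem hg')).1 e)) h0
  have h3 : g⁻¹ x ∈ L.map ((g⁻¹ * k : V ≃ₗ[F] V) : V →ₗ[F] V) := by
    obtain ⟨l, hl, rfl⟩ := hx
    exact ⟨l, hl, rfl⟩
  have h4 : g⁻¹ x ∈ (⊥ : Submodule F V) := h2 ▸ ⟨h.mem_of_perp h1 h3 (C.mem_perp.2 fun l hl => by
    rw [← CForm.isom_B (h.le hg), apply_inv_apply, hx' l hl]), h3⟩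
  simpa using h4

end

variable {K F : Type*} [Field K] [Field F] [Algebra K F] {V₀ V : Type*} [AddCommGroup V₀]
  [Module K V₀] [AddCommGroup V] [Module F V] [Module K V] [IsScalarTower K F V]
  {ι : V₀ →ₗ[K] V} {T : FormType F} {T₀ : FormType K} {C : CForm T V} {C₀ : CForm T₀ V₀}
  {G X : Subgroup (V ≃ₗ[F] V)}

local notation "𝔣" => algebraMap K F

theorem Rat.exists_sub (h : Rat F ι) {g : V ≃ₗ[F] V} (hg : IsRat ι g) {L : Submodule F V}
    (hL : g ∉ cen L) : ∃ x u, g (ι x) - ι x = ι u ∧ ι u ∉ L := by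
  obtain ⟨x, hx⟩ := not_forall.1 (mt h.mem_cen hL)
  obtain ⟨y, hy⟩ := hg x
  exact ⟨x, y - x, by rw [hy, map_sub], by rwa [map_sub, ← hy]⟩

theorem not_mem_cen_bot {g : V ≃ₗ[F] V} (h : g ≠ 1) : g ∉ cen (⊥ : Submodule F V) := fun e =>
  h (LinearEquiv.ext fun x => by simpa [sub_eq_zero] using e x)

variable [FiniteDimensional K V₀] [FiniteDimensional F V] [Finite F] [Finite V₀]

namespace RW

variable (h : RW ι C C₀ X) (hQ : RatQ ι C C₀ X)
include h hQ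

theorem ti_point {a₀ : F} (ha₀ : a₀ ≠ 0) {v : V₀} (hv : C₀.N v = 0) (hv0 : v ≠ 0)
    (hT : Rq C X (ι v) 0 a₀) : TI C X (ratStab F ι) (span F {ι v}) := by
  have h1 : span F {ι v} ≤ C.perp (span F {ι v}) := (span_singleton_le_iff_mem _ _).2
    (C.mem_perp_singleton.2 (C.B_self_of_zero (h.hN v hv)))
  refine ⟨h.nd, h.le, h1, fun s _ hs h0 l hl => ?_, fun s hs hs' => ?_,
    fun k hk s hs hs' h0 e => ?_, ?_⟩
  · obtain ⟨x, hx⟩ := not_forall.1 (not_mem_cen_bot h0)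
    obtain ⟨c, hc⟩ := mem_span_singleton.1 (hs x)
    obtain ⟨d, rfl⟩ := mem_span_singleton.1 hl
    have : c ≠ 0 := by rintro rfl; exact hx (by simp [← hc])
    exact ⟨(d / c) • x, by rw [map_smul, ← smul_sub, ← hc, smul_smul, div_mul_cancel₀ _ this]⟩
  · exact h.mem_of_good hQ hs hv hv0 ⟨1, v, by
      rw [h.nd.cen_fix (h.le hs) hs' (h1 (mem_span_singleton_self _)), one_smul]⟩
  · obtain ⟨x, u, a1, a2⟩ := h.rat.exists_sub (h.rat.isRat_of_unip e (conj_sq fun x =>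
      h.nd.cen_fix (h.le hs) hs' (h1 (hs' x)))) (not_mem_cen_bot (conj_ne_one h0))
    obtain ⟨c, hc⟩ := mem_span_singleton.1 (hs' (k (ι x)))
    have a3 : k (ι u) = c • ι v := by
      rw [← a1, hc, map_sub, LinearEquiv.mul_apply, LinearEquiv.mul_apply, apply_inv_apply]
    exact h.mem_of_good hQ hk (h.hN' u (by
      rw [← CForm.isom_N (h.le hk), a3, C.N_smul_of_zero (h.hN v hv)]))
      (by rintro rfl; simp at a2) ⟨c, v, a3⟩
  · obtain ⟨s, hs, e⟩ := hT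
    obtain ⟨p, hp⟩ := h.nd.exists_eq (h.rat.ne_zero hv0) 1
    refine ⟨s, hs, fun x => by simp [e, smul_mem, mem_span_singleton_self], fun e' => ?_⟩
    simpa [e', hp, ha₀, h.rat.ne_zero hv0, eq_sub_iff_add_eq] using e p

theorem le_of_point {a₀ : F} (ha₀ : a₀ ≠ 0) (hT : ∀ u, C₀.N u = 0 → Rq C X (ι u) 0 a₀)
    (h2 : (2 : F) = 0 → ∀ u, C₀.B u u = 0 → C₀.N u = 0) : X ≤ ratStab F ι := by
  have := Module.finite_of_finite F (M := V)
  have hd := h.dim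
  obtain ⟨v, hv, hv0⟩ := h.sing
  have ti := h.ti_point hQ ha₀ hv hv0 (hT v hv)
  by_contra hc
  obtain ⟨k, hk⟩ := exists_maxK (L := span F {ι v}) hc
  have hm : k (ι v) ∈ (span F {ι v}).map (k : V →ₗ[F] V) := ⟨_, mem_span_singleton_self _, rfl⟩
  have h0 : span F {ι v} ⊓ (span F {ι v}).map (k : V →ₗ[F] V) = ⊥ := by
    refine (Submodule.eq_bot_iff _).2 ?_
    rintro _ ⟨a1, l, hl, rfl⟩
    obtain ⟨c, rfl⟩ := mem_span_singleton.1 hl
    obtain ⟨d, hd⟩ := mem_span_singleton.1 a1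
    by_contra h0
    have : c ≠ 0 := by rintro rfl; simp at h0
    exact hk.nm (h.mem_of_good hQ hk.mem hv hv0 ⟨c⁻¹ * d, v, by
      rw [mul_smul, hd]; simp [smul_smul, this]⟩)
  have key : ∀ u, C₀.N u = 0 → C.B (ι u) (k (ι v)) = 0 → u = 0 := fun u hu e => by
    by_contra hu0
    obtain ⟨g, hg, a1, a2⟩ := h.witt1 hv hu hv0 hu0
    have := ti.perp_eq_zero hk h0 hg (h.rat.mem_ratStab_one a1) hm fun l hl => by
      obtain ⟨c, rfl⟩ := mem_span_singleton.1 hl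
      rw [map_smul, a2, C.B_smul_left, e, mul_zero]
    exact h.rat.ne_zero hv0 (by simpa using this)
  obtain ⟨c, hc⟩ := h.tsp hv hv0
  by_cases h2' : (2 : F) = 0
  · obtain ⟨s, hs, e⟩ := hT v hv
    obtain ⟨t, ht, e'⟩ := hT c hc.hc
    have tc := h.map_tsp hc
    have e1 : ∀ x, (s * t) x = x - (a₀ * C.B (ι v) x) • ι v - (a₀ * C.B (ι c) x) • ι c := fun x => by
      rw [LinearEquiv.mul_apply, e, e']; simp [tc.hB]; module
    have e2 : s * t ∈ cen (span F {ι v, ι c}) := fun x => by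
      rw [e1, sub_sub x, sub_sub_cancel_left]
      exact neg_mem (add_mem (smul_mem _ _ (mem_pair_left _ _)) (smul_mem _ _ (mem_pair_right _ _)))
    obtain ⟨a', b', d1, d2, d3, d4⟩ := tc.exists_dual h.nd
    have e3 : (s * t) a' - a' = -a₀ • ι v := by rw [e1, d1, d2]; module
    have e4 : (s * t) b' - b' = -a₀ • ι c := by rw [e1, d3, d4]; module
    have n0 := neg_ne_zero.2 ha₀
    obtain ⟨z, z1, z2, z3, z4, -, z5⟩ := ti.dih h2' hk.mem (mul_mem hs ht)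
      (sq_of_sub h2' fun x => h.nd.cen_fix (h.le (mul_mem hs ht)) e2
        (C.mem_perp.2 fun y hy => tc.ts.2 y hy _ (e2 x)))
      (fun x _ e' => by
        have a1 := Submodule.finrank_mono (span_le.2 (by
          rintro _ (rfl | rfl)
          exacts [(smul_mem_iff _ n0).1 (e3 ▸ e' a'), (smul_mem_iff _ n0).1 (e4 ▸ e' b')]) :
          span F {ι v, ι c} ≤ (span F {ι v}).map (x : V →ₗ[F] V))
        have a2 := finrank_span_singleton_le (F := F) (ι v)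
        rw [finrank_map_equiv, tc.finrank_eq] at a1
        omega)
      fun z hz e' => by
        have a1 : ∀ x, z ((s * t) x - x) ∈ span F {ι v, ι c} := fun x => by
          rw [map_sub, ← LinearEquiv.mul_apply z, e']; exact e2 (z x)
        exact h.mem_of_line hQ hz hc hc ((smul_mem_iff _ n0).1 (by rw [← map_smul, ← e3]; exact a1 _))
          ((smul_mem_iff _ n0).1 (by rw [← map_smul, ← e4]; exact a1 _))
    have z6 := sub_of_sq h2' z4
    have z7 : z (k (ι v)) = k (ι v) := by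
      obtain ⟨l, hl, e'⟩ := z5 _ hm
      obtain ⟨d, rfl⟩ := mem_span_singleton.1 hl
      replace e' : z (k (ι v)) = d • k (ι v) := by rw [← e']; simp
      have a1 := z6 (k (ι v))
      rw [map_sub, e', map_smul, e'] at a1
      have a2 : ((d - 1) * (d - 1)) • k (ι v) = 0 := by linear_combination (norm := module) a1
      rw [e', sub_eq_zero.1 (mul_self_eq_zero.1 ((smul_eq_zero.1 a2).resolve_right
        (by simpa using h.rat.ne_zero hv0))), one_smul]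
    obtain ⟨x, u, a1, a2⟩ := h.rat.exists_sub (h.rat.isRat_of_unip z2 z6) (not_mem_cen_bot z3)
    exact a2 (by
      rw [key u (h2 h2' u (h.B0' (by rw [← a1]; exact isom_B_fix (h.le z1) (z6 _) _)))
        (a1 ▸ isom_B_fix (h.le z1) z7 _)]; simp)
  · obtain ⟨g, g1, g2, -, g3, g4, g5⟩ := ti.fr_odd h2' hk
    obtain ⟨x, t, a1, a2⟩ := h.rat.exists_sub (h.rat.isRat_of_sub g2 hc.nm (span_mono
      (by simpa using ⟨v, mem_span_singleton_self v, rfl⟩)
      (g5 _ (C.mem_perp_singleton.2 (h.B0 hc.hB))))) g4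
    obtain ⟨l, hl, _, ⟨m, hm, rfl⟩, e⟩ := mem_sup.1 (a1 ▸ g3 (ι x))
    obtain ⟨d, rfl⟩ := mem_span_singleton.1 hl
    obtain ⟨d', rfl⟩ := mem_span_singleton.1 hm
    obtain ⟨u, u1, u2, u3⟩ := h.iso.exists_perpL h.nd₀ [v, t] [] (by simp; omega)
    have a3 := congrArg (C.B (ι u)) e
    have : d' ≠ 0 := by rintro rfl; exact a2 (by simpa [← e] using hl)
    refine ne_zero_of_not_mem u2 (key u u3 ?_)
    simpa [h.B0 (C₀.B_swap_zero (u1 v (by simp))), h.B0 (C₀.B_swap_zero (u1 t (by simp))), this]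
      using a3

theorem exists_two (hT : ∀ u, C₀.N u = 0 → ∀ s ∈ X, s ∈ cen (span F {ι u}) → s = 1)
    {s : V ≃ₗ[F] V} (hs : s ∈ X) (hs' : s ∈ ratStab F ι) {L : Submodule F V} (hL : C.TS L)
    (hsL : s ∈ cen L) (h1 : s ≠ 1) :
    ∃ x y u w, s (ι x) - ι x = ι u ∧ s (ι y) - ι y = ι w ∧ TSP C₀ u w := by
  have h2 := h.rat.isRat_of_unip hs' fun x => h.nd.cen_fix (h.le hs) hsL
    (C.mem_perp.2 fun y hy => hL.2 y hy _ (hsL x))
  obtain ⟨x, u, a1, a2⟩ := h.rat.exists_sub h2 (not_mem_cen_bot h1)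
  have a3 := h.hN' u (hL.1 _ (a1 ▸ hsL _))
  obtain ⟨y, w, b1, b2⟩ := h.rat.exists_sub h2 (mt (hT u a3 s hs) h1)
  exact ⟨x, y, u, w, a1, b1, a3, h.hN' w (hL.1 _ (b1 ▸ hsL _)),
    h.B0' (hL.2 _ (a1 ▸ hsL _) _ (b1 ▸ hsL _)), by rintro rfl; simp at a2, fun e => b2 (by
      obtain ⟨c, rfl⟩ := mem_span_singleton.1 e
      rw [ι_smul (F := F)]; exact smul_mem _ _ (mem_span_singleton_self _))⟩

theorem ti_line (hT : ∀ u, C₀.N u = 0 → ∀ s ∈ X, s ∈ cen (span F {ι u}) → s = 1) {a b : V₀}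
    (e : TSP C₀ a b) : TI C X (ratStab F ι) (span F {ι a, ι b}) := by
  have te := h.map_tsp e
  have h1 : span F {ι a, ι b} ≤ C.perp (span F {ι a, ι b}) := fun x hx =>
    C.mem_perp.2 fun y hy => te.ts.2 y hy x hx
  have h2 : ∀ s ∈ X, s ∈ cen (span F {ι a, ι b}) → s ∈ ratStab F ι := fun s hs hs' =>
    h.mem_of_good hQ hs e.hv e.ne ⟨1, a, by
      rw [h.nd.cen_fix (h.le hs) hs' (h1 (mem_pair_left _ _)), one_smul]⟩
  refine ⟨h.nd, h.le, h1, fun s hs hs' h0 l hl => ?_, h2, fun k hk s hs hs' h0 e' => ?_, ?_⟩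
  · obtain ⟨x, y, u, w, a1, a2, a3⟩ := h.exists_two hQ hT hs (h2 s hs hs') te.ts hs' h0
    have : span F {ι u, ι w} = span F {ι a, ι b} := eq_of_le_of_finrank_eq (span_le.2 (by
      rintro _ (rfl | rfl); exacts [a1 ▸ hs' _, a2 ▸ hs' _]))
      (by rw [(h.map_tsp a3).finrank_eq, te.finrank_eq])
    obtain ⟨c, d, rfl⟩ := mem_span_pair.1 (this ▸ hl)
    exact ⟨c • ι x + d • ι y, by rw [← a1, ← a2, map_add, map_smul, map_smul]; module⟩
  · obtain ⟨x, y, u, w, a1, a2, a3⟩ := h.exists_two hQ hT (mul_mem (mul_mem (inv_mem hk) hs) hk) e'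
      (te.ts.map (h.le (inv_mem hk))) (by simpa using conj_mem_cen (k := k⁻¹) hs')
      (conj_ne_one h0)
    refine h.mem_of_line hQ hk a3 e ?_ ?_
    · rw [← a1, map_sub, LinearEquiv.mul_apply, LinearEquiv.mul_apply, apply_inv_apply]
      exact hs' _
    · rw [← a2, map_sub, LinearEquiv.mul_apply, LinearEquiv.mul_apply, apply_inv_apply]
      exact hs' _
  · obtain ⟨s, hs, e'⟩ := h.rho a b e.hv e.hc e.hB
    obtain ⟨a', -, d1, d2, -⟩ := te.exists_dual h.nd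
    refine ⟨s, hs, fun x => ?_, fun e'' => ?_⟩
    · rw [e', add_sub_right_comm, add_sub_right_comm, sub_sub_cancel_left]
      exact add_mem (neg_mem (smul_mem _ _ (mem_pair_left _ _))) (smul_mem _ _ (mem_pair_right _ _))
    · simpa [e'', d1, C.B_swap_zero d2, te.symm.ne] using e' a'

theorem le_of_line (hT : ∀ u, C₀.N u = 0 ∨ (2 : F) = 0 → ∀ s ∈ X, s ∈ cen (span F {ι u}) → s = 1)
    (hσ : ∀ a, T.σ a = a) (hs : ∀ x y, C.B y x = C.B x y) (hd : 7 ≤ finrank K V₀)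
    (h2 : (2 : F) = 0 → (∀ x, C₀.B x x = 0) ∧ T₀.τ 1 ≠ 0 ∧ ∀ k : K, ∃ c, c * T₀.σ c = k) :
    X ≤ ratStab F ι := by
  have := Module.finite_of_finite F (M := V)
  obtain ⟨a, ha, ha0⟩ := h.sing
  obtain ⟨b, e⟩ := h.tsp ha ha0
  have te := h.map_tsp e
  have ti := h.ti_line hQ (fun u hu => hT u (Or.inl hu)) e
  by_contra hc
  obtain ⟨k, hk⟩ := exists_maxK (L := span F {ι a, ι b}) hc
  set L := span F {ι a, ι b}
  set M := L.map (k : V →ₗ[F] V)
  have tM : C.TS M := te.ts.map (h.le hk.mem)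
  have dM : finrank F M = 2 := by rw [finrank_map_equiv, te.finrank_eq]
  have h0 : L ⊓ M = ⊥ := by
    refine (Submodule.eq_bot_iff _).2 fun l ⟨a1, a2⟩ => by_contra fun h0 => ?_
    obtain ⟨m, m1, m2⟩ : ∃ m ∈ M, m ∉ L := by
      by_contra hc
      push Not at hc
      exact hk.nm (ti.stab hk.mem (mem_glStab_of_mapsTo fun x hx => hc _ ⟨x, hx, rfl⟩))
    obtain ⟨s, s1, s2⟩ := h.rho a b e.hv e.hc e.hB
    obtain ⟨a', -, d1, d2, -⟩ := te.exists_dual h.nd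
    obtain ⟨α, β, rfl⟩ := mem_span_pair.1 a1
    have a3 := tM.2 _ a2 _ m1
    simp only [C.B_add_left, C.B_smul_left, hσ] at a3
    refine m2 (ti.caseII hk s1 (fun x => ?_) (fun e'' => ?_) m1 ?_)
    · rw [s2, add_sub_right_comm, add_sub_right_comm, sub_sub_cancel_left]
      exact add_mem (neg_mem (smul_mem _ _ (mem_pair_left _ _))) (smul_mem _ _ (mem_pair_right _ _))
    · simpa [e'', d1, C.B_swap_zero d2, te.symm.ne] using s2 a'
    rw [s2, hσ, hs (ι b) m]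
    by_cases hβ : β = 0
    · have : α ≠ 0 := by rintro rfl; simp [hβ] at h0
      convert smul_mem _ (-C.B (ι b) m / α) a2 using 1
      rw [hβ, zero_mul, add_zero, mul_eq_zero, or_iff_right this] at a3
      rw [a3, hβ]; match_scalars <;> field_simp <;> ring
    · convert smul_mem _ (C.B (ι a) m / β) a2 using 1
      match_scalars <;> field_simp
      · ring
      · linear_combination -a3
  have key : ∀ u w, TSP C₀ u w → ∀ x ∈ M, C.B (ι u) x = 0 → C.B (ι w) x = 0 → x = 0 :=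
    fun u w e' x hx a1 a2 => by
      obtain ⟨g, hg, b1, b2, b3⟩ := h.witt2 e e'
      exact ti.perp_eq_zero hk h0 hg (h.rat.mem_ratStab_one b1) hx fun l hl => by
        obtain ⟨c, d, rfl⟩ := mem_span_pair.1 hl
        simp [b2, b3, a1, a2]
  have kx : ∀ w : V, ∃ x ∈ M, x ≠ 0 ∧ C.B w x = 0 := fun w => by
    obtain ⟨x, a1, a2⟩ := exists_mem_not_mem_of_finrank_lt (W := ⊥) (W' := M ⊓ C.perp (span F {w}))
      (by have := h.nd.finrank_inf_perp M (span F {w})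
          have := finrank_span_singleton_le (F := F) w
          rw [finrank_bot]; omega)
    exact ⟨x, a1.1, by simpa using a2, C.mem_perp_singleton.1 a1.2⟩
  by_cases h2' : (2 : F) = 0
  · obtain ⟨c1, c2, c3⟩ := h2 h2'
    obtain ⟨p, q, p1, q1, p2, -, q2, -, pq, p3, -⟩ := h.exists_hyp e
    have w1 : C₀.B a (p + q) = 0 := by simp [p2, q2]
    have w2 : C.N (ι (p + q)) ≠ 0 := fun e' => c2 (by
      simpa [C₀.N_add, p1, q1, pq] using h.hN' _ e')
    obtain ⟨c, t, t1, t2⟩ := h.exists_rho₀ e.hv e.ne w1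
    have w4 := h.B0 w1
    have w5 := h.B0 (c1 (p + q))
    have q3 : C.B (ι q) (ι (p + q)) = 1 := by rw [hs, h.hB]; simp [pq, c1]
    generalize ι (p + q) = w at w2 t2 w4 w5 q3
    have w3 : ∀ α β : F, C.N (α • ι a + β • w) = 0 → β = 0 := fun α β e' => by
      rw [C.N_add_of_orth (by simp [w4]), C.N_smul_of_zero te.hv, zero_add, C.N_smul, hσ] at e'
      simpa [w2] using e'
    have t3 : ∀ x, t x - x = -(C.B x w + c * C.B (ι a) x) • ι a + C.B (ι a) x • w := fun x => by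
      rw [t2, hσ]; module
    obtain ⟨a', -, d1, -⟩ := te.exists_dual h.nd
    obtain ⟨z, z1, z2, z3, z4, -, z5⟩ := ti.dih h2' hk.mem t1
      (sq_of_sub h2' fun x => by
        rw [t2 (t x - x), t3]
        simp [w4, C.B_self_of_zero te.hv, w5])
      (fun x hx e' => one_ne_zero (d1 ▸ w3 _ _ (t3 a' ▸ (te.ts.map (h.le hx)).1 _ (e' a'))))
      fun z hz e' => by
        have a1 : z (ι a) = -(t (z (ι q)) - z (ι q)) := by
          rw [← LinearEquiv.mul_apply t, ← e', LinearEquiv.mul_apply, ← map_sub, t3, q3, h.B0 q2]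
          simp
        rw [t3, neg_add, ← neg_smul, ← neg_smul] at a1
        have a2 := CForm.isom_N (h.le hz) (ι a)
        rw [te.hv, a1] at a2
        rw [w3 _ _ a2, zero_smul, add_zero] at a1
        exact h.mem_of_good hQ hz e.hv e.ne ⟨_, a, a1⟩
    have z6 := sub_of_sq h2' z4
    have z7 := h.rat.isRat_of_unip z2 z6
    have z8 : ∀ {x y u w}, z (ι x) - ι x = ι u → z (ι y) - ι y = ι w → C₀.B u w = 0 :=
      fun a1 a2 => h.B0' (by rw [← a1, ← a2]; exact isom_B_fix (h.le z1) (z6 _) _)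
    have z9 : ∀ {x y u w} (s : K), z (ι x) - ι x = ι u → z (ι y) - ι y = ι w →
        z (ι (x - s • y)) - ι (x - s • y) = ι (u - s • w) := fun s a1 a2 => by
      simp only [map_sub, ι_smul (F := F), map_smul z, ← a1, ← a2]; module
    have y1 : ∀ {x y u w}, z (ι x) - ι x = ι u → z (ι y) - ι y = ι w → C₀.N w ≠ 0 →
        ∃ s : K, C₀.N (u - s • w) = 0 := fun {x y u w} a1 a2 a3 => by
      obtain ⟨s, hs⟩ := c3 (-C₀.N u / C₀.N w)
      exact ⟨s, by rw [C₀.N_sub, C₀.N_smul, hs, map_smul, z8 a1 a2]; simp [a3]⟩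
    obtain ⟨x, u, a1, a2, a3⟩ : ∃ x u, z (ι x) - ι x = ι u ∧ u ≠ 0 ∧ C₀.N u = 0 := by
      obtain ⟨x, u, a1, a2⟩ := h.rat.exists_sub z7 (not_mem_cen_bot z3)
      by_cases a3 : C₀.N u = 0
      · exact ⟨x, u, a1, by rintro rfl; simp at a2, a3⟩
      obtain ⟨y, w, b1, b2⟩ := h.rat.exists_sub z7 (mt (hT u (Or.inr h2') z z1) z3)
      obtain ⟨s, hs⟩ := y1 b1 a1 a3
      exact ⟨_, _, z9 s b1 a1, fun e' => b2 (by
        rw [sub_eq_zero.1 e', ι_smul (F := F)]; exact smul_mem _ _ (mem_span_singleton_self _)), hs⟩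
    by_cases hf : ∀ m ∈ M, z m = m
    · obtain ⟨u', hu'⟩ := h.tsp a3 a2
      obtain ⟨m, m1, m2, m3⟩ := kx (ι u')
      exact m2 (key u u' hu' m m1 (a1 ▸ isom_B_fix (h.le z1) (hf m m1) _) m3)
    push Not at hf
    obtain ⟨m, m1, m2⟩ := hf
    have m3 := sub_mem (z5 m m1) m1
    refine m2 (sub_eq_zero.1 ?_)
    by_cases hu : ∃ y u', z (ι y) - ι y = ι u' ∧ C₀.N u' = 0 ∧ u' ∉ span K {u}
    · obtain ⟨y, u', b1, b2, b3⟩ := hu
      exact key u u' ⟨a3, b2, z8 a1 b1, a2, b3⟩ _ m3 (a1 ▸ isom_B_fix (h.le z1) (z6 _) _)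
        (b1 ▸ isom_B_fix (h.le z1) (z6 _) _)
    push Not at hu
    obtain ⟨y, w, b1, b2⟩ := h.rat.exists_sub z7 (mt (hT u (Or.inr h2') z z1) z3)
    have b3 : C₀.N w ≠ 0 := fun e' => b2 (by
      obtain ⟨s, rfl⟩ := mem_span_singleton.1 (hu y w b1 e')
      rw [ι_smul (F := F)]; exact smul_mem _ _ (mem_span_singleton_self _))
    obtain ⟨α, β, b4⟩ := mem_span_pair.1 (h.rat.mem_cen (g := z) (L := span F {ι u, ι w})
      (fun x' => by
        obtain ⟨y', hy'⟩ := z7 x'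
        have b5 : z (ι x') - ι x' = ι (y' - x') := by rw [hy', map_sub]
        obtain ⟨s, hs⟩ := y1 b5 b1 b3
        obtain ⟨s', hs'⟩ := mem_span_singleton.1 (hu _ _ (z9 s b5 b1) hs)
        rw [b5]
        exact ι_mem_pair (mem_span_pair.2 ⟨s', s, by rw [hs', sub_add_cancel]⟩)) m)
    have b5 := tM.1 _ m3
    rw [← b4, C.N_add_of_orth (by simp [h.B0 (z8 a1 b1)]), C.N_smul_of_zero (h.hN u a3), zero_add,
      C.N_smul, hσ] at b5
    obtain rfl : β = 0 := by simpa [mt (h.hN' w) b3] using b5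
    obtain ⟨u', hu'⟩ := h.tsp a3 a2
    exact key u u' hu' _ m3 (by simp [← b4, h.B0 (c1 u)])
      (by simp [← b4, h.B0 (C₀.B_swap_zero hu'.hB)])
  · obtain ⟨g, g1, g2, -, g3, g4, g5⟩ := ti.fr_odd h2' hk
    obtain ⟨d, -, d1, d2, d3⟩ := h.ix a b e
    obtain ⟨x, t, a1, a2⟩ := h.rat.exists_sub (h.rat.isRat_of_sub g2 d3 (span_pair_le
      (g5 _ (C.mem_perp_pair.2 ⟨h.B0 d1, h.B0 d2⟩)))) g4
    obtain ⟨l, hl, m, hm, e'⟩ := mem_sup.1 (a1 ▸ g3 (ι x))
    obtain ⟨l₀, l1, l2, l3⟩ := exists_perp_in_pair C₀ e.nm e.ne t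
    obtain ⟨u, u1, u2, u3⟩ := h.iso.exists_perpL h.nd₀ [a, b, t] [l₀] (by simp; omega)
    have u4 := C₀.mem_perp_pair.2 ⟨u1 a (by simp), u1 b (by simp)⟩
    refine a2 ?_
    rw [← e', key l₀ u ⟨e.ts.1 _ l1, u3, C₀.mem_perp.1 u4 _ l1, l2,
      not_mem_span_of_spanL u2 (by simp)⟩ m hm ?_ ?_, add_zero]
    · exact hl
    · rw [eq_sub_iff_add_eq'.2 e', map_sub, h.B0 (C₀.B_swap_zero l3),
        te.ts.2 _ (ι_mem_pair l1) _ hl, sub_zero]
    · rw [eq_sub_iff_add_eq'.2 e', map_sub, h.B0 (C₀.B_swap_zero (u1 t (by simp))),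
        C.mem_perp'.1 (C.mem_perp_pair.2 ⟨h.B0 (u1 a (by simp)), h.B0 (u1 b (by simp))⟩) _ hl,
        sub_zero]

omit hQ [Finite F] [Finite V₀] [FiniteDimensional F V] in
theorem mono {Y : Subgroup (V ≃ₗ[F] V)} (h1 : X ≤ Y) (h2 : Y ≤ C.isom) : RW ι C C₀ Y :=
  { h with
    le := h2
    spec := h.spec.mono (inf_le_inf_right _ fun _ ⟨k, hk, e⟩ => ⟨k, h1 hk, e⟩) inf_le_right
    rho := fun v u a b c => (h.rho v u a b c).mono h1 }

end RW

omit [Finite F] [Finite V₀] in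
theorem RW.isMaximalIn (h : RW ι C C₀ (ratStab F ι ⊓ G)) (hG : RootG C G) (hmax : MaxSub K F)
    (hne : ∃ α : F, ∀ k, α ≠ 𝔣 k)
    (hZ : ∀ Y, RW ι C C₀ Y → ratStab F ι ⊓ G ≤ Y →
      (∀ (β : F) v c, TSP C₀ v c → Rq C Y (ι v) (β • ι c) 0) → ∀ v, C₀.N v = 0 → v ≠ 0 →
        ∀ a, a * T.ε + T.σ a = 0 → T.τ (a * T.ε) = 0 → Rq C Y (ι v) 0 a)
    (hT : ∀ Y, RW ι C C₀ Y → ratStab F ι ⊓ G ≤ Y → Y ≤ G → RatQ ι C C₀ Y → Y ≤ ratStab F ι) :
    Cfsg.Geo.IsMaximalIn G (ratStab F ι ⊓ G) := by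
  refine isMaximalIn_of _ _ inf_le_right (fun hle => ?_) fun Y hY hYX g hg hg' => ?_
  · obtain ⟨α, hα⟩ := hne
    obtain ⟨v, a2, a1⟩ := h.sing
    obtain ⟨c, hc⟩ := h.tsp a2 a1
    obtain ⟨p, w, p1, -, -, p2, -, p5, p3, p4, -⟩ := h.exists_hyp hc
    obtain ⟨g, hg, e⟩ := hG.rho (ι p) (α • ι c) (h.hN p p1) (C.N_smul_of_zero (h.hN c hc.hc) _)
      (by simp [h.B0 (C₀.B_swap_zero p2)])
    refine h.rat.not_mem_ratStab hα (y₁ := c) (y₂ := w) (by rintro rfl; simp at p3) (fun e' => ?_)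
      (x := w) (by simp [e, h.B1 p3, h.B0 (C₀.B_swap_zero p5), add_comm]) (hle hg).1
    obtain ⟨s, rfl⟩ := mem_span_singleton.1 e'
    simp [C₀.B_swap_ne (p3 ▸ one_ne_zero : C₀.B p w ≠ 0), T₀.σ_eq_zero] at p2
    simpa [p2] using hc.symm.ne
  have hY' := h.mono hY (hYX.trans hG.le)
  by_contra hc
  exact hg' ⟨hT Y hY' hY hYX (fun v a1 a2 y a a3 a4 => by_contra fun hn =>
    have hA := fun β v c => hY'.all hmax a1 a2 a3 a4 (by simpa using hn) β (v' := v) (c' := c)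
    hc (hY'.le_of_all hG hYX hA (hZ Y hY' hY hA))) hg, hYX hg⟩

end H12
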