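import Cfsg.Agent.H12.Ten11

/-!
# Orthogonal space times a symplectic plane: stabilisers of pure subspaces
-/

set_option autoImplicit false
set_option maxHeartbeats 400000

namespace H12

open Module H11 Submodule TensorProduct H13.KL QuadraticMap

variable {F : Type*} [Field F] {U W : Type*} [AddCommGroup U] [Module F U] [AddCommGroup W]
  [Module F W] {Q : QuadraticForm F U} {C : CForm (altType F) (U ⊗[F] W)}
  {C₂ : CForm (altType F) W} {X : Subgroup ((U ⊗[F] W) ≃ₗ[F] (U ⊗[F] W))}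
  {w w₁ x : W} {e f y : U} {v : U ⊗[F] W} {g k t : (U ⊗[F] W) ≃ₗ[F] (U ⊗[F] W)} {S S' : End F W}

variable (W Q) in
/-- Contraction against the orthogonal form. -/
noncomputable def kL : U →ₗ[F] U ⊗[F] W →ₗ[F] W := cL W ∘ₗ polarBilin Q

local notation "κ" => kL W Q

@[simp] theorem kL_tmul (y u : U) (x : W) : κ y (u ⊗ₜ x) = polar Q y u • x := by simp [kL]

theorem kL_rA (y : U) (D : End F W) (v : U ⊗[F] W) : κ y (rA U D v) = D (κ y v) := by
  induction v with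
  | zero => simp
  | tmul u x => simp [rA_tmul]
  | add a b c d => simp [c, d]

theorem eL_apply (he : Q e = 0) (hy : polar Q e y = 0) (v : U ⊗[F] W) :
    lH F U W (eich Q e y).1 v = v + e ⊗ₜ κ y v - y ⊗ₜ κ e v - Q y • e ⊗ₜ κ e v := by
  induction v with
  | zero => simp
  | tmul u x => simp [lH_tmul, eich_apply he hy, add_tmul, sub_tmul, ← smul_tmul', mul_smul]
  | add a b c d => simp only [map_add, c, d, tmul_add, smul_add]; abel

variable (Q e) in
/-- The central elements attached to a singular vector. -/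
noncomputable def zE : End F W →ₗ[F] End F (U ⊗[F] W) where
  toFun S := TensorProduct.mk F U W e ∘ₗ S ∘ₗ κ e
  map_add' _ _ := LinearMap.ext fun _ => by simp [tmul_add]
  map_smul' _ _ := LinearMap.ext fun _ => by simp

theorem zE_apply (S : End F W) (v : U ⊗[F] W) : zE Q e S v = e ⊗ₜ S (κ e v) := rfl

theorem zE_mul (he : Q e = 0) : zE Q e S * zE Q e S' = 0 :=
  LinearMap.ext fun v => by simp [zE_apply, polar_self', he]

variable (C Q C₂ X) in
/-- A proper overgroup of the stabiliser of the tensor decomposition. -/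
structure SOX : Prop extends TZ C (CForm.ofQuad Q) C₂ X C₂.isom where
  hd : finrank F W = 2
  two : (2 : F) ≠ 0
  ten : tenStab F U W ⊓ C.isom ≤ X
  hs : ∀ S ∈ zJ C₂ X, ∃ c : F, S = c • 1

namespace SOX

variable (h : SOX Q C C₂ X)
include h

theorem lh (α : orth Q) : lH F U W α.1 ∈ X := h.ten ⟨congr_mem _ _, h.congr_isom α.2 (one_mem _)⟩

theorem BL (u : U) (x : W) (v : U ⊗[F] W) : C.B (u ⊗ₜ x) v = C₂.B x (κ u v) := by
  induction v with
  | zero => simp
  | tmul u x => simp [h.hB]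
  | add a b c d => simp [c, d]

theorem kL_fix (hg : g ∈ X) (e1 : ∀ x, g (e ⊗ₜ x) = e ⊗ₜ x) (v : U ⊗[F] W) : κ e (g v) = κ e v :=
  h.nd₂.ext' fun x => by rw [← h.BL, ← h.BL, ← e1, CForm.isom_B (h.le hg), e1]

theorem congr_sim {γ : U ≃ₗ[F] U} {β : W ≃ₗ[F] W} {c : F} (c0 : c ≠ 0)
    (h1 : ∀ u u', polar Q (γ u) (γ u') = c * polar Q u u')
    (h2 : ∀ x y, C₂.B (β x) (β y) = c⁻¹ * C₂.B x y) : TensorProduct.congr γ β ∈ X := by
  refine h.ten ⟨congr_mem _ _, fun a b => ?_, fun a => by rw [H12.alt_N, H12.alt_N]⟩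
  induction a with
  | zero => simp
  | add a a' c d => simp only [map_add, LinearMap.add_apply, c, d]
  | tmul u x =>
    induction b with
    | zero => simp
    | add a a' c d => simp only [map_add, c, d]
    | tmul u' y => simp [h.hB, h1, h2]; field_simp

variable [FiniteDimensional F U] [FiniteDimensional F W]

theorem sqN (c : F) (w : W) : Sq X (c • nW U C₂ w w) := by
  simpa using (h.one_zJ (c := c) (by simp [altType])).2 w (H12.alt_N w)

theorem cenN (hw : w ≠ 0) (hg : g ∈ X) (e1 : ∀ u, g (u ⊗ₜ w) ∈ tl U (F ∙ w)) :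
    ∃ c : F, ∀ v, g (nW U C₂ w w v) = c • nW U C₂ w w (g v) := by
  obtain ⟨t, f1, f2⟩ := (h.sqN 1 w).conj hg
  obtain ⟨A, -, f3⟩ := h.of_cen (h.le f1) (H12.alt_N w) hw fun x hx => by
    rw [f2, cj_apply, one_smul, nW_apply, h.cB_stab (h.le hg) e1 hx]; simp
  obtain ⟨c, f4⟩ := h.hs _ (mem_zJ h.toTZ (H12.alt_N w) hw (comm_rTensor A) ⟨t, f1, fun x => by
    simp [f3, nW_apply]⟩)
  refine ⟨c, fun v => ?_⟩
  have := f2 (g v)
  rw [f3, ← LinearMap.rTensor_tmul, f4, ← nW_apply] at this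
  simpa [inv_apply_apply] using this.symm

theorem pt0 (hw : w ≠ 0) (hg : g ∈ X) (e1 : ∀ u, g (u ⊗ₜ w) ∈ tl U (F ∙ w)) : g ∈ tenStab F U W := by
  obtain ⟨c, hc⟩ := h.cenN hw hg e1
  obtain ⟨r, hr⟩ := h.nd₂.exists_eq hw 1
  obtain ⟨φ, hφ⟩ := exists_dual_one (F := F) hw
  let G : End F U := cR U φ ∘ₗ g.toLinearMap ∘ₗ (TensorProduct.mk F U W).flip w
  have a1 : ∀ u, g (u ⊗ₜ w) = G u ⊗ₜ w := fun u => by
    obtain ⟨s, hs⟩ := mem_tl_singleton.1 (e1 u)
    simp [G, hs, hφ]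
  have a2 : Function.Injective G := fun u u' e => tmul_left_inj hw (g.injective (by rw [a1, a1, e]))
  have a3 : ∀ u, G u = c • cB U C₂ w (g (u ⊗ₜ r)) := fun u => tmul_left_inj hw (by
    simpa [nW_apply, hr, a1, smul_tmul'] using hc (u ⊗ₜ r))
  obtain ⟨u, hu⟩ := h.ex
  have c0 : c ≠ 0 := by rintro rfl; exact hu (a2 (by simp [a3]))
  let B : End F W := 1 + ((c⁻¹ - 1) • C₂.B w).smulRight r
  have b1 : ∀ x y, C₂.B (B x) (B y) = c⁻¹ * C₂.B x y := fun x y => by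
    have := congrArg (C₂.B x) (h.fw.plucker h.hd w r y)
    simp [B, hr, H12.alt_B_self, alt_sigma, H12.alt_symm x w, H12.alt_symm y w, H12.alt_symm x r] at this ⊢
    linear_combination (1 - c⁻¹) * this
  have b2 := h.congr_sim (γ := .ofInjectiveEndo G a2) (β := .ofInjectiveEndo B
    ((injective_iff_map_eq_zero B).2 fun x e => h.nd₂ x fun y => by simpa [e, c0] using b1 x y)) c0
    (fun u u' => by
      have := CForm.isom_B (h.le hg) (u ⊗ₜ w) (u' ⊗ₜ r)
      rw [a1, h.B_tmul, h.hB, hr, mul_one] at this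
      simp only [LinearEquiv.coe_ofInjectiveEndo, a3 u', polar_smul_right, smul_eq_mul]
      exact congrArg _ this) b1
  obtain ⟨β, b3⟩ := h.range_of_cen h.hs (mul_mem (inv_mem b2) hg) (H12.alt_N w) hw fun x hx => by
    obtain ⟨u, rfl⟩ := mem_tl_singleton.1 ((h.ker_two (x := x) h.hd hw).1 (by simp [nW_apply, hx]))
    rw [LinearEquiv.mul_apply, a1, LinearEquiv.coe_inv, LinearEquiv.symm_apply_eq]
    simp [B, H12.alt_B_self]
  rw [← mul_inv_cancel_left (TensorProduct.congr _ _) g, ← b3]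
  exact mul_mem (congr_mem _ _) (rH_mem β)

theorem ptL (hw : w ≠ 0) (hg : g ∈ X) (e1 : ∀ u, g (u ⊗ₜ w) ∈ tl U (F ∙ w₁)) : g ∈ tenStab F U W := by
  obtain ⟨u, hu⟩ := h.ex
  obtain ⟨β, b1, rfl⟩ := h.fw.trans w₁ w (H12.alt_N _) (by
    rintro rfl
    obtain ⟨s, hs⟩ := mem_tl_singleton.1 (e1 u)
    exact tmul_ne_zero hu hw (g.injective (by simpa using hs))) (H12.alt_N _) hw
  refine (mul_mem_cancel_left (rH_mem β)).1 (h.pt0 hw (mul_mem (h.hX β b1) hg) fun u => ?_)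
  obtain ⟨s, hs⟩ := mem_tl_singleton.1 (e1 u)
  rw [LinearEquiv.mul_apply, hs, rH_tmul]
  exact tmul_mem_tl _ (mem_span_singleton_self _)

variable (he : Q e = 0) (hf : polar Q e f = 1)
include he hf

omit [FiniteDimensional F W] in
theorem eq_tmul (e1 : ∀ y, polar Q e y = 0 → κ y v = 0) : v = e ⊗ₜ κ f v := by
  refine sub_eq_zero.1 (eq_zero_of_cL fun ψ => ?_)
  obtain ⟨y, hy⟩ := h.nd₁.exists_rep ψ
  obtain rfl : ψ = polarBilin Q y := LinearMap.ext fun x => (hy x).symm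
  have := e1 (y - polar Q e y • f) (by simp [hf])
  simp only [map_sub, map_smul, LinearMap.sub_apply, LinearMap.smul_apply] at this
  change κ y _ = 0
  rw [map_sub, kL_tmul, polar_comm, this]

theorem nz (hS : Sq X (zE Q e S)) : S = 0 := by
  have e0 : e ≠ 0 := by rintro rfl; simp at hf
  have key : ∀ w, C₂.B w (S w) = 0 := fun w => by
    by_cases hw : w = 0
    · simp [hw]
    have a1 : ∀ c : F, Sq X (zE Q e ((1 + c • (C₂.B w).smulRight w) * S *
        (1 - c • (C₂.B w).smulRight w))) := fun c =>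
      ((h.sqN c w).conj_sq hS (by simp [nW_mul, H12.alt_B_self])).congr fun v => by
        simp [zE_apply, nW, kL_rA, rA_tmul, tmul_add, tmul_sub, sub_smul, mul_smul]
    obtain ⟨t, t1, t2⟩ := (((a1 1).add (a1 (-1)) (zE_mul he)).add (((hS.add hS (zE_mul he))).neg (by
      rw [← map_add, zE_mul he])) (by rw [← map_add, ← map_add, ← map_neg, zE_mul he]))
    obtain ⟨c, hc⟩ := h.hs _ (mem_zJ h.toTZ (H12.alt_N w) hw (comm_rTensor
      ((-2 * C₂.B w (S w)) • (polarBilin Q e).smulRight e)) ⟨t, t1, fun v => by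
        have : polar Q e (cB U C₂ w v) = C₂.B w (κ e v) := cR_cL (polarBilin Q e) _ v
        simp [t2, zE_apply, nW_apply, this, tmul_add, tmul_sub, ← smul_tmul', tmul_neg]
        module⟩)
    have c1 := congr($hc (e ⊗ₜ w))
    have c2 := congr($hc (f ⊗ₜ w))
    replace c1 : c = 0 := by simpa [polar_self', he, tmul_ne_zero e0 hw] using c1.symm
    simpa [c1, hf, ← smul_tmul', tmul_ne_zero e0 hw, h.two] using c2
  obtain ⟨t, t1, t2⟩ := hS
  refine LinearMap.ext fun x => h.nd₂.ext' fun y => mul_left_cancel₀ h.two ?_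
  have a1 := CForm.isom_B (h.le t1) (f ⊗ₜ x) (f ⊗ₜ y)
  have a2 := key (x + y)
  simp [t2, zE_apply, hf, h.hB, polar_comm Q f e, polar_self' Q e, he, key] at a1 a2
  simp only [LinearMap.zero_apply, map_zero]
  linear_combination a2 - a1 + H12.alt_symm (C := C₂) (S x) y

theorem cen1 (hk : k ∈ X) (e1 : ∀ v, κ e v = 0 → k v = v) : k = 1 := by
  have a1 : ∀ x, k (f ⊗ₜ x) - f ⊗ₜ x = e ⊗ₜ κ f (k (f ⊗ₜ x) - f ⊗ₜ x) := fun x =>
    h.eq_tmul he hf fun y hy => h.nd₂.eq_zero' fun z => by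
      rw [← h.BL, map_sub, ← e1 (y ⊗ₜ z) (by simp [hy]), CForm.isom_B (h.le hk), e1 _ (by simp [hy]),
        sub_self]
  have a2 : ∀ v, k v = v + zE Q e (κ f ∘ₗ (k.toLinearMap - 1) ∘ₗ TensorProduct.mk F U W f) v := fun v => by
    rw [← sub_add_cancel v (f ⊗ₜ κ e v), map_add, e1 _ (by simp [hf]), eq_add_of_sub_eq' (a1 _)]
    simp [zE_apply, hf]; abel
  exact LinearEquiv.ext fun v => by simp [a2, h.nz he hf ⟨k, hk, a2⟩]

theorem sc (ht : t ∈ X) {Φ : U ⊗[F] W →ₗ[F] W} (e0 : ∀ x, Φ (e ⊗ₜ x) = 0)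
    (e1 : ∀ v, κ e v = 0 → t v = v + e ⊗ₜ Φ v) (hy : polar Q e y = 0) :
    ∃ a : F, ∀ x, Φ (y ⊗ₜ x) = a • x := by
  have p0 : polar Q e e = 0 := by simp [polar_self', he]
  have a1 : ∀ x, t (e ⊗ₜ x) = e ⊗ₜ x := fun x => by simp [e1, p0, e0]
  have a2 := h.kL_fix ht a1
  have hε := h.lh (eich Q e y)
  have a3 := h.cen1 he hf (mul_mem (inv_mem (mul_mem hε ht)) (mul_mem ht hε)) fun v hv => by
    rw [LinearEquiv.mul_apply, LinearEquiv.coe_inv, LinearEquiv.symm_apply_eq]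
    simp [eL_apply he hy, hv, a1, e1 v hv, p0, polar_comm Q y e, hy]
  rw [inv_mul_eq_one] at a3
  refine exists_scalar_of_eigen (A := Φ ∘ₗ TensorProduct.mk F U W y) fun x => ?_
  by_cases x0 : x = 0
  · simp [x0]
  refine h.fw.mem_two h.hd x0 (mul_left_cancel₀ h.two ?_)
  have b1 := congrArg (κ f) congr($a3 (f ⊗ₜ x))
  have b2 := CForm.isom_B (h.le ht) (y ⊗ₜ x) (f ⊗ₜ x)
  simp [eL_apply he hy, a1, a2, hf, e1 (y ⊗ₜ x) (by simp [hy]), polar_comm Q f e] at b1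
  simp [e1 (y ⊗ₜ x) (by simp [hy]), h.BL, a2, hf, H12.alt_B_self] at b2
  have b3 : κ y (t (f ⊗ₜ x)) = polar Q y f • x - Φ (y ⊗ₜ x) := by linear_combination (norm := module) b1
  simp [b3, H12.alt_B_self] at b2
  change 2 * C₂.B x (Φ (y ⊗ₜ x)) = _
  linear_combination H12.alt_symm (C := C₂) x (Φ (y ⊗ₜ x)) - b2

omit he hf in
theorem split {r : W} (hr : C₂.B w r = 1) (v : U ⊗[F] W) :
    v = cB U C₂ w v ⊗ₜ r - cB U C₂ r v ⊗ₜ w := by
  induction v with
  | zero => simp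
  | tmul u x =>
    have := h.fw.plucker h.hd w r x
    rw [hr, H12.alt_symm w x] at this
    rw [cB_tmul, cB_tmul, smul_tmul, smul_tmul, ← tmul_sub]
    exact congrArg _ (by linear_combination (norm := module) this)
  | add a b c d => simp only [map_add, add_tmul]; linear_combination (norm := abel) c + d

omit he hf in
theorem extT {M : Type*} [AddCommGroup M] [Module F M] {A B : U ⊗[F] W →ₗ[F] M}
    (e1 : ∀ y x, polar Q e y = 0 → A (y ⊗ₜ x) = B (y ⊗ₜ x)) (hv : κ e v = 0) : A v = B v := by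
  obtain ⟨w, hw, -⟩ := h.fw.ex
  obtain ⟨r, hr⟩ := h.nd₂.exists_eq hw 1
  have : ∀ w, polar Q e (cB U C₂ w v) = 0 := fun w =>
    (cR_cL (polarBilin Q e) _ v).trans (show C₂.B w (κ e v) = 0 by simp [hv])
  rw [h.split hr v, map_sub, map_sub, e1 _ _ (this _), e1 _ _ (this _)]

theorem ptT (hg : g ∈ X) (e1 : ∀ x, g (e ⊗ₜ x) = e ⊗ₜ x) : g ∈ tenStab F U W := by
  have a0 := h.kL_fix hg e1
  have e2 : ∀ x, g⁻¹ (e ⊗ₜ x) = e ⊗ₜ x := fun x => by rw [← e1, inv_apply_apply, e1]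
  have a1 : ∀ y y', polar Q e y = 0 → polar Q e y' = 0 → ∃ a : F, ∀ x, κ y (g (y' ⊗ₜ x)) = a • x :=
    fun y y' hy hy' => h.sc he hf (Φ := κ y ∘ₗ g.toLinearMap)
      (mul_mem (mul_mem (inv_mem hg) (h.lh (eich Q e y))) hg) (fun x => by
        simp [e1, polar_comm Q y e, hy]) (fun v hv => by
        simp [-LinearEquiv.coe_inv, eL_apply he hy, a0, hv, inv_apply_apply, e2]) hy'
  obtain ⟨w, hw, -⟩ := h.fw.ex
  obtain ⟨r, hr⟩ := h.nd₂.exists_eq hw 1
  obtain ⟨τ, t1, t2⟩ := h.sqN 1 w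
  have n0 : ∀ x, (C₂.B w).smulRight w ((C₂.B w).smulRight w x) = 0 := by simp [H12.alt_B_self]
  have n1 : (C₂.B w).smulRight w r = w := by simp [hr]
  have n2 := fun x => h.ker_two h.hd hw (x := x)
  have n3 : (C₂.B w).smulRight w w = 0 := by simp [H12.alt_B_self]
  simp only [nW, one_smul] at t2 n2
  generalize (C₂.B w).smulRight w = n at *
  have n4 : ∀ v, rA U n (rA U n v) = 0 := fun v => by
    rw [← End.mul_apply, ← map_mul, show n * n = 0 from LinearMap.ext n0]; simp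
  obtain ⟨D, hD⟩ : ∃ D : U ⊗[F] W →ₗ[F] W, ∀ v, D v = κ f (rA U n (g v) - g (rA U n v)) :=
    ⟨κ f ∘ₗ (rA U n ∘ₗ g.toLinearMap - g.toLinearMap ∘ₗ rA U n), fun _ => rfl⟩
  have a2 : ∀ v, κ e v = 0 → rA U n (g v) = g (rA U n v + e ⊗ₜ D v) := fun v hv => by
    rw [map_add, e1, hD, ← h.eq_tmul he hf fun y hy => ?_, add_sub_cancel]
    rw [map_sub, sub_eq_zero, kL_rA]
    refine h.extT (A := n ∘ₗ κ y ∘ₗ g.toLinearMap) (B := κ y ∘ₗ g.toLinearMap ∘ₗ rA U n)
      (fun y' x hy' => ?_) hv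
    obtain ⟨a, ha⟩ := a1 y y' hy hy'
    simp [rA_tmul, ha]
  have a3 : ∀ x, D (e ⊗ₜ x) = 0 := fun x => by simp [hD, e1, rA_tmul]
  have t3 : ∀ v, τ⁻¹ v = v - rA U n v := fun v => τ.injective (by rw [apply_inv_apply]; simp [t2, n4])
  have hk := mul_mem (mul_mem (mul_mem (inv_mem t1) (inv_mem hg)) t1) hg
  have a4 : ∀ v, κ e v = 0 → (τ⁻¹ * g⁻¹ * τ * g) v = v + e ⊗ₜ ((1 - n) ∘ₗ D) v := fun v hv => by
    simp [-LinearEquiv.coe_inv, t2, a2 v hv, inv_apply_apply, t3, n4, rA_tmul, tmul_sub, e2]; abel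
  have a5 := h.cen1 he hf hk fun v hv => by
    rw [a4 v hv, h.extT (B := 0) (fun y x hy => ?_) hv]
    · simp
    obtain ⟨a, ha⟩ := h.sc he hf hk (fun x => by simp [a3]) a4 hy
    have b1 : ∀ x, D (y ⊗ₜ x) = a • x + a • n x := fun x => by
      have := ha x
      have := congrArg n this
      simp [n0] at *
      linear_combination (norm := module) this + ‹_ - _ = _›
    have b2 := n4 (g (y ⊗ₜ r))
    rw [a2 _ (by simp [hy]), a2 _ (by simp [hy, rA_tmul, polar_self', he]), map_eq_zero_iff _ g.injective]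
      at b2
    simp [rA_tmul, n1, n3, a3, b1, ← tmul_add, ← two_smul F, smul_smul, h.two,
      tmul_ne_zero (show e ≠ 0 by rintro rfl; simp at hf) hw] at b2
    simp [b1, b2]
  refine h.pt0 hw hg fun u => (n2 _).1 ?_
  have := congr($(show τ * g = g * τ by rw [← mul_left_cancel_iff (a := τ⁻¹ * g⁻¹), ← mul_assoc, a5]; group) (u ⊗ₜ w))
  simpa [t2, rA_tmul, n3] using this

end SOX

end H12
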