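import Cfsg.Agent.H12.SO1

/-!
# Two quadratic elements of order three
-/

set_option autoImplicit false
set_option maxHeartbeats 400000

namespace H12

open Module Submodule H13.KL

theorem dick3 {K : Type*} [Field K] [Finite K] (h2 : (2 : K) ≠ 0) {l : K} (h0 : l ≠ 0)
    (P : K → K → K → K → Prop) (p1 : P 1 0 0 1)
    (pL : ∀ (n : ℤ) a b c d, P a b c d → P a b (c + n * a) (d + n * b))
    (pU : ∀ (n : ℤ) a b c d, P a b c d → P (a + n * l * c) (b + n * l * d) c d)
    (hP : ∀ a b c d, P a b c d → b = 0 → a * a = 1) : l * l = 1 := by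
  by_cases h1 : l ^ 2 = -1
  · have := hP _ _ _ _ (pU 1 _ _ _ _ (pL 1 _ _ _ _ (pU (-1) _ _ _ _ (pL (-1) _ _ _ _ (pU 1 _ _ _ _ p1)))))
      (by push_cast; linear_combination l * h1)
    push_cast at this
    exact absurd (by linear_combination (l ^ 2 + 2 * l + 2) * h1 - this : (2 : K) = 0) h2
  · exact hP _ _ _ _ (dickson_diag h2 h0 h1 P p1 pL pU (Subfield.subset_closure rfl) h0) rfl

variable {F A V : Type*} [Field F] [CommRing A] [Algebra F A] [AddCommGroup V] [Module F V]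
  [Module A V] [IsScalarTower F A V] {X : Subgroup (V ≃ₗ[F] V)}

theorem Rk1.main3 {N N' : End A V} {z : A} (h : Rk1 X N N' z) [Finite V] (h2 : (2 : F) ≠ 0)
    (h3 : (3 : F) = 0) {x : V} (x0 : x ≠ 0) (x1 : N x = 0) (x2 : N' x = 0) :
    ∃ c : F, c * c = 1 ∧ ∀ v, z • z • N v = c • z • N v := by
  obtain ⟨v, hv⟩ := h.ne
  obtain ⟨r, I, b1, b2, b3⟩ := exists_resField (A := A) (x := z • N v) fun e =>
    hv (h.two' _ (h.sq v) (by rwa [h.nn (h.sq v)]))
  letI := Ideal.Quotient.field I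
  let π := Ideal.Quotient.mkₐ F I
  have b4 : ∀ s, π s = 0 ↔ s • z • N (r • v) = 0 := fun s => by
    rw [map_smul, smul_comm z]; exact Ideal.Quotient.eq_zero_iff_mem.trans (b3 s)
  generalize r • v = v at b4
  have b5 : z • N v ≠ 0 := fun e => by simpa [e] using b4 1
  have b6 : π z ≠ 0 := fun e => b5 (h.inj (h.sq v) ((b4 z).1 e))
  have h2' : (2 : A ⧸ I) ≠ 0 := map_ofNat (algebraMap F (A ⧸ I)) 2 ▸ (map_ne_zero _).2 h2
  have h3' : (3 : A ⧸ I) = 0 := by rw [← map_ofNat (algebraMap F (A ⧸ I)) 3, h3, map_zero]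
  obtain ⟨c, c1, c2⟩ : ∃ c : F, c * c = 1 ∧ π z = algebraMap _ _ c :=
    (mul_self_eq_one_iff.1 (dick3 h2' b6 (fun a b c d => ∃ α β γ δ y, Tp X N N' z α β γ δ y ∧
      a = π α ∧ b = π γ * π z ∧ c = π β ∧ d = π (α + δ * z)) ⟨_, _, _, _, _, tp_one, by simp⟩ (by
        rintro n _ _ _ _ ⟨α, β, γ, δ, y, c, rfl, rfl, rfl, rfl⟩
        obtain ⟨y, c⟩ := h.mul c n
        exact ⟨_, _, _, _, _, c, rfl, rfl, by simp, by simp; ring⟩) (by
        rintro n _ _ _ _ ⟨α, β, γ, δ, y, c, rfl, rfl, rfl, rfl⟩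
        obtain ⟨y, c⟩ := h.mul' c n
        exact ⟨_, _, _, _, _, c, by simp; ring, by simp; ring, rfl, by simp; ring⟩) (by
        rintro _ _ _ _ ⟨α, β, γ, δ, y, c, rfl, rfl, rfl, rfl⟩ e
        replace e := (mul_eq_zero.1 e).resolve_right b6
        obtain ⟨κ, c1, c2⟩ := h.kappa c (h.star h2 c (h.sq v) b5 ((b4 _).1 e))
        obtain rfl : κ = 1 := by_contra fun e => x0 (c2 e x x1 x2)
        have d1 := (b4 _).2 (c1 v)
        have d2 := congrArg π c.2.1
        simp only [map_sub, map_mul, map_one, e, one_mul] at d1 d2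
        linear_combination d2 - π α * d1))).elim (⟨1, by simp, by simpa using ·⟩)
      (⟨-1, by simp, by simpa using ·⟩)
  obtain ⟨y, d1⟩ := h.mul' tp_one 1
  obtain ⟨y, d1⟩ := h.mul d1 c
  obtain ⟨y, d1⟩ := h.mul' d1 1
  refine ⟨c, c1, fun u => ?_⟩
  have := h.star h2 d1 (h.sq v) b5 ((b4 _).1 (by
    have := congrArg (algebraMap F (A ⧸ I)) c1
    simp [c2] at this ⊢
    linear_combination this + h3')) u
  have h4 : (3 : A) = 0 := by rw [← map_ofNat (algebraMap F A) 3, h3, map_zero]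
  linear_combination (norm := module) c • this - c1 • z • z • N u - h4 • c • z • N u

open Polynomial in
theorem rk1_three [Finite V] {N N' : End F V} (h2 : (2 : F) ≠ 0) (h3 : (3 : F) = 0)
    (sq : ∀ v, N (N v) = 0) (sq' : ∀ v, N' (N' v) = 0)
    (rt : ∀ c : F, Sq X (c • N)) (rt' : ∀ c : F, Sq X (c • N'))
    (ker : ∀ v, N v = 0 → ∃ u, N u = v) (two : ∀ v, N' v = 0 → N' (N v) = 0 → N v = 0)
    (two' : ∀ v, N v = 0 → N (N' v) = 0 → N' v = 0) (ne : ∃ v, N' (N v) ≠ 0)
    (max : ∀ y ∈ X, ∀ x, N x = 0 → N' x ≠ 0 → N (y x) = 0 →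
      (∀ x, N x = 0 → N' x = 0 → N (y x) = 0) →
        (∀ v, N (y (N v)) = 0) ∨ ∀ v, y (N (y⁻¹ (N v))) = N (y (N (y⁻¹ v))))
    (cen : ∀ y ∈ X, (∀ v, N (y (N v)) = 0) → ∃ κ : F, ∀ v, y (N v) = κ • N (y v))
    (cen' : ∀ y ∈ X, (∀ x, N x = 0 → y x = x) → ∃ s : F, ∀ v, y v = v + s • N v)
    {x : V} (x0 : x ≠ 0) (x1 : N x = 0) (x2 : N' x = 0) :
    ∃ c : F, c * c = 1 ∧ ∃ E : End F V, (∀ v, N (N' v) + N' (N v) = c • E v) ∧ (∀ v, E (E v) = E v) ∧
      (∀ v, E (N v) = N (E v)) ∧ (∀ v, E (N' v) = N' (E v)) ∧ (∃ v, E (N v) ≠ 0) ∧ Sq X E ∧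
        ∀ v, N' (v - E v) = -c • N (v - E v) := by
  obtain ⟨c, c1, c2⟩ : ∃ c : F, c * c = 1 ∧ ∀ v, (N * N' + N' * N) ((N * N' + N' * N) (N v)) =
      c • (N * N' + N' * N) (N v) := by
    letI : Module F[X] V := Module.compHom V (aeval (N * N' + N' * N)).toRingHom
    have e : ∀ (p : F[X]) (v : V), p • v = aeval (N * N' + N' * N) p v := fun _ _ => rfl
    haveI : IsScalarTower F F[X] V := ⟨fun c p v => by simp [e]⟩
    have hc : ∀ M : End F V, (∀ v, (N * N' + N' * N) (M v) = M ((N * N' + N' * N) v)) →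
        ∀ (p : F[X]) v, M (p • v) = p • M v := fun M a p v => by
      induction p using Polynomial.induction_on' with
      | add p q a b => simp [add_smul, a, b]
      | monomial n c =>
        have : Commute (N * N' + N' * N) M := LinearMap.ext a
        simpa [e] using congrArg (c • ·) (LinearMap.congr_fun (this.pow_left n).eq v).symm
    simpa only [e, aeval_X, LinearMap.coe_mk, LinearMap.coe_toAddHom] using Rk1.main3 (A := F[X]) (N := ⟨N.toAddHom, hc N (by simp [sq])⟩)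
      (N' := ⟨N'.toAddHom, hc N' (by simp [sq'])⟩) (z := Polynomial.X)
      ⟨sq, sq', fun v => by simp [e], rt, rt', ker, two, two', ne, max, cen⟩ h2 h3 x0 x1 x2
  simp only [LinearMap.add_apply, End.mul_apply, map_add, sq, sq', map_zero, add_zero, zero_add] at c2
  have c0 : c ≠ 0 := by rintro rfl; simp at c1
  have a1 : ∀ u, N (N' (N (N' u))) + N' (N (N' (N u))) = 0 → N' (N u) = 0 ∧ N (N' u) = 0 := fun u e =>
    ⟨two' _ (sq _) (two _ (sq' _) (two' _ (sq _) (by simpa [sq] using congrArg N e))),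
      two _ (sq' _) (two' _ (sq _) (two _ (sq' _) (by simpa [sq'] using congrArg N' e)))⟩
  obtain ⟨E, hE⟩ : ∃ E : End F V, ∀ v, E v = c • (N (N' v) + N' (N v)) := ⟨c • (N * N' + N' * N), fun _ => rfl⟩
  have e1 : ∀ v, N (N' v) + N' (N v) = c • E v := fun v => by rw [hE, smul_smul, c1, one_smul]
  have e2 : ∀ v, N' (N (v - E v)) = 0 ∧ N (N' (v - E v)) = 0 := fun v => a1 _ (by
    simp only [hE, map_sub, map_add, map_smul, sq, sq', map_zero, add_zero, zero_add, c2, smul_smul, c1,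
      one_smul, sub_self])
  have e3 : ∀ v, E (E v) = E v := fun v => by
    have := hE (v - E v)
    rw [(e2 v).1, (e2 v).2, add_zero, smul_zero, map_sub, sub_eq_zero] at this
    exact this.symm
  have e4 : ∀ v, E (N v) = N (E v) := fun v => by simp [hE, sq]
  have e5 : ∀ v, E (N' v) = N' (E v) := fun v => by simp [hE, sq']
  have e6 : ∃ v, E (N v) ≠ 0 := ne.imp fun v e e' => e (two' _ (sq _) (by simpa [hE, c0, sq] using e'))
  obtain ⟨M, hM⟩ : ∃ M : End F V, ∀ v, M v = N' (v - E v) := ⟨N' * (1 - E), fun _ => rfl⟩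
  have m1 : ∀ v, M (N v) = 0 := fun v => by rw [hM, e4, ← map_sub, (e2 v).1]
  have m2 : ∀ v, N (M v) = 0 := fun v => by rw [hM, (e2 v).2]
  have m3 : ∀ v, M (M v) = 0 := fun v => by rw [hM, hM, e5, ← map_sub, sq']
  have m4 : ∀ v, E (M v) = 0 := fun v => by rw [hM, e5, map_sub, e3, sub_self, map_zero]
  have m5 : ∀ v, M (E v) = 0 := fun v => by rw [hM, e3, sub_self, map_zero]
  have k3 : ∀ v : V, (3 : F) • v = 0 := fun v => by simp [h3]
  have y1 : Sq X (E + c • N - M) := (((rt' 1).mul (rt c)).mul (rt' 1)).congr fun v => by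
    have := congrArg N' (e1 v)
    simp only [map_add, sq', add_zero, map_smul] at this
    simp [hM, this, sq', smul_smul, c1]
    linear_combination (norm := module) c • e1 v + c1 • E v + k3 (N' v)
  have y2 : Sq X E := ((y1.mul y1).mul y1).congr fun v => by
    simp [m1, m2, m3, m4, m5, e3, e4, sq]
    linear_combination (norm := module) k3 (c • N v - M v + (2 : F) • E v + (3 * c) • N (E v))
  obtain ⟨η, y3, y4⟩ := y2.mul y1
  obtain ⟨s, hs⟩ := cen' η y3 fun x hx => by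
    obtain ⟨u, rfl⟩ := ker x hx
    simp [y4, m1, e3, sq]
    linear_combination (norm := module) k3 (E (N u))
  have y5 : ∀ v, M v = (c - s) • N v + c • N (E v) := fun v => by
    have := (y4 v).symm.trans (hs v)
    simp [m4, e3, e4] at this
    linear_combination (norm := module) k3 (E v) - this
  obtain rfl : c = -s := by
    obtain ⟨v, hv⟩ := e6
    have := congrArg E (y5 v)
    rw [m4, map_add, map_smul, map_smul, ← e4, e3, ← add_smul, eq_comm, smul_eq_zero_iff_left hv] at this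
    linear_combination c * h3 - this
  exact ⟨_, c1, E, e1, e3, e4, e5, e6, y2, fun v => by
    rw [← hM, y5, map_sub]; linear_combination (norm := module) -k3 (s • N v)⟩

end H12
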