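import Cfsg.Agent.H12.SO2
import Cfsg.Agent.H12.OT4

/-!
# The symplectic plane times an orthogonal space of minus type over the field with three elements
-/

set_option autoImplicit false
set_option maxHeartbeats 400000

namespace H12

open Module H11 Submodule TensorProduct H13.KL QuadraticMap

variable {F : Type*} [Field F] {U W : Type*} [AddCommGroup U] [Module F U] [AddCommGroup W]
  [Module F W] {Q : QuadraticForm F U} {C : CForm (altType F) (U ⊗[F] W)}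
  {C₂ : CForm (altType F) W} {X : Subgroup ((U ⊗[F] W) ≃ₗ[F] (U ⊗[F] W))}
  {w w' r x : W} {e f y : U} {v : U ⊗[F] W} {g k t : (U ⊗[F] W) ≃ₗ[F] (U ⊗[F] W)}
  [FiniteDimensional F U] [FiniteDimensional F W]

local notation "κ" => kL W Q

omit [FiniteDimensional F U] [FiniteDimensional F W] in
theorem rL_apply (b : U) (v : U ⊗[F] W) : lH F U W (refl Q b).1 v = v - (Q b)⁻¹ • b ⊗ₜ κ b v := by
  induction v with
  | zero => simp
  | tmul u x => simp [lH_tmul, refl_apply, sub_tmul, ← smul_tmul', mul_smul]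
  | add a b c d => simp only [map_add, c, d, tmul_add, smul_add]; abel

namespace SOX

variable (h : SOX Q C C₂ X) (hm : ∀ e b, ¬ TSP (CForm.ofQuad Q) e b)
include h

theorem bp3 : BP X (PF C₂) := h.bp h.hd.ge (.inr h.two) fun _ _ _ c _ a b => h.ptL c a b

include hm

theorem not_cm (hk : k ∈ X) : ¬ Cm k := fun e => by
  obtain ⟨w, hw, -⟩ := h.fw.ex
  obtain ⟨r, hr⟩ := h.nd₂.exists_eq hw 1
  have := nontrivial_of_ne w 0 hw
  obtain ⟨A, hA⟩ := exists_rTensor (e ((C₂.B w).smulRight w))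
  have a1 : ∀ c : F, ∀ u u', c * (polar Q (A u) u' + polar Q u (A u') + c * polar Q (A u) (A u')) = 0 :=
    fun c u u' => by
      obtain ⟨t, t1, t2⟩ := (h.sqN c w).conj hk
      have t3 : ∀ v, t v = v + c • A.rTensor W v := fun v => by rw [t2, ← hA]; simp [nW]
      have := CForm.isom_B (h.le t1) (u ⊗ₜ w) (u' ⊗ₜ r)
      simp [t3, h.hB, hr, alt_sigma] at this
      linear_combination this
  have a2 : ∀ u u', polar Q (A u) (A u') = 0 := fun u u' => mul_left_cancel₀ h.two (by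
    linear_combination a1 1 u u' + a1 (-1) u u')
  have a3 : ∀ u, Q (A u) = 0 := fun u => mul_left_cancel₀ h.two (by rw [← polar_self', a2, mul_zero])
  have a4 : ∀ u, polar Q (A u) u = 0 := fun u => mul_left_cancel₀ h.two (by
    linear_combination a1 1 u u - a2 u u + polar_comm Q (A u) u)
  obtain ⟨u, hu⟩ : ∃ u, A u ≠ 0 := by
    by_contra! hc
    obtain ⟨u, hu⟩ := h.ex
    have := congr($hA (k (u ⊗ₜ r)))
    simp [show A = 0 from LinearMap.ext hc, rA_tmul, hr, tmul_ne_zero hu hw] at this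
  refine hu (h.nd₁ _ fun u' => ?_)
  obtain ⟨c, hc⟩ := mem_span_singleton.1 (by_contra fun c => hm (A u) (A u') ⟨a3 _, a3 _, a2 _ _, hu, c⟩)
  have := a1 1 u u'
  rw [a2, ← hc, polar_smul_right, polar_comm Q u, a4] at this
  simpa using this

theorem two_le [Finite F] (hU : finrank F U = 4) (hk : MaxB X (PF C₂) w w' k) :
    2 ≤ finrank F ↥(tl U (F ∙ w) ⊓ pM k w') := by
  by_contra! hc
  obtain ⟨_, -, w0, -⟩ := hk.hw'
  have a0 := (finrank_pt w0 k).trans hU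
  have a1 : ∀ b, Q b ≠ 0 → ∀ m ∈ pM k w', b ⊗ₜ κ b m ∈ pM k w' := fun b hb => by
    have b1 := finrank_le_of_map (Y := pM k w') (K := pM k w' ⊓ LinearMap.ker (κ b)) (Z := ⊤) (κ b)
      (fun _ _ => trivial) fun y a b => ⟨a, b⟩
    rw [finrank_top, h.hd] at b1
    have b2 : ∀ z ∈ pM k w' ⊓ LinearMap.ker (κ b), lH F U W (refl Q b).1 z = z := fun z hz => by
      simp [rL_apply, LinearMap.mem_ker.1 hz.2]
    obtain ⟨α, β, b3⟩ := mem_tenStab.1 ((hk.mem_of_lt (h.lh (refl Q b)) inf_le_left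
      (fun z hz => (b2 z hz).symm ▸ hz.1) (by omega)).resolve_right
        (h.not_cm hm (mul_mem (mul_mem (inv_mem hk.mem) (h.lh _)) hk.mem)))
    obtain ⟨_, ⟨⟨x, b4, rfl⟩, b5⟩, b6⟩ := exists_mem_not_mem_of_finrank_lt (W := ⊥)
      (W' := pM k w' ⊓ LinearMap.ker (κ b)) (by rw [finrank_bot]; omega)
    obtain ⟨u, rfl⟩ := mem_tl_singleton.1 b4
    have b7 : β w' ∈ F ∙ w' := mem_of_tmul_mem_tl (u := α u) (by
      rw [EmbeddingLike.map_ne_zero_iff]; rintro rfl; simp at b6) (by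
        rw [← b3, LinearEquiv.mul_apply, LinearEquiv.mul_apply, b2 (k _) ⟨⟨_, b4, rfl⟩, b5⟩, inv_apply_apply]
        exact b4)
    rintro _ ⟨x, hx, rfl⟩
    obtain ⟨u, rfl⟩ := mem_tl_singleton.1 hx
    have : lH F U W (refl Q b).1 (k (u ⊗ₜ w')) ∈ pM k w' := mem_map_iff.2 (b3 u w' ▸ tmul_mem_tl _ b7 :)
    rw [rL_apply] at this
    exact (smul_mem_iff _ (inv_ne_zero hb)).1 ((sub_mem_iff_right _ (mem_map_of_mem hx)).1 this)
  obtain ⟨m, m1, m0⟩ := exists_mem_not_mem_of_finrank_lt (W := ⊥) (W' := pM k w') (by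
    rw [finrank_bot]; omega)
  obtain ⟨b, hb, y0⟩ : ∃ b, Q b ≠ 0 ∧ κ b m ≠ 0 := by
    by_contra! hn
    obtain ⟨B, b1, -⟩ := exists_orth_basis' h.nd₁ h.two
    refine m0 (eq_zero_of_cL fun ψ => ?_)
    obtain ⟨y, hy⟩ := h.nd₁.exists_rep ψ
    obtain rfl : ψ = polarBilin Q y := LinearMap.ext fun x => (hy x).symm
    exact LinearMap.congr_fun (B.ext fun i => hn _ (b1 i) : (κ).flip m = 0) y
  have a2 := a1 b hb m m1
  generalize κ b m = y at y0 a2
  have b0 : b ≠ 0 := by rintro rfl; simp at hb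
  obtain ⟨e, e1, e0, e2⟩ := exists_singular_mem Q (W := (CForm.ofQuad Q).perp (F ∙ b)) (by
    have := h.nd₁.finrank_add_finrank_perp (F ∙ b)
    rw [finrank_span_singleton b0] at this; omega)
  replace e1 : polar Q b e = 0 := (CForm.ofQuad Q).mem_perp_singleton.1 e1
  have a3 := a1 (b + e) (by rwa [Q_add, e1, e2, add_zero, add_zero]) _ a2
  rw [kL_tmul, polar_add_left, polar_comm Q e, e1, add_zero, polar_self', tmul_smul,
    smul_mem_iff _ (mul_ne_zero h.two hb), add_tmul, add_mem_cancel_left a2] at a3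
  obtain ⟨φ, hφ⟩ := h.fw.pf (H12.alt_N y) y0
  have a4 := finrank_mono (show span F {b ⊗ₜ[F] y, e ⊗ₜ y} ≤ tl U (F ∙ y) ⊓ pM k w' from span_le.2 (by
    rintro _ (rfl | rfl) <;> exact ⟨tmul_mem_tl _ (mem_span_singleton_self y), ‹_›⟩))
  rw [finrank_span_pair_of_not_mem (tmul_ne_zero b0 y0) fun c => by
    obtain ⟨c, hc⟩ := mem_span_singleton.1 c
    obtain rfl := tmul_left_inj y0 ((smul_tmul' ..).symm.trans hc)
    simp [Q_smul, hb] at e2; simp [e2] at e0] at a4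
  obtain ⟨ψ, hψ⟩ := hk.hw'
  have := hk.max y w' φ ψ hφ hψ k hk.mem hk.bad
  omega

theorem data [Finite F] (hU : finrank F U = 4) (h3 : (3 : F) = 0) (hk : MaxB X (PF C₂) w w' k)
    (hr : C₂.B w r = 1) : ∃ c : F, c * c = 1 ∧ ∃ E φ : End F U, (∀ u, E (E u) = E u) ∧
      (∀ u, E (φ u) = φ u) ∧ (∀ u, φ (E u) = φ u) ∧ (∃ u, E u ≠ 0) ∧
      2 ≤ finrank F (LinearMap.ker E) ∧ (∀ u u', E u' = 0 → polar Q (E u) u' = 0) ∧ ∃ ρ ∈ X,
      (∀ u, ρ (u ⊗ₜ w) = (u + φ u) ⊗ₜ w + (c • E u) ⊗ₜ r) ∧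
      ∀ u, ρ (u ⊗ₜ r) = (c • (E u - φ (φ u) + φ u)) ⊗ₜ w + (u + E u - φ u) ⊗ₜ r := by
  have hb := h.bp3
  have h2 := h.two
  have hS : S2 X (PF C₂) := hb.s2a (by
    rintro w _ ⟨b1, b2, c, b3, -, rfl⟩
    exact ⟨-1, fun e => h2 (by linear_combination -e), b1, b2, -1 * c, by simpa, by simp [altType],
      smul_smul ..⟩)
  have hP : ∀ w ≠ 0, PF C₂ w (C₂.B w) := fun w hw =>
    ⟨H12.alt_N w, hw, 1, one_ne_zero, by simp [altType], (one_smul ..).symm⟩
  obtain ⟨_, -, w0, -⟩ := hk.hw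
  obtain ⟨_, -, w0', -⟩ := hk.hw'
  have e1 := fun x => h.ker_two h.hd w0 (x := x)
  have e2 : ∀ x, cj k (nW U C₂ w' w') x = 0 ↔ x ∈ pM k w' := fun x => by
    rw [mem_map_iff, ← h.ker_two h.hd w0', cj_apply, EmbeddingLike.map_eq_zero_iff]
  have e3 : ∀ w x, nW U C₂ w w x ∈ tl U (F ∙ w) := fun w x =>
    nW_apply w w x ▸ tmul_mem_tl _ (mem_span_singleton_self w)
  have e4 : ∀ c : F, Sq X (c • cj k (nW U C₂ w' w')) := fun c => by
    simpa [Sq] using (h.sqN c w').conj hk.mem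
  have e5 := h.two_le hm hU hk
  obtain ⟨x₀, x1, x0⟩ := exists_mem_not_mem_of_finrank_lt (W := ⊥) (W' := tl U (F ∙ w) ⊓ pM k w') (by
    rw [finrank_bot]; omega)
  have := Module.finite_of_finite F (M := U ⊗[F] W)
  have sq' : ∀ v, cj k (nW U C₂ w' w') (cj k (nW U C₂ w' w') v) = 0 := fun v => (e2 _).2 ⟨_, e3 _ _, rfl⟩
  obtain ⟨c, c1, E, c2, c3, c4, c5, ⟨v, c6⟩, ⟨ζ, c7, c8⟩, c9⟩ := rk1_three (X := X) (N := nW U C₂ w w)
    (N' := cj k (nW U C₂ w' w')) h2 h3 (fun v => (e1 _).2 (e3 _ _)) sq' (h.sqN · w) e4 (fun v hv => by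
      obtain ⟨u, rfl⟩ := mem_tl_singleton.1 ((e1 v).1 hv)
      exact ⟨u ⊗ₜ r, by simp [nW_apply, hr]⟩)
    (fun v a b => (e1 v).2 (hb.caseII hS hk (hP w w0) (H12.alt_B_self w) ((e2 _).1 a)
      (nW_apply w w v ▸ (e2 _).1 b)))
    (fun v a b => (e2 v).2 (mem_map_iff.2 (hb.caseII hS hk.symm (hP w' w0') (H12.alt_B_self w')
      ⟨v, (e1 _).1 a, rfl⟩ (mem_map_iff.2 (by simpa [nW_apply, cB] using (e1 _).1 b)))))
    (by
      by_contra hc
      push Not at hc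
      refine TZ.not_le hb hk.symm (y := w') ?_
      rintro _ ⟨x, hx, rfl⟩
      obtain ⟨u, rfl⟩ := mem_tl_singleton.1 hx
      simpa [nW_apply, hr] using mem_map_iff.1 ((e2 _).1 (hc (u ⊗ₜ r))))
    (fun y hy x a b c d => by
      have : Gd y := by_contra fun e => by
        have f1 := hk.max w w _ _ (hP w w0) (hP w w0) y hy e
        have f2 := finrank_mono (show (tl U (F ∙ w) ⊓ pM k w' ⊔ F ∙ x).map (y : _ →ₗ[F] _) ≤
            tl U (F ∙ w) ⊓ pM y w from le_inf (map_le_iff_le_comap.2 (sup_le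
              (fun x hx => (e1 _).1 (d x ((e1 _).2 hx.1) ((e2 _).2 hx.2)))
              ((span_singleton_le_iff_mem _ _).2 ((e1 _).1 c))))
            (map_mono (sup_le inf_le_left ((span_singleton_le_iff_mem _ _).2 ((e1 _).1 a)))))
        have f3 := finrank_lt_finrank_of_lt (SetLike.lt_iff_le_and_exists.2 ⟨le_sup_left, x,
          mem_sup_right (mem_span_singleton_self x), fun e => b ((e2 _).2 e.2)⟩ :
            tl U (F ∙ w) ⊓ pM k w' < tl U (F ∙ w) ⊓ pM k w' ⊔ F ∙ x)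
        rw [finrank_map_equiv] at f2
        omega
      refine this.imp (fun e v => ?_) fun e v => LinearMap.congr_fun (e _ _).eq v
      obtain ⟨α, β, e⟩ := mem_tenStab.1 e
      obtain ⟨u, rfl⟩ := mem_tl_singleton.1 ((e1 x).1 a)
      rw [nW_apply w w v, e, e1]
      exact tmul_mem_tl _ (mem_of_tmul_mem_tl (u := α u) (by
        rw [EmbeddingLike.map_ne_zero_iff]; rintro rfl; simp at b) (e u w ▸ (e1 _).1 c)))
    (fun y hy e => h.cenN w0 hy fun u => (e1 _).1 (by simpa [nW_apply, hr] using e (u ⊗ₜ r)))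
    (fun y hy e => by
      obtain ⟨A, -, a⟩ := h.of_cen (h.le hy) (H12.alt_N w) w0 fun x hx => e x (by simp [nW_apply, hx])
      obtain ⟨s, hs⟩ := h.hs _ (mem_zJ h.toTZ (H12.alt_N w) w0 (comm_rTensor A)
        ⟨y, hy, fun x => by simp [a, nW_apply]⟩)
      exact ⟨s, fun x => by rw [a, ← LinearMap.rTensor_tmul, hs]; simp [nW_apply]⟩)
    x0 ((e1 _).2 x1.1) ((e2 _).2 x1.2)
  obtain ⟨τ, t1, t2⟩ := (e4 1).mul (h.sqN c w)
  generalize cj k (nW U C₂ w' w') = N' at *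
  have n1 : ∀ u, nW U C₂ w w (u ⊗ₜ w) = 0 := fun u => by simp [nW_apply, H12.alt_B_self]
  have n2 : ∀ u, nW U C₂ w w (u ⊗ₜ r) = u ⊗ₜ w := fun u => by simp [nW_apply, hr]
  have hr' : C₂.B r w = -1 := by rw [H12.alt_symm, hr]
  have r0 : r ≠ 0 := by rintro rfl; simp at hr
  obtain ⟨α, β, d1⟩ := mem_tenStab.1 (h.pt0 w0 c7 fun u => (e1 _).1 (by simp [c8, ← c4, n1]))
  obtain ⟨u₀, u0⟩ := h.ex
  have d2 : β w = C₂.B w (β r) • w := tmul_right_inj (α.map_ne_zero_iff.2 u0) (by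
    rw [← d1, ← n2, c8, c4, ← map_add, ← c8, d1, nW_apply]; simp [smul_tmul])
  have d3 : β r = C₂.B w (β r) • r := by
    have a1 := h.fw.plucker h.hd w r (β r)
    rw [hr, H12.alt_symm w (β r)] at a1
    generalize C₂.B w (β r) = ν at *
    have ν0 : ν ≠ 0 := by rintro rfl; simp [w0] at d2
    have a2 : ζ (ζ (u₀ ⊗ₜ r)) = u₀ ⊗ₜ r := by
      simp [c8, c3]; linear_combination (norm := module) h3 • E (u₀ ⊗ₜ r)
    have a3 : β r = ν • r - C₂.B r (β r) • w := by linear_combination (norm := module) a1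
    have a4 := congrArg (cB U C₂ r) a2
    rw [d1, d1, a3, map_sub, map_smul, map_smul, d2] at a4
    simp [H12.alt_B_self, hr', ← two_mul, mul_comm ν, h2, ν0, u0] at a4
    simpa [a4] using a3
  obtain ⟨E₁, d4, d5⟩ : ∃ E₁ : End F U, (∀ u, E (u ⊗ₜ w) = E₁ u ⊗ₜ w) ∧ ∀ u, E (u ⊗ₜ r) = E₁ u ⊗ₜ r :=
    ⟨C₂.B w (β r) • α.toLinearMap - 1, fun u => by
      rw [← add_right_inj (u ⊗ₜ w), ← c8, d1, d2]; simp [sub_tmul, smul_tmul], fun u => by
      rw [← add_right_inj (u ⊗ₜ r), ← c8, d1, d3]; simp [sub_tmul, smul_tmul, hr]⟩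
  obtain ⟨φ, f1⟩ : ∃ φ : End F U, ∀ u, N' (u ⊗ₜ w) = φ u ⊗ₜ w + (c • E₁ u) ⊗ₜ r :=
    ⟨-cB U C₂ r ∘ₗ N' ∘ₗ (TensorProduct.mk F U W).flip w, fun u => by
      have := c2 (u ⊗ₜ w)
      rw [n1, map_zero, add_zero, nW_apply, d4, smul_tmul'] at this
      rw [h.split hr (N' _), tmul_left_inj w0 this]; simp [neg_tmul]; abel⟩
  have f2 : ∀ u, N' (E₁ u ⊗ₜ w) = N' (u ⊗ₜ w) := fun u => by
    have := c9 (u ⊗ₜ w)
    rw [d4, map_sub, map_sub, n1, n1, sub_zero, smul_zero, sub_eq_zero] at this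
    exact this.symm
  have f3 : ∀ u, E₁ (E₁ u) = E₁ u := fun u => tmul_left_inj w0 (by rw [← d4, ← d4, c3])
  have f4 : ∀ u, E₁ (φ u) = φ u := fun u => tmul_left_inj (F := F) w0 (by
    simpa [f1, d4, d5, f3] using (c5 (u ⊗ₜ w)).trans ((congrArg N' (d4 u)).trans ((f2 u).trans (f1 u))))
  have f5 : ∀ u, φ (E₁ u) = φ u := fun u => tmul_left_inj (F := F) w0 (by simpa [f1, f3] using f2 u)
  have f6 : ∀ u, N' (E₁ u ⊗ₜ r) = -(c • φ (φ u)) ⊗ₜ w - φ u ⊗ₜ r := fun u => by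
    have := sq' (u ⊗ₜ w)
    simp only [f1, map_add, f4, ← smul_tmul', map_smul, neg_tmul] at this ⊢
    linear_combination (norm := module) c • this - c1 • (N' (E₁ u ⊗ₜ r) + φ u ⊗ₜ r)
  refine ⟨c, c1, E₁, φ, f3, f4, f5, ⟨cB U C₂ w v, fun e => c6 (by simp [nW_apply, d4, e])⟩,
    e5.trans ((finrank_mono fun x hx => ?_).trans (finrank_map_le ((TensorProduct.mk F U W).flip w) _)),
    fun u u' e => ?_, τ, t1, fun u => by simp [t2, n1, f1, add_tmul, add_assoc], fun u => ?_⟩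
  · obtain ⟨u, rfl⟩ := mem_tl_singleton.1 hx.1
    refine ⟨u, ?_, rfl⟩
    have := congrArg (cB U C₂ w) ((f1 u).symm.trans ((e2 _).2 hx.2))
    simpa [H12.alt_B_self, hr, show c ≠ 0 by rintro rfl; simp at c1] using this
  · simpa [c8, d4, d5, e, h.hB, hr] using CForm.isom_B (h.le c7) (u ⊗ₜ w) (u' ⊗ₜ r)
  · have := c9 (u ⊗ₜ r)
    simp only [d5, map_sub, n2, f6] at this
    simp only [t2, LinearMap.add_apply, End.mul_apply, LinearMap.smul_apply, one_smul, n2, map_smul, f1,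
      add_tmul, sub_tmul, ← smul_tmul', neg_tmul, smul_add, smul_sub] at this ⊢
    linear_combination (norm := module) this + c1 • E₁ u ⊗ₜ r

end SOX

end H12
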