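import Cfsg.Agent.H12.SO3

/-!
# The symplectic plane times an orthogonal space of minus type: maximality
-/

set_option autoImplicit false
set_option maxHeartbeats 400000

namespace H12

open Module H11 Submodule TensorProduct H13.KL QuadraticMap

variable {F : Type*} [Field F] {U W : Type*} [AddCommGroup U] [Module F U] [AddCommGroup W]
  [Module F W] {Q : QuadraticForm F U} {C : CForm (altType F) (U ⊗[F] W)}
  {C₂ : CForm (altType F) W} {X : Subgroup ((U ⊗[F] W) ≃ₗ[F] (U ⊗[F] W))}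
  {w r : W} {e : U} {g : (U ⊗[F] W) ≃ₗ[F] (U ⊗[F] W)}
  [FiniteDimensional F U] [FiniteDimensional F W]

theorem exists_perp_two {Y : Submodule F U} (hY : finrank F Y = 2) (b : U) :
    ∃ p ∈ Y, p ≠ 0 ∧ polar Q b p = 0 := by
  have := finrank_le_of_map (Y := Y) (K := Y ⊓ LinearMap.ker (polarBilin Q b)) (Z := ⊤) (polarBilin Q b)
    (fun _ _ => trivial) fun y a b => ⟨a, b⟩
  rw [finrank_top, finrank_self] at this
  obtain ⟨p, ⟨a, b⟩, c⟩ := exists_mem_not_mem_of_finrank_lt (W := ⊥)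
    (W' := Y ⊓ LinearMap.ker (polarBilin Q b)) (by rw [finrank_bot]; omega)
  exact ⟨p, a, c, b⟩

theorem mem_pair_two {Y : Submodule F U} (hY : finrank F Y = 2) {a b x : U} (ha : a ∈ Y) (hb : b ∈ Y)
    (a0 : a ≠ 0) (h : b ∉ F ∙ a) (hx : x ∈ Y) : ∃ s t : F, s • a + t • b = x :=
  mem_span_pair.1 ((eq_of_le_of_finrank_eq (span_le.2 (by rintro _ (rfl | rfl) <;> assumption))
    ((finrank_span_pair_of_not_mem a0 h).trans hY.symm)).ge hx)

theorem f3_eq (three : ∀ a : F, a = 0 ∨ a = 1 ∨ a = -1) {a b : F} (a0 : a ≠ 0) (b0 : b ≠ 0) :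
    a = b ∨ a = -b := by
  rcases three a with x | x | x <;> rcases three b with y | y | y <;> simp_all

theorem f3_irr (three : ∀ a : F, a = 0 ∨ a = 1 ∨ a = -1) (h3 : (3 : F) = 0) {p q : F}
    (e : ∀ s : F, s * s - p * s - q ≠ 0) : q = -(p * p + 1) := by
  have := e 0
  have := e 1
  have := e (-1)
  rcases three p with rfl | rfl | rfl <;> rcases three q with rfl | rfl | rfl <;> grind

namespace SOX

variable (h : SOX Q C C₂ X) (hr : C₂.B w r = 1)
include h hr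

theorem ptT' (he : Q e = 0) (e0 : e ≠ 0) (hg : g ∈ X) {a b c d : F} (hd : a * d - b * c = 1)
    (e1 : g (e ⊗ₜ w) = (a • e) ⊗ₜ w + (b • e) ⊗ₜ r) (e2 : g (e ⊗ₜ r) = (c • e) ⊗ₜ w + (d • e) ⊗ₜ r) :
    g ∈ tenStab F U W := by
  obtain ⟨f, hf⟩ := h.nd₁.exists_eq e0 1
  have p : ∀ x, x = C₂.B w x • r - C₂.B r x • w := fun x => by
    have := h.fw.plucker h.hd w r x
    rw [hr, H12.alt_symm w x] at this
    linear_combination (norm := module) this
  obtain ⟨β, b1, b2⟩ := h.nd₂.exists_isom ((C₂.B w).smulRight (c • w + d • r) -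
    (C₂.B r).smulRight (a • w + b • r)) ⟨fun x y => by
      have := congrArg (C₂.B x) (p y)
      simp [hr, H12.alt_B_self, alt_sigma, H12.alt_symm w r, H12.alt_symm w x, H12.alt_symm r x] at this ⊢
      linear_combination (C₂.B w x * C₂.B r y - C₂.B r x * C₂.B w y) * hd - this,
    fun _ => by rw [H12.alt_N, H12.alt_N]⟩
  refine (mul_mem_cancel_left (inv_mem (rH_mem β))).1 (h.ptT he hf
    (mul_mem (inv_mem (h.hX β b1)) hg) fun x => ?_)
  rw [LinearEquiv.mul_apply, LinearEquiv.coe_inv, LinearEquiv.symm_apply_eq, rH_tmul, b2]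
  conv_lhs => rw [p x]
  simp [tmul_sub, tmul_add, e1, e2, ← smul_tmul']

omit h [FiniteDimensional F W] in
theorem ten_w (hg : g ∈ tenStab F U W) (e0 : e ≠ 0) (e1 : g (e ⊗ₜ w) = e ⊗ₜ w) (u : U) :
    cB U C₂ w (g (u ⊗ₜ w)) = 0 := by
  obtain ⟨α, β, a⟩ := mem_tenStab.1 hg
  obtain ⟨c, hc⟩ := mem_span_singleton.1 (mem_of_tmul_mem_tl (α.map_ne_zero_iff.2 e0)
    (a e w ▸ e1 ▸ tmul_mem_tl e (mem_span_singleton_self w)))
  simp [a, ← hc, H12.alt_B_self]

theorem fin3 [Finite F] (hm : ∀ e b, ¬ TSP (CForm.ofQuad Q) e b) (hU : finrank F U = 4)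
    (three : ∀ a : F, a = 0 ∨ a = 1 ∨ a = -1) {c : F} (c1 : c * c = 1) {E φ : End F U}
    (a1 : ∀ u, E (E u) = E u) (a2 : ∀ u, E (φ u) = φ u) (a3 : ∀ u, φ (E u) = φ u) (a4 : ∃ u, E u ≠ 0)
    (a5 : 2 ≤ finrank F (LinearMap.ker E)) (a6 : ∀ u u', E u' = 0 → polar Q (E u) u' = 0)
    {ρ : (U ⊗[F] W) ≃ₗ[F] (U ⊗[F] W)} (hρ : ρ ∈ X)
    (r1 : ∀ u, ρ (u ⊗ₜ w) = (u + φ u) ⊗ₜ w + (c • E u) ⊗ₜ r)
    (r2 : ∀ u, ρ (u ⊗ₜ r) = (c • (E u - φ (φ u) + φ u)) ⊗ₜ w + (u + E u - φ u) ⊗ₜ r) : False := by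
  have h2 := h.two
  have h3 : (3 : F) = 0 := by
    rcases three 2 with e | e | e
    exacts [absurd e h2, absurd (by linear_combination e) (one_ne_zero (α := F)), by linear_combination e]
  have c0 : c ≠ 0 := by rintro rfl; simp at c1
  have w0 : w ≠ 0 := by rintro rfl; simp at hr
  have b1 : ∀ u, E u = 0 → ρ (u ⊗ₜ w) = u ⊗ₜ w ∧ ρ (u ⊗ₜ r) = u ⊗ₜ r := fun u e => by
    simp [r1, r2, e, ← a3 u]
  obtain ⟨p₀, p1, p0⟩ := exists_mem_not_mem_of_finrank_lt (W := ⊥) (W' := LinearMap.ker E) (by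
    rw [finrank_bot]; omega)
  have b2 : ρ ∉ tenStab F U W := fun e => let ⟨u, hu⟩ := a4; hu (by
    simpa [r1, hr, H12.alt_B_self, c0] using ten_w hr e p0 (b1 _ p1).1 u)
  have b3 : ∀ e, E e = 0 → Q e = 0 → e = 0 := fun e e1 e2 => by_contra fun e0 =>
    b2 (h.ptT' hr e2 e0 hρ (a := 1) (b := 0) (c := 0) (d := 1) (by simp) (by simp [b1 e e1])
      (by simp [b1 e e1]))
  have b4 : finrank F (LinearMap.ker E) = 2 := le_antisymm (by
    by_contra! hc
    obtain ⟨e, e1, e0, e2⟩ := exists_singular_mem Q hc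
    exact e0 (b3 e e1 e2)) a5
  have b5 : finrank F (LinearMap.range E) = 2 := by have := E.finrank_range_add_finrank_ker; omega
  have b6 : ∀ b (t : F), E b = b → φ b = t • b → Q b = 0 → b = 0 := fun b t e1 e2 e3 =>
    by_contra fun e0 => b2 (h.ptT' hr e3 e0 hρ (a := 1 + t) (b := c) (c := c * (1 - t * t + t))
      (d := 2 - t) (by linear_combination (t * t - t - 1) * c1) (by simp [r1, e1, e2, add_smul])
      (by rw [r2, e1, e2, map_smul, e2]; congr 2 <;> module))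
  have b7 : ∀ u u', E u = u → E u' = u' → polar Q (φ u) u' = polar Q u (φ u') := fun u u' e e' => by
    have := CForm.isom_B (h.le hρ) (u ⊗ₜ w) (u' ⊗ₜ w)
    simp [r1, e, e', h.hB, hr, H12.alt_B_self, H12.alt_symm w r, ← smul_tmul', alt_sigma] at this
    exact mul_left_cancel₀ c0 (by linear_combination this)
  have b8 : ∀ {u u'}, E u = u → E u' = 0 → polar Q u u' = 0 := fun e e' => e ▸ a6 _ _ e'
  by_cases H : ∃ b, ∃ t : F, b ≠ 0 ∧ E b = b ∧ φ b = t • b
  · obtain ⟨b, t, b0, e1, e2⟩ := H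
    have q1 : Q b ≠ 0 := fun e => b0 (b6 b t e1 e2 e)
    obtain ⟨_, ⟨b', rfl⟩, b0', e3⟩ := exists_perp_two (Q := Q) b5 b
    have e4 := a1 b'
    generalize E b' = b' at *
    obtain ⟨t', e5⟩ : ∃ t' : F, φ b' = t' • b' := by
      obtain ⟨s, t', e⟩ := mem_pair_two b5 ⟨b, e1⟩ ⟨b', e4⟩ b0 (fun e => by
        obtain ⟨s, rfl⟩ := mem_span_singleton.1 e
        simp [polar_self', h2, q1] at e3; simp [e3] at b0') ⟨_, a2 b'⟩
      have := b7 b b' e1 e4
      rw [e2, ← e] at this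
      simp [e3, polar_self', h2, q1] at this
      exact ⟨t', by simp [← e, this]⟩
    have q2 : Q b' ≠ 0 := fun e => b0' (b6 b' t' e4 e5 e)
    obtain ⟨p, q, f1, f2, f3, f4, f5⟩ : ∃ p q, E p = 0 ∧ E q = 0 ∧ polar Q p q = 0 ∧ Q p = Q b' ∧
        Q q = Q b' := by
      obtain ⟨q, q3, q0, q4⟩ := exists_perp_two (Q := Q) b4 p₀
      have g1 : Q p₀ ≠ 0 := fun e => p0 (b3 _ p1 e)
      have g2 : Q q ≠ 0 := fun e => q0 (b3 _ q3 e)
      have g3 : Q p₀ + Q q ≠ 0 := fun e => by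
        have := congrArg (polar Q p₀) (b3 _ (add_mem p1 q3) (by rw [Q_add, e, q4, add_zero]))
        simp [q4, polar_self', h2, g1] at this
      have g4 : Q q = Q p₀ := (f3_eq three g2 g1).resolve_right fun e => g3 (by rw [e, add_neg_cancel])
      by_cases g5 : Q p₀ = Q b'
      · exact ⟨p₀, q, p1, q3, q4, g5, g4.trans g5⟩
      have g6 : Q p₀ + Q p₀ = Q b' := by
        linear_combination 2 * (f3_eq three g1 q2).resolve_left g5 - Q b' * h3
      exact ⟨p₀ + q, p₀ - q, add_mem p1 q3, sub_mem p1 q3, by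
        simp [polar_self', q4, polar_comm Q q, g4], by rw [Q_add, g4, q4, add_zero, g6],
        by rw [Q_sub, g4, q4, sub_zero, g6]⟩
    have g1 := b8 e1 f1
    have g2 := b8 e1 f2
    have g3 := b8 e4 f1
    have g4 := b8 e4 f2
    by_cases g5 : Q b = Q b'
    · refine hm (b + b' + p) (b' - p + q) ⟨?_, ?_, ?_, fun e => ?_, fun e => ?_⟩
      · simp [Q_add, e3, g1, g3, g5, f4]; linear_combination Q b' * h3
      · simp [Q_add, Q_sub, g3, g4, f3, f4, f5]; linear_combination Q b' * h3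
      · simp [e3, g1, g2, g3, g4, f3, f4, polar_self', polar_comm Q p b']
      · simpa [e3, g1, polar_self', h2, q1] using congrArg (polar Q b) e
      · obtain ⟨s, hs⟩ := mem_span_singleton.1 e
        have := congrArg (polar Q q) hs
        simp [polar_comm Q q b, polar_comm Q q b', polar_comm Q q p, g2, g4, f3, polar_self', h2, f5, q2]
          at this
    have g6 : Q (b + q) = 0 := by
      rw [Q_add, g2, f5, (f3_eq three q1 q2).resolve_left g5]; ring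
    have s1 : ∀ u, polar Q b' u = 0 → polar Q p u = 0 → ∀ x,
        lH F U W (refl Q (b' - p)).1 (u ⊗ₜ x) = u ⊗ₜ x := fun u a b x => by
      rw [lH_tmul, refl_apply_of_orth (by simp [a, b])]
    have s2 : (refl Q (b' - p)).1 b' = p ∧ (refl Q (b' - p)).1 p = b' := by
      simp [refl_apply, Q_sub, polar_self', g3, polar_comm Q p b', f4, ← two_mul, h2, q2, mul_assoc]
    have s3 := s1 b ((polar_comm _ _ _).trans e3) ((polar_comm _ _ _).trans g1)
    have s4 := s1 q g4 f3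
    have hσ := h.lh (refl Q (b' - p))
    have e0 : b + q ≠ 0 := fun e => by simpa [g2, polar_self', h2, q1] using congrArg (polar Q b) e
    have k1 : (ρ⁻¹ * lH F U W (refl Q (b' - p)).1 * ρ * lH F U W (refl Q (b' - p)).1) ((b + q) ⊗ₜ w) =
        (b + q) ⊗ₜ w := by
      simp only [LinearEquiv.mul_apply, LinearEquiv.coe_inv, LinearEquiv.symm_apply_eq]
      simp [add_tmul, s3, s4, b1 q f2, r1 b, e1, e2, ← smul_tmul']
    have := ten_w hr (h.ptT' hr g6 e0 (mul_mem (mul_mem (mul_mem (inv_mem hρ) hσ) hρ) hσ) (a := 1)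
      (b := 0) (c := 0) (d := 1) (by simp) (by simpa using k1) (by
        simp only [LinearEquiv.mul_apply, LinearEquiv.coe_inv, LinearEquiv.symm_apply_eq]
        simp [add_tmul, sub_tmul, s3, s4, b1 q f2, r2 b, e1, e2, ← smul_tmul'])) e0 k1 p
    have k2 : ρ⁻¹ (p ⊗ₜ w) = p ⊗ₜ w ∧ ρ⁻¹ (p ⊗ₜ r) = p ⊗ₜ r := by
      simp [LinearEquiv.symm_apply_eq, b1 p f1]
    simp [-LinearEquiv.coe_inv, lH_tmul, s2, r1, e4, e5, add_tmul, ← smul_tmul', k2, hr, H12.alt_B_self,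
      c0] at this
    exact q2 (by simp [← f4, this])
  obtain ⟨b, b0⟩ := a4
  have e1 := a1 b
  generalize E b = b at *
  have e2 : φ b ∉ F ∙ b := fun e => let ⟨t, ht⟩ := mem_span_singleton.1 e; H ⟨b, t, b0, e1, ht.symm⟩
  obtain ⟨q, p, e3⟩ := mem_pair_two b5 ⟨b, e1⟩ ⟨_, a2 b⟩ b0 e2 ⟨_, a2 (φ b)⟩
  have e4 : ∀ s : F, s * s - p * s - q ≠ 0 := fun s e => H ⟨φ b - (p - s) • b, s, fun e =>
    e2 (mem_span_singleton.2 ⟨_, (sub_eq_zero.1 e).symm⟩), by simp [a2, e1], by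
      rw [map_sub, map_smul, ← e3]; linear_combination (norm := module) -e • b⟩
  have e5 := f3_irr three h3 e4
  have e6 : ∀ u, φ (φ u) = q • E u + p • φ u := fun u => by
    obtain ⟨s, t, e⟩ := mem_pair_two b5 ⟨b, e1⟩ ⟨_, a2 b⟩ b0 e2 ⟨u, rfl⟩
    rw [← a3 u, ← e]
    simp only [map_add, map_smul, ← e3]; module
  refine b2 (h.ptL (w := (c * (1 - p)) • w + r) (w₁ := (c * (1 - p)) • w + r) (fun e => by
    simpa [hr, H12.alt_B_self] using congrArg (C₂.B w) e) hρ fun u => mem_tl_singleton.2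
      ⟨u + (2 - p) • E u - φ u, ?_⟩)
  simp only [tmul_add, tmul_smul, map_add, map_smul, r1, r2, e6, e5, add_tmul, sub_tmul, ← smul_tmul']
  linear_combination (norm := module) h3 • ((c * (1 - p)) • φ u ⊗ₜ[F] w + (p * c) • E u ⊗ₜ[F] w) +
    c1 • (1 - p) • E u ⊗ₜ[F] r

end SOX

end H12
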