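import Cfsg.Agent.H12.SO4

/-!
# The symplectic plane times an orthogonal space of minus type: the maximality theorem
-/

set_option autoImplicit false
set_option maxHeartbeats 400000

namespace H12

open Module H11 Submodule TensorProduct H13.KL QuadraticMap

theorem three_or_sq {F : Type*} [Field F] :
    (∀ a : F, a = 0 ∨ a = 1 ∨ a = -1) ∨ ∃ t : F, t ≠ 0 ∧ t * t ≠ 1 := by
  by_contra! h
  obtain ⟨a, a0, a1, a2⟩ := h.1
  exact (mul_self_eq_one_iff.1 (h.2 a a0)).elim a1 a2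

variable {F : Type*} [Field F] {U W : Type*} [AddCommGroup U] [Module F U] [AddCommGroup W]
  [Module F W] {Q₁ : QuadraticForm F U} {C : CForm (altType F) (U ⊗[F] W)}
  {C₂ : CForm (altType F) W} {X : Subgroup ((U ⊗[F] W) ≃ₗ[F] (U ⊗[F] W))}
  {g : (U ⊗[F] W) ≃ₗ[F] (U ⊗[F] W)} [FiniteDimensional F U] [FiniteDimensional F W] [Finite F]

theorem SOX.gd (h : SOX Q₁ C C₂ X) (hm : ∀ e b, ¬ TSP (CForm.ofQuad Q₁) e b) (hU : finrank F U = 4)
    (hg : g ∈ X) : Gd g := by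
  rcases three_or_sq (F := F) with three | ⟨a, a0, a1⟩
  swap
  · exact h.gd_sp h.hd h.two a0 a1 h.hs hg
  by_contra hg'
  obtain ⟨w, b1, -⟩ := h.fw.ex
  obtain ⟨w, w', k, hk⟩ := exists_maxB (P := PF C₂) (φ := C₂.B w)
    ⟨H12.alt_N w, b1, 1, one_ne_zero, by simp [altType], (one_smul ..).symm⟩ hg hg'
  obtain ⟨_, -, w0, -⟩ := hk.hw
  obtain ⟨r, hr⟩ := h.nd₂.exists_eq w0 1
  obtain ⟨c, c1, E, φ, a1, a2, a3, a4, a5, a6, ρ, a7, a8, a9⟩ := h.data hm hU (by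
    rcases three 2 with e | e | e
    exacts [absurd e h.two, absurd (by linear_combination e) (one_ne_zero (α := F)),
      by linear_combination e]) hk hr
  exact h.fin3 hr hm hU three c1 a1 a2 a3 a4 a5 a6 a7 a8 a9

theorem isMaximalIn_o_sp2m (hC : C.Nondeg) (h₁ : QNondeg Q₁) (h₂ : C₂.Nondeg) (h2 : (2 : F) ≠ 0)
    (hB : ∀ u w u' w', C.B (u ⊗ₜ w) (u' ⊗ₜ w') = polar Q₁ u u' * C₂.B w w')
    (hU : finrank F U = 4) (hm : ∀ e b, ¬ TSP (CForm.ofQuad Q₁) e b) (hW : finrank F W = 2) :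
    Cfsg.Geo.IsMaximalIn C.isom (tenStab F U W ⊓ C.isom) := by
  have h : TF C (CForm.ofQuad Q₁) C₂ := ⟨hC, h₁, h₂, fun _ => rfl, fun _ => rfl,
    by simp [quadType, altType], by simp [altType], hB,
    fun _ _ _ _ _ _ => by rw [H12.alt_N, H12.alt_N], fun _ _ => H12.alt_N _, by omega⟩
  have hK := ma_quad h₁ h2 le_rfl OmegaV_le (by omega) (.inl hU.ge) (.inr (.inr le_rfl))
  have hF := fw_alt h₂ (by omega)
  have : Nontrivial W := Module.nontrivial_of_finrank_pos (R := F) (by omega)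
  obtain ⟨w, hw, -⟩ := hF.ex
  refine isMaximalIn_of _ _ inf_le_right (fun e => ?_)
    fun X a1 a2 g a3 a4 => by_contra fun hc => a4 ⟨?_, a2 a3⟩
  · obtain ⟨u, b1, b2⟩ := hK.ex
    obtain ⟨f, hf⟩ := h.nd₁.exists_eq b1 1
    obtain ⟨w', hw'⟩ := h₂.exists_eq hw 1
    obtain ⟨t, c1, c2⟩ := (fw_alt hC (finrank_pos_iff_exists_ne_zero.2
      ⟨_, tmul_ne_zero b1 hw⟩)).tv' (H12.alt_N (u ⊗ₜ w)) (c := 1) (by simp [altType])
    refine not_gd (t := t) hw (φ := C₂.B w) (fun e => by simp [e] at hw') (H12.alt_B_self w) b1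
      (fun v => by simp [c2, h.hB, H12.alt_B_self]) (fun x => by simp [c2, H12.alt_B_self])
      (fun y => by simp [c2, h.hB, (CForm.ofQuad Q₁).B_self_of_zero b2]) (fun e => ?_)
      (.inl (e c1).1)
    have := c2 (f ⊗ₜ w')
    simp [e, h.hB, hf, hw'] at this
    exact tmul_ne_zero b1 hw this
  have h' : TZ C (CForm.ofQuad Q₁) C₂ X C₂.isom :=
    { h with fw := hF, le := a2, hX := fun β hβ => a1 ⟨rH_mem β, h.congr_isom (one_mem _) hβ⟩ }
  have hK' := fun α hα => a1 (x := lH F U W α) ⟨congr_mem _ _, h.congr_isom hα (one_mem _)⟩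
  have h'' : SOX Q₁ C C₂ X := ⟨h', hW, h2, a1, fun S hS => by_contra fun hn => by
    obtain ⟨A, rfl⟩ := exists_rTensor hS.1
    refine hc (h'.le_of_zI h2 (fun _ _ => polar_comm _ _ _) hK hK' (fun e y b3 b4 =>
      ⟨_, (rq_eich h₁ (notExc_of_two_ne_zero h2) b3 b4).mono OmegaV_le⟩) (A := A) (fun c => ?_)
      (fun ⟨c, e⟩ => hn ⟨c, TensorProduct.ext' fun u y => by simp [e, smul_tmul']⟩) hw)
    obtain ⟨t, b1, b2⟩ := ((zS C₂ X h2).smul_mem c hS).2 w (H12.alt_N w)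
    exact ⟨t, b1, fun x => by simp [b2, nW_apply, smul_tmul']⟩⟩
  exact (h''.gd hm hU a3).resolve_right (h''.not_cm hm a3)

open Cfsg Cfsg.Geo in
theorem spl_ten4 {F : Type*} [Field F] [Fintype F] {m : ℕ} (hodd : Odd (Fintype.card F))
    {e : (Fin m ⊕ Fin m) ≃ Fin 2 × Fin 4} {P : GL (Fin m ⊕ Fin m) F}
    {f₁ : (Fin 2 → F) → (Fin 2 → F) → F} {f₂ : (Fin 4 → F) → (Fin 4 → F) → F}
    (hf₁ : IsSymplecticForm f₁) (hf₂ : IsSymmetricForm f₂)
    (hm : ¬ IsPlusTypeOn (fun v : Fin 4 → F => f₂ v v) ⊤)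
    (hT : IsTensorFormStructure id (sympForm m F) f₁ f₂ e P) :
    IsMaximalIn (spGL m F) (tensorProductSubgroup 2 4 e P ⊓ spGL m F) := by
  have h2 := odd_card_iff.1 hodd
  obtain ⟨c, hc, h⟩ := H13.KL.tf_bridge (fun _ _ => rfl) (H13.KL.formOfGram_bilin hf₁.bilinear)
    (H13.KL.formOfGram_bilin hf₂.bilinear) hT
  obtain ⟨C₁, d₁, e₁⟩ := exists_cform_alt hf₁
  obtain ⟨Q₂, d₂, e₂⟩ := exists_quad_sym hf₂ h2 hc
  have hC := fun {V : Type _} [AddCommGroup V] [Module F V] (θ : V ≃ₗ[F] _) =>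
    H13.KL.comap_nondeg (spForm_nondeg (ι := Fin m) (F := F)) θ
  rw [H13.KL.tensorProductSubgroup_eq', H13.KL.spGL_eq_trE ((TensorProduct.comm F _ _).trans
    (H13.KL.tenIso e P)), ← Subgroup.comap_inf]
  refine isMaximalIn_comap _ (isMaximalIn_o_sp2m (hC _) d₂ d₁ h2 (fun u w u' w' => ?_)
    (by simp) (fun e b t => hm ⟨span F {e, b}, le_top, fun w hw => ?_, by simp [t.finrank_eq]⟩) (by simp))
  · simp only [CForm.comap_B, spForm_B_eq, LinearEquiv.coe_coe, LinearEquiv.trans_apply,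
      TensorProduct.comm_tmul, h, e₁, e₂]
    ring
  · simpa [hc] using (e₂ w w).symm.trans (t.ts.2 w hw w hw)

end H12
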