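/-
S5806: block calculus and the pieces `CA2 CA4 CA6`.
-/
import Cfsg.Agent.H11.SP1

set_option autoImplicit false
set_option linter.unusedSectionVars false

namespace H12.SP
open Matrix Cfsg H6.SP H11.SP
open scoped MatrixGroups
universe u

section
variable {F : Type u} [Field F] {P : Subgroup (G6 F)} {a b c a' b' c' : M2 F} {A B C : M32 F}

theorem m3 {R : Type*} {a b c d e f g h i a' b' c' d' e' f' g' h' i' : R} (h1 : a = a') (h2 : b = b') (h3 : c = c')
    (h4 : d = d') (h5 : e = e') (h6 : f = f') (h7 : g = g') (h8 : h = h') (h9 : i = i') :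
    !![a, b, c; d, e, f; g, h, i] = !![a', b', c'; d', e', f'; g', h', i'] := by subst_vars; rfl

theorem ex_kr (m : M6 F) : ∃ A, kr A = m :=
  ⟨Matrix.of fun i j => Matrix.of fun s t => m (if s = 0 then .inl i else .inr i) (if t = 0 then .inl j else .inr j), by
    ext s t; rcases s with s | s <;> rcases t with t | t <;> simp [kr, sd]⟩
theorem kr_neg (A : M32 F) : kr (-A) = -kr A := rfl
theorem kr_sub (A B : M32 F) : kr (A - B) = kr A - kr B := rfl
theorem bl_mul : bl a b c * bl a' b' c' = bl (a * a') (b * b') (c * c') := by simp [bl, Matrix.mul_fin_three]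
theorem bl_one : bl (1 : M2 F) 1 1 = 1 := (Matrix.one_fin_three).symm
theorem bl_neg : -bl a b c = bl (-a) (-b) (-c) := by simp [bl]
theorem bl_inj (h : bl a b c = bl a' b' c') : a = a' ∧ b = b' ∧ c = c' := ⟨congrFun₂ h 0 0, congrFun₂ h 1 1, congrFun₂ h 2 2⟩
theorem sw_sw : (sw : M32 F) * sw = 1 := by simp [sw, Matrix.mul_fin_three, Matrix.one_fin_three]
theorem sw_bl : sw * bl a b c = bl b a c * sw := by simp [sw, bl, Matrix.mul_fin_three]
theorem sw_sw' : (sw' : M32 F) * sw' = 1 := by simp [sw', Matrix.mul_fin_three, Matrix.one_fin_three]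
theorem sw_bl' : sw' * bl a b c = bl a c b * sw' := by simp [sw', bl, Matrix.mul_fin_three]
theorem mem_one : Mem P (1 : M32 F) := ⟨1, one_mem _, kr_one.symm⟩
theorem cancel_r (hA : Mem P A) (hB : Mem P B) (e : C * B = A) : Mem P C := by
  obtain ⟨g, hg, e1⟩ := hA
  obtain ⟨h, hh, e2⟩ := hB
  exact ⟨g * h⁻¹, mul_mem hg (inv_mem hh), by rw [Units.val_mul, e1, ← e, kr_mul, ← e2, Units.mul_inv_cancel_right]⟩
theorem cancel_l (hA : Mem P A) (hB : Mem P B) (e : B * C = A) : Mem P C := by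
  obtain ⟨g, hg, e1⟩ := hA
  obtain ⟨h, hh, e2⟩ := hB
  exact ⟨h⁻¹ * g, mul_mem (inv_mem hh) hg, by rw [Units.val_mul, e1, ← e, kr_mul, ← e2, Units.inv_mul_cancel_left]⟩
theorem ex_inv (hA : Mem P A) : ∃ B, Mem P B ∧ A * B = 1 ∧ B * A = 1 := by
  obtain ⟨g, hg, e⟩ := hA
  obtain ⟨B, hB⟩ := ex_kr (g⁻¹).val
  exact ⟨B, ⟨_, inv_mem hg, hB.symm⟩, kr_inj (by rw [kr_mul, kr_one, hB, ← e, Units.mul_inv]),
    kr_inj (by rw [kr_mul, kr_one, hB, ← e, Units.inv_mul])⟩

theorem ch (a : M2 F) : a * a = a.trace • a - a.det • 1 := by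
  ext i j
  fin_cases i <;> fin_cases j <;> simp [Matrix.mul_apply, Fin.sum_univ_two, trace_fin_two, det_fin_two] <;> ring
theorem tr0 (h : a * a = -1) (d : a.det = 1) : a.trace = 0 := by
  have := ch a
  rw [h, d, one_smul, eq_sub_iff_add_eq, neg_add_cancel, eq_comm, smul_eq_zero] at this
  exact this.resolve_right fun e => by simp [e] at d
theorem sq_of_tr0 (h : a.trace = 0) (d : a.det = 1) : a * a = -1 := by rw [ch, h, d]; simp
/-- commuting elements of order four -/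
theorem eq_of_comm (h2 : (2 : F) ≠ 0) (h : a * a = -1) (d : a.det = 1) (h' : b * b = -1) (d' : b.det = 1) (e : a * b = b * a) :
    b = a ∨ b = -a := by
  have t := tr0 h d
  have t' := tr0 h' d'
  have e1 := congrFun₂ e 0 0
  have e2 := congrFun₂ e 0 1
  have e3 := congrFun₂ e 1 0
  rw [trace_fin_two] at t t'
  rw [det_fin_two] at d d'
  rw [eta_fin_two a, eta_fin_two b]
  simp only [Matrix.mul_apply, Fin.sum_univ_two] at e1 e2 e3
  simp only [eq_neg_of_add_eq_zero_right t, eq_neg_of_add_eq_zero_right t'] at e1 e2 e3 d d' ⊢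
  clear t t' h h' e
  generalize a 0 0 = x, a 0 1 = y, a 1 0 = z, b 0 0 = u, b 0 1 = v, b 1 0 = w at *
  have f2 : x * v = y * u := mul_left_cancel₀ h2 (by linear_combination e2)
  have f3 : x * w = z * u := mul_left_cancel₀ h2 (by linear_combination -e3)
  obtain ⟨s, s1, rfl, rfl, rfl⟩ : ∃ s, s * s = 1 ∧ u = s * x ∧ v = s * y ∧ w = s * z := ⟨-(x * u + y * w), by grind, by grind,
    by grind, by grind⟩
  rcases mul_self_eq_one_iff.1 s1 with rfl | rfl <;> simp

variable (P) in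
/-- what the configuration gives -/
structure Kt : Prop where
  two : (2 : F) ≠ 0
  neg : -1 ∈ P
  s1 : Mem P sw
  s2 : Mem P sw'
  t1 : Mem P (bl (-1) 1 1)
  sp : P ≤ S6 F
  ntv : NoTv P

theorem det_of (h : P ≤ S6 F) (m : Mem P (bl a b c)) : a.det = 1 := by
  obtain ⟨g, hg, e⟩ := m
  have := mem_S6.1 (h hg) (Pi.single (.inr 0) 1) (Pi.single (.inl 0) 1)
  rw [e] at this
  rw [fm_ap, mulVec_single_one, mulVec_single_one, Fin.sum_univ_three] at this
  change a 1 1 * a 0 0 - a 0 1 * a 1 0 + (0 * 0 - 0 * 0) + (0 * 0 - 0 * 0) = _ at this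
  rw [det_fin_two]
  simp [fm_ap, Fin.sum_univ_three] at this
  linear_combination this

namespace Kt
variable (k : Kt P)
include k
theorem p01 (m : Mem P (bl a b c)) : Mem P (bl b a c) := cancel_r (k.s1.mul m) k.s1 sw_bl.symm
theorem p12 (m : Mem P (bl a b c)) : Mem P (bl a c b) := cancel_r (k.s2.mul m) k.s2 sw_bl'.symm
theorem p02 (m : Mem P (bl a b c)) : Mem P (bl c b a) := k.p01 (k.p12 (k.p01 m))
theorem ng (m : Mem P A) : Mem P (-A) := by
  obtain ⟨g, hg, e⟩ := m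
  exact ⟨-1 * g, mul_mem k.neg hg, by rw [kr_neg, ← e]; simp⟩
theorem d0 (m : Mem P (bl a b c)) : a.det = 1 := det_of k.sp m
theorem d1 (m : Mem P (bl a b c)) : b.det = 1 := k.d0 (k.p01 m)
theorem d2 (m : Mem P (bl a b c)) : c.det = 1 := k.d0 (k.p02 m)
omit k in
theorem mul (m : Mem P (bl a b c)) (m' : Mem P (bl a' b' c')) : Mem P (bl (a * a') (b * b') (c * c')) := by
  rw [← bl_mul]; exact m.mul m'
omit k in
theorem k_mul (m : Mem P (bl a 1 1)) (m' : Mem P (bl a' 1 1)) : Mem P (bl (a * a') 1 1) := by simpa using mul m m'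
theorem k_neg (m : Mem P (bl a 1 1)) : Mem P (bl (-a) 1 1) := by simpa using mul k.t1 m
omit k in
theorem inv (m : Mem P (bl a b c)) (h1 : a * a' = 1) (h2 : b * b' = 1) (h3 : c * c' = 1) : Mem P (bl a' b' c') :=
  m.inv (by rw [bl_mul, h1, h2, h3, bl_one])
/-- `b a⁻¹ ∈ Ph` -/
theorem ph (m : Mem P (bl a b c)) (h1 : a * a' = 1) (h2 : b * b' = 1) (h3 : c * c' = 1) : Mem P (bl (a * b') (b * a') 1) :=
  h3 ▸ mul m (k.p01 (inv m h1 h2 h3))
omit k in
/-- `a` normalises `K` -/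
theorem nrm (m : Mem P (bl a b c)) {x y : M2 F} (hx : Mem P (bl x 1 1)) (e : a * x = y * a) : Mem P (bl y 1 1) :=
  cancel_r (m.mul hx) m (by rw [bl_mul, bl_mul, e, mul_one, mul_one, one_mul, one_mul])
theorem tv (m : Mem P (bl a 1 1)) (t : a.trace = 2) : a = 1 := by
  by_contra n
  have d := k.d0 m
  obtain ⟨g, hg, e⟩ := m
  refine k.ntv g hg ?_
  rw [trace_fin_two] at t
  rw [det_fin_two] at d
  obtain ⟨u, v, h⟩ : ∃ u v : Fin 2 → F, a - 1 = vecMulVec u v := by
    by_cases h : a 0 1 = 0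
    · have : a 0 0 = 1 := sub_eq_zero.1 (mul_self_eq_zero.1 (by rw [h] at d; linear_combination a 0 0 * t - d))
      refine ⟨![0, 1], ![a 1 0, 0], ?_⟩
      ext i j; fin_cases i <;> fin_cases j <;> simp [vecMulVec_apply, h, this]
      linear_combination t - this
    refine ⟨![1, (1 - a 0 0) / a 0 1], ![a 0 0 - 1, a 0 1], ?_⟩
    ext i j; fin_cases i <;> fin_cases j <;> simp [vecMulVec_apply] <;> field_simp
    · linear_combination a 0 0 * t - d
    · linear_combination t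
  have e1 : g.val - 1 = kr (bl (a - 1) 0 0) := by
    rw [e, ← kr_one, ← kr_sub, ← bl_one]
    congr 1
    refine Matrix.ext fun i j => ?_
    fin_cases i <;> fin_cases j <;> simp [bl]
  have e2 : g.val - 1 = vecMulVec (fun s => if (sd s).1 = 0 then u (sd s).2 else 0) fun s =>
      if (sd s).1 = 0 then v (sd s).2 else 0 := by
    rw [e1, h]
    ext s t
    rw [kr, of_apply, vecMulVec_apply]
    generalize sd s = s, sd t = t
    obtain ⟨i, s⟩ := s
    obtain ⟨j, t⟩ := t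
    fin_cases i <;> fin_cases j
    exacts [rfl, (mul_zero _).symm, (mul_zero _).symm, (zero_mul _).symm, (mul_zero _).symm, (mul_zero _).symm,
      (zero_mul _).symm, (mul_zero _).symm, (mul_zero _).symm]
  refine le_antisymm (by rw [rk, e2]; exact rank_vecMulVec_le _ _) (Nat.pos_of_ne_zero fun r => n ?_)
  have : g.val - 1 = 0 := Matrix.toLin'.injective (by
    rw [map_zero, toLin'_apply', ← LinearMap.range_eq_bot]; exact Submodule.finrank_eq_zero.1 r)
  exact sub_eq_zero.1 (congrFun₂ (kr_inj (B := 0) (e1.symm.trans this)) 0 0)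
end Kt

theorem sq' (h : a * a = -1) (x : M2 F) : a * (a * x) = -x := by rw [← mul_assoc, h, neg_one_mul]
theorem an (h : a * b = -(b * a)) : b * a = -(a * b) := by rw [h, neg_neg]
theorem an' (h : a * b = -(b * a)) (x : M2 F) : b * (a * x) = -(a * (b * x)) := by rw [← mul_assoc, an h, neg_mul, mul_assoc]
end

/-- expand products of blocks -/
macro "qx" "[" ls:Lean.Parser.Tactic.simpLemma,* "]" : tactic => `(tactic| simp only [mul_add, add_mul, mul_sub, sub_mul,
  smul_mul_assoc, mul_smul_comm, mul_assoc, mul_one, one_mul, neg_mul, mul_neg, neg_neg, mul_zero, zero_mul, add_zero, zero_add,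
  $ls,*])
macro "qs" "[" ls:Lean.Parser.Tactic.simpLemma,* "]" : tactic => `(tactic| (qx [$ls,*] <;> match_scalars <;> field_simp <;> ring))
macro "qm" "[" ls:Lean.Parser.Tactic.simpLemma,* "]" : tactic => `(tactic| (
  simp only [bl, rf, sw, sw', Matrix.mul_fin_three, Matrix.one_fin_three]
  refine m3 ?_ ?_ ?_ ?_ ?_ ?_ ?_ ?_ ?_ <;> qs [$ls,*]))

section
variable {F : Type u} [Field F] {P S : Subgroup (G6 F)} {κ a : M2 F}

theorem kt_of {G : Type u} [Group G] {π : P →* G} (h2 : (2 : F) ≠ 0) (r : Rp P π) (c : Cf P S) : Kt P := by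
  obtain ⟨g, hg, e⟩ := c.cj
  obtain ⟨A, hA⟩ := ex_kr g.val
  have m : Mem P A := ⟨g, hg, hA.symm⟩
  exact ⟨h2, c.neg, c.s1, c.s2, cancel_r (m.mul c.s1) m (kr_inj (by rw [kr_mul, kr_mul, hA, e])), r.sp, r.ntv⟩

theorem rf_inv (h2 : (2 : F) ≠ 0) (h : κ * κ = -1) : rf κ * rf (-κ) = 1 := by qm [h]
theorem rf_sq (h2 : (2 : F) ≠ 0) (h : κ * κ = -1) : rf κ * rf κ = sw := by qm [h]
theorem rf_ph (k : Kt P) (h : κ * κ = -1) (m : Mem P (rf κ)) : Mem P (bl (-κ) κ 1) := by
  have := k.two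
  exact cancel_r (cancel_r (m.mul k.t1) m (C := bl (-κ) κ 1 * sw) (by qm [h])) k.s1 rfl
theorem rf_cj (k : Kt P) (h : κ * κ = -1) (m : Mem P (rf κ)) (ma : Mem P (bl a 1 1)) :
    Mem P (rf ((2 : F)⁻¹ • ((1 + κ) * a * (1 - κ)))) := by
  have := k.two
  have d := k.p02 (rf_ph k h m)
  exact cancel_l (cancel_r (m.mul ma) (Mem.mul (d.inv (B := bl 1 (-κ) κ) (by qm [h])) m)
    (C := bl 1 κ (-κ) * rf ((2 : F)⁻¹ • ((1 + κ) * a * (1 - κ)))) (by qm [h, sq' h])) d rfl

theorem ph_iff {φ : SL(2, F)} : φ ∈ Ph P ↔ ∀ ψ, ψ * φ.1 = 1 → Mem P (bl ψ φ.1 1) := by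
  have e : (φ⁻¹).1 * φ.1 = 1 := congrArg Subtype.val (inv_mul_cancel φ)
  refine ⟨fun h ψ k => ?_, fun h => h _ e⟩
  rwa [show ψ = (φ⁻¹).1 from left_inv_eq_left_inv k e]

theorem ent {A B : M32 F} (h : A = B) (i j : Fin 3) : A i j = B i j := congrFun₂ h i j
end

theorem ca2 : CA2.{u} := by
  intro F G _ _ _ P S π h2 r c
  have k := kt_of h2 r c
  obtain ⟨g, hg, e⟩ := c.cj
  obtain ⟨A, hA⟩ := ex_kr g.val
  have m : Mem P A := ⟨g, hg, hA.symm⟩
  replace e : A * sw = bl (-1) 1 1 * A := kr_inj (by rw [kr_mul, kr_mul, hA, e])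
  obtain ⟨B, mB, ab, ba⟩ := ex_inv m
  have e' : sw * B = B * bl (-1) 1 1 := by
    rw [← one_mul (sw * B), ← ba, mul_assoc, ← mul_assoc A, e, mul_assoc, ab, mul_one]
  have dv : ∀ x y : M2 F, x + x = y + y → x = y := fun x y h => smul_right_injective _ h2 (by simpa [two_smul] using h)
  have f1 : ∀ κ : M2 F, κ * κ = -1 → Mem P (rf κ) → ∃ a ∈ O4 P, A * rf κ * B = bl a 1 1 := fun κ h mκ => by
    have a1 : A * rf κ * B * bl (-1) 1 1 + A * rf κ * B = bl (-1) 1 1 + 1 := by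
      rw [mul_assoc _ B, ← e', ← mul_assoc, ← add_mul, mul_assoc A, ← mul_add, show rf κ * sw + rf κ = sw + 1 by
        simp only [rf, sw, Matrix.mul_fin_three, Matrix.one_fin_three, of_add_of, cons_add_cons, empty_add_empty]
        refine m3 ?_ ?_ ?_ ?_ ?_ ?_ ?_ ?_ ?_ <;> qs [], mul_add, e, add_mul, mul_one, mul_assoc, ab, mul_one]
    have a2 : bl (-1) 1 1 * (A * rf κ * B) + A * rf κ * B = bl (-1) 1 1 + 1 := by
      rw [← mul_assoc, ← mul_assoc, ← e, ← add_mul, mul_assoc A, ← mul_add, show sw * rf κ + rf κ = sw + 1 by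
        simp only [rf, sw, Matrix.mul_fin_three, Matrix.one_fin_three, of_add_of, cons_add_cons, empty_add_empty]
        refine m3 ?_ ?_ ?_ ?_ ?_ ?_ ?_ ?_ ?_ <;> qs [], mul_add, e, add_mul, mul_one, mul_assoc, ab, mul_one]
    have a3 : A * rf κ * B * (A * rf κ * B) = bl (-1) 1 1 := by
      rw [mul_assoc _ B, ← mul_assoc B, ← mul_assoc B, ba, one_mul, ← mul_assoc, mul_assoc A, rf_sq h2 h, e, mul_assoc, ab,
        mul_one]
    have a4 := (m.mul mκ).mul mB
    generalize A * rf κ * B = Y at *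
    have : Y = bl (Y 0 0) 1 1 := by
      rw [eta_fin_three Y] at a1 a2
      simp only [bl, Matrix.mul_fin_three, Matrix.one_fin_three, of_add_of, cons_add_cons, empty_add_empty, mul_zero, zero_mul,
        add_zero, zero_add, mul_one, one_mul] at a1 a2
      refine (eta_fin_three Y).trans (m3 rfl ?_ ?_ ?_ ?_ ?_ ?_ ?_ ?_) <;> apply dv
      exacts [(ent a1 0 1).trans (add_zero _).symm, (ent a1 0 2).trans (add_zero _).symm, (ent a2 1 0).trans (add_zero _).symm,
        ent a1 1 1, (ent a1 1 2).trans (add_zero _).symm, (ent a2 2 0).trans (add_zero _).symm,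
        (ent a1 2 1).trans (add_zero _).symm, ent a1 2 2]
    rw [this] at a3 a4
    exact ⟨_, ⟨(bl_inj (bl_mul.symm.trans a3)).1, a4⟩, this⟩
  obtain ⟨κ₀, h0, m0⟩ : ∃ κ : M2 F, κ * κ = -1 ∧ Mem P (rf κ) := by
    obtain ⟨a, h, ma⟩ := c.o4
    have a1 : B * bl a 1 1 * A * sw + B * bl a 1 1 * A = sw + 1 := by
      rw [mul_assoc _ A, e, ← mul_assoc, ← add_mul, mul_assoc B, ← mul_add, show bl a 1 1 * bl (-1) 1 1 + bl a 1 1 =
        bl (-1) 1 1 + 1 by simp [bl, Matrix.one_fin_three], mul_add, ← e', add_mul, mul_one, mul_assoc, ba, mul_one]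
    have a2 : sw * (B * bl a 1 1 * A) + B * bl a 1 1 * A = sw + 1 := by
      rw [← mul_assoc, ← mul_assoc, e', ← add_mul, mul_assoc B, ← mul_add, show bl (-1) 1 1 * bl a 1 1 + bl a 1 1 =
        bl (-1) 1 1 + 1 by simp [bl, Matrix.one_fin_three], mul_add, ← e', add_mul, mul_one, mul_assoc, ba, mul_one]
    have a3 : B * bl a 1 1 * A * (B * bl a 1 1 * A) = sw := by
      rw [mul_assoc _ A, ← mul_assoc A, ← mul_assoc A, ab, one_mul, ← mul_assoc, mul_assoc B, bl_mul, h, mul_one, ← e',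
        mul_assoc, ba, mul_one]
    have a4 := (mB.mul ma).mul m
    generalize B * bl a 1 1 * A = Y at *
    have : Y = rf ((2 : F) • Y 0 0 - 1) := by
      rw [eta_fin_three Y] at a1 a2
      simp only [sw, Matrix.mul_fin_three, Matrix.one_fin_three, of_add_of, cons_add_cons, empty_add_empty, mul_zero, zero_mul,
        add_zero, zero_add, mul_one, one_mul] at a1 a2
      have b1 : Y 0 1 = 1 - Y 0 0 := eq_sub_of_add_eq (ent a1 0 0)
      have b2 : Y 1 0 = 1 - Y 0 0 := eq_sub_of_add_eq (ent a2 0 0)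
      have b3 : Y 1 1 = 1 - Y 1 0 := eq_sub_of_add_eq (ent a1 1 0)
      have b4 : Y 0 2 = 0 := dv _ _ ((ent a1 0 2).trans (add_zero _).symm)
      have b5 : Y 2 0 = 0 := dv _ _ ((ent a2 2 0).trans (add_zero _).symm)
      refine (eta_fin_three Y).trans (m3 ?_ ?_ b4 ?_ ?_ (dv _ _ ((ent a1 1 2).trans (add_zero _).symm)) b5
        (dv _ _ ((ent a2 2 1).trans (add_zero _).symm)) (dv _ _ (ent a1 2 2))) <;>
        (try simp only [b1, b2, b3]) <;> match_scalars <;> field_simp <;> ring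
    rw [this] at a3 a4
    refine ⟨_, ?_, a4⟩
    generalize (2 : F) • Y 0 0 - 1 = κ at a3
    simp only [rf, sw, Matrix.mul_fin_three] at a3
    have b := ent a3 0 0
    change _ + _ + _ = (0 : M2 F) at b
    revert b
    qx []
    intro b
    linear_combination (norm := skip) (2 : F) • b
    match_scalars <;> field_simp <;> ring
  let O' : Set (M2 F) := {κ | κ * κ = -1 ∧ Mem P (rf κ)}
  choose φ p1 p2 using fun κ : O' => f1 κ.1 κ.2.1 κ.2.2
  have c1 : Nat.card O' ≤ Nat.card (O4 P) := Nat.card_le_card_of_injective (fun κ => ⟨φ κ, p1 κ⟩) fun x y h => by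
    have : A * rf x.1 * B = A * rf y.1 * B := by rw [p2, p2, show φ x = φ y from congrArg Subtype.val h]
    have : rf x.1 = rf y.1 := by
      have := congrArg (B * · * A) this
      simpa only [mul_assoc, ba, mul_one, ← mul_assoc B A, one_mul] using this
    exact Subtype.ext (add_left_cancel (smul_right_injective _ (inv_ne_zero h2) (ent this 0 0)))
  have key : ∀ κ ∈ O', ∃ ψ : O4 P → O', Function.Bijective ψ ∧ ∀ a, (1 + κ) * a.1 = (ψ a).1 * (1 + κ) := fun κ ⟨h, mκ⟩ => by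
    have q : ∀ a : M2 F, (1 + κ) * a = (2 : F)⁻¹ • ((1 + κ) * a * (1 - κ)) * (1 + κ) := fun a => by qs [h]
    refine ⟨fun a => ⟨_, ?_, rf_cj k h mκ a.2.2⟩, Function.Injective.bijective_of_nat_card_le (fun x y e => ?_) c1, fun a => q _⟩
    · qs [h, sq' h, a.2.1, sq' a.2.1]
    have := (q x).trans ((congrArg (· * (1 + κ)) (congrArg Subtype.val e)).trans (q y).symm)
    have := congrArg (((2 : F)⁻¹ • (1 - κ)) * ·) this
    simp only [← mul_assoc, show (2 : F)⁻¹ • (1 - κ) * (1 + κ) = 1 by qs [h], one_mul] at this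
    exact Subtype.ext this
  have sub : O' ⊆ O4 P := fun κ hκ => by
    obtain ⟨ψ, b, e⟩ := key κ hκ
    obtain ⟨a, ha⟩ := b.2 ⟨κ, hκ⟩
    have := congrArg (((2 : F)⁻¹ • (1 - κ)) * ·) (e a)
    simp only [← mul_assoc, show (2 : F)⁻¹ • (1 - κ) * (1 + κ) = 1 by qs [hκ.1], one_mul, ha,
      show (2 : F)⁻¹ • (1 - κ) * κ * (1 + κ) = κ by qs [hκ.1, sq' hκ.1]] at this
    exact this ▸ a.2
  have eq : O' = O4 P := Set.eq_of_subset_of_ncard_le sub (by
    obtain ⟨ψ, b, -⟩ := key κ₀ ⟨h0, m0⟩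
    exact Nat.card_le_card_of_injective ψ b.1)
  refine ⟨fun κ => by rw [← eq]; rfl, fun κ hκ a ha => ?_⟩
  obtain ⟨ψ, -, e⟩ := key κ (eq ▸ hκ)
  exact ⟨_, sub (ψ ⟨a, ha⟩).2, e ⟨a, ha⟩⟩

theorem ca4 : CA4.{u} := by
  intro F G _ _ _ P S π h2 r c c2 κ hκ j hj jj n1 n2
  have k := kt_of h2 r c
  have h := hκ.1
  replace hj := ph_iff.1 hj _ (by rw [neg_mul, jj, neg_neg])
  have dj := j.2
  generalize j.1 = j at *
  by_contra! hc
  have an1 : κ * j = -(j * κ) := by
    have m : -(j * κ * j) ∈ O4 P := ⟨by qx [h, jj, sq' h, sq' jj], Kt.nrm (k.p01 hj) hκ.2 (by qx [jj])⟩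
    by_cases e : -(j * κ * j) = κ
    · refine absurd (eq_of_comm h2 h (k.d0 hκ.2) jj dj ?_) (not_or.2 ⟨n1, n2⟩)
      conv_lhs => rw [← e]
      qx [jj]
    · conv_lhs => rw [← neg_neg κ, ← hc _ m e]
      qx [jj]
  have mκ := ((c2.1 κ).1 hκ).2
  have d := k.p02 hj
  have d' := k.p12 (k.p02 (rf_ph k h mκ))
  have y := (d.mul mκ).mul (k.p12 d)
  have : j * κ ∈ O4 P := (c2.1 _).2 ⟨by qx [h, jj, an' an1, an an1, sq' h], cancel_l (cancel_r (y.mul mκ) ((k.p12 d').mul y)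
    (C := bl 1 (-κ) κ * rf (j * κ)) (by qm [h, jj, an' an1, an an1, sq' h, sq' jj])) d' rfl⟩
  have z : ∀ x : M2 F, x * κ = κ → x = 1 := fun x e => by
    have := congrArg (· * -κ) e
    simpa only [mul_assoc, mul_neg, h, neg_neg, mul_one] using this
  by_cases e : j * κ = κ
  · rw [z j e, mul_one, eq_neg_iff_add_eq_zero, ← two_smul F, smul_eq_zero] at jj
    simp [h2] at jj
  · have := z (-j) (by rw [neg_mul, hc _ this e, neg_neg])
    rw [← neg_mul_neg, this, mul_one, eq_neg_iff_add_eq_zero, ← two_smul F, smul_eq_zero] at jj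
    simp [h2] at jj

theorem ca6 : CA6.{u} := by
  intro F G _ _ _ P S π h2 r c c2 i hi j hj a
  have k := kt_of h2 r c
  have ii := hi.1
  have jj := hj.1
  have mi := ((c2.1 i).1 hi).2
  have mj := ((c2.1 j).1 hj).2
  have m1 : Mem P (bl ((2 : F)⁻¹ • (1 + i - j + i * j)) ((2 : F)⁻¹ • (1 - i + j + i * j)) 1) :=
    cancel_l ((k.p01 (Kt.k_mul hi.2 hj.2)).mul mi) mj (by qm [ii, jj, an' a, an a, sq' ii, sq' jj])
  have m2 := k.ph (k.p12 m1) (a' := (2 : F)⁻¹ • (1 - i + j - i * j)) (b' := 1) (c' := (2 : F)⁻¹ • (1 + i - j - i * j))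
    (by qs [ii, jj, an' a, an a, sq' ii, sq' jj]) (mul_one _) (by qs [ii, jj, an' a, an a, sq' ii, sq' jj])
  have m3 : Mem P (bl ((2 : F)⁻¹ • (-1 + i - j + i * j)) 1 1) := by
    convert k.p01 (Kt.mul (k.p01 hi.2) (Kt.mul m1 (k.p01 m2))) using 2 <;> qs [ii, jj, an' a, an a, sq' ii, sq' jj]
  refine ⟨fun h3 => ?_, m3⟩
  have t := k.tv m3 (by
    rw [trace_smul, trace_add, trace_sub, trace_add, tr0 ii (k.d0 hi.2), tr0 jj (k.d0 hj.2), tr0 (a := i * j)
      (by qx [ii, jj, an' a, an a, sq' ii]) (k.d0 (Kt.k_mul hi.2 hj.2))]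
    simp; field_simp; linear_combination -h3)
  have : (2 : F)⁻¹ • (-1 + i - j + i * j) * i + i * (2 : F)⁻¹ • (-1 + i - j + i * j) = -1 - i := by
    qs [ii, jj, an' a, an a, sq' ii, sq' jj]
  rw [t] at this
  have := congrArg trace this
  simp [tr0 ii (k.d0 hi.2)] at this
  exact h2 this

end H12.SP
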