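/-
S5806: quaternion kit and the piece `CA5`.
-/
import Cfsg.Agent.H12.SP1
import Cfsg.Agent.H12.O7b

set_option autoImplicit false
set_option linter.unusedSectionVars false

namespace H12.SP
open Matrix Cfsg H6.SP H11.SP H27 Subgroup
open scoped MatrixGroups
universe u

section
variable {F : Type u} [Field F] {P : Subgroup (G6 F)} {a b i j : M2 F}

theorem acomm (h : a.trace = 0) (h' : b.trace = 0) : a * b + b * a = (a * b).trace • 1 := by
  rw [trace_fin_two] at h h'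
  ext i j
  fin_cases i <;> fin_cases j <;> simp [Matrix.mul_apply, Fin.sum_univ_two, trace_fin_two, eq_neg_of_add_eq_zero_right h,
    eq_neg_of_add_eq_zero_right h'] <;> ring
theorem tr_an (h2 : (2 : F) ≠ 0) (d : a.det = 1) (h : a * b = -(b * a)) : b.trace = 0 := by
  have := congrArg (fun x => (a⁻¹ * x).trace) h
  simp only [mul_neg, trace_neg] at this
  rw [nonsing_inv_mul_cancel_left _ _ (d ▸ isUnit_one), trace_mul_comm, mul_nonsing_inv_cancel_right _ _ (d ▸ isUnit_one)] at this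
  exact mul_left_cancel₀ h2 (by linear_combination this)

/-- quaternion units -/
structure Qt (i j : M2 F) : Prop where
  two : (2 : F) ≠ 0
  ii : i * i = -1
  jj : j * j = -1
  a : i * j = -(j * i)
  di : i.det = 1
  dj : j.det = 1

/-- quaternion arithmetic -/
macro "qq" q:term:max : tactic => `(tactic| (
  have := Qt.two $q
  qs [Qt.ii $q, Qt.jj $q, an' (Qt.a $q), an (Qt.a $q), sq' (Qt.ii $q), sq' (Qt.jj $q)]))

namespace Qt
variable (q : Qt i j)
include q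
theorem tr (x0 x1 x2 x3 : F) : (x0 • 1 + x1 • i + x2 • j + x3 • (i * j) : M2 F).trace = 2 * x0 := by
  have := tr0 (a := i * j) (by qq q) (by rw [det_mul, q.di, q.dj, one_mul])
  simp [tr0 q.ii q.di, tr0 q.jj q.dj, this, mul_comm]
theorem ind {x0 x1 x2 x3 : F} {y : M2 F} (h : y = 0) (e : y = x0 • 1 + x1 • i + x2 • j + x3 • (i * j)) :
    x0 = 0 ∧ x1 = 0 ∧ x2 = 0 ∧ x3 = 0 := by
  rw [e] at h
  have k : ∀ (y : M2 F) (c0 c1 c2 c3 : F), y * (x0 • 1 + x1 • i + x2 • j + x3 • (i * j)) =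
      c0 • 1 + c1 • i + c2 • j + c3 • (i * j) → c0 = 0 := fun y c0 c1 c2 c3 e => by
    have := q.tr c0 c1 c2 c3
    rw [← e, h, mul_zero, trace_zero, eq_comm, mul_eq_zero] at this
    exact this.resolve_left q.two
  exact ⟨k 1 _ _ _ _ (one_mul _), k (-i) x1 (-x0) x3 (-x2) (by qq q), k (-j) x2 (-x3) (-x0) x1 (by qq q),
    k (-(i * j)) x3 x2 (-x1) (-x0) (by qq q)⟩
theorem dec (a : M2 F) : ∃ x0 x1 x2 x3 : F, a = x0 • 1 + x1 • i + x2 • j + x3 • (i * j) := by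
  have h2 := q.two
  obtain ⟨b, hb⟩ : ∃ b, b = a - (a.trace / 2) • 1 := ⟨_, rfl⟩
  have t : b.trace = 0 := by simp [hb, h2]
  have e1 := acomm (tr0 q.ii q.di) t
  have e2 := acomm (tr0 q.jj q.dj) t
  have e3 := acomm (tr0 (a := i * j) (by qq q) (by rw [det_mul, q.di, q.dj, one_mul])) t
  refine ⟨a.trace / 2, -(i * b).trace / 2, -(j * b).trace / 2, -(i * j * b).trace / 2, ?_⟩
  generalize (i * b).trace = x, (j * b).trace = y, (i * j * b).trace = z, a.trace = w at *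
  obtain rfl := eq_add_of_sub_eq hb.symm
  have f1 : b * i = x • 1 - i * b := eq_sub_of_add_eq' e1
  have f2 : b * j = y • 1 - j * b := eq_sub_of_add_eq' e2
  have := congrArg (((2 : F)⁻¹ • (-(i * j))) * ·) e3
  rw [← mul_assoc b, f1, sub_mul, mul_assoc i b, f2] at this
  revert this
  qx [q.ii, q.jj, an' q.a, an q.a, sq' q.ii, sq' q.jj]
  intro this
  linear_combination (norm := skip) this
  match_scalars <;> field_simp <;> ring
end Qt

variable (P) in
/-- the first block -/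
def KG : Subgroup (GL (Fin 2) F) where
  carrier := {a | Mem P (bl a.1 1 1)}
  one_mem' := by change Mem P (bl 1 1 1); rw [bl_one]; exact mem_one
  mul_mem' := Kt.k_mul
  inv_mem' {a} h := Kt.inv h a.mul_inv (mul_one _) (mul_one _)

theorem ex_gl (d : a.det ≠ 0) : ∃ A : GL (Fin 2) F, A.1 = a := ⟨GeneralLinearGroup.mkOfDetNeZero a d, rfl⟩
theorem tc_eq (A : GL (Fin 2) F) : tc A = A.1.trace := (trace_fin_two _).symm
theorem dt_eq (A : GL (Fin 2) F) : dt A = A.1.det := (det_fin_two _).symm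

namespace Kt
variable (k : Kt P)
include k
theorem pm (m : Mem P (bl a 1 1)) (t : a.trace ^ 2 = 4) : a = 1 ∨ a = -1 := by
  rcases sq_eq_sq_iff_eq_or_eq_neg.1 (t.trans (by norm_num : (4 : F) = 2 ^ 2)) with e | e
  · exact .inl (k.tv m e)
  · exact .inr (neg_eq_iff_eq_neg.1 (k.tv (k.k_neg m) (by rw [trace_neg, e, neg_neg])))
theorem gl (m : Mem P (bl a 1 1)) : ∃ A ∈ KG P, A.1 = a := by
  obtain ⟨A, rfl⟩ := ex_gl ((k.d0 m).trans_ne one_ne_zero); exact ⟨A, m, rfl⟩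
theorem pg_eq {A B : GL (Fin 2) F} (hA : A ∈ KG P) (hB : B ∈ KG P) (e : pgm A = pgm B) : A.1 = B.1 ∨ A.1 = -B.1 := by
  obtain ⟨c, -, h⟩ := (pg_mk_eq_mk_iff _ _).1 e.symm
  have e : A.1 = c • B.1 := by ext i j; exact h i j
  have := k.d0 hA
  rw [e, det_smul, k.d0 hB] at this
  rcases sq_eq_one_iff.1 (by simpa using this : c ^ 2 = 1) with rfl | rfl <;> simp [e]
omit k in
theorem pg_pm {A B : GL (Fin 2) F} (e : A.1 = B.1 ∨ A.1 = -B.1) : pgm A = pgm B :=
  ((pg_mk_eq_mk_iff _ _).2 (e.elim (fun e => ⟨1, one_ne_zero, by simp [e]⟩) fun e => ⟨-1, by simp, by simp [e]⟩)).symm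
theorem no_p [Fintype F] (p : ℕ) [Fact p.Prime] [CharP F p] {g : PG F} (hg : g ∈ (KG P).map pgm) (e : g ^ p = 1) : g = 1 := by
  obtain ⟨A, hA, rfl⟩ := hg
  by_contra n
  obtain ⟨s, x, y, z, -, h, -, e1, e2, e3, e4⟩ := exists_nilp p e n
  have d := k.d0 hA
  rw [det_fin_two, e1, e2, e3, e4] at d
  exact n (pg_pm (B := 1) (k.pm hA (by rw [trace_fin_two, e1, e4]; linear_combination 4 * d + 4 * s ^ 2 * h)))
theorem o4 {A : GL (Fin 2) F} (hA : A ∈ KG P) (e : pgm A * pgm A = 1) (n : pgm A ≠ 1) : A.1 ∈ O4 P := by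
  refine ⟨(k.pg_eq (mul_mem hA hA) (one_mem _) e).resolve_left fun e => n (pg_pm (B := 1) (k.pm hA ?_)), hA⟩
  have := ch A.1
  rw [show A.1 * A.1 = 1 from e, k.d0 hA] at this
  have := congrArg trace this
  simp at this
  linear_combination -this
theorem qt (hi : i ∈ O4 P) (hj : j ∈ O4 P) (h : i * j = -(j * i)) : Qt i j := ⟨k.two, hi.1, hj.1, h, k.d0 hi.2, k.d0 hj.2⟩
/-- two commuting involutions -/
theorem klein {x y : (KG P).map pgm} (x2 : x * x = 1) (y2 : y * y = 1) (x1 : x ≠ 1) (y1 : y ≠ 1) (n : x ≠ y)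
    (c : x * y = y * x) : ∃ i ∈ O4 P, ∃ j ∈ O4 P, i * j = -(j * i) := by
  obtain ⟨_, A, hA, rfl⟩ := x
  obtain ⟨_, B, hB, rfl⟩ := y
  simp only [ne_eq, Subtype.ext_iff] at x2 y2 x1 y1 n c
  have a := k.o4 hA x2 x1
  have b := k.o4 hB y2 y1
  exact ⟨_, a, _, b, (k.pg_eq (mul_mem hA hB) (mul_mem hB hA) c).resolve_left fun e =>
    n (pg_pm (eq_of_comm k.two b.1 (k.d0 hB) a.1 (k.d0 hA) e.symm))⟩
end Kt
end

theorem kl_of {H K : Type*} [Group H] [Group K] (e : H ≃* K) {x y : K} (h : x * x = 1 ∧ y * y = 1 ∧ x ≠ 1 ∧ y ≠ 1 ∧ x ≠ y ∧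
    x * y = y * x) : ∃ x y : H, x * x = 1 ∧ y * y = 1 ∧ x ≠ 1 ∧ y ≠ 1 ∧ x ≠ y ∧ x * y = y * x :=
  ⟨e.symm x, e.symm y, by simpa only [← map_mul, ← map_one e.symm, ne_eq, e.symm.apply_eq_iff_eq] using h⟩

theorem not_dvd {G : Type*} [Group G] [Finite G] {H : Subgroup G} {p : ℕ} [Fact p.Prime] (h : ∀ g ∈ H, g ^ p = 1 → g = 1) :
    ¬ p ∣ Nat.card H := fun d => by
  obtain ⟨x, hx⟩ := exists_prime_orderOf_dvd_card' p d
  have := h x x.2 (by rw [← hx]; exact congrArg Subtype.val (pow_orderOf_eq_one x))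
  rw [show x = 1 from Subtype.ext this, orderOf_one] at hx
  exact (Fact.out : p.Prime).one_lt.ne hx

theorem ca5 : CA5.{u} := by
  intro F G _ _ _ P S π h2 r c c2 κ hκ a ha n1 n2
  have k := kt_of h2 r c
  obtain ⟨p, hp⟩ := CharP.exists F
  have hp' : Fact p.Prime := ⟨CharP.char_is_prime F p⟩
  have nd := not_dvd fun g hg => k.no_p p (g := g) hg
  obtain ⟨b, hb, e⟩ := c2.2 κ hκ a ha
  have kk := hκ.1
  obtain ⟨α, β, rfl, an1⟩ : ∃ (α : F) (β : M2 F), a = α • κ + β ∧ κ * β = -(β * κ) := by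
    have := acomm (tr0 kk (k.d0 hκ.2)) (tr0 ha.1 (k.d0 ha.2))
    refine ⟨-(κ * a).trace / 2, a - (-(κ * a).trace / 2) • κ, by abel, ?_⟩
    generalize (κ * a).trace = t at this
    rw [mul_sub, eq_sub_of_add_eq this]
    qs [kk]
  obtain rfl : b = α • κ + κ * β := by
    have := congrArg (· * (2 : F)⁻¹ • (1 - κ)) e
    simp only [mul_assoc b, show (1 + κ) * (2 : F)⁻¹ • (1 - κ) = 1 by qs [kk], mul_one] at this
    rw [← this]
    qs [kk, sq' kk, an an1, an' an1]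
  have bb : β * β = (α ^ 2 - 1) • 1 := by
    have := ha.1
    revert this
    qx [kk, an an1]
    intro this
    linear_combination (norm := skip) this
    match_scalars <;> ring
  by_contra hc
  have d := k.d0 (Kt.k_mul hκ.2 ha.2)
  have nc : ∀ ε : F, ε = 1 ∨ ε = -1 → κ * (α • κ + β) * (κ * (α • κ + κ * β)) ≠ ε • (κ * (α • κ + κ * β) * (κ * (α • κ + β))) := by
    have t : (κ * (α • κ + β)).trace = -2 * α := by
      rw [mul_add, trace_add, tr_an h2 (k.d0 hκ.2) (b := κ * β) (by qx [kk, sq' kk, an an1, an' an1])]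
      simp [kk, mul_comm]
    rintro ε (rfl | rfl) e
    · have : (2 * (α ^ 2 - 1)) • κ = 0 := by
        revert e
        qx [kk, sq' kk, an an1, an' an1, bb]
        intro e
        linear_combination (norm := skip) -e
        match_scalars <;> ring
      rw [smul_eq_zero, mul_eq_zero, or_iff_right h2] at this
      have := k.pm (Kt.k_mul hκ.2 ha.2) (by
        rw [t]; linear_combination 4 * this.resolve_right fun e => by simp [e] at kk)
      rcases this with e | e <;> have := congrArg (-κ * ·) e <;> simp only [neg_mul, sq' kk, neg_neg, mul_one, mul_neg] at this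
      exacts [n2 this, n1 this]
    · have := tr_an h2 (k.d0 (Kt.k_mul hκ.2 hb.2)) (b := κ * (α • κ + β)) (by rw [e, neg_one_smul, neg_neg])
      rw [t, mul_eq_zero, or_iff_right (neg_ne_zero.2 h2)] at this
      exact hc ⟨κ, hκ, _, ha, by simpa [this] using an1⟩
  obtain ⟨K, mK, eK⟩ := k.gl hκ.2
  obtain ⟨A, mA, eA⟩ := k.gl ha.2
  obtain ⟨B, mB, eB⟩ := k.gl hb.2
  have s : ∀ A ∈ KG P, A.1 ∈ O4 P → pgm A * pgm A = 1 ∧ pgm A ≠ 1 := fun A m h => ⟨Kt.pg_pm (A := A * A) (B := 1) (.inr h.1), fun e => by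
    have := h.1
    rcases k.pg_eq m (one_mem _) e with e | e <;> rw [e] at this <;>
      simpa [eq_neg_iff_add_eq_zero, ← two_smul F, h2] using this⟩
  have sK := s K mK (eK ▸ hκ)
  have sA := s A mA (eA ▸ ha)
  have sB := s B mB (eB ▸ hb)
  have cm : pgm K * pgm A * (pgm K * pgm B) ≠ pgm K * pgm B * (pgm K * pgm A) := fun e => by
    have := k.pg_eq (mul_mem (mul_mem mK mA) (mul_mem mK mB)) (mul_mem (mul_mem mK mB) (mul_mem mK mA)) e
    simp only [Units.val_mul, eK, eA, eB] at this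
    exact this.elim (fun e => nc 1 (.inl rfl) (by rwa [one_smul])) fun e => nc (-1) (.inr rfl) (by rwa [neg_one_smul])
  have kl : ∀ x y : (KG P).map pgm, ¬ (x * x = 1 ∧ y * y = 1 ∧ x ≠ 1 ∧ y ≠ 1 ∧ x ≠ y ∧ x * y = y * x) :=
    fun x y ⟨h1, h2, h3, h4, h5, h6⟩ => hc (k.klein h1 h2 h3 h4 h5 h6)
  have kl' : ∀ {L : Type} [Group L] (_ : (KG P).map pgm ≃* L) (x y : L),
      ¬ (x * x = 1 ∧ y * y = 1 ∧ x ≠ 1 ∧ y ≠ 1 ∧ x ≠ y ∧ x * y = y * x) := fun e x y h =>
    let ⟨x, y, h⟩ := kl_of e h; kl x y h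
  let x : (KG P).map pgm := ⟨_, K, mK, rfl⟩
  let y : (KG P).map pgm := ⟨_, A, mA, rfl⟩
  let z : (KG P).map pgm := ⟨_, B, mB, rfl⟩
  rcases dickson_hom p ((KG P).map pgm).subtype (subtype_injective _) with ⟨k1, -⟩ | ⟨k1, -⟩ | ⟨o, -, k1, k2⟩ |
    ⟨-, ⟨⟨e⟩⟩ | ⟨⟨e⟩⟩ | ⟨⟨e⟩⟩⟩ | ⟨-, ⟨e⟩⟩ | ⟨-, F₀, k0, k3, -⟩
  · exact cm (congrArg Subtype.val (k1.commutative.is_comm.comm (x * y) (x * z)))
  · exact nd k1
  · have cz : ∀ u ∈ zpowers o, ∀ v ∈ zpowers o, u * v = v * u := by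
      rintro _ ⟨m, rfl⟩ _ ⟨n, rfl⟩; exact zpow_mul_comm o m n
    have ce : ∀ u v, u * u = 1 → v * v = 1 → u ∈ zpowers o ∨ v ∈ zpowers o → u * v = v * u := fun u v hu hv h => by
      by_cases h' : u ∈ zpowers o ∧ v ∈ zpowers o
      · exact cz u h'.1 v h'.2
      rw [← inv_eq_of_mul_eq_one_left (k2 (u * v) fun e => h' ((mul_mem_iff_of_index_two k1).1 e |> fun e => by tauto)),
        _root_.mul_inv_rev, inv_eq_of_mul_eq_one_left hu, inv_eq_of_mul_eq_one_left hv]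
    have out : ∀ (A : GL (Fin 2) F) (m : A ∈ KG P), pgm A * pgm A = 1 ∧ pgm A ≠ 1 →
        x * ⟨_, A, m, rfl⟩ ∈ zpowers o ∨ x ∈ zpowers o ∧ x = ⟨_, A, m, rfl⟩ := fun A m h => by
      by_contra! hc
      have := (mul_mem_iff_of_index_two k1).not.1 hc.1
      refine kl x ⟨_, A, m, rfl⟩ ⟨Subtype.ext sK.1, Subtype.ext h.1, fun e => sK.2 (congrArg Subtype.val e),
        fun e => h.2 (congrArg Subtype.val e), fun e => ?_, ce _ _ (Subtype.ext sK.1) (Subtype.ext h.1) (by tauto)⟩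
      exact this (by rw [← e])
    rcases out A mA sA with e | e
    · rcases out B mB sB with e' | e'
      · exact cm (congrArg Subtype.val (cz _ e _ e'))
      · exact cm (by rw [← show pgm K = pgm B from congrArg Subtype.val e'.2, sK.1, mul_one, one_mul])
    · exact cm (by rw [← show pgm K = pgm A from congrArg Subtype.val e.2, sK.1, mul_one, one_mul])
  · exact kl' e ⟨Equiv.swap 0 1 * Equiv.swap 2 3, Equiv.Perm.mem_alternatingGroup.2 (by decide)⟩
      ⟨Equiv.swap 0 2 * Equiv.swap 1 3, Equiv.Perm.mem_alternatingGroup.2 (by decide)⟩ (by decide)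
  · exact kl' e (Equiv.swap 0 1) (Equiv.swap 2 3) (by decide)
  · exact kl' e ⟨Equiv.swap 0 1 * Equiv.swap 2 3, Equiv.Perm.mem_alternatingGroup.2 (by decide)⟩
      ⟨Equiv.swap 0 2 * Equiv.swap 1 3, Equiv.Perm.mem_alternatingGroup.2 (by decide)⟩ (by decide)
  · exact kl' e ⟨Equiv.swap 0 1 * Equiv.swap 2 3, Equiv.Perm.mem_alternatingGroup.2 (by decide)⟩
      ⟨Equiv.swap 0 2 * Equiv.swap 1 3, Equiv.Perm.mem_alternatingGroup.2 (by decide)⟩ (by decide)
  · rw [Nat.factorization_eq_zero_of_not_dvd nd, pow_zero] at k3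
    omega

end H12.SP
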