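/-
S5806: the piece `CA7`.
-/
import Cfsg.Agent.H12.SP2

set_option autoImplicit false
set_option linter.unusedSectionVars false

namespace H12.SP
open Matrix Cfsg H6.SP H11.SP H27 Subgroup
open scoped MatrixGroups
universe u

theorem ext2 {G : Type*} [Group G] (N : Subgroup G) (r : G) (hr : r * r ∈ N) (hn : ∀ n ∈ N, r * n * r⁻¹ ∈ N) :
    ∃ H : Subgroup G, N ≤ H ∧ r ∈ H ∧ ∀ g ∈ H, g * g ∈ N := by
  have hn' : ∀ n ∈ N, r⁻¹ * n * r ∈ N := fun n h => by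
    convert mul_mem (mul_mem (inv_mem hr) (hn n h)) hr using 1; group
  have k : ∀ g h, g * r ∈ N → h * r ∈ N → g * h ∈ N := fun g h a b => by
    convert mul_mem (mul_mem a (hn' _ b)) (inv_mem hr) using 1; group
  refine ⟨⟨⟨⟨{g | g ∈ N ∨ g * r ∈ N}, ?_⟩, .inl (one_mem _)⟩, ?_⟩, fun _ h => .inl h, .inr hr, ?_⟩
  · rintro g h (a | a) (b | b)
    exacts [.inl (mul_mem a b), .inr (mul_assoc g h r ▸ mul_mem a b), .inr (by convert mul_mem a (hn' _ b) using 1; group),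
      .inl (k g h a b)]
  · rintro g (a | a)
    exacts [.inl (inv_mem a), .inr (by convert mul_mem (hn _ (inv_mem a)) hr using 1; group)]
  · rintro g (a | a)
    exacts [mul_mem a a, k g g a a]

theorem alg6 {F : Type*} [Field F] (h2 : (2 : F) ≠ 0) (h3 : (3 : F) ≠ 0) (h4 : (4 : F) ≠ 0) {X Y Z : F}
    (a : X = 0 ∨ X = 1 ∨ X = 2) (b : Y = 0 ∨ Y = 1 ∨ Y = 2) (c : Z = 0 ∨ Z = 1 ∨ Z = 2) (n : X + Y + Z = 4)
    (k1 : X = 2 → Y ≠ Z) (k2 : Y = 2 → X ≠ Z) (k3 : Z = 2 → X ≠ Y) : X ≠ 1 ∧ Y ≠ 1 ∧ (X = 2 ∨ Y = 2) := by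
  have h : (2 : F) ≠ 1 := fun e => one_ne_zero (α := F) (by linear_combination e)
  rcases a with rfl | rfl | rfl <;> rcases b with rfl | rfl | rfl <;> rcases c with rfl | rfl | rfl <;>
    first | exact (k1 rfl rfl).elim | exact (k2 rfl rfl).elim | exact (k3 rfl rfl).elim | exact absurd (by linear_combination -n) h2 | exact absurd (by linear_combination -n) h3 | exact absurd (by linear_combination -n) h4 | exact absurd (by linear_combination -n) (one_ne_zero (α := F)) | exact absurd (by linear_combination n) (one_ne_zero (α := F)) | simp [h]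

theorem alg7 {F : Type*} [Field F] (h2 : (2 : F) ≠ 0) (h3 : (3 : F) ≠ 0) {W : F → Prop} (hW : ∀ t, W t → t ^ 2 = 0 ∨ t ^ 2 = 1 ∨ t ^ 2 = 2)
    {x y z : F} (n : x ^ 2 + y ^ 2 + z ^ 2 = 1) (a : W (2 * x)) (b : W (2 * y)) (c : W (2 * z)) (d1 : W (x + y + z))
    (d2 : W (x + y - z)) (d3 : W (x - y + z)) (_ : W (-x + y + z)) :
    4 * x ^ 2 ≠ 1 ∧ 4 * y ^ 2 ≠ 1 ∧ (2 * x ^ 2 = 1 ∨ 2 * y ^ 2 = 1) := by
  have h : ∀ t, 2 * t ^ 2 = 1 → ¬ W t := fun t e w => by have := hW t w; grind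
  have k : ∀ x y z, 2 * x ^ 2 = 1 → y ^ 2 = z ^ 2 → W (x + y + z) → ¬ W (x + y - z) := fun x y z e e' w1 w2 => by
    rcases sq_eq_sq_iff_eq_or_eq_neg.1 e' with rfl | rfl
    · exact h _ (by linear_combination e) w2
    · exact h _ (by linear_combination e) w1
  have k1 := fun e e' => k x y z e e' d1 d2
  have k2 := fun e e' => k y x z e e' (by convert d1 using 1; ring) (by convert d2 using 1; ring)
  have k3 := fun e e' => k z x y e e' (by convert d1 using 1; ring) (by convert d3 using 1; ring)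
  have h4 : (4 : F) ≠ 0 := by rw [show (4 : F) = 2 * 2 by norm_num]; exact mul_ne_zero h2 h2
  have := alg6 h2 h3 h4 (X := 4 * x ^ 2) (Y := 4 * y ^ 2) (Z := 4 * z ^ 2) (by convert hW _ a using 3 <;> ring)
    (by convert hW _ b using 3 <;> ring) (by convert hW _ c using 3 <;> ring) (by linear_combination 4 * n)
    (fun e e' => k1 (mul_left_cancel₀ h2 (by linear_combination e)) (mul_left_cancel₀ h4 e'))
    (fun e e' => k2 (mul_left_cancel₀ h2 (by linear_combination e)) (mul_left_cancel₀ h4 e'))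
    fun e e' => k3 (mul_left_cancel₀ h2 (by linear_combination e)) (mul_left_cancel₀ h4 e')
  exact ⟨this.1, this.2.1, this.2.2.imp (fun e => mul_left_cancel₀ h2 (by linear_combination e))
    fun e => mul_left_cancel₀ h2 (by linear_combination e)⟩

theorem Qt.trm {F : Type u} [Field F] {i j : M2 F} (q : Qt i j) (b0 b1 b2 b3 x y z : F) :
    ((b0 • 1 + b1 • i + b2 • j + b3 • (i * j)) * (x • i + y • j + z • (i * j))).trace = -2 * (b1 * x + b2 * y + b3 * z) := by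
  rw [show (b0 • 1 + b1 • i + b2 • j + b3 • (i * j)) * (x • i + y • j + z • (i * j)) = (-(b1 * x + b2 * y + b3 * z)) • 1 +
    (b0 * x + b2 * z - b3 * y) • i + (b0 * y + b3 * x - b1 * z) • j + (b0 * z + b1 * y - b2 * x) • (i * j) by qq q, q.tr]
  ring

theorem p4 : (∀ g : Equiv.Perm (Fin 4), g.sign = 1 → g ^ 4 = 1 → g ^ 2 = 1) ∧ ∀ g : Equiv.Perm (Fin 4), g ^ 3 = 1 ∨ g ^ 4 = 1 := by
  decide +kernel
theorem p5 : ∀ g : Equiv.Perm (Fin 5), g.sign = 1 → g ^ 4 = 1 → g ^ 2 = 1 := by decide +kernel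

/-- the binary octahedral group -/
theorem oct {F : Type u} [Field F] [Fintype F] {P : Subgroup (G6 F)} (k : Kt P) (c2 : C2 P) (h3 : (3 : F) ≠ 0) {i j : M2 F}
    (hi : i ∈ O4 P) (hj : j ∈ O4 P) (an1 : i * j = -(j * i)) (mω : Mem P (bl ((2 : F)⁻¹ • (-1 + i - j + i * j)) 1 1)) :
    ∃ N : M2 F → Prop, (∀ a b, N a → N b → N (a * b)) ∧ (∀ a ∈ O4 P, N a) ∧ N ((2 : F)⁻¹ • (-1 + i - j + i * j)) ∧
      ∀ a, N a → (a.trace ^ 2 = 0 ∨ a.trace ^ 2 = 1 ∨ a.trace ^ 2 = 2) ∨ a = 1 ∨ a = -1 := by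
  have h2 := k.two
  have q := k.qt hi hj an1
  obtain ⟨p, hp⟩ := CharP.exists F
  have hp' : Fact p.Prime := ⟨CharP.char_is_prime F p⟩
  obtain ⟨R, eR⟩ := ex_gl (a := 1 + i) fun e => by
    have := congrArg det (show (1 + i) * (1 + i) = (2 : F) • i by qq q)
    simp [e, q.di] at this
    exact pow_ne_zero 2 h2 this.symm
  obtain ⟨I, mI, eI⟩ := k.gl hi.2
  have rr : pgm R * pgm R = pgm I := ((pg_mk_eq_mk_iff I (R * R)).2 ⟨2, h2, fun s t =>
    congrFun₂ (show R.1 * R.1 = (2 : F) • I.1 by rw [eR, eI]; qq q) s t⟩).symm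
  have i1 : pgm I * pgm I = 1 := Kt.pg_pm (A := I * I) (B := 1) (.inr (by rw [Units.val_mul, eI]; exact q.ii))
  let N := (KG P).map pgm ⊓ ((KG P).map pgm).comap (MulAut.conj (pgm R)).toMonoidHom
  have gd : ∀ A ∈ KG P, ∀ b, Mem P (bl b 1 1) → (1 + i) * A.1 = b * (1 + i) → pgm A ∈ N := fun A m b mb e => by
    obtain ⟨B, mB, rfl⟩ := k.gl mb
    refine ⟨⟨A, m, rfl⟩, B, mB, ?_⟩
    change _ = pgm R * pgm A * (pgm R)⁻¹
    rw [eq_mul_inv_iff_mul_eq, ← map_mul, ← map_mul]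
    exact congrArg pgm (Units.ext (by rw [Units.val_mul, Units.val_mul, eR, e]))
  have g4 : ∀ a ∈ O4 P, ∃ A ∈ KG P, A.1 = a ∧ pgm A ∈ N := fun a ha => by
    obtain ⟨A, m, rfl⟩ := k.gl ha.2
    obtain ⟨b, hb, e⟩ := c2.2 i hi _ ha
    exact ⟨A, m, rfl, gd A m b hb.2 e⟩
  have nI := gd I mI i hi.2 (by rw [eI]; qq q)
  obtain ⟨O, mO, eO⟩ := k.gl mω
  have nO := gd O mO _ (Kt.k_mul (Kt.k_mul mω mω) hj.2) (by rw [eO]; qq q)
  obtain ⟨H, h1, h4, h5⟩ := ext2 N (pgm R) (rr ▸ nI) fun n hn => ⟨hn.2, by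
    convert ((KG P).map pgm).mul_mem (((KG P).map pgm).mul_mem nI.1 hn.1) (((KG P).map pgm).inv_mem nI.1) using 1
    simp [← rr, mul_assoc]⟩
  have nd : ¬ p ∣ Nat.card H := not_dvd fun g hg e => by
    have := k.no_p p (h5 g hg).1 (by rw [← pow_two, ← pow_mul, mul_comm, pow_mul, e, one_pow])
    obtain ⟨m, rfl⟩ := hp'.out.odd_of_ne_two (by rintro rfl; exact h2 (CharP.cast_eq_zero F 2))
    rwa [pow_succ, pow_mul, pow_two, this, one_pow, one_mul] at e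
  have sq : ∀ A ∈ KG P, A.1.trace = -1 → pgm A * pgm A ≠ 1 := fun A m t e => by
    by_cases n : pgm A = 1
    · rcases k.pg_eq m (one_mem _) n with e | e <;> rw [e] at t <;> simp only [Units.val_one, trace_neg, trace_one,
        Fintype.card_fin, Nat.cast_ofNat] at t
      all_goals first | exact h3 (by linear_combination t) | exact h2 (by linear_combination -2 * t)
    · exact h2 (by linear_combination 2 * t - 2 * (tr0 (k.o4 m e n).1 (k.d0 m)))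
  have tO : O.1.trace = -1 := by
    rw [eO, show (2 : F)⁻¹ • (-1 + i - j + i * j) = (-2⁻¹ : F) • 1 + (2⁻¹ : F) • i + (-2⁻¹ : F) • j + (2⁻¹ : F) • (i * j) by
      module, q.tr]
    field_simp
  have tIO : (I * O).1.trace = -1 := by
    rw [Units.val_mul, eO, eI, show i * (2 : F)⁻¹ • (-1 + i - j + i * j) = (-2⁻¹ : F) • 1 + (-2⁻¹ : F) • i + (-2⁻¹ : F) • j +
      (-2⁻¹ : F) • (i * j) by qq q, q.tr]
    field_simp
  have nc : pgm I * pgm O ≠ pgm O * pgm I := fun e => by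
    have := k.pg_eq (mul_mem mI mO) (mul_mem mO mI) e
    simp only [Units.val_mul, eI, eO] at this
    rcases this with e | e
    · exact one_ne_zero (q.ind (x0 := 0) (x1 := 0) (x2 := -1) (x3 := -1) (sub_eq_zero.2 e) (by qq q) |>.2.2.1 |> neg_eq_zero.1)
    · exact one_ne_zero (q.ind (x0 := -1) (x1 := -1) (x2 := 0) (x3 := 0) (add_eq_zero_iff_eq_neg.2 e) (by qq q) |>.1 |> neg_eq_zero.1)
  have r2 : (⟨_, h4⟩ : H) ^ 4 = 1 ∧ (⟨_, h4⟩ : H) ^ 2 ≠ 1 := by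
    simp only [ne_eq, Subtype.ext_iff, Subgroup.coe_mul, Subgroup.coe_one, pow_succ, pow_zero, one_mul, mul_assoc]
    rw [rr, ← mul_assoc, rr]
    exact ⟨i1, fun e => nc (by rw [e, one_mul, mul_one])⟩
  have alt : ∀ {n : ℕ} (_ : H ≃* alternatingGroup (Fin n)), (∀ g : Equiv.Perm (Fin n), g.sign = 1 → g ^ 4 = 1 → g ^ 2 = 1) →
      False := fun e h => r2.2 (e.injective (by
    rw [map_pow, map_one]
    exact Subtype.ext (h _ (e _).2 (congrArg Subtype.val (show e _ ^ 4 = 1 by rw [← map_pow, r2.1, map_one])))))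
  have s4 : ∀ g ∈ H, g ^ 3 = 1 ∨ g ^ 4 = 1 := by
    rcases dickson_hom p H.subtype (subtype_injective _) with ⟨k1, -⟩ | ⟨k1, -⟩ | ⟨o, -, k1, k2⟩ |
      ⟨-, ⟨⟨e⟩⟩ | ⟨⟨e⟩⟩ | ⟨⟨e⟩⟩⟩ | ⟨-, ⟨e⟩⟩ | ⟨-, F₀, k0, k3, -⟩
    · exact absurd (congrArg Subtype.val (k1.commutative.is_comm.comm ⟨_, h1 nI⟩ ⟨_, h1 nO⟩)) nc
    · exact absurd k1 nd
    · have a : (⟨_, h1 nO⟩ : H) ∈ zpowers o := by_contra fun e => sq O mO tO (congrArg Subtype.val (k2 _ e))
      have b : (⟨_, h1 nI⟩ : H) ∈ zpowers o := (Subgroup.mul_mem_cancel_right _ a).1 (by_contra fun e =>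
        sq _ (mul_mem mI mO) tIO (congrArg Subtype.val (k2 _ e)))
      obtain ⟨m, hm⟩ := a
      obtain ⟨n, hn⟩ := b
      have := zpow_mul_comm o n m
      simp only [] at hm hn
      rw [hm, hn] at this
      exact absurd (congrArg Subtype.val this) nc
    · exact (alt e p4.1).elim
    · intro g hg
      have := p4.2 (e ⟨g, hg⟩)
      simp only [← map_pow, map_eq_one_iff e e.injective] at this
      exact this.imp (congrArg Subtype.val) (congrArg Subtype.val)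
    · exact (alt e p5).elim
    · exact (alt e p5).elim
    · rw [Nat.factorization_eq_zero_of_not_dvd nd, pow_zero] at k3
      omega
  refine ⟨fun a => ∃ A ∈ KG P, A.1 = a ∧ pgm A ∈ N, ?_, g4, ⟨O, mO, eO, nO⟩, ?_⟩
  · rintro _ _ ⟨A, m, rfl, n⟩ ⟨B, m', rfl, n'⟩
    exact ⟨A * B, mul_mem m m', rfl, by rw [map_mul]; exact mul_mem n n'⟩
  rintro _ ⟨A, m, rfl, n⟩
  by_cases e1 : pgm A = 1
  · exact .inr (k.pg_eq m (one_mem _) e1)
  have := O7.pg_ord e1 (a := A.1.trace ^ 2) (by rw [tc_eq, dt_eq, k.d0 m, mul_one])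
  exact .inl ((s4 _ (h1 n)).elim (fun e => .inr (.inl (this.2.1.1 e))) fun e => (this.2.2.1.1 e).imp_right .inr)

theorem ca7 : CA7.{u} := by
  intro F G _ _ _ P S π h2 r c c2 _ h3 i hi j hj an1 mω
  have k := kt_of h2 r c
  have q := k.qt hi hj an1
  obtain ⟨N, Nm, N4, Nω, Nt⟩ := oct k c2 h3 hi hj an1 mω
  have nI := N4 i hi
  have nJ := N4 j hj
  have key : ∀ x y z : F, x • i + y • j + z • (i * j) ∈ O4 P → (∀ e : M2 F, e = i ∨ e = j ∨ e = i * j →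
      x • i + y • j + z • (i * j) ≠ e ∧ x • i + y • j + z • (i * j) ≠ -e) →
      4 * x ^ 2 ≠ 1 ∧ 4 * y ^ 2 ≠ 1 ∧ (2 * x ^ 2 = 1 ∨ 2 * y ^ 2 = 1) := fun x y z ha hn => by
    have t1 : ∀ b, N b → (x • i + y • j + z • (i * j) ≠ b ∧ x • i + y • j + z • (i * j) ≠ -b) → ∀ b0 b1 b2 b3 t : F,
        b = b0 • 1 + b1 • i + b2 • j + b3 • (i * j) → t ^ 2 = (2 * (b1 * x + b2 * y + b3 * z)) ^ 2 →
        t ^ 2 = 0 ∨ t ^ 2 = 1 ∨ t ^ 2 = 2 := fun b nb h b0 b1 b2 b3 t e e' => by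
      have := Nt _ (Nm _ _ nb (N4 _ ha))
      rw [show (b * (x • i + y • j + z • (i * j))).trace ^ 2 = t ^ 2 by rw [e, q.trm, e']; ring] at this
      have aa := ha.1
      generalize x • i + y • j + z • (i * j) = a at *
      refine this.resolve_right ?_
      rintro (h' | h') <;> have := congrArg (· * a) h' <;> simp only [mul_assoc, aa, mul_neg, mul_one, one_mul, neg_mul, neg_inj] at this
      exacts [h.2 this.symm, h.1 this.symm]
    have t2 : ∀ b, N b → ∀ b0 b1 b2 b3 t : F, b0 ≠ 0 →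
        b = b0 • 1 + b1 • i + b2 • j + b3 • (i * j) → t ^ 2 = (2 * (b1 * x + b2 * y + b3 * z)) ^ 2 →
        t ^ 2 = 0 ∨ t ^ 2 = 1 ∨ t ^ 2 = 2 := fun b nb b0 b1 b2 b3 t n e => by
      have t0 := tr0 ha.1 (k.d0 ha.2)
      have tb : b.trace ≠ 0 := by rw [e, q.tr]; exact mul_ne_zero h2 n
      exact t1 b nb ⟨fun h => tb (h ▸ t0), fun h => tb (by rwa [h, trace_neg, neg_eq_zero] at t0)⟩ b0 b1 b2 b3 t e
    have i2 := inv_ne_zero h2
    refine alg7 (W := fun t => t ^ 2 = 0 ∨ t ^ 2 = 1 ∨ t ^ 2 = 2) (z := z) h2 h3 (fun _ h => h) ?_ ?_ ?_ ?_ ?_ ?_ ?_ ?_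
    · linear_combination -(q.ind (x0 := -(x ^ 2 + y ^ 2 + z ^ 2) + 1) (x1 := 0) (x2 := 0)
        (x3 := 0) (sub_eq_zero.2 ha.1) (by qq q)).1
    · exact t1 i nI (hn i (by simp)) 0 1 0 0 _ (by simp) (by ring)
    · exact t1 j nJ (hn j (by simp)) 0 0 1 0 _ (by simp) (by ring)
    · exact t1 _ (Nm _ _ nI nJ) (hn _ (by simp)) 0 0 0 1 _ (by simp) (by ring)
    · exact t2 _ (Nm _ _ (Nm _ _ nJ Nω) nJ) 2⁻¹ 2⁻¹ 2⁻¹ 2⁻¹ _ i2 (by qq q) (by field_simp)
    · exact t2 _ (Nm _ _ (Nm _ _ nI Nω) nI) 2⁻¹ (-2⁻¹) (-2⁻¹) 2⁻¹ _ i2 (by qq q) (by field_simp; ring)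
    · exact t2 _ Nω (-2⁻¹) 2⁻¹ (-2⁻¹) 2⁻¹ _ (neg_ne_zero.2 i2) (by module) (by field_simp; ring)
    · exact t2 _ (Nm _ _ (Nm _ _ (Nm _ _ nI nJ) Nω) (Nm _ _ nI nJ)) 2⁻¹ 2⁻¹ (-2⁻¹) (-2⁻¹) _ i2 (by qq q) (by field_simp; ring)
  have k4 : ∀ x y z : F, x • i + y • j + z • (i * j) ∈ O4 P → 4 * x ^ 2 ≠ 1 ∧ 4 * y ^ 2 ≠ 1 := fun x y z ha => by
    by_contra hc
    refine hc (And.imp_right And.left (key x y z ha fun e he => ⟨fun h => hc ?_, fun h => hc ?_⟩)) <;>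
      rcases he with rfl | rfl | rfl
    · have := q.ind (x0 := 0) (x1 := x - 1) (x2 := y) (x3 := z) (sub_eq_zero.2 h) (by module); grind
    · have := q.ind (x0 := 0) (x1 := x) (x2 := y - 1) (x3 := z) (sub_eq_zero.2 h) (by module); grind
    · have := q.ind (x0 := 0) (x1 := x) (x2 := y) (x3 := z - 1) (sub_eq_zero.2 h) (by module); grind
    · have := q.ind (x0 := 0) (x1 := x + 1) (x2 := y) (x3 := z) (sub_eq_zero.2 h) (by module); grind
    · have := q.ind (x0 := 0) (x1 := x) (x2 := y + 1) (x3 := z) (sub_eq_zero.2 h) (by module); grind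
    · have := q.ind (x0 := 0) (x1 := x) (x2 := y) (x3 := z + 1) (sub_eq_zero.2 h) (by module); grind
  intro a ha
  by_contra! hc
  obtain ⟨w, x, y, z, rfl⟩ := q.dec a
  obtain rfl : w = 0 := (mul_eq_zero.1 ((q.tr w x y z).symm.trans (tr0 ha.1 (k.d0 ha.2)))).resolve_left h2
  rw [zero_smul, zero_add] at ha hc
  have n := (q.ind (x0 := -(x ^ 2 + y ^ 2 + z ^ 2) - -1) (x1 := 0) (x2 := 0) (x3 := 0) (sub_eq_zero.2 ha.1) (by qq q)).1
  have bb : ∀ e ∈ O4 P, (2 : F)⁻¹ • ((1 + (x • i + y • j + z • (i * j))) * e * (1 - (x • i + y • j + z • (i * j)))) ∈ O4 P :=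
    fun e he => by
      obtain ⟨b, hb, h⟩ := c2.2 _ ha e he
      have := ha.1
      generalize x • i + y • j + z • (i * j) = a at *
      rwa [h, show (2 : F)⁻¹ • (b * (1 + a) * (1 - a)) = b by qs [this]]
  rcases (key x y z ha (by rintro e (rfl | rfl | rfl) <;> tauto)).2.2 with e | e
  · refine (k4 ((1 + x ^ 2 - y ^ 2 - z ^ 2) / 2) (x * y + z) (x * z - y) (by convert bb i hi using 1; qq q)).1 ?_
    grind
  · refine (k4 (x * y - z) ((1 - x ^ 2 + y ^ 2 - z ^ 2) / 2) (y * z + x) (by convert bb j hj using 1; qq q)).2 ?_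
    grind

end H12.SP
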