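/-
S5806: the piece `CA8`.
-/
import Cfsg.Agent.H12.SP2

set_option autoImplicit false
set_option linter.unusedSectionVars false

namespace H12.SP
open Matrix Cfsg H6.SP H11.SP H27 Subgroup
open scoped MatrixGroups
universe u

/-- a fixed point free involution modulo a central involution -/
theorem fpf {G : Type*} [Group G] [Finite G] (Z : Subgroup G) {t u : G} (tt : t * t = 1) (uu : u * u = 1) (uZ : u ∈ Z)
    (tu : t * u * t = u) (cu : ∀ s ∈ Z, s * u = u * s) (tZ : ∀ s ∈ Z, t * s * t ∈ Z)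
    (h : ∀ s ∈ Z, t * s * t = s ∨ t * s * t = s * u → s = 1 ∨ s = u) {x y : G} (hx : x ∈ Z) (hy : y ∈ Z) :
    x * y = y * x ∨ x * y = y * x * u := by
  let θ : Z →* Z := MonoidHom.mk' (fun s => ⟨_, tZ s.1 s.2⟩) fun a b => Subtype.ext (by
    simp only [Subgroup.coe_mul, mul_assoc, ← mul_assoc t t, tt, one_mul])
  let N : Subgroup Z := ⟨⟨⟨{s | s.1 = 1 ∨ s.1 = u}, by
    rintro a b (h | h) (h' | h') <;> change a.1 * b.1 = 1 ∨ a.1 * b.1 = u <;> simp [h, h', uu]⟩, .inl rfl⟩, by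
    rintro a (h | h) <;> change a.1⁻¹ = 1 ∨ a.1⁻¹ = u <;> simp [h, inv_eq_of_mul_eq_one_right uu]⟩
  have : N.Normal := ⟨by
    rintro a (h | h) g
    · exact .inl (by simp [h])
    · exact .inr (by simp [h, cu g g.2])⟩
  have q : ∀ a b : Z, (a : Z ⧸ N) = b → b.1 = a ∨ b.1 = a * u := fun a b e =>
    (QuotientGroup.eq.1 e).imp (fun e => (inv_mul_eq_one.1 e).symm) fun e => inv_mul_eq_iff_eq_mul.1 e
  let φ := QuotientGroup.map N N θ (by
    rintro a (h | h)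
    exacts [.inl (show t * a * t = 1 by rw [h, mul_one, tt]), .inr (show t * a * t = u by rw [h, tu])])
  refine q ⟨_, mul_mem hy hx⟩ ⟨_, mul_mem hx hy⟩ (MonoidHom.FixedPointFree.commute_all_of_involutive (φ := φ) ?_ ?_
    ((⟨y, hy⟩ : Z) : Z ⧸ N) (⟨x, hx⟩ : Z)).eq
  · rintro ⟨s⟩ e
    exact (QuotientGroup.eq_one_iff s).2 (h s s.2 (q _ _ e.symm))
  · rintro ⟨s⟩
    exact congrArg QuotientGroup.mk (Subtype.ext (show t * (t * s * t) * t = s by
      simp only [mul_assoc, ← mul_assoc t t, tt, one_mul, mul_one]) : θ (θ s) = s)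

section
variable {F : Type u} [Field F] {P : Subgroup (G6 F)} {a b c x : M2 F}
theorem Kt.cj (k : Kt P) (m : Mem P (bl a b c)) (hx : x ∈ O4 P) :
    (∃ e ∈ O4 P, a * x = e * a) ∧ (∃ e ∈ O4 P, x * a = a * e) ∧ ∀ y z, a * y = a * z → y = z := by
  have f : ∀ a : M2 F, a.det = 1 → a * a⁻¹ = 1 := fun a d => mul_nonsing_inv a (d ▸ isUnit_one)
  have e1 := f a (k.d0 m)
  have e2 := mul_eq_one_comm.1 e1
  have m' := Kt.inv m e1 (f b (k.d1 m)) (f c (k.d2 m))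
  generalize a⁻¹ = a' at *
  have e3 : ∀ y, a * (a' * y) = y := fun y => by rw [← mul_assoc, e1, one_mul]
  have e4 : ∀ y, a' * (a * y) = y := fun y => by rw [← mul_assoc, e2, one_mul]
  exact ⟨⟨a * x * a', ⟨by qx [e1, e4, sq' hx.1], Kt.nrm m hx.2 (by qx [e2])⟩, by qx [e2]⟩,
    ⟨a' * x * a, ⟨by qx [e2, e3, sq' hx.1], Kt.nrm m' hx.2 (by qx [e1])⟩, by qx [e3]⟩, fun y z e => by rw [← e4 y, e, e4]⟩

/-- an involution as a unit -/
def iv (A : M32 F) (h : A * A = 1) : (M32 F)ˣ := ⟨A, A, h, h⟩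
end

macro "qn" q:term:max : tactic => `(tactic| (
  have := Qt.two $q
  try simp only [bl, rf, sw, sw', Matrix.mul_fin_three, Matrix.one_fin_three]
  refine m3 ?_ ?_ ?_ ?_ ?_ ?_ ?_ ?_ ?_ <;>
    qx [Qt.ii $q, Qt.jj $q, an' (Qt.a $q), an (Qt.a $q), sq' (Qt.ii $q), sq' (Qt.jj $q)] <;> match_scalars <;>
    (try field_simp) <;> ring))

theorem ca8 : CA8.{u} := by
  intro F G _ _ _ P S π h2 r c c2 h3 i hi j hj an1 mω hO
  have k := kt_of h2 r c
  have q := k.qt hi hj an1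
  have dv : ∀ x : M2 F, x = -x → x = 0 := fun x h => by
    rwa [eq_neg_iff_add_eq_zero, ← two_smul F, smul_eq_zero, or_iff_right h2] at h
  have mφ : Mem P (bl ((2 : F)⁻¹ • (1 + i - j - i * j)) 1 1) := by
    convert k.k_neg (Kt.k_mul mω hi.2) using 2; qq q
  have mi := ((c2.1 i).1 hi).2
  have mφ' := Kt.inv mφ (a' := (2 : F)⁻¹ • (1 - i + j + i * j)) (by qq q) (mul_one _) (mul_one _)
  have m2 : Mem P !![(2 : F)⁻¹ • 1, (2 : F)⁻¹ • (1 - j + i * j), 0; (2 : F)⁻¹ • (1 + j - i * j), -(2 : F)⁻¹ • 1, 0; 0, 0, 1] :=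
    cancel_r (mi.mul ((mφ'.mul (k.p01 mφ)).mul k.s1)) mi (by qn q)
  have m1 : Mem P !![(2 : F)⁻¹ • 1, -(2 : F)⁻¹ • (i + j + i * j), 0; (2 : F)⁻¹ • (i + j + i * j), -(2 : F)⁻¹ • 1, 0; 0, 0, 1] :=
    cancel_r ((k.p01 hi.2).mul m2) (k.p01 hi.2) (by qn q)
  obtain ⟨X, hX⟩ : ∃ X : M32 F, X = !![0, 1 + i - i * j, 0; 1 - i + i * j, 0, 0; 0, 0, 0] := ⟨_, rfl⟩
  obtain ⟨Y, hY⟩ : ∃ X : M32 F, X = !![0, -1 + i - j, 0; -1 - i + j, 0, 0; 0, 0, 0] := ⟨_, rfl⟩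
  have cm : ∀ (s : (M32 F)ˣ) (X : M32 F), s.1 * X = X * s.1 → (s⁻¹).1 * X = X * (s⁻¹).1 := fun s X h =>
    (Commute.units_inv_left h).eq
  let Z : Subgroup (M32 F)ˣ := ⟨⟨⟨{s | Mem P s.1 ∧ s.1 * X = X * s.1 ∧ s.1 * Y = Y * s.1 ∧ s.1 * bl 0 0 1 = bl 0 0 1 ∧
      bl 0 0 1 * s.1 = bl 0 0 1}, fun ⟨a1, a2, a3, a4, a5⟩ ⟨b1, b2, b3, b4, b5⟩ => ⟨a1.mul b1, (Commute.mul_left a2 b2).eq,
      (Commute.mul_left a3 b3).eq, by rw [Units.val_mul, mul_assoc, b4, a4], by rw [Units.val_mul, ← mul_assoc, a5, b5]⟩⟩,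
      mem_one, by simp⟩, fun {s} ⟨a1, a2, a3, a4, a5⟩ => ⟨a1.inv s.mul_inv, cm s X a2, cm s Y a3,
      (Units.inv_mul_eq_iff_eq_mul _).2 a4.symm, (Units.mul_inv_eq_iff_eq_mul _).2 a5.symm⟩⟩
  let t : (M32 F)ˣ := iv (bl (-1) 1 1) (by qn q)
  let u : (M32 F)ˣ := iv (bl (-1) (-1) 1) (by qn q)
  have uE : (bl (-1) (-1) 1 : M32 F) = bl 0 0 1 + bl 0 0 1 - 1 := by simp [bl, Matrix.one_fin_three]
  have tX : ∀ X : M32 F, bl (-1) 1 1 * X = -(X * bl (-1) 1 1) → ∀ s, s * X = X * s →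
      bl (-1) 1 1 * s * bl (-1) 1 1 * X = X * (bl (-1) 1 1 * s * bl (-1) 1 1) := fun X h s e => by
    rw [mul_assoc _ _ X, h, mul_neg, ← mul_assoc, mul_assoc _ s, e, ← mul_assoc, h]
    simp only [neg_mul, neg_neg, mul_assoc]
  have n3 : ∀ a b c d e f g h l : M2 F, -!![a, b, c; d, e, f; g, h, l] = !![-a, -b, -c; -d, -e, -f; -g, -h, -l] := by simp
  have key := fpf Z (t := t) (u := u) (Units.ext t.val_inv) (Units.ext u.val_inv)
    ⟨(by simpa using Kt.mul k.t1 (k.p01 k.t1) : Mem P (bl (-1) (-1) 1)), by rw [hX]; simp only [u, iv]; qn q, by rw [hY]; simp only [u, iv]; qn q,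
      by simp only [u, iv]; qn q, by simp only [u, iv]; qn q⟩
    (Units.ext (by simp only [u, t, iv, Units.val_mul]; qn q))
    (fun s ⟨_, _, _, a4, a5⟩ => Units.ext (by simp only [u, iv, Units.val_mul, uE, mul_sub, sub_mul, mul_add, add_mul, a4, a5,
      mul_one, one_mul]))
    (fun s ⟨a1, a2, a3, a4, a5⟩ => ⟨(k.t1.mul a1).mul k.t1, tX X (by simp only [hX, bl, Matrix.mul_fin_three, n3]; qn q) _ a2,
      tX Y (by simp only [hY, bl, Matrix.mul_fin_three, n3]; qn q) _ a3, by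
        simp only [t, iv, Units.val_mul, mul_assoc, bl_mul, mul_zero, mul_one, a4], by
        simp only [t, iv, Units.val_mul, ← mul_assoc, bl_mul, zero_mul, mul_one, a5]⟩)
    ?_ (x := t * iv !![(2 : F)⁻¹ • 1, -(2 : F)⁻¹ • (i + j + i * j), 0; (2 : F)⁻¹ • (i + j + i * j), -(2 : F)⁻¹ • 1, 0; 0, 0, 1]
      (by qn q)) (y := t * iv !![(2 : F)⁻¹ • 1, (2 : F)⁻¹ • (1 - j + i * j), 0; (2 : F)⁻¹ • (1 + j - i * j), -(2 : F)⁻¹ • 1, 0;
      0, 0, 1] (by qn q))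
    ⟨k.t1.mul m1, by rw [hX]; simp only [t, iv, Units.val_mul]; qn q, by rw [hY]; simp only [t, iv, Units.val_mul]; qn q,
      by simp only [t, iv, Units.val_mul]; qn q, by simp only [t, iv, Units.val_mul]; qn q⟩
    ⟨k.t1.mul m2, by rw [hX]; simp only [t, iv, Units.val_mul]; qn q, by rw [hY]; simp only [t, iv, Units.val_mul]; qn q,
      by simp only [t, iv, Units.val_mul]; qn q, by simp only [t, iv, Units.val_mul]; qn q⟩
  · rcases key with e | e <;> have e := ent (congrArg Units.val e) 0 0 <;>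
      simp only [t, u, iv, Units.val_mul, bl, Matrix.mul_fin_three, of_apply, cons_val', cons_val_zero] at e
    · exact inv_ne_zero h2 (neg_eq_zero.1 (q.ind (x0 := 0) (x1 := -2⁻¹) (x2 := 1) (x3 := 1) (sub_eq_zero.2 e) (by qq q)).2.1)
    · exact inv_ne_zero h2 (q.ind (x0 := 2⁻¹) (x1 := 0) (x2 := 0) (x3 := 0) (sub_eq_zero.2 e) (by qq q)).1
  rintro ⟨s, s', s1, s2⟩ ⟨a1, a2, a3, a4, a5⟩ e
  simp only [Units.ext_iff, t, u, iv, Units.val_mul, Units.val_one] at a1 a2 a3 a4 a5 e ⊢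
  clear_value Z
  clear s1 s2 s' tX cm
  rw [eta_fin_three s] at a1 a2 a3 a4 a5 e ⊢
  generalize s 0 0 = a, s 0 1 = a', s 0 2 = a'', s 1 0 = b', s 1 1 = b, s 1 2 = b'', s 2 0 = c', s 2 1 = c'', s 2 2 = d at *
  subst hX hY
  simp only [bl, Matrix.mul_fin_three, mul_zero, zero_mul, add_zero, zero_add, mul_one, one_mul, mul_neg, neg_mul, neg_neg,
    neg_zero] at a2 a3 a4 a5 e
  obtain rfl : a'' = 0 := ent a4 0 2
  obtain rfl : b'' = 0 := ent a4 1 2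
  obtain rfl : d = 1 := ent a4 2 2
  obtain rfl : c' = 0 := ent a5 2 0
  obtain rfl : c'' = 0 := ent a5 2 1
  rcases e with e | e
  · obtain rfl := dv a' (ent e 0 1).symm
    obtain rfl := dv b' (ent e 1 0).symm
    clear e
    have e1 : a * (1 + i - i * j) = (1 + i - i * j) * b := ent a2 0 1
    have e2 : b * (-1 - i + j) = (-1 - i + j) * a := ent a3 1 0
    have w : a * (-i + (2 : F) • j + (2 : F) • (i * j)) = (-i + (2 : F) • j + (2 : F) • (i * j)) * a := by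
      rw [show -i + (2 : F) • j + (2 : F) • (i * j) = (1 + i - i * j) * (-1 - i + j) by qq q, ← mul_assoc, e1, mul_assoc, e2,
        mul_assoc]
    obtain ⟨⟨e, he, e3⟩, -, -⟩ := k.cj (b := b) (c := 1) a1 hi
    have d := k.d0 (b := b) (c := 1) a1
    have e4 : e * (-i + (2 : F) • j + (2 : F) • (i * j)) + (-i + (2 : F) • j + (2 : F) • (i * j)) * e - (2 : F) • 1 = 0 := by
      have e5 : i * (-i + (2 : F) • j + (2 : F) • (i * j)) + (-i + (2 : F) • j + (2 : F) • (i * j)) * i = (2 : F) • 1 := by qq q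
      generalize -i + (2 : F) • j + (2 : F) • (i * j) = W at *
      rw [← mul_nonsing_inv_cancel_right a (_ - _) (d ▸ isUnit_one), sub_mul, add_mul, mul_assoc, ← w, ← mul_assoc, ← e3,
        mul_assoc W, ← e3, ← mul_assoc W, ← w, mul_assoc, mul_assoc, ← mul_add, e5]
      simp
    have h6 : (6 : F) ≠ 0 := by rw [show (6 : F) = 2 * 3 by norm_num]; exact mul_ne_zero h2 h3
    have h4 : (4 : F) ≠ 0 := by rw [show (4 : F) = 2 * 2 by norm_num]; exact mul_ne_zero h2 h2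
    obtain rfl : e = i := by
      rcases hO e he with rfl | rfl | rfl | rfl | rfl | rfl
      · rfl
      · exact absurd (neg_eq_zero.1 (q.ind (x0 := -4) (x1 := 0) (x2 := 0) (x3 := 0) e4 (by qq q)).1) h4
      · exact absurd (neg_eq_zero.1 (q.ind (x0 := -6) (x1 := 0) (x2 := 0) (x3 := 0) e4 (by qq q)).1) h6
      · exact absurd (q.ind (x0 := 2) (x1 := 0) (x2 := 0) (x3 := 0) e4 (by qq q)).1 h2
      · exact absurd (neg_eq_zero.1 (q.ind (x0 := -6) (x1 := 0) (x2 := 0) (x3 := 0) e4 (by qq q)).1) h6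
      · exact absurd (q.ind (x0 := 2) (x1 := 0) (x2 := 0) (x3 := 0) e4 (by qq q)).1 h2
    obtain ⟨x0, x1, x2, x3, rfl⟩ := q.dec a
    obtain ⟨-, -, f1, f2⟩ := q.ind (x0 := 0) (x1 := 0) (x2 := 2 * x3) (x3 := -(2 * x2)) (sub_eq_zero.2 e3) (by qq q)
    obtain rfl := (mul_eq_zero.1 f1).resolve_left h2
    obtain rfl := (mul_eq_zero.1 (neg_eq_zero.1 f2)).resolve_left h2
    obtain ⟨-, -, -, f3⟩ := q.ind (x0 := 0) (x1 := 0) (x2 := -(4 * x1)) (x3 := 4 * x1) (sub_eq_zero.2 w) (by qq q)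
    obtain rfl := (mul_eq_zero.1 f3).resolve_left h4
    simp only [zero_smul, add_zero] at *
    obtain rfl : b = x0 • 1 := by
      have := congrArg (((3 : F)⁻¹ • (1 - e + e * j)) * ·) e1
      simp only [← mul_assoc _ _ b] at this
      rw [show (3 : F)⁻¹ • (1 - e + e * j) * (1 + e - e * j) = 1 by qq q, one_mul] at this
      rw [← this]; qq q
    rcases sq_eq_one_iff.1 (by simpa using d : x0 ^ 2 = 1) with rfl | rfl <;> simp [bl, Matrix.one_fin_three]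
  · obtain rfl := dv a (ent e 0 0)
    obtain rfl := dv b (ent e 1 1)
    have m : Mem P (bl b' a' 1) := cancel_l a1 k.s1 (by qn q)
    obtain ⟨-, ⟨e, he, e3⟩, cn⟩ := k.cj m hi
    have e1 : b' * (1 + i - i * j) = (1 - i + i * j) * a' := ent a2 1 1
    have e2 : a' * (-1 - i + j) = (-1 + i - j) * b' := ent a3 0 0
    have := sub_eq_zero.2 (cn (-i + (2 : F) • j + (2 : F) • (i * j)) ((3 : F) • e) (by
      rw [show -i + (2 : F) • j + (2 : F) • (i * j) = (1 + i - i * j) * (-1 - i + j) by qq q, ← mul_assoc, e1, mul_assoc, e2,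
        ← mul_assoc, mul_smul_comm, ← e3, show (1 - i + i * j) * (-1 + i - j) = (3 : F) • i by qq q, smul_mul_assoc]))
    exfalso
    rcases hO e he with rfl | rfl | rfl | rfl | rfl | rfl
    · exact h2 (q.ind (x0 := 0) (x1 := -4) (x2 := 2) (x3 := 2) this (by module)).2.2.1
    · exact h2 (q.ind (x0 := 0) (x1 := 2) (x2 := 2) (x3 := 2) this (by module)).2.2.1
    · exact h2 (q.ind (x0 := 0) (x1 := -1) (x2 := -1) (x3 := 2) this (by module)).2.2.2
    · exact h2 (q.ind (x0 := 0) (x1 := -1) (x2 := 5) (x3 := 2) this (by module)).2.2.2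
    · exact h2 (q.ind (x0 := 0) (x1 := -1) (x2 := 2) (x3 := -1) this (by module)).2.2.1
    · exact h2 (q.ind (x0 := 0) (x1 := -1) (x2 := 2) (x3 := 5) this (by module)).2.2.1

end H12.SP
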