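import Cfsg.Agent.H12.SpList

/-!
# Maximal subgroups of symplectic groups in small dimension, through transvections
-/

set_option autoImplicit false
set_option maxHeartbeats 400000

namespace H12

open Module H11 Submodule QuadraticMap Cfsg.Geo Cfsg

section

variable {F : Type*} [Field F] {V : Type*} [AddCommGroup V] [Module F V]
  [FiniteDimensional F V]

theorem isMaximalIn_dec_alt {κ : Type*} [Fintype κ] [Nontrivial κ] {D : κ → Submodule F V}
    {C : CForm (altType F) V} (hC : C.Nondeg) {d : ℕ} (hE : Enlarge C C.isom d)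
    (hD : OrthDec C D) (hd : ∀ i, 2 ≤ finrank F (D i))
    (hd' : ∀ i, d ≤ finrank F (D i)) : IsMaximalIn C.isom (decStab D ⊓ C.isom) := by
  refine isMaximalIn_of _ _ inf_le_right (fun e => ?_) fun M h2 h3 g hg hg' => ?_
  · obtain ⟨π, hπ⟩ := hD.exists_isProj
    obtain ⟨i, j, hij⟩ := exists_pair_ne κ
    obtain ⟨x, hx, hx0⟩ := exists_mem_ne_zero_of_ne_bot (hD.ne_bot i)
    obtain ⟨z, hz, hz0⟩ := exists_mem_ne_zero_of_ne_bot (hD.ne_bot j)
    have a1 : π i (x + z) ≠ 0 := by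
      rw [map_add, hπ.self hx, hπ.mem_iff.1 hz i hij, add_zero]; exact hx0
    have a2 : π j (x + z) ≠ 0 := by
      rw [map_add, hπ.self hz, hπ.mem_iff.1 hx j hij.symm, zero_add]; exact hz0
    obtain ⟨g, hg, e'⟩ := hC.witt_one hx0 (v := x + z) (fun h => a1 (by rw [h, map_zero]))
      (by rw [alt_N, alt_N])
    exact hπ.not_mem_decStab hx (fun l => e' ▸ hπ.not_mem hij a1 a2 l) (e hg).1
  obtain ⟨i⟩ : Nonempty κ := inferInstance
  exact (hE.le_or_of_dec (spec_alt hC) hD hd h3 h2 le_rfl (hD.nondeg i) (hd' i)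
    ((hD.subG_le hC i).trans h2)).resolve_right fun e => hg' ⟨e.2 hg, h3 hg⟩

variable [Finite F] {Q : QuadraticForm F V}

theorem exists_Q_eq_of_one (hQ : QNondeg Q) (h2 : (2 : F) = 0) (hd : 4 ≤ finrank F V) {x : V}
    (hx : x ≠ 0) {β : F} (hβ : β ≠ 0) (c : F) : ∃ y, polar Q x y = β ∧ Q y = c := by
  obtain ⟨y₁, h1⟩ := hQ.exists_eq hx β
  replace h1 : polar Q x y₁ = β := h1
  by_cases hc : c - Q y₁ = 0
  · exact ⟨y₁, h1, (sub_eq_zero.1 hc).symm⟩
  obtain ⟨a1, a2⟩ := nondegOn_pair_of_det (Q := Q) (u := x) (w := y₁) (by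
    rw [h1, show (4 : F) = 0 by linear_combination 2 * h2]; simpa using hβ)
  have a3 := hQ.finrank_add_finrank_perp (span F {x, y₁})
  obtain ⟨s, hs, e⟩ := exists_Q_eq_of_nondegOn hQ (hQ.nondegOn_perp a1) (by omega) hc
  obtain ⟨b1, b2⟩ := (CForm.ofQuad Q).mem_perp_pair.1 hs
  refine ⟨y₁ + s, ?_, ?_⟩
  · rw [polar_add_right, h1, show polar Q x s = 0 from b1, add_zero]
  · rw [Q_add, e, show polar Q y₁ s = 0 from b2]; ring

/-- `O(Q)` is maximal in `Sp`. -/
theorem isMaximalIn_orth_sp' (hQ : QNondeg Q) (h2 : (2 : F) = 0) (hd : 4 ≤ finrank F V)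
    {C : CForm (altType F) V} (hB : ∀ x y, C.B x y = polar Q x y) :
    IsMaximalIn C.isom (qsim Q ⊓ C.isom) := by
  have hC : C.Nondeg := fun x hx => hQ x fun y => (hB x y).symm.trans (hx y)
  have h0 : orth Q ≤ C.isom := fun g hg => ⟨fun x y => by
    rw [hB, hB]; exact orth_polar ⟨g, hg⟩ x y, fun x => by rw [alt_N, alt_N]⟩
  obtain ⟨e, he0, he⟩ := exists_singular Q (by omega)
  obtain ⟨v, hv⟩ := exists_Q_eq hQ (by omega) one_ne_zero
  have hv0 : v ≠ 0 := fun h => by simp [h] at hv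
  refine isMaximalIn_of _ _ inf_le_right (fun h => ?_) fun M h1 hM g hg hg' => ?_
  · obtain ⟨g, hg, e'⟩ := hC.witt_one he0 hv0 (by rw [alt_N, alt_N])
    obtain ⟨c, -, hc⟩ := (h hg).1
    have := hc e
    rw [e', hv, he, mul_zero] at this
    exact one_ne_zero this
  have h3 : orth Q ≤ M := fun k hk => h1 ⟨⟨1, one_ne_zero, fun x => by rw [mem_orth.1 hk, one_mul]⟩,
    h0 hk⟩
  let P : V → Prop := fun w => Tr M w ((1 : F) • C.B w)
  have P1 : ∀ w, Q w = 1 → P w := fun w hw => ⟨_, h3 (refl Q w).2, fun x => by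
    rw [refl_apply, hw, inv_one, one_mul, one_smul, hB, sub_eq_add_neg, ← neg_smul,
      show -polar Q w x = polar Q w x by linear_combination (-polar Q w x) * h2]⟩
  have P2 : ∀ w w', w ≠ 0 → w' ≠ 0 → Q w' = Q w → P w → P w' := fun w w' a1 a2 a3 a4 => by
    obtain ⟨k, hk, rfl⟩ := hQ.witt_one a1 a2 a3
    exact a4.conj_isom (h3 hk) (h0 hk)
  obtain ⟨w, hw, hw'⟩ : ∃ w, Q w = 1 ∧ Q (g w) ≠ 1 := by
    by_contra h
    push Not at h
    have a1 : ∀ x, Q x ≠ 0 → Q (g x) = Q x := fun x hx => by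
      obtain ⟨a, ha, e⟩ := exists_smul_Q_eq h2 hx one_ne_zero
      have := (h _ e).trans e.symm
      rw [map_smul, Q_smul, Q_smul] at this
      exact mul_left_cancel₀ (mul_ne_zero ha ha) this
    refine hg' ⟨⟨1, one_ne_zero, fun x => ?_⟩, hM hg⟩
    rw [one_mul]
    by_cases hx : Q x = 0
    · obtain ⟨s, a2, a3⟩ := exists_Q_eq_perp hQ [x] (by simp; omega) 1
      have a4 := a1 (x + s) (by rw [Q_add, hx, a3, a2 x (by simp)]; simp)
      rw [map_add, Q_add, Q_add, a1 s (a3 ▸ one_ne_zero), ← hB, ← hB, CForm.isom_B (hM hg)] at a4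
      linear_combination a4
    · exact a1 x hx
  have P3 := (P1 w hw).conj_isom hg (hM hg)
  have hgw : g w ≠ 0 := fun h => by
    rw [map_eq_zero_iff _ g.injective] at h; simp [h] at hw
  have P4 : ∀ x, P x := fun x => by
    by_cases hx : x = 0
    · rw [hx]; exact tr_zero_left
    obtain ⟨β, hβ⟩ := isSquare_of_two_eq_zero h2 ((Q x + 1) / (Q (g w) + 1))
    have a5 : Q (g w) + 1 ≠ 0 := fun h => hw' (by linear_combination h - h2)
    rw [div_eq_iff a5] at hβ
    by_cases hβ0 : β = 0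
    · exact P1 x (by rw [hβ0] at hβ; linear_combination hβ - h2)
    obtain ⟨y, a1, a3⟩ := exists_Q_eq_of_one hQ h2 hd hx hβ0 (Q (g w))
    have a4 := P2 _ y hgw (by rintro rfl; exact hβ0 (by simp [← a1])) a3 P3
    obtain ⟨k, hk, e⟩ := a4.exists_apply (x + β • y)
    have a6 := (P1 (x + β • y) (by
      rw [Q_add, Q_smul, polar_smul_right, a1, a3, smul_eq_mul]
      linear_combination hβ + (β * β * (Q (g w) + 1) - 1) * h2)).conj_isom hk (hM hk)
    rwa [e, one_smul, map_add, map_smul, alt_B_self, smul_zero, add_zero, hB, polar_comm, a1,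
      add_assoc, ← two_smul F, h2, zero_smul, add_zero] at a6
  rw [← hC.subG_top (G := C.isom) le_rfl]
  refine subG_le_alt hC (C.nondegOn_top.2 hC) fun u _ c => ?_
  obtain ⟨a, rfl⟩ := isSquare_of_two_eq_zero h2 c
  simpa [altType] using tr_smul_B.1 (P4 (a • u))

end

section

variable {K F : Type*} [Field K] [Field F] [Algebra K F] {V : Type*} [AddCommGroup V]
  [Module F V] [FiniteDimensional F V] [Finite F] {C : CForm (altType F) V}
  {M : Subgroup (V ≃ₗ[F] V)}

local notation "𝔣" => algebraMap K F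

omit [FiniteDimensional F V] [Finite F] in
theorem alt_two_symm (h2 : (2 : F) = 0) (x y : V) : C.B y x = C.B x y := by
  rw [alt_symm]; linear_combination (-C.B x y) * h2

omit [FiniteDimensional F V] [Finite F] in
theorem alt_σ (a : F) : (altType F).σ a = a := rfl

omit [FiniteDimensional F V] [Finite F] in
theorem Rq.comm_tr (h2 : (2 : F) = 0) (hM : M ≤ C.isom) {z w u : V} {a c : F} (h : Rq C M z w a)
    (hzw : C.B z w = 0) (hu : Tr M u (c • C.B u)) (huz : C.B u z = 0) :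
    Rq C M z ((c * C.B u w) • u) (c * C.B u w * C.B u w) := by
  obtain ⟨k, hk, e⟩ := hu
  have := h.comm hk (hM hk) (by simp [e, huz]) (alt_B_self z) hzw
  rw [e, add_sub_cancel_left, alt_σ, C.B_smul_right, alt_symm u w] at this
  simpa using this

omit [FiniteDimensional F V] [Finite F] in
theorem Rq.add_self (h2 : (2 : F) = 0) {z w : V} {a : F} (h : Rq C M z w a) (c : F) :
    Rq C M z (w + c • z) a := by
  obtain ⟨k, hk, e⟩ := h
  refine ⟨k, hk, fun x => ?_⟩
  rw [e]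
  simp only [alt_σ, map_add, C.B_smul_right, alt_two_symm h2 z x]
  match_scalars <;> ring

theorem subring_inv_mem {S : Subring F} {a : F} (h : a ∈ S) : a⁻¹ ∈ S := by
  by_cases h0 : a = 0
  · simp [h0]
  have := Fintype.ofFinite F
  have h1 := FiniteField.pow_card_sub_one_eq_one a h0
  have h2 := Fintype.one_lt_card (α := F)
  rw [show Fintype.card F - 1 = Fintype.card F - 2 + 1 by omega, pow_succ] at h1
  rw [← eq_inv_of_mul_eq_one_left h1]
  exact pow_mem h _

/-- The key step for subfield subgroups of `Sp₄` in characteristic two. -/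
theorem sp4_q1 (hC : C.Nondeg) (h2 : (2 : F) = 0) (hd : finrank F V = 4) (hM : M ≤ C.isom)
    (hmax : MaxSub K F) {x y v : V} (hxy : C.B x y = 0) (hI : Indep K (C.B v x) (C.B v y))
    (hz : C.B v x • y + C.B v y • x ≠ 0)
    (hx : ∀ k : K, Tr M x (𝔣 k • C.B x)) (hy : ∀ k : K, Tr M y (𝔣 k • C.B y))
    (hs : Tr M (x + y) ((1 : F) • C.B (x + y))) (hv : Tr M v ((1 : F) • C.B v)) :
    Q1 C C.isom M (C.B v x • y + C.B v y • x) := by
  have := Finite.of_injective _ (𝔣).injective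
  have sy := alt_two_symm (C := C) h2
  obtain ⟨α, hα⟩ : ∃ α, C.B v x = α := ⟨_, rfl⟩
  obtain ⟨β, hβ⟩ : ∃ β, C.B v y = β := ⟨_, rfl⟩
  rw [hα, hβ] at hI hz ⊢
  have hα0 := hI.1
  have hβ0 := hI.right_ne
  obtain ⟨z, ez⟩ : ∃ z, α • y + β • x = z := ⟨_, rfl⟩
  rw [ez] at hz ⊢
  have z1 : C.B x z = 0 := by simp [← ez, hxy, alt_B_self]
  have z2 : C.B y z = 0 := by simp [← ez, sy x y, hxy, alt_B_self]
  have z3 : C.B v z = 0 := by
    simp only [← ez, map_add, C.B_smul_right, hα, hβ]; linear_combination α * β * h2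
  have r0 : Rq C M z (α⁻¹ • x) 0 := by
    obtain ⟨k₁, m₁, e₁⟩ := hx 1
    obtain ⟨k₂, m₂, e₂⟩ := hy 1
    obtain ⟨k₃, m₃, e₃⟩ := hs
    refine ⟨k₃ * k₁ * k₂, mul_mem (mul_mem m₃ m₁) m₂, fun u => ?_⟩
    rw [LinearEquiv.mul_apply, LinearEquiv.mul_apply, e₃, e₁, e₂, ← ez]
    simp only [map_one, one_smul, map_add, C.B_smul_right, LinearMap.add_apply, alt_B_self, hxy,
      sy x y, alt_B_smul_left, alt_σ, sy x u]
    match_scalars
    · field_simp
    · field_simp; grind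
    · field_simp; grind
  have r1 : ∀ s a, Rq C M z (s • x) a → Rq C M z ((s * α) • v) (s * α * (s * α)) := fun s a h => by
    simpa [hα] using h.comm_tr h2 hM (by simp [sy x z, z1]) hv z3
  have r2 : ∀ (k : K) s a, Rq C M z (s • v) a →
      Rq C M z ((𝔣 k * (s * α)) • x) (𝔣 k * (s * α) * (s * α)) := fun k s a h => by
    simpa [sy v x, hα] using h.comm_tr h2 hM (by simp [sy v z, z3]) (hx k) z1
  have r3 : ∀ s a, Rq C M z (s • v) a →
      Rq C M z ((s * β * β / α) • x) (s * β * (s * β)) := fun s a h => by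
    have a1 := (h.comm_tr h2 hM (by simp [sy v z, z3]) (hy 1) z2).add_self h2 (-(s * β / α))
    simp only [map_one, one_mul, C.B_smul_right, sy v y, hβ] at a1
    convert a1 using 1
    rw [← ez]
    match_scalars
    · field_simp; grind
    · field_simp; grind
  let X : AddSubgroup F :=
    { carrier := {s | ∃ a, Rq C M z (s • x) a}
      zero_mem' := ⟨0, by simpa using rho_zero⟩
      add_mem' := fun ⟨a, e⟩ ⟨a', e'⟩ => ⟨_, by
        simpa [add_smul] using e.mul e' (alt_B_self z) (by simp [sy x z, z1]) (by simp [sy x z, z1])⟩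
      neg_mem' := fun {s} h => by
        rwa [show -s = s by linear_combination (-s) * h2] }
  let S : Subring F :=
    { carrier := {r | ∀ s ∈ X, r * s ∈ X}
      zero_mem' := fun s _ => by simp
      one_mem' := fun s hs => by simpa
      add_mem' := fun h h' s hs => by rw [add_mul]; exact add_mem (h s hs) (h' s hs)
      mul_mem' := fun h h' s hs => by rw [mul_assoc]; exact h _ (h' s hs)
      neg_mem' := fun h s hs => by rw [neg_mul]; exact neg_mem (h s hs) }
  have s1 : ∀ k : K, 𝔣 k * (α * α) ∈ S := fun k s ⟨a, h⟩ =>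
    ⟨_, by convert r2 k _ _ (r1 s a h) using 2; ring⟩
  have s2 : β * β ∈ S := fun s ⟨a, h⟩ =>
    ⟨_, by convert r3 _ _ (r1 s a h) using 2; field_simp⟩
  have s3 : (α * α)⁻¹ ∈ S := by
    have := s1 1
    rw [map_one, one_mul] at this
    exact subring_inv_mem this
  have s4 : ∀ r, r ∈ S := hmax S (fun k => by
      convert mul_mem (s1 k) s3 using 1; field_simp) (β * β * (α * α)⁻¹) (mul_mem s2 s3) fun k e => by
    obtain ⟨c, rfl⟩ := isSquare_of_two_eq_zero (F := K)
      ((𝔣).injective (by rw [map_ofNat, h2, map_zero])) k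
    refine hI.2 c (sub_eq_zero.1 (pow_eq_zero_iff (n := 2) (by norm_num)|>.1 ?_))
    rw [map_mul] at e
    field_simp at e
    linear_combination e + (𝔣 c * α * 𝔣 c * α - β * 𝔣 c * α) * h2
  have x1 : ∀ s, ∃ a, Rq C M z (s • x) a := fun s => by
    have := s4 (s * α) _ ⟨0, r0⟩
    rwa [mul_inv_cancel_right₀ hα0] at this
  have x2 : ∀ s, ∃ a, Rq C M z (s • v) a := fun s => by
    obtain ⟨a, h⟩ := x1 (s / α)
    exact ⟨_, by simpa [hα0] using r1 _ _ h⟩
  have x3 : ∀ a, Rq C M z 0 a := fun a => by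
    have b1 : β * β + α * α ≠ 0 := fun e => hI.ne (sub_eq_zero.1 (pow_eq_zero_iff (n := 2)
      (by norm_num)|>.1 (by linear_combination e - α * β * h2)))
    obtain ⟨t, ht⟩ := isSquare_of_two_eq_zero h2 (a / (β * β + α * α))
    rw [div_eq_iff b1] at ht
    obtain ⟨a₁, c1⟩ := x2 (t * β / α)
    obtain ⟨a₂, c2⟩ := x2 (t * α / β)
    have c3 := (r2 1 _ _ c1).div (r3 _ _ c2) (alt_B_self z) (by simp [sy x z, z1])
      (by simp [sy x z, z1])
    have c4 : (𝔣 1 * (t * β / α * α)) • x - (t * α / β * β * β / α) • x = 0 := by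
      rw [← sub_smul]; convert zero_smul F x; rw [map_one]; field_simp; ring
    rw [c4] at c3
    convert c3 using 1
    rw [ht, map_one]
    simp only [map_zero, sub_zero]
    field_simp
    linear_combination (t ^ 2 * α ^ 2) * h2
  obtain ⟨p, hp⟩ := hC.exists_eq hz 1
  refine q1_of_rho le_rfl hM (alt_N z) hp (fun w hw => ?_) fun a _ => x3 a
  have x0 : x ≠ 0 := by rintro rfl; exact hα0 (by simp [← hα])
  have f3 := finrank_three (K := F) x0 (b := v) (c := z) (fun e => by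
    obtain ⟨c, rfl⟩ := mem_span_singleton.1 e
    exact hα0 (by simp [← hα, alt_B_self])) fun e => by
    obtain ⟨s, t, rfl⟩ := mem_spanL_pair.1 e
    simp only [map_add, C.B_smul_right, alt_B_self, sy v x, hα, mul_zero, zero_add, add_zero,
      mul_eq_zero, hα0, or_false] at z1 z3
    simp [z1, z3] at hz
  have f4 := hC.finrank_add_finrank_perp (spanL F [x, v, z])
  have f5 : C.perp (spanL F [x, v, z]) = span F {z} := by
    refine (eq_of_le_of_finrank_le ((span_singleton_le_iff_mem _ _).2 (mem_perp_spanL.2 ?_)) ?_).symm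
    · simp [z1, z3, alt_B_self]
    · rw [finrank_span_singleton hz]; omega
  obtain ⟨c, hc⟩ := mem_span_singleton.1 (f5 ▸ (mem_perp_spanL.2 (by
    simp [hα, sy v x, alt_B_self, hα0, sy x z, sy v z, z1, z3, hw]) :
      w - (C.B v w / α) • x - (C.B x w / α) • v ∈ C.perp (spanL F [x, v, z])))
  obtain ⟨a₁, c1⟩ := x1 (C.B v w / α)
  obtain ⟨a₂, c2⟩ := x2 (C.B x w / α)
  exact ⟨_, by
    convert (c1.mul c2 (alt_B_self z) (by simp [sy x z, z1]) (by simp [sy v z, z3])).add_self h2 c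
      using 1
    rw [hc]; abel⟩

variable {V₀ : Type*} [AddCommGroup V₀] [Module K V₀] [Module K V] [IsScalarTower K F V]
  {ι : V₀ →ₗ[K] V} [FiniteDimensional K V₀] [Finite V₀]

theorem rat_alt4_aux (hR : Rat F ι) (hmax : MaxSub K F) (hne : ∃ α : F, ∀ k : K, α ≠ 𝔣 k)
    (h2 : (2 : F) = 0) (hd : finrank F V = 4) (hC : C.Nondeg)
    (hr : ∀ x y, ∃ k, C.B (ι x) (ι y) = 𝔣 k) : IsMaximalIn C.isom (ratStab F ι ⊓ C.isom) := by
  have := Finite.of_injective _ (𝔣).injective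
  have sy := alt_two_symm (C := C) h2
  obtain ⟨B₀, hB⟩ := exists_restrB C (σ₀ := RingHom.id K) (fun _ => rfl) hr
  let C₀ := CForm.ofAlt B₀ fun x => (𝔣).injective (by rw [← hB, alt_B_self, map_zero])
  replace hB : ∀ x y, C.B (ι x) (ι y) = 𝔣 (C₀.B x y) := hB
  clear_value C₀
  have h0 : C₀.Nondeg := hR.nondeg₀ hC hB
  have hd₀ := hR.finrank_eq
  have h2' : (2 : K) = 0 := (𝔣).injective (by rw [map_ofNat, h2, map_zero])
  have sq : ∀ l : F, (∀ k, l ≠ 𝔣 k) → ∀ k, l * l ≠ 𝔣 k := fun l hl k e => by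
    obtain ⟨c, rfl⟩ := isSquare_of_two_eq_zero h2' k
    refine hl c (sub_eq_zero.1 (pow_eq_zero_iff (n := 2) (by norm_num)|>.1 ?_))
    rw [map_mul] at e
    grind
  refine isMaximalIn_of _ _ inf_le_right (fun hle => ?_) fun M h1 hM g hg hg' => ?_
  · obtain ⟨α, hα⟩ := hne
    have : Nontrivial V₀ := Module.nontrivial_of_finrank_pos (R := K) (by omega)
    obtain ⟨w, hw⟩ := exists_ne (0 : V₀)
    obtain ⟨c, hc⟩ := exists_not_mem_of_ne_top (W := span K {w}) (ne_top_of_finrank_lt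
      (by have := finrank_span_singleton_le (F := K) w; omega))
    obtain ⟨g, hg, e⟩ := hC.witt_one (hR.ne_zero hw) (v := α • ι c + ι w) (fun e =>
      hR.not_mem_span_singleton hc (mem_span_singleton.2 ⟨-α⁻¹, by
        have := hα 0
        rw [map_zero] at this
        rw [eq_neg_of_add_eq_zero_right e, smul_neg, smul_smul]; simp [this]⟩))
      (by rw [alt_N, alt_N])
    exact hR.not_mem_ratStab hα hw hc e (hle hg).1
  have P1 : ∀ x (k : K), Tr M (ι x) (𝔣 k • C.B (ι x)) := fun x k =>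
    ⟨_, h1 ⟨hR.mem_ratStab_one fun y => ⟨y + (k * C₀.B x y) • x, by
      rw [tv_apply, hB, map_add, ι_smul (F := F), map_mul]⟩,
      (tv C (alt_N (ι x)) (tvOk_alt (𝔣 k))).2⟩, fun y => tv_apply _ _ y⟩
  have P2 : ∀ x, Tr M (ι x) ((1 : F) • C.B (ι x)) := fun x => by simpa using P1 x 1
  obtain ⟨v, hv, x₁, x₂, hI⟩ : ∃ v, Tr M v ((1 : F) • C.B v) ∧
      ∃ x₁ x₂, Indep K (C.B v (ι x₁)) (C.B v (ι x₂)) := by
    obtain ⟨x, hx⟩ : ∃ x, ∀ y, g (ι x) ≠ ι y := by
      by_contra! h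
      exact hg' ⟨hR.mem_ratStab_one h, hM hg⟩
    have a1 := (P2 x).conj_isom hg (hM hg)
    generalize g (ι x) = v at hx a1
    by_contra! hc
    obtain ⟨x₁, a2⟩ : ∃ x₁, C.B v (ι x₁) ≠ 0 := by
      by_contra! h
      exact hx 0 (by rw [map_zero]; exact hC _ (hR.map_eq_zero h))
    obtain ⟨p, hp⟩ : ∃ p, (C.B v (ι x₁))⁻¹ • v = ι p := hR.mem_range fun φ₀ φ e => by
      obtain ⟨z, hz⟩ := h0.exists_rep φ₀
      have a3 := hc v a1 x₁ z
      simp only [Indep, not_and, not_forall, not_not] at a3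
      obtain ⟨k, hk⟩ := a3 a2
      refine ⟨k, ?_⟩
      have a4 := hR.map_eq_zero (φ := φ - C.B (ι z)) (fun x => by simp [e, hB, hz]) v
      rw [LinearMap.sub_apply, sub_eq_zero] at a4
      rw [map_smul, a4, sy v (ι z), hk, smul_eq_mul]
      field_simp
    generalize C.B v (ι x₁) = l at a2 hp
    obtain rfl : v = l • ι p := by rw [← hp, smul_smul]; simp [a2]
    have a3 : p ≠ 0 := by rintro rfl; exact hx 0 (by simp)
    obtain ⟨u, hu⟩ := h0.exists_eq a3 1
    obtain ⟨k, hk, e⟩ := a1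
    refine hc _ ((P2 u).conj_isom hk (hM hk)) p u ⟨?_, fun c => ?_⟩
    · simp [e, alt_B_smul_left, hB, alt_B_self, alt_two_symm h2' p u, hu]
    · simpa [e, alt_σ, hB, alt_B_self, alt_two_symm h2' p u, hu] using
        sq l (fun c e => hx (c • p) (by rw [ι_smul (F := F), e])) c
  obtain ⟨x, y, hxy, hI⟩ : ∃ x y, C₀.B x y = 0 ∧ Indep K (C.B v (ι x)) (C.B v (ι y)) := by
    by_cases a1 : C₀.B x₁ x₂ = 0
    · exact ⟨_, _, a1, hI⟩
    by_cases a2 : ∃ k ∈ C₀.perp (span K {x₁, x₂}), C.B v (ι k) ≠ 0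
    · obtain ⟨k, a3, a4⟩ := a2
      obtain ⟨a5, a6⟩ := C₀.mem_perp_pair.1 a3
      rcases hI.or a4 with a7 | a7
      exacts [⟨_, _, a5, a7⟩, ⟨_, _, C₀.B_swap_zero a6, a7⟩]
    push Not at a2
    have a3 := h0.finrank_add_finrank_perp (span K {x₁, x₂})
    have a4 := finrank_span_pair_le (F := K) x₁ x₂
    obtain ⟨k₁, a5, a6⟩ := exists_mem_ne_zero_of_ne_bot (p := C₀.perp (span K {x₁, x₂}))
      (fun e => by rw [e, finrank_bot] at a3; omega)
    obtain ⟨a7, a8⟩ := C₀.mem_perp_pair.1 a5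
    obtain ⟨k₂, b1, b2⟩ := h0.exists_perp_eq (W := span K {x₁, x₂}) (x := k₁) (fun e => by
      obtain ⟨s, t, rfl⟩ := mem_span_pair.1 e
      simp only [map_add, C₀.B_smul_right, alt_B_self, alt_two_symm h2' x₁ x₂, mul_zero, zero_add,
        add_zero, mul_eq_zero, a1, or_false] at a7 a8
      simp [a7, a8] at a6) (-C₀.B x₁ x₂)
    obtain ⟨b3, b4⟩ := C₀.mem_perp_pair.1 b1
    exact ⟨x₁ + k₁, x₂ + k₂, by simp [b2, b3, C₀.B_swap_zero a8], by
      simpa [a2 _ a5, a2 _ b1] using hI⟩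
  have hz : C.B v (ι x) • ι y + C.B v (ι y) • ι x ≠ 0 := fun e => by
    refine hR.not_mem_span_singleton (x := y) (y := x) (fun e' => ?_)
      (mem_span_singleton.2 ⟨-(C.B v (ι y) / C.B v (ι x)), smul_right_injective V hI.1 ?_⟩)
    · obtain ⟨c, rfl⟩ := mem_span_singleton.1 e'
      exact hI.2 c (by rw [ι_smul (F := F), C.B_smul_right])
    · have := hI.1
      simp only [smul_smul, eq_neg_of_add_eq_zero_left e, ← neg_smul]
      congr 1; field_simp
  have q := sp4_q1 hC h2 hd hM hmax (by rw [hB, hxy, map_zero]) hI hz (P1 x) (P1 y)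
    (by simpa using P2 (x + y)) hv
  generalize C.B v (ι x) • ι y + C.B v (ι y) • ι x = z at hz q
  obtain ⟨s, hs⟩ : ∃ s, C.B z (ι s) ≠ 0 := by
    by_contra! h
    exact hz (hC _ (hR.map_eq_zero h))
  obtain ⟨k, hk, e⟩ := P2 s
  exact (rootG_alt hC).fin M z (k z) (alt_N _) (alt_N _)
    (by simp [e, alt_B_self, sy z, hs]) q (q.conj le_rfl hk (hM hk))

theorem isMaximalIn_rat_alt4 (hR : Rat F ι) (hmax : MaxSub K F) (hne : ∃ α : F, ∀ k : K, α ≠ 𝔣 k)
    (h2 : (2 : F) = 0) (hd : finrank F V = 4) (hC : C.Nondeg) {ζ : F} (hζ : ζ ≠ 0)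
    (hr : ∀ x y, ∃ k, ζ * C.B (ι x) (ι y) = 𝔣 k) : IsMaximalIn C.isom (ratStab F ι ⊓ C.isom) := by
  let C' : CForm (altType F) V := CForm.ofAlt (ζ • (C.B : LinearMap.BilinForm F V))
    fun x => mul_eq_zero_of_right ζ (alt_B_self x)
  have e : ∀ x y, C'.B x y = ζ * C.B x y := fun _ _ => rfl
  have e' : C'.isom = C.isom := Subgroup.ext fun g => by
    simp [CForm.mem_isom, e, hζ, alt_N]
  rw [← e']
  exact rat_alt4_aux hR hmax hne h2 hd
    (fun x hx => hC x fun y => (mul_eq_zero.1 (hx y)).resolve_left hζ) hr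

end

variable {F : Type*} [Field F] [Fintype F] {m : ℕ}

theorem spl_dec' {t k : ℕ} {D : Fin t → Submodule F (Fin m ⊕ Fin m → F)}
    (hD : IsNondegenerateMDecomposition (sympForm m F) k D) (hex : 3 ≤ k ∨ 3 ≤ Fintype.card F) :
    IsMaximalIn (spGL m F) (decompositionStabilizer D ⊓ spGL m F) := by
  have hC := spForm_nondeg (ι := Fin m) (F := F)
  have h1 := fun i => nondegOn_of_geo _ (Or.inl (spForm_B_eq m)) (hD.nondegenerate i)
  have h2 := hD.decomp.finrank_eq
  have hD' := orthDec_of_geo _ (Or.inl (spForm_B_eq m)) hD fun i j =>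
    alt_iso ((CForm.restrict_nondeg_iff _).2 (h1 i)) ((CForm.restrict_nondeg_iff _).2 (h1 j))
      (by rw [h2, h2])
  have h3 := hD.decomp.two_le
  have h4 := hD.decomp.pos
  haveI : Nontrivial (Fin t) := Fin.nontrivial_iff_two_le.2 h3
  obtain ⟨l, hl⟩ := alt_even ((CForm.restrict_nondeg_iff _).2 (h1 ⟨0, by omega⟩))
  rw [h2] at hl
  rw [spGL_eq, decompositionStabilizer_eq, ← Subgroup.comap_inf]
  refine isMaximalIn_comap _ (isMaximalIn_dec_alt hC (enlarge_alt hC h4
    (hex.symm.imp_left fun h5 => ?_)) hD' (fun i => by rw [h2]; omega) fun i => (h2 i).ge)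
  by_contra! h6
  classical
  have : (Finset.univ : Finset F) ⊆ {0, 1} := fun a _ => by
    by_cases ha : a = 0
    · simp [ha]
    · simp [h6 a ha]
  have := (Finset.card_le_card this).trans Finset.card_le_two
  rw [Finset.card_univ] at this
  omega

theorem spl_rat2 (heven : ¬ Odd (Fintype.card F)) {F₀ : Subfield F} {r : ℕ}
    {P : GL (Fin 2 ⊕ Fin 2) F} {ζ : F}
    (hr : r.Prime) (hcard : Fintype.card F = Nat.card F₀ ^ r) (hζ : ζ ≠ 0)
    (hP : IsFormRationalStructure (sympForm 2 F) F₀ ζ P) :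
    IsMaximalIn (spGL 2 F) (subfieldSubgroup F₀ P ⊓ spGL 2 F) := by
  have hc : Nat.card F = Nat.card F₀ ^ r := by rwa [Nat.card_eq_fintype_card]
  rw [spGL_eq, subfieldSubgroup_eq, ← Subgroup.comap_inf]
  exact isMaximalIn_comap _ (isMaximalIn_rat_alt4 (rat_ratMap F₀ P)
    (maxSub_subfield hr hc) (exists_not_mem_subfield hr hc)
    (not_not.1 (mt odd_card_iff.2 heven)) (by simp)
    spForm_nondeg hζ fun x y => ⟨⟨_, hP _ _ (fun i => (x i).2) fun i => (y i).2⟩, by
      rw [spForm_B_eq, ratMap_apply, ratMap_apply]; rfl⟩)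

theorem spl_orth' (hm : 2 ≤ m) (heven : ¬ Odd (Fintype.card F)) {Q : (Fin m ⊕ Fin m → F) → F}
    (hQ : IsNondegenerateQuadraticForm Q) (hpol : ∀ u v, polar Q u v = sympForm m F u v) :
    IsMaximalIn (spGL m F) (quadSimilarityGroup Q ⊓ spGL m F) := by
  obtain ⟨Q, rfl, hC⟩ := exists_quad hQ
  rw [spGL_eq, quadSimilarityGroup_eq, ← Subgroup.comap_inf]
  exact isMaximalIn_comap _ (isMaximalIn_orth_sp' hC
    (not_not.1 (mt odd_card_iff.2 heven)) (by simp; omega)
    fun x y => by rw [spForm_B_eq, hpol])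

end H12
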