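import Cfsg.Agent.H12.GeoBridge
import Cfsg.Prelude.Def_ClassicalGeometry

/-!
# Matrix-level facts on stabilisers in matrix groups
-/

set_option autoImplicit false
set_option maxHeartbeats 400000

namespace H12

open Matrix

section
variable {H : Type*} [Group H] {ι : Type} [Fintype ι] [DecidableEq ι] {F : Type*} [CommRing F]
  (toMat : H →* Matrix ι ι F)

theorem toMat_inv_mulVec (h : H) (v : ι → F) : toMat h⁻¹ *ᵥ (toMat h *ᵥ v) = v := by
  rw [mulVec_mulVec, ← map_mul, inv_mul_cancel, map_one, one_mulVec]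

theorem toMat_mulVec_injective (h : H) : Function.Injective (toMat h).mulVec := fun v w e => by
  rw [← toMat_inv_mulVec toMat h v, e, toMat_inv_mulVec]

theorem mem_stabilizing_iff {S : Set (ι → F)} {h : H} :
    h ∈ Cfsg.stabilizing toMat S ↔ ∀ v, v ∈ S ↔ toMat h *ᵥ v ∈ S := Iff.rfl

theorem mem_stabilizing_of_both {S : Set (ι → F)} {h : H} (h1 : ∀ v ∈ S, toMat h *ᵥ v ∈ S)
    (h2 : ∀ v ∈ S, toMat h⁻¹ *ᵥ v ∈ S) : h ∈ Cfsg.stabilizing toMat S := fun v =>
  ⟨h1 v, fun hv => toMat_inv_mulVec toMat h v ▸ h2 _ hv⟩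

theorem mem_stabilizing_of_mapsTo [Finite F] {S : Set (ι → F)} {h : H}
    (h1 : ∀ v ∈ S, toMat h *ᵥ v ∈ S) : h ∈ Cfsg.stabilizing toMat S := fun v =>
  ⟨h1 v, fun hv => by
    have hb := ((Set.toFinite S).injOn_iff_bijOn_of_mapsTo (f := (toMat h).mulVec) h1).1
      (toMat_mulVec_injective toMat h).injOn
    obtain ⟨w, hw, e⟩ := hb.surjOn hv
    rwa [← toMat_mulVec_injective toMat h e]⟩

end

variable {F : Type*} [Field F] {ι : Type} [Fintype ι] [DecidableEq ι]

/-- The Levi embedding `X ↦ diag(X, X⁻ᵀ)` followed by a unipotent factor. -/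
def spBlock (X : GL ι F) (S : Matrix ι ι F) (hS : Sᵀ = S) : Matrix.symplecticGroup ι F :=
  ⟨fromBlocks X.1 (X.1 * S) 0 (X⁻¹).1ᵀ, SymplecticGroup.fromBlocks_mem_iff.2 ⟨by simp, by
    rw [transpose_mul, hS, Matrix.mul_assoc, ← transpose_mul, transpose_transpose,
      ← Matrix.mul_assoc, Units.inv_mul]; simp, by
    rw [← transpose_mul, Units.inv_mul]; simp⟩⟩

theorem exists_spBlock (g : Matrix.symplecticGroup ι F) (h : ∀ i j, g.1 (.inr i) (.inl j) = 0) :
    ∃ X S hS, g = spBlock X S hS := by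
  obtain ⟨g, hg⟩ := g
  obtain ⟨A, B, C, D, rfl⟩ : ∃ A B C D, g = fromBlocks A B C D := ⟨_, _, _, _, (fromBlocks_toBlocks g).symm⟩
  obtain rfl : C = 0 := by ext i j; exact h i j
  obtain ⟨-, h2, h3⟩ := SymplecticGroup.fromBlocks_mem_iff.1 hg
  simp only [transpose_zero, Matrix.zero_mul, sub_zero] at h3
  have h4 : Dᵀ * A = 1 := by simpa using congrArg transpose h3
  have h5 : A * Dᵀ = 1 := mul_eq_one_comm.1 h4
  refine ⟨⟨A, Dᵀ, h5, h4⟩, Dᵀ * B, by rw [transpose_mul, transpose_transpose, h2],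
    Subtype.ext ?_⟩
  change _ = fromBlocks A (A * (Dᵀ * B)) 0 Dᵀᵀ
  rw [← Matrix.mul_assoc, h5, Matrix.one_mul, transpose_transpose]

theorem spBlock_inj {X X' : GL ι F} {S S' : Matrix ι ι F} (hS : Sᵀ = S) (hS' : S'ᵀ = S')
    (h : spBlock X S hS = spBlock X' S' hS') : X = X' ∧ S = S' := by
  obtain ⟨h1, h2, -, -⟩ := fromBlocks_inj.1 (congrArg Subtype.val h)
  obtain rfl : X = X' := Units.ext h1
  exact ⟨rfl, (Units.mul_right_inj X).1 h2⟩

theorem card_symm [Fintype F] : Nat.card {S : Matrix ι ι F // Sᵀ = S} =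
    Fintype.card F ^ ((Fintype.card ι + 1).choose 2) := by
  have e : {S : Matrix ι ι F // Sᵀ = S} ≃ {f : ι → ι → F // ∀ a b, f a b = f b a} :=
    Equiv.subtypeEquiv Matrix.of.symm fun S =>
      ⟨fun h a b => congrFun (congrFun h b) a, fun h => Matrix.ext fun a b => h b a⟩
  rw [Nat.card_congr (e.trans Sym2.lift), Nat.card_fun, Nat.card_eq_fintype_card,
    Nat.card_eq_fintype_card, Sym2.card]

end H12
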