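import Cfsg.Agent.H12.RatZ
import Cfsg.Agent.H13.C4Lin
import Cfsg.Agent.H13.TenForm

/-!
# Tensor products of forms: the basic calculus
-/

set_option autoImplicit false
set_option maxHeartbeats 400000

namespace H12

open Module H11 Submodule TensorProduct H13.KL

variable {F : Type*} [Field F] {U W : Type*} [AddCommGroup U] [Module F U] [AddCommGroup W]
  [Module F W] {T T₁ T₂ : FormType F} {C : CForm T (U ⊗[F] W)} {C₁ : CForm T₁ U}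
  {C₂ : CForm T₂ W} {X G : Subgroup ((U ⊗[F] W) ≃ₗ[F] (U ⊗[F] W))} {R : Subgroup (W ≃ₗ[F] W)}
  {Y Y' : Submodule F W} {x : U ⊗[F] W} {u : U} {w y z : W}

variable (U) in
/-- The subspace `U ⊗ Y`. -/
noncomputable def tl (Y : Submodule F W) : Submodule F (U ⊗[F] W) := ⨅ ψ : Dual F U, Y.comap (cL W ψ)

theorem mem_tl : x ∈ tl U Y ↔ ∀ ψ, cL W ψ x ∈ Y := by simp [tl]

theorem tmul_mem_tl (u : U) (hy : y ∈ Y) : u ⊗ₜ y ∈ tl U Y :=
  mem_tl.2 fun ψ => by simpa using smul_mem _ _ hy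

theorem mem_of_tmul_mem_tl (hu : u ≠ 0) (h : u ⊗ₜ y ∈ tl U Y) : y ∈ Y := by
  obtain ⟨ψ, e⟩ := exists_dual_one (F := F) hu
  simpa [e] using mem_tl.1 h ψ

theorem tl_mono (h : Y ≤ Y') : tl U Y ≤ tl U Y' := fun _ hx => mem_tl.2 fun ψ => h (mem_tl.1 hx ψ)

theorem cR_eq_zero_of_mem_tl {φ : Dual F W} (hx : x ∈ tl U Y) (h : ∀ y ∈ Y, φ y = 0) :
    cR U φ x = 0 := by
  by_contra hc
  obtain ⟨ψ, e⟩ := exists_dual_one (F := F) hc
  rw [cR_cL, h _ (mem_tl.1 hx ψ)] at e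
  exact zero_ne_one e

theorem rH_tmul (β : W ≃ₗ[F] W) (u : U) (w : W) : rH F U W β (u ⊗ₜ w) = u ⊗ₜ β w := rfl

theorem lH_tmul (α : U ≃ₗ[F] U) (u : U) (w : W) : lH F U W α (u ⊗ₜ w) = α u ⊗ₜ w := rfl

theorem rH_mem (β : W ≃ₗ[F] W) : rH F U W β ∈ tenStab F U W := congr_mem _ _

theorem tmul_pair_inj {a b a' b' : U} (hw : w ≠ 0) (hy : y ∉ span F {w})
    (e : a ⊗ₜ[F] w + b ⊗ₜ y = a' ⊗ₜ w + b' ⊗ₜ y) : a = a' ∧ b = b' := by
  obtain ⟨φ, h1, h2⟩ := exists_dual_eq_one hy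
  have h3 : b = b' := by simpa [h1 w (mem_span_singleton_self w), h2] using congrArg (cR U φ) e
  exact ⟨tmul_left_inj hw (by simpa [h3] using e), h3⟩

variable [FiniteDimensional F U]

theorem tl_add (S : AddSubgroup (U ⊗[F] W)) (h : ∀ u, ∀ y ∈ Y, u ⊗ₜ y ∈ S) (hx : x ∈ tl U Y) :
    x ∈ S := by
  rw [← sum_tmul_cL (Module.finBasis F U) x]
  exact sum_mem fun i _ => h _ _ (mem_tl.1 hx _)

theorem tl_le {Z : Submodule F (U ⊗[F] W)} (h : ∀ u, ∀ y ∈ Y, u ⊗ₜ y ∈ Z) : tl U Y ≤ Z :=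
  fun _ => tl_add Z.toAddSubgroup h

theorem tl_ext {M : Type*} [AddCommGroup M] [Module F M] {f g : U ⊗[F] W →ₗ[F] M}
    (h : ∀ u, ∀ y ∈ Y, f (u ⊗ₜ y) = g (u ⊗ₜ y)) (hx : x ∈ tl U Y) : f x = g x :=
  tl_le (Z := LinearMap.eqLocus f g) h hx

theorem finrank_tl [FiniteDimensional F W] (Y : Submodule F W) :
    finrank F (tl U Y) = finrank F U * finrank F Y := by
  have : tl U Y = LinearMap.range (LinearMap.lTensor U Y.subtype) :=
    le_antisymm (tl_le fun u y hy => ⟨u ⊗ₜ ⟨y, hy⟩, rfl⟩) (by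
      rintro _ ⟨x, rfl⟩
      induction x with
      | zero => simp
      | tmul u y => exact tmul_mem_tl _ y.2
      | add x y a b => rw [map_add]; exact add_mem a b)
  rw [this, LinearMap.finrank_range_of_inj
    (Module.Flat.lTensor_preserves_injective_linearMap _ Y.injective_subtype),
    finrank_tensorProduct]

theorem mem_tl_singleton : x ∈ tl U (span F {w}) ↔ ∃ u, x = u ⊗ₜ w :=
  ⟨fun h => let ⟨u, e⟩ := mem_line.1 (tl_le (fun u _ hy => line_le_of_mem_span hy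
    (tmul_mem_line u _)) h); ⟨u, e.symm⟩, by
      rintro ⟨u, rfl⟩; exact tmul_mem_tl u (mem_span_singleton_self w)⟩

theorem mem_tl_pair : x ∈ tl U (span F {w, y}) ↔ ∃ u u', x = u ⊗ₜ w + u' ⊗ₜ y := by
  refine ⟨fun h => ?_, by
    rintro ⟨u, u', rfl⟩
    exact add_mem (tmul_mem_tl u (mem_pair_left _ _)) (tmul_mem_tl u' (mem_pair_right _ _))⟩
  have := tl_le (Z := line F U w ⊔ line F U y) (fun u z hz => by
    obtain ⟨a, b, rfl⟩ := mem_span_pair.1 hz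
    rw [tmul_add, tmul_smul, tmul_smul]
    exact add_mem (mem_sup_left (smul_mem _ _ (tmul_mem_line _ _)))
      (mem_sup_right (smul_mem _ _ (tmul_mem_line _ _)))) h
  obtain ⟨_, ⟨u, rfl⟩, _, ⟨u', rfl⟩, rfl⟩ := mem_sup.1 this
  exact ⟨u, u', rfl⟩

omit [FiniteDimensional F U]

variable (U C₂) in
/-- Contraction against the second form. -/
noncomputable def cB (y : W) : U ⊗[F] W →ₗ[F] U := cR U (C₂.B y)

@[simp] theorem cB_tmul (y : W) (u : U) (w : W) : cB U C₂ y (u ⊗ₜ w) = C₂.B y w • u := by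
  simp [cB]

theorem cB_add (y y' : W) : cB U C₂ (y + y') = cB U C₂ y + cB U C₂ y' := by simp [cB]

theorem cB_smul (c : F) (y : W) : cB U C₂ (c • y) = T₂.σ c • cB U C₂ y := by simp [cB]

theorem cB_zero : cB U C₂ 0 = 0 := by simp [cB]

theorem mem_tl_perp : x ∈ tl U (C₂.perp Y) ↔ ∀ y ∈ Y, cB U C₂ y x = 0 :=
  ⟨fun h y hy => cR_eq_zero_of_mem_tl h fun _ hz => C₂.mem_perp.1 hz y hy, fun h =>
    mem_tl.2 fun ψ => C₂.mem_perp.2 fun y hy => by rw [← cR_cL, ← cB, h y hy, map_zero]⟩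

theorem cB_of_mem (hx : x ∈ tl U Y) (h : ∀ y ∈ Y, C₂.B z y = 0) : cB U C₂ z x = 0 :=
  cR_eq_zero_of_mem_tl hx h

theorem cB_congr {α : U ≃ₗ[F] U} {β : W ≃ₗ[F] W} (hβ : β ∈ C₂.isom) (y : W) (x : U ⊗[F] W) :
    cB U C₂ (β y) (TensorProduct.congr α β x) = α (cB U C₂ y x) := by
  induction x with
  | zero => simp
  | tmul u w => simp [CForm.isom_B hβ]
  | add x y a b => simp [a, b]

theorem rH_rho {β : W ≃ₗ[F] W} {v z : W} {a : F}
    (e : ∀ x, β x = x + C₂.B v x • z - (T₂.σ (C₂.B x z) + a * C₂.B v x) • v) (x : U ⊗[F] W) :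
    rH F U W β x = x + cB U C₂ v x ⊗ₜ z - (T₂.σ T₂.ε • cB U C₂ z x + a • cB U C₂ v x) ⊗ₜ v := by
  induction x with
  | zero => simp
  | tmul u w =>
    rw [rH_tmul, e, C₂.σ_B]
    simp [tmul_add, tmul_sub, add_tmul, smul_tmul, add_smul, mul_smul]
  | add x y a b => simp only [map_add, a, b, add_tmul, smul_add]; abel

variable (C C₁ C₂) in
/-- The form `C` is the tensor product of `C₁` and `C₂`. -/
structure TF : Prop where
  nd : C.Nondeg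
  nd₁ : C₁.Nondeg
  nd₂ : C₂.Nondeg
  σ₁ : ∀ a, T₁.σ a = T.σ a
  σ₂ : ∀ a, T₂.σ a = T.σ a
  hε : T.ε = T₁.ε * T₂.ε
  ε₂ : T₂.ε * T₂.σ T₂.ε = 1
  hB : ∀ u w u' w', C.B (u ⊗ₜ w) (u' ⊗ₜ w') = C₁.B u u' * C₂.B w w'
  hN : ∀ u w u' w', C₁.N u = C₁.N u' → C₂.N w = C₂.N w' → C.N (u ⊗ₜ w) = C.N (u' ⊗ₜ w')
  sing : ∀ w, C₂.B w w = 0 → C₂.N w = 0
  pos : 0 < finrank F U

namespace TF

variable (h : TF C C₁ C₂)
include h

theorem η_ne : T₂.σ T₂.ε ≠ 0 := T₂.σ_ne_zero T₂.ε_ne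

theorem N_tmul (u : U) (hw : C₂.N w = 0) : C.N (u ⊗ₜ w) = 0 := by
  rw [h.hN u w u 0 rfl (by rw [hw, C₂.N_zero]), tmul_zero, C.N_zero]

theorem B_tmul (u : U) (y : W) (x : U ⊗[F] W) : C.B (u ⊗ₜ y) x = C₁.B u (cB U C₂ y x) := by
  induction x with
  | zero => simp
  | tmul u w => simp [h.hB, mul_comm]
  | add x y a b => simp [a, b]

theorem congr_isom {α : U ≃ₗ[F] U} {β : W ≃ₗ[F] W} (hα : α ∈ C₁.isom) (hβ : β ∈ C₂.isom) :
    TensorProduct.congr α β ∈ C.isom := by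
  have h1 : ∀ x y, C.B (TensorProduct.congr α β x) (TensorProduct.congr α β y) = C.B x y := by
    intro x y
    induction x with
    | zero => simp
    | tmul u w => rw [congr_tmul, h.B_tmul, h.B_tmul, cB_congr hβ, CForm.isom_B hα]
    | add x y a b => simp [a, b]
  refine C.mem_isom.2 ⟨h1, fun x => ?_⟩
  induction x with
  | zero => simp
  | tmul u w => exact h.hN _ _ _ _ (CForm.isom_N hα u) (CForm.isom_N hβ w)
  | add x y a b => rw [map_add, C.N_add, C.N_add, a, b, h1]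

theorem cB_fix {q : (U ⊗[F] W) ≃ₗ[F] (U ⊗[F] W)} (hq : q ∈ C.isom)
    (e : ∀ u, q (u ⊗ₜ w) = u ⊗ₜ w) (x : U ⊗[F] W) : cB U C₂ w (q x) = cB U C₂ w x :=
  h.nd₁.ext' fun u => by rw [← h.B_tmul, ← e, CForm.isom_B hq, h.B_tmul]

variable [FiniteDimensional F U]

theorem perp_tl : C.perp (tl U Y) = tl U (C₂.perp Y) := by
  ext x
  rw [mem_tl_perp, C.mem_perp]
  refine ⟨fun e y hy => h.nd₁.eq_zero' fun u => by rw [← h.B_tmul, e _ (tmul_mem_tl u hy)],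
    fun e l hl => ?_⟩
  exact C.mem_perp_singleton.1 (tl_le (Z := C.perp (span F {x})) (fun u y hy =>
    C.mem_perp_singleton.2 (C.B_swap_zero (by rw [h.B_tmul, e y hy, map_zero]))) hl) |>
      C.B_swap_zero

theorem mem_perp_point : x ∈ C.perp (tl U (span F {w})) ↔ cB U C₂ w x = 0 := by
  rw [h.perp_tl, mem_tl_perp]
  refine ⟨fun e => e w (mem_span_singleton_self w), fun e y hy => ?_⟩
  obtain ⟨c, rfl⟩ := mem_span_singleton.1 hy
  simp [cB_smul, e]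

theorem mem_perp_plane :
    x ∈ C.perp (tl U (span F {w, y})) ↔ cB U C₂ w x = 0 ∧ cB U C₂ y x = 0 := by
  rw [h.perp_tl, mem_tl_perp]
  refine ⟨fun e => ⟨e w (mem_pair_left _ _), e y (mem_pair_right _ _)⟩, fun e y hy => ?_⟩
  obtain ⟨a, b, rfl⟩ := mem_span_pair.1 hy
  simp [cB_add, cB_smul, e]

theorem ts_tl (hY : Y ≤ C₂.perp Y) : tl U Y ≤ C.perp (tl U Y) := by
  rw [h.perp_tl]; exact tl_mono hY

theorem tmul_mem_perp (u : U) (hy : y ∈ C₂.perp Y) : u ⊗ₜ y ∈ C.perp (tl U Y) := by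
  rw [h.perp_tl]; exact tmul_mem_tl u hy

theorem ex : ∃ u : U, u ≠ 0 := finrank_pos_iff_exists_ne_zero.1 h.pos

theorem ex_one : ∃ u u' : U, C₁.B u u' = 1 :=
  let ⟨u, hu⟩ := h.ex; let ⟨u', e⟩ := h.nd₁.exists_eq hu 1; ⟨u, u', e⟩

omit [FiniteDimensional F U] in
theorem point_ts (hw : C₂.N w = 0) : span F {w} ≤ C₂.perp (span F {w}) :=
  (span_singleton_le_iff_mem _ _).2 (C₂.mem_perp_singleton.2 (C₂.B_self_of_zero hw))

theorem B_eq_zero {L : Submodule F (U ⊗[F] W)} (hL : L ≤ C.perp L)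
    {g : (U ⊗[F] W) ≃ₗ[F] (U ⊗[F] W)} (hg : g ∈ C.isom) (e : ∀ u, g (u ⊗ₜ w) ∈ L)
    (e' : ∀ u, g (u ⊗ₜ y) ∈ L) : C₂.B w y = 0 := by
  obtain ⟨u, u', e1⟩ := h.ex_one
  have := CForm.isom_B hg (u ⊗ₜ w) (u' ⊗ₜ y)
  rwa [C.mem_perp.1 (hL (e' u')) _ (e u), h.hB, e1, one_mul, eq_comm] at this

end TF

end H12
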