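import Cfsg.Agent.H12.Ten9
import Cfsg.Agent.H12.UF1

/-!
# Tensor products of unitary spaces: a second factor of dimension four
-/

set_option autoImplicit false
set_option maxHeartbeats 400000

namespace H12

open Module H11 Submodule TensorProduct H13.KL

variable {F : Type*} [Field F] {U W : Type*} [AddCommGroup U] [Module F U] [AddCommGroup W]
  [Module F W]

section Gen

variable {T T₁ T₂ : FormType F} {C : CForm T (U ⊗[F] W)} {C₁ : CForm T₁ U}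
  {C₂ : CForm T₂ W} {X G : Subgroup ((U ⊗[F] W) ≃ₗ[F] (U ⊗[F] W))} {R : Subgroup (W ≃ₗ[F] W)}
  {x : U ⊗[F] W} {u : U} {w y : W} {A D : End F U}

variable (C₂ X) in
/-- The additive group attached to the centre of the unipotent radical. -/
def zH (hw : C₂.N w = 0) : AddSubgroup (End F U) where
  carrier := {S | ∃ t ∈ X, ∀ x, t x = x + S (cB U C₂ w x) ⊗ₜ w}
  zero_mem' := ⟨1, one_mem _, fun x => by simp⟩
  add_mem' := fun ⟨t, a1, a2⟩ ⟨t', b1, b2⟩ => ⟨t * t', mul_mem a1 b1, fun x => by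
    simp [a2, b2, C₂.B_self_of_zero hw, add_tmul]; abel⟩
  neg_mem' := fun ⟨t, a1, a2⟩ => ⟨t⁻¹, inv_mem a1, fun x => t.injective (by
    rw [apply_inv_apply, a2]; simp [C₂.B_self_of_zero hw, neg_tmul])⟩

theorem QW.smul_w {Φ : U ⊗[F] W →ₗ[F] U} {c : F} (hc : c ≠ 0) (h : QW C₂ X (c • w) Φ) :
    QW C₂ X w (c • Φ) :=
  let ⟨q, h1, h2⟩ := h
  ⟨q, h1, fun x hx => by rw [h2 x (by simp [cB_smul, hx])]; simp [smul_tmul]⟩

namespace TX

variable [FiniteDimensional F U] [FiniteDimensional F W] (h : TX C C₁ C₂ X R)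
include h

omit [FiniteDimensional F U] [FiniteDimensional F W] in
theorem conj_qw (hq : QW C₂ X w (A ∘ₗ cB U C₂ y)) {β : W ≃ₗ[F] W} (hβ : β ∈ R) :
    QW C₂ X (β w) (A ∘ₗ cB U C₂ (β y)) := by
  obtain ⟨q, h1, h2⟩ := hq
  have hk := h.hX β hβ
  have e := fun y x => cB_congr (α := (1 : U ≃ₗ[F] U)) (h.spec.le hβ) y x
  rw [show TensorProduct.congr 1 β = rH F U W β from rfl] at e
  refine ⟨_ * q * _⁻¹, mul_mem (mul_mem hk h1) (inv_mem hk), fun x hx => ?_⟩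
  obtain ⟨x, rfl⟩ := (rH F U W β).surjective x
  rw [e, EmbeddingLike.map_eq_zero_iff] at hx
  rw [LinearEquiv.mul_apply, LinearEquiv.mul_apply, inv_apply_apply, h2 x hx]
  simp [e, rH_tmul]

theorem rq_all' (hR : ∀ w y, TSP C₂ w y → ∀ u u', Rq C X (u ⊗ₜ w) (u' ⊗ₜ y) 0) (hw : C₂.N w = 0)
    (hw0 : w ≠ 0) (hu : u ≠ 0) (hx : C.B (u ⊗ₜ w) x = 0) : ∃ a, Rq C X (u ⊗ₜ w) x a := by
  have hp := C.B_self_of_zero (h.N_tmul u hw)
  generalize hS : rqS X (h.N_tmul u hw) = S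
  have hS' : ∀ y, y ∈ S ↔ C.B (u ⊗ₜ w) y = 0 ∧ ∃ a, Rq C X (u ⊗ₜ w) y a := fun y => hS ▸ mem_rqS
  have h1 : ∀ u' y, C₂.B w y = 0 → u' ⊗ₜ y ∈ S := fun u' y hy =>
    h.perp_add hw hw0 (S.comap (TensorProduct.mk F U W u').toAddMonoidHom)
      (fun y e => (hS' _).2 ⟨by simp [h.hB, e.hB], 0, hR _ _ e u u'⟩) hy
  obtain ⟨w', -, a1, a2⟩ := h.nd₂.exists_partner (Z := ⊥) (x := w) (by simpa using hw0) hw
    (by simp [C₂.perp_bot])
  have h2 : ∀ u', C₁.B u' u = 0 → u' ⊗ₜ w' ∈ S := fun u' hu' => by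
    obtain ⟨y, b1, b2, b3, b4⟩ := h.conn w w'
    have b5 : TSP C₂ w' y := ⟨a1, b2, b4, by rintro rfl; simp at a2, fun e => by
      obtain ⟨c, rfl⟩ := mem_span_singleton.1 e
      simp [a2] at b3; simp [b3] at b1⟩
    obtain ⟨y', b6, b7⟩ := h.nd₂.exists_perp_eq (W := span F {w, w'}) (x := y) (fun e => by
      obtain ⟨s, t, rfl⟩ := mem_span_pair.1 e
      simp [a2, C₂.B_self_of_zero hw, C₂.B_self_of_zero a1, C₂.symm w w', T₂.ε_ne] at b3 b4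
      simp [b3, b4] at b1) 1
    obtain ⟨b8, b9⟩ := C₂.mem_perp_pair.1 b6
    obtain ⟨v, v', c1⟩ := h.ex_one
    obtain ⟨k, c2, c3⟩ := hR _ _ b5 u' v
    obtain ⟨c4, a, c5⟩ := (hS' _).1 (h1 ((-T.ε) • v') y' b8)
    have c7 := c5.comm c2 (h.le c2) (by simp [c3, h.hB, hu', b3]) hp c4
    have c6 := C.εσε (v ⊗ₜ y) (v' ⊗ₜ y')
    rw [show k ((-T.ε • v') ⊗ₜ y') - (-T.ε • v') ⊗ₜ y' = u' ⊗ₜ w' by
      rw [c3, C.σ_B]
      simp only [h.hB, c1, b7, b9, map_smul, smul_eq_mul, mul_one] at c6 ⊢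
      match_scalars <;> first | ring1 | linear_combination c6] at c7
    exact (hS' _).2 ⟨by simp [h.hB, C₁.B_swap_zero hu'], _, c7⟩
  have h3 : x - cB U C₂ w x ⊗ₜ w' ∈ S := tl_add (Y := C₂.perp (span F {w})) S
    (fun u' y hy => h1 _ _ (C₂.mem_perp_singleton.1 hy))
    (by rw [← h.perp_tl, h.mem_perp_point]; simp [a2])
  have h4 := add_mem h3 (h2 _ (C₁.B_swap_zero (by rw [← h.B_tmul, hx])))
  rw [sub_add_cancel] at h4
  exact ((hS' _).1 h4).2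

theorem le_of_rq (hR : ∀ w y, TSP C₂ w y → ∀ u u', Rq C X (u ⊗ₜ w) (u' ⊗ₜ y) 0) (hG : RootG C G)
    (hX : X ≤ G)
    (hZ : ∀ a, a * T.ε + T.σ a = 0 → T.τ (a * T.ε) = 0 → ∃ b, a = T.σ T.ε * b - T.σ b) :
    G ≤ X := by
  have key : ∀ u w p, C₂.N w = 0 → C.B (u ⊗ₜ w) p = 1 → Q1 C G X (u ⊗ₜ w) := fun u w p hw hp => by
    have hw0 : w ≠ 0 := by rintro rfl; simp at hp
    have hu : u ≠ 0 := by rintro rfl; simp at hp
    have hN := h.N_tmul u hw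
    have hvv := C.B_self_of_zero hN
    refine q1_of_rho hG.le hX hN hp (fun y => h.rq_all' hR hw hw0 hu) fun a ha => ?_
    obtain ⟨β, rfl⟩ := hZ a (ha.tvOk hG.le hN hp).1 (ha.tvOk hG.le hN hp).2
    obtain ⟨y, e⟩ := h.tsp hw hw0
    obtain ⟨-, y', -, -, b1, b2⟩ := e.exists_dual h.nd₂
    obtain ⟨v, v', c0⟩ := h.ex_one
    have c1 : C.B (u ⊗ₜ w) (v ⊗ₜ y) = 0 := by simp [h.hB, e.hB]
    have c2 : C.B (u ⊗ₜ w) (β • v' ⊗ₜ y') = 0 := by simp [h.hB, b1]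
    obtain ⟨a, e1⟩ := h.rq_all' hR hw hw0 hu c1
    obtain ⟨a', e2⟩ := h.rq_all' hR hw hw0 hu c2
    convert (e1.mul e2 hvv c1 c2).div (e2.mul e1 hvv c2 c1) hvv (by rw [map_add, c1, c2, add_zero])
      (by rw [map_add, c1, c2, add_zero]) using 1
    · simp [add_comm]
    · simp [add_comm (v ⊗ₜ[F] y), C.σ_B (v' ⊗ₜ y'), h.hB v, c0, b2, T.σσ]
      ring
  obtain ⟨w, a1, a2, -⟩ := h.conn 0 0
  obtain ⟨w', -, b1, b2⟩ := h.nd₂.exists_partner (Z := ⊥) (x := w) (by simpa using a1) a2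
    (by simp [C₂.perp_bot])
  obtain ⟨v, v', c0⟩ := h.ex_one
  have c1 : C.B (v ⊗ₜ w) (v' ⊗ₜ w') = 1 := by simp [h.hB, c0, b2]
  obtain ⟨p, c2⟩ := h.nd.exists_eq (x := v' ⊗ₜ w') (fun e => by simp [e] at c1) 1
  exact hG.fin X _ _ (h.N_tmul v a2) (h.N_tmul v' b1) (by simp [c1]) (key _ _ _ a2 c1)
    (key _ _ _ b1 c2)

theorem trans_qI (hw : C₂.N w = 0) (hw0 : w ≠ 0) (hy : C₂.N y = 0) (hy0 : y ≠ 0)
    (hA : A ∈ qI C₂ X hw) : A ∈ qI C₂ X hy := by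
  obtain ⟨β, a1, rfl⟩ := h.spec.witt_one h.dim hw0 hy0 (hy.trans hw.symm)
  exact h.conj_qI hw hA (α := 1) (h.spec.le a1) (h.hX β a1) hy

end TX

end Gen

variable {σ : F →+* F} {hσ2 : ∀ a, σ (σ a) = a}

theorem hermσ' (t : F) : (hermType σ hσ2).σ t = σ t := rfl

theorem hermε' : (hermType σ hσ2).ε = 1 := rfl

theorem TSP.exists_tor {V : Type*} [AddCommGroup V] [Module F V] [FiniteDimensional F V]
    {C : CForm (hermType σ hσ2) V} (hC : C.Nondeg) {w y : V} (e : TSP C w y) {a : F} (ha : a ≠ 0) :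
    ∃ k ∈ C.isom, k w = w ∧ k y = a • y ∧ LinearMap.det (k : V →ₗ[F] V) = a * (σ a)⁻¹ := by
  obtain ⟨f, a1, a2, a3⟩ := hC.exists_partner e.nm e.hc (C.mem_perp_singleton.2 e.hB)
  obtain ⟨k, b1, -, b2, b3⟩ := IsHypPair.exists_torus hC (⟨e.hc, a2, a3⟩ : IsHypPair C y f) ha
  exact ⟨k.1, k.2, b2 w e.symm.hB (C.B_swap_zero (C.mem_perp_singleton.1 a1)), b1, by
    rw [← LinearEquiv.coe_det]; exact b3⟩

variable {C : CForm (hermType σ hσ2) (U ⊗[F] W)} {C₁ : CForm (hermType σ hσ2) U}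
  {C₂ : CForm (hermType σ hσ2) W} {X G : Subgroup ((U ⊗[F] W) ≃ₗ[F] (U ⊗[F] W))}
  {w y : W} {A D S : End F U} {Φ : U ⊗[F] W →ₗ[F] U}
  [FiniteDimensional F U] [FiniteDimensional F W] [Finite F]

namespace TX

variable (h : TX C C₁ C₂ X (C₂.isom ⊓ SLV F W)) (hσ : σ ≠ RingHom.id F)
include h hσ

omit [FiniteDimensional F U] in
theorem pur4 (e : TSP C₂ w y) (hq : QW C₂ X w (A ∘ₗ cB U C₂ y)) (c : F) :
    QW C₂ X w ((c • A) ∘ₗ cB U C₂ y) := by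
  have hw := C₂.B_self_of_zero e.hv
  have := Fintype.ofFinite F
  let M : AddSubgroup F :=
    { carrier := {c | QW C₂ X w ((c • A) ∘ₗ cB U C₂ y)}
      zero_mem' := by simpa using qw_zero
      add_mem' := fun a b => by
        simpa [add_smul, LinearMap.add_comp] using QW.add a b hw (by simp [e.symm.hB])
      neg_mem' := fun a => by simpa using QW.neg a hw (by simp [e.symm.hB]) }
  refine addSubgroup_all hσ hσ2 (A := M) (fun ω hω a ha => ?_) (a := 1) (by simpa [M]) one_ne_zero c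
  obtain ⟨b, b0, rfl⟩ := hilbert90 hσ hσ2 hω
  obtain ⟨k, a1, a2, a3, a4⟩ := e.exists_tor h.nd₂ (inv_ne_zero b0)
  obtain ⟨k', b1, b2, b3, b4⟩ := e.symm.exists_tor h.nd₂ b0
  have := h.conj_qw ha (β := k * k') ⟨mul_mem a1 b1, mem_SLV.2 (by
    rw [LinearEquiv.coe_toLinearMap_mul, map_mul, a4, b4, map_inv₀]
    have := (map_ne_zero σ).2 b0
    field_simp)⟩
  rw [LinearEquiv.mul_apply, LinearEquiv.mul_apply, b2, b3, a3, map_smul, a2] at this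
  exact (this.smul_w b0).congr fun x _ => by
    simp [cB_smul, smul_smul, hermσ']; congr 1; ring

omit [FiniteDimensional F U] in
theorem of_one4 (e : TSP C₂ w y) (hq : QW C₂ X w (A ∘ₗ cB U C₂ y)) : A ∈ qI C₂ X e.hv := by
  have hw := C₂.B_self_of_zero e.hv
  let S : AddSubgroup W :=
    { carrier := {y | C₂.B w y = 0 ∧ QW C₂ X w (A ∘ₗ cB U C₂ y)}
      zero_mem' := ⟨by simp, by simpa [cB_zero] using qw_zero⟩
      add_mem' := fun ⟨a1, a2⟩ ⟨a3, a4⟩ => ⟨by simp [a1, a3], by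
        rw [cB_add, LinearMap.comp_add]; exact a2.add a4 hw (by simp [C₂.B_swap_zero a1])⟩
      neg_mem' := fun ⟨a1, a2⟩ => ⟨by simp [a1], by
        simpa [cB] using a2.neg hw (by simp [C₂.B_swap_zero a1])⟩ }
  refine fun y' hy' => (h.perp_add e.hv e.ne S (fun y₂ b => ⟨b.hB, ?_⟩) hy').2
  obtain ⟨g, b1, b2, rfl⟩ := h.nd₂.witt_step (span F {w}) e.nm b.nm (fun x hx => by
    obtain ⟨c, rfl⟩ := mem_span_singleton.1 hx
    simp [b.hB, e.hB]) (b.hc.trans e.hc.symm)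
  have h1 := h.nd₂.σ_det_mul_det b1
  obtain ⟨a, ha, e'⟩ := hilbert90 hσ hσ2 (d := σ (LinearMap.det (g : W →ₗ[F] W)))
    (by rw [hσ2]; exact h1)
  obtain ⟨k, a1, a2, a3, a4⟩ := e.exists_tor h.nd₂ ha
  have := h.conj_qw (h.pur4 hσ e hq (σ a)⁻¹) (β := g * k) ⟨mul_mem b1 a1, mem_SLV.2 (by
    rw [LinearEquiv.coe_toLinearMap_mul, map_mul, a4, e', mul_comm]; exact h1)⟩
  rw [LinearEquiv.mul_apply, LinearEquiv.mul_apply, a2, a3, b2 w (mem_span_singleton_self w),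
    map_smul] at this
  exact this.congr fun x _ => by simp [cB_smul, smul_smul, hermσ', ha]

omit [FiniteDimensional F U] in
theorem mul_zH (e : TSP C₂ w y) (hq : QW C₂ X w Φ) (h0 : ∀ u, Φ (u ⊗ₜ w) = 0)
    (hA : ∀ u, Φ (u ⊗ₜ y) = A u) (hS : S ∈ zH C₂ X e.hc) : A * S ∈ qI C₂ X e.hv :=
  let ⟨t, a1, a2⟩ := hS
  h.of_one4 hσ e ((h.comm e.hv hq h0 a1 (by simp [a2, e.symm.hB])).congr fun x _ => by
    simp [a2, hA])

omit [FiniteDimensional F U] in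
theorem mul_zH' (e : TSP C₂ w y) (hA : A ∈ qI C₂ X e.hv) (hS : S ∈ zH C₂ X e.hc) :
    A * S ∈ qI C₂ X e.hv := by
  obtain ⟨-, y', -, -, a1, a2⟩ := e.exists_dual h.nd₂
  exact h.mul_zH hσ e (hA y' a1) (by simp [C₂.B_swap_zero a1]) (by simp [herm_symm y y', a2]) hS

omit hσ [Finite F] in
theorem comm_zH (hw : C₂.N w = 0) (hw0 : w ≠ 0) (hA : A ∈ qI C₂ X hw) :
    A - h.nd₁.adj A ∈ zH C₂ X hw := by
  obtain ⟨y, e⟩ := h.tsp hw hw0
  obtain ⟨-, y', -, -, a1, a2⟩ := e.exists_dual h.nd₂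
  have b0 := C₂.B_self_of_zero hw
  obtain ⟨q, b1, b2⟩ := hA y e.hB
  obtain ⟨q', b3, b4⟩ := h.one_mem_qI hw y' a1
  have h1 : h.nd₁.adj 1 = 1 := LinearMap.ext fun x => h.nd₁.ext fun y => by simp [h.nd₁.B_adj]
  have c1 := fun x => QW.inv_apply b2 b0 (by simp [e.symm.hB]) (x := x)
  have c2 := fun x => QW.inv_apply b4 b0 (by simp [C₂.B_swap_zero a1]) (x := x)
  have c3 := fun {t} => h.cB_inv (D := h.nd₁.adj A) (t := t) b1 (by rwa [h.nd₁.adj_adj])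
  have c4 := fun {t} => h.cB_inv (D := 1) (t := t) b3 (by rwa [h1])
  refine ⟨q' * q * q'⁻¹ * q⁻¹, mul_mem (mul_mem (mul_mem b3 b1) (inv_mem b3)) (inv_mem b1),
    fun x => ?_⟩
  have d1 := c1 (x := q'⁻¹ x - x) (by rw [map_sub, c4 b0]; simp [C₂.B_swap_zero a1])
  have d2 := c2 (x := q⁻¹ x - x) (by rw [map_sub, c3 b0]; simp [e.symm.hB])
  simp only [map_sub, LinearMap.neg_apply, LinearMap.comp_apply, c4 e.hB, c3 a1,
    add_sub_cancel_left] at d1 d2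
  have d3 : q'⁻¹ (q⁻¹ x) = q⁻¹ (q'⁻¹ x) + (A - h.nd₁.adj A) (cB U C₂ w x) ⊗ₜ w := by
    simp only [a2, herm_symm y y', hermσ', map_one, one_smul, mul_one, sub_tmul, neg_tmul,
      End.one_apply, LinearMap.sub_apply, map_add, add_tmul] at d1 d2 ⊢
    linear_combination (norm := module) d2 - d1
  simp only [LinearEquiv.mul_apply, d3, map_add, apply_inv_apply]
  rw [b2 _ (by simp [b0]), map_add, b4 _ (by simp [b0]), b4 _ (by simp [b0])]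
  simp [e.symm.hB, C₂.B_swap_zero a1]

omit hσ [Finite F] [FiniteDimensional F W] in
theorem adj_smul (c : F) (A : End F U) : h.nd₁.adj (c • A) = σ c • h.nd₁.adj A :=
  LinearMap.ext fun x => h.nd₁.ext fun y => by simp [h.nd₁.B_adj, hermσ', hσ2]

theorem mul_qI4 (hw : C₂.N w = 0) (hw0 : w ≠ 0) (hA : A ∈ qI C₂ X hw) (hD : D ∈ qI C₂ X hw) :
    A * D ∈ qI C₂ X hw ∧ h.nd₁.adj D ∈ qI C₂ X hw := by
  obtain ⟨y, e⟩ := h.tsp hw hw0
  obtain ⟨θ, hθ⟩ := exists_ne_of_ne_id hσ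
  have h1 := h.trans_qI hw hw0 e.hc e.symm.ne hD
  have h2 := h.comm_zH e.hc e.symm.ne h1
  have h3 := sub_mem (h.mul_zH' hσ e hA (h.comm_zH e.hc e.symm.ne (smul_mem _ θ h1)))
    (smul_mem _ (σ θ) (h.mul_zH' hσ e hA h2))
  rw [h.adj_smul, show A * (θ • D - σ θ • h.nd₁.adj D) - σ θ • (A * (D - h.nd₁.adj D)) =
    (θ - σ θ) • (A * D) by simp [mul_sub, smul_sub, sub_smul], smul_mem_iff _
    (sub_ne_zero.2 hθ.symm)] at h3
  exact ⟨h3, by simpa using sub_mem hD (h.mul_zH' hσ e (h.one_mem_qI _) h2)⟩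

/-- The algebra attached to an overgroup. -/
def alg4 (hw : C₂.N w = 0) (hw0 : w ≠ 0) : Subalgebra F (End F U) where
  carrier := qI C₂ X hw
  mul_mem' a b := (h.mul_qI4 hσ hw hw0 a b).1
  add_mem' a b := add_mem a b
  algebraMap_mem' c := by
    rw [Algebra.algebraMap_eq_smul_one]; exact smul_mem _ _ (h.one_mem_qI hw)

theorem qs_of_qI4 (hw : C₂.N w = 0) (hw0 : w ≠ 0)
    (hs : ∀ A ∈ qI C₂ X hw, ∃ c : F, ∀ u, A u = c • u) : QS C₂ X := fun w y Φ e hq h0 => by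
  obtain ⟨a, a1, a2⟩ := exists_trace_zero' (hσ2 := hσ2) hσ
  obtain ⟨t, b1, -, b2⟩ := h.exists_tv e.hc (a := a) (by simpa [hermσ', hermε'] using a2)
  obtain ⟨c, hc⟩ := hs _ (h.trans_qI e.hv e.ne hw hw0 (h.mul_zH hσ e hq h0
    (A := Φ ∘ₗ (TensorProduct.mk F U W).flip y) (S := -a • 1) (fun _ => rfl) ⟨t, b1, b2⟩))
  exact ⟨-c / a, fun u => by
    have := hc (a⁻¹ • u)
    simp [smul_smul, a1] at this
    rw [neg_eq_iff_eq_neg.1 this, neg_div, neg_smul, div_eq_mul_inv]⟩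

theorem rq_tmul4 (hG : RootG C G) (e : TSP C₂ w y) (hs : ∀ A, A ∈ qI C₂ X e.hv) (u u' : U) :
    Rq C X (u ⊗ₜ w) (u' ⊗ₜ y) 0 := by
  obtain ⟨ρ, a1, a2⟩ := hG.rho (u ⊗ₜ w) (u' ⊗ₜ y) (h.N_tmul u e.hv) (h.N_tmul u' e.hc)
    (by simp [h.hB, e.hB])
  obtain ⟨q, b1, b2⟩ := hs ((C₁.B u').smulRight (-u)) y e.hB
  have b0 := C₂.B_self_of_zero e.hv
  have c0 := mul_mem (inv_mem (h.le b1)) (hG.le a1)
  have c1 : ∀ x, cB U C₂ w x = 0 → (q⁻¹ * ρ) x = x := fun x hx => q.injective (by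
    rw [LinearEquiv.mul_apply, apply_inv_apply, a2, b2 x hx, C.σ_B]
    simp [h.B_tmul, hx, hermσ', hermε', neg_tmul, smul_tmul', sub_eq_add_neg])
  have c2 := h.nd.mem_cen_of_fix (L := tl U (span F {w})) c0 fun x hx =>
    c1 x (h.mem_perp_point.1 hx)
  refine ⟨ρ, ?_, a2⟩
  rw [← mul_inv_cancel_left q ρ]
  refine mul_mem b1 ?_
  generalize q⁻¹ * ρ = t at *
  obtain ⟨r, hr⟩ := h.nd₂.exists_eq e.ne 1
  obtain ⟨φ, hφ⟩ := exists_dual_one (F := F) e.ne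
  obtain ⟨S, hS⟩ : ∃ S : End F U, ∀ v, t (v ⊗ₜ r) = v ⊗ₜ r + S v ⊗ₜ w :=
    ⟨cR U φ ∘ₗ (t.toLinearMap - 1) ∘ₗ (TensorProduct.mk F U W).flip r, fun v => by
      obtain ⟨s, hs⟩ := mem_tl_singleton.1 (c2 (v ⊗ₜ r))
      have : cR U φ (t (v ⊗ₜ r) - v ⊗ₜ r) = s := by simp [hs, hφ]
      exact (by rw [this, ← hs, add_sub_cancel] :
        t (v ⊗ₜ r) = v ⊗ₜ r + cR U φ (t (v ⊗ₜ r) - v ⊗ₜ r) ⊗ₜ w)⟩
  have d1 : h.nd₁.adj S = -S := LinearMap.ext fun x => h.nd₁.ext fun y => by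
    have := CForm.isom_B c0 (x ⊗ₜ r) (y ⊗ₜ r)
    simp [hS, hr, h.hB, b0, herm_symm w r] at this
    rw [h.nd₁.B_adj]
    simp
    linear_combination this
  obtain ⟨θ, hθ⟩ := exists_trace_eq hσ hσ2 (map_one σ)
  obtain ⟨t', d2, d3⟩ := h.comm_zH e.hv e.ne (hs (θ • S))
  rw [h.adj_smul, d1, smul_neg, sub_neg_eq_add, ← add_smul, hθ, one_smul] at d3
  rwa [show t = t' from LinearEquiv.ext fun x => by
    rw [d3, ← sub_add_cancel x (cB U C₂ w x ⊗ₜ r), map_add, c1 _ (by simp [hr]), hS]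
    simp [hr]; abel]

end TX

theorem isMaximalIn_u_u4 (hσ : σ ≠ RingHom.id F) (hN : ∀ a, σ a = a → ∃ b, b * σ b = a)
    (hC : C.Nondeg) (h₁ : C₁.Nondeg) (h₂ : C₂.Nondeg)
    (hB : ∀ u w u' w', C.B (u ⊗ₜ w) (u' ⊗ₜ w') = C₁.B u u' * C₂.B w w')
    (hU : 2 ≤ finrank F U) (hW : 4 ≤ finrank F W) (hd : finrank F U < finrank F W)
    (hex : 3 ≤ finrank F U ∨ ∃ b : F, σ b = b ∧ b ≠ 0 ∧ b ≠ 1) :
    Cfsg.Geo.IsMaximalIn (C.isom ⊓ SLV F _) (tenStab F U W ⊓ (C.isom ⊓ SLV F _)) := by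
  have h : TF C C₁ C₂ := ⟨hC, h₁, h₂, fun _ => rfl, fun _ => rfl, by simp [hermType],
    by simp [hermType], hB, fun u w u' w' a b => by
      rw [← herm_B_self, ← herm_B_self, hB, hB, herm_B_self, herm_B_self, a, b, herm_B_self,
        herm_B_self], fun w e => (herm_B_self w).symm.trans e, by omega⟩
  obtain ⟨θ, hθ⟩ := exists_trace_eq hσ hσ2 (map_one σ)
  obtain ⟨a, a1, a2⟩ := exists_trace_zero' (hσ2 := hσ2) hσ
  have a3 : a * (hermType σ hσ2).ε + (hermType σ hσ2).σ a = 0 := by simpa [hermType] using a2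
  have hG := rootG_herm hσ hN hC (by
      rw [finrank_tensorProduct]; have := Nat.mul_le_mul hU hW; omega)
  have hK := ma_herm hσ hN h₁ hU hex
  have h0 := h.tx_herm hσ hN hW
  refine isMaximalIn_of _ _ inf_le_right (fun e => h0.not_le hG hK.ex (e.trans inf_le_left))
    fun X c1 c2 g c3 c4 => ?_
  have hX := h0.mono c1 (c2.trans hG.le)
  obtain ⟨w, w0, hw, -⟩ := hX.conn 0 0
  by_cases hs : ∀ A ∈ qI C₂ X hw, ∃ c : F, ∀ u, A u = c • u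
  swap
  · push Not at hs
    obtain ⟨A, b1, b2⟩ := hs
    have := hK.eq_top (hX.alg4 hσ hw w0) (fun A hA => (hX.mul_qI4 hσ hw w0 hA hA).2)
      (fun α hα A hA => hX.conj_qI hw hA (β := 1) (one_mem _) (c1 ⟨congr_mem _ _,
        h.congr_isom hα.1 (one_mem _), congr_mem_SLV_one hα.2⟩) hw) b1 (by simpa using b2)
    refine hX.le_of_rq (fun w' y e => hX.rq_tmul4 hσ hG e fun A =>
      hX.trans_qI hw w0 _ e.ne (this A)) hG c2 fun a ha _ => ⟨a * θ, ?_⟩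
    change a * 1 + σ a = 0 at ha
    change a = σ 1 * (a * θ) - σ (a * θ)
    rw [map_mul, map_one, eq_neg_of_add_eq_zero_right ha]
    linear_combination -a * hθ
  have hS := hX.qs_of_qI4 hσ hw w0 hs
  refine absurd ⟨?_, c2 c3⟩ c4
  by_cases hb : ∃ b : F, σ b = b ∧ b ≠ 0 ∧ b ≠ 1
  · obtain ⟨b, b1, b2, b3⟩ := hb
    exact hX.le_of_two hS (scS_of_lt hd) a1 a3 (mul_ne_zero a1 b2) (by
      change a * b * 1 + σ (a * b) = 0
      rw [map_mul, b1]; linear_combination b * a2) (by simpa [a1, eq_comm]) c3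
  · push Not at hb
    refine hX.le_of_dih hS (scS_of_lt hd) a1 a3 (fun c hc => or_iff_not_imp_left.2 fun c0 => ?_)
      (hex.resolve_right fun ⟨b, b1, b2, b3⟩ => b3 (hb b b1 b2)) hd
      (fun Y => herm_exists_iso hN C₂) c3
    change c * 1 + σ c = 0 at hc
    rw [← div_eq_one_iff_eq a1]
    refine hb _ ?_ (div_ne_zero c0 a1)
    rw [map_div₀, eq_neg_of_add_eq_zero_right hc, eq_neg_of_add_eq_zero_right a2, mul_one,
      neg_div_neg_eq]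

end H12
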