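import Cfsg.Agent.H12.WR16
import Cfsg.Agent.H12.US3b
import Cfsg.Agent.H12.Lag3

/-!
# Tensor products of forms: orthogonal times a symplectic plane
-/

set_option autoImplicit false
set_option maxHeartbeats 400000

namespace H12

open Module H11 Submodule TensorProduct H13.KL QuadraticMap

variable {F : Type*} [Field F] {U W : Type*} [AddCommGroup U] [Module F U] [AddCommGroup W]
  [Module F W] {T₁ : FormType F} {C : CForm (altType F) (U ⊗[F] W)} {C₁ : CForm T₁ U}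
  {C₂ : CForm (altType F) W} {X : Subgroup ((U ⊗[F] W) ≃ₗ[F] (U ⊗[F] W))}
  {w y : W} {A D : End F U} [FiniteDimensional F U] [FiniteDimensional F W]

namespace TZ

variable (h : TZ C C₁ C₂ X C₂.isom) (h2 : (2 : F) ≠ 0) (hs : ∀ x y, C₁.B y x = C₁.B x y)
  (hK : MA C₁ C₁.isom) (hK' : ∀ α ∈ C₁.isom, lH F U W α ∈ X)
include h h2 hs hK hK'

omit [FiniteDimensional F W] in
theorem pi_mem_zI (hr : ∀ e y, C₁.N e = 0 → C₁.B e y = 0 → ∃ a, Rq C₁ C₁.isom e y a)
    (hA : A ∈ zI C₂ X w) (hn : ¬ ∃ c : F, ∀ u, A u = c • u) (hw : w ≠ 0) {e : U}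
    (a1 : e ≠ 0) (a2 : C₁.N e = 0) : (C₁.B e).smulRight e ∈ zI C₂ X w := by
  obtain ⟨f, hf⟩ := h.nd₁.exists_eq a1 1
  have hc : ∀ g ∈ C₁.isom, ∀ A ∈ zI C₂ X w, cj g A ∈ zI C₂ X w := fun g hg A hA c => by
    obtain ⟨t, b1, b2⟩ := hA c
    refine ⟨_ * t * _⁻¹, mul_mem (mul_mem (hK' g hg) b1) (inv_mem (hK' g hg)), fun x => ?_⟩
    obtain ⟨x, rfl⟩ := (lH F U W g).surjective x
    rw [LinearEquiv.mul_apply, LinearEquiv.mul_apply, inv_apply_apply, b2, map_add, lH_tmul,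
      show cB U C₂ w (lH F U W g x) = g (cB U C₂ w x) from cB_congr (one_mem _) w x]
    simp [inv_apply_apply]
  obtain ⟨D, b1, b2, b3⟩ := exists_w1 (zI C₂ X w) (fun c =>
    let ⟨β, c1, c2⟩ := h.fw.tv' (H12.alt_N w) (c := c) (by simp [altType])
    ⟨_, h.hX β c1, fun x => (congr_one_tr c2 x).trans (by simp [cB, map_smulRight])⟩) hc a2 (fun A => hK.fix e A a1 a2) hA hn
  have key : ∀ D ∈ zI C₂ X w, h.nd₁.adj D = D := fun D hD =>
    LinearMap.ext fun x => h.nd₁.ext fun y => by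
      obtain ⟨t, c1, c2⟩ := hD 1
      obtain ⟨r, hr⟩ := h.nd₂.exists_eq hw 1
      have := CForm.isom_B (h.le c1) (x ⊗ₜ r) (y ⊗ₜ r)
      simp [c2, hr, h.hB, H12.alt_B_self, H12.alt_symm w r] at this
      rw [h.nd₁.B_adj]
      linear_combination -this
  suffices ∃ D ∈ zI C₂ X w, D ≠ 0 ∧ W1 C₁ e D ∧ D f ∈ span F {e} by
    obtain ⟨D, c1, c2, c3, c4⟩ := this
    obtain ⟨c, rfl⟩ := c3.eq_smul h.nd₁ hf c4 (by rwa [key D c1])
    exact (smul_mem_iff _ fun e => c2 (by simp [e])).1 c1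
  by_cases c1 : D f ∈ span F {e}
  · exact ⟨D, b1, b2, b3, c1⟩
  obtain ⟨y, c2, c3⟩ := h.nd₁.exists_perp_ne c1
  obtain ⟨a, g, c4, c5⟩ := hr e y a2 (C₁.mem_perp_singleton.1 c2)
  have d1 : g e = e := by simp [c5, C₁.B_self_of_zero a2, C₁.mem_perp_singleton.1 c2]
  have d2 : g⁻¹ e = e := by rw [← d1, inv_apply_apply, d1]
  have d3 : ∀ x, C₁.B e (g⁻¹ x) = C₁.B e x := fun x => by
    rw [← CForm.isom_B c4, d1, apply_inv_apply]
  have d4 : g (D f) = D f - C₁.B (D f) y • e := by simp [c5, b3.h3, h.σ₁, alt_sigma]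
  obtain ⟨d, hd⟩ := b3.apply hf (g⁻¹ f)
  have d5 := h.nd₁.B_adj D f (g⁻¹ f)
  rw [key D b1, hd, ← CForm.isom_B c4, apply_inv_apply, d4, d3, hf] at d5
  simp [hf, hs e f, hs f (D f), h.σ₁, alt_sigma] at d5
  have d6 : (cj g D - D) f = (-2 * C₁.B (D f) y) • e := by
    rw [LinearMap.sub_apply, cj_apply, hd, map_add, map_smul, map_smul, d4, d1, d3, hf,
      show d = -C₁.B (D f) y by linear_combination -d5]
    module
  refine ⟨_, sub_mem (hc g c4 D b1) b1, fun c => by simp [c, a1, h2, c3] at d6,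
    ⟨by simp [d2, b3.h1], fun z hz => sub_mem ?_ (b3.h2 z hz), fun z => ?_⟩,
    d6 ▸ smul_mem _ _ (mem_span_singleton_self e)⟩
  · obtain ⟨c, hc⟩ := mem_span_singleton.1 (b3.h2 (g⁻¹ z) (by rw [d3, hz]))
    exact mem_span_singleton.2 ⟨c, by rw [cj_apply, ← hc, map_smul, d1]⟩
  · rw [LinearMap.sub_apply, map_sub, b3.h3, cj_apply, ← d3, inv_apply_apply, b3.h3, sub_zero]

theorem le_of_zI (hr : ∀ e y, C₁.N e = 0 → C₁.B e y = 0 → ∃ a, Rq C₁ C₁.isom e y a)
    (hA : A ∈ zI C₂ X w) (hn : ¬ ∃ c : F, ∀ u, A u = c • u) (hw : w ≠ 0) : C.isom ≤ X := by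
  obtain ⟨e, a1, a2⟩ := hK.ex
  have h1 : ∀ e' w', e' ≠ 0 → C₁.N e' = 0 → w' ≠ 0 → ∃ g ∈ X, g (e ⊗ₜ w) = e' ⊗ₜ w' :=
    fun e' w' b1 b2 b3 => by
      obtain ⟨α, c1, rfl⟩ := h.nd₁.witt_one a1 b1 (b2.trans a2.symm)
      obtain ⟨β, c2, rfl⟩ := h.nd₂.witt_one hw b3 (by rw [H12.alt_N, H12.alt_N])
      exact ⟨_, mul_mem (hK' α c1) (h.hX β c2), rfl⟩
  have h3 : TvAll X C (e ⊗ₜ w) := fun a =>
    let ⟨t, b1, b2⟩ := h.pi_mem_zI h2 hs hK hK' hr hA hn hw a1 a2 (-a)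
    ⟨t, b1, fun x => by
      simp [b2, h.B_tmul, smul_smul, neg_tmul, smul_tmul', sub_eq_add_neg]⟩
  obtain ⟨f, -, f1, f2⟩ := h.nd₁.exists_partner (Z := ⊥) (x := e) (by simpa) a2
    (by simp [C₁.perp_bot])
  obtain ⟨w', hw'⟩ := h.nd₂.exists_eq hw 1
  have h4 : IsHypPair C (e ⊗ₜ w) (f ⊗ₜ w') :=
    ⟨H12.alt_N _, H12.alt_N _, by rw [h.hB, f2, hw', mul_one]⟩
  obtain ⟨S, b1, b2, b3, b4⟩ := (enlarge_alt h.nd two_pos (.inl ⟨-1, by simp, fun e => h2
    (by linear_combination -e)⟩)).exists_max h.le h4.nondegOn h4.finrank_span.ge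
    (subG_le_alt h.nd h4.nondegOn fun u hu c => by
      obtain ⟨a, b, rfl⟩ := mem_span_pair.1 hu
      obtain ⟨g, c1, c2⟩ := h1 f w' (by rintro rfl; simp at f2) f1 (by rintro rfl; simp at hw')
      have c3 := h3.conj c1 h.le
      rw [c2] at c3
      have : TvAll X C (a • e ⊗ₜ w + b • f ⊗ₜ w') := by
        by_cases ha : a = 0
        · by_cases hb : b = 0
          · exact fun d => ⟨1, one_mem _, fun x => by simp [ha, hb]⟩
          refine TvAll.of_smul (c := b⁻¹) ?_ (inv_ne_zero hb)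
          rwa [ha, zero_smul, zero_add, inv_smul_smul₀ hb]
        · refine TvAll.of_smul (c := a⁻¹) ?_ (inv_ne_zero ha)
          rw [smul_add, inv_smul_smul₀ ha, smul_smul]
          exact h3.add c3 h.le (C.B_swap_ne (by simp [h4.pair])) _
      obtain ⟨k, c4, c5⟩ := this (-c)
      generalize a • e ⊗ₜ[F] w + b • f ⊗ₜ[F] w' = p at c5 ⊢
      exact ⟨k, c4, fun x => by simp [c5]⟩)
    fun r hr => by
      by_contra hc
      push Not at hc
      refine hr (h.nd.eq_zero' fun x => ?_)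
      induction x with
      | zero => simp
      | add x y a b => simp [a, b]
      | tmul u y =>
        refine mem_of_singular_sub (C₁.nondegOn_top.2 h.nd₁) trivial a1 a2
          (LinearMap.ker (C.B r ∘ₗ (TensorProduct.mk F U W).flip y)).toAddSubgroup
          (fun u _ hu => ?_) trivial |> C.B_swap_zero
        by_cases c : u = 0 ∨ y = 0
        · rcases c with rfl | rfl <;> simp
        obtain ⟨g, c1, c2⟩ := h1 u y (not_or.1 c).1 hu (not_or.1 c).2
        have := hc g c1 _ (mem_pair_left _ _)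
        rw [c2] at this
        exact C.B_swap_zero this
  let Z : Submodule F U := ⨅ y, S.comap ((TensorProduct.mk F U W).flip y)
  have hZ : ∀ u, u ∈ Z ↔ ∀ y, u ⊗ₜ y ∈ S := fun u => by simp [Z]
  have h5 : ∀ u, C₁.N u = 0 → u ∈ Z ∨ ∀ y, u ⊗ₜ y ∈ C.perp S := fun u hu => by
    by_contra hc
    rw [hZ, not_or] at hc
    obtain ⟨y, -, c1, c2⟩ := exists_mem_not_mem_two (Y := ⊤)
      (S := S.comap (TensorProduct.mk F U W u)) (S' := (C.perp S).comap (TensorProduct.mk F U W u))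
      (fun e => hc.1 fun y => e mem_top) fun e => hc.2 fun y => e mem_top
    obtain ⟨g, c3, c4⟩ := h1 u y (by rintro rfl; simp at c1) hu (by rintro rfl; simp at c1)
    have := mem_map_of_mem (f := g.toLinearMap) (b1 (mem_pair_left _ _))
    rw [LinearEquiv.coe_coe, c4] at this
    exact (b4 g c3).elim (fun e => c1 (e ▸ this)) fun e => c2 (e this)
  have h6 : e ∈ Z := (h5 e a2).resolve_right fun c =>
    tmul_ne_zero a1 hw (b2.eq_zero (b1 (mem_pair_left _ _)) (c w))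
  have h7 : ⊤ ≤ Z := by
    by_contra hc
    obtain ⟨p, -, c1, c2, c3⟩ := exists_singular_not_mem_two (C₁.nondegOn_top.2 h.nd₁)
      ⟨e, trivial, a1, a2⟩ hc fun c => by
        simpa [f2] using C₁.mem_perp.1 (c (mem_top (x := f))) e h6
    refine c3 (C₁.mem_perp.2 fun u hu => ?_)
    simpa [h.hB, hw'] using C.mem_perp.1 ((h5 p c1).resolve_left c2 w') _ ((hZ u).1 hu w)
  rwa [show S = ⊤ from eq_top_iff.2 fun x _ => by
    induction x with
    | zero => simp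
    | tmul u y => exact (hZ u).1 (h7 mem_top) y
    | add x y a b => exact add_mem (a trivial) (b trivial), h.nd.subG_top le_rfl] at b3

end TZ

theorem even_of_nn {B : End F U} (h0 : A * A = 0) (h : A * B + B * A = 1) :
    Even (finrank F U) := by
  have e : LinearMap.ker A = LinearMap.range A := le_antisymm
    (fun x hx => ⟨B x, by simpa [LinearMap.mem_ker.1 hx] using LinearMap.congr_fun h x⟩)
    (by rintro _ ⟨x, rfl⟩; exact LinearMap.congr_fun h0 x)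
  have := LinearMap.finrank_range_add_finrank_ker A
  rw [e] at this
  exact ⟨_, this.symm⟩

theorem FW.even_of_cm {R : Subgroup (W ≃ₗ[F] W)} (h : FW C₂ R) (hd : finrank F W = 2)
    {k : (U ⊗[F] W) ≃ₗ[F] (U ⊗[F] W)} (hk : Cm k) : Even (finrank F U) := by
  have : Nontrivial W := Module.nontrivial_of_finrank_pos (R := F) (by omega)
  obtain ⟨w, hw, -⟩ := h.ex
  obtain ⟨w', hw'⟩ := h.nd.exists_eq hw 1
  obtain ⟨A, hA⟩ := exists_rTensor (hk ((C₂.B w).smulRight w))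
  obtain ⟨B, hB⟩ := exists_rTensor (hk (-(C₂.B w').smulRight w'))
  refine even_of_nn (A := A) (B := B) (rTensor_inj (W := W) ?_) (rTensor_inj (W := W) ?_)
  · rw [LinearMap.rTensor_mul, ← hA, ← cj_mul', ← map_mul,
      show (C₂.B w).smulRight w * (C₂.B w).smulRight w = (0 : End F W) from
        LinearMap.ext fun x => by simp [H12.alt_B_self]]
    simp [cj_eq]
  · rw [LinearMap.rTensor_add, LinearMap.rTensor_mul, LinearMap.rTensor_mul, ← hA, ← hB,
      ← cj_mul', ← cj_mul', ← map_mul, ← map_mul, cj_eq, cj_eq, ← add_mul, ← mul_add, ← map_add,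
      show (C₂.B w).smulRight w * -(C₂.B w').smulRight w' +
        -(C₂.B w').smulRight w' * (C₂.B w).smulRight w = (1 : End F W) from
        LinearMap.ext fun x => by
          have := h.plucker hd w w' x
          simp [hw', H12.alt_symm w w', H12.alt_symm w x] at this ⊢
          linear_combination (norm := module) -this]
    exact TensorProduct.ext' fun x y => by simp

variable [Finite F] {Q₁ : QuadraticForm F U}

theorem isMaximalIn_o_sp2 (hC : C.Nondeg) (h₁ : QNondeg Q₁) (h₂ : C₂.Nondeg) (h2 : (2 : F) ≠ 0)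
    (hB : ∀ u w u' w', C.B (u ⊗ₜ w) (u' ⊗ₜ w') = polar Q₁ u u' * C₂.B w w')
    (hU : 3 ≤ finrank F U) (ho : Odd (finrank F U)) (hW : finrank F W = 2)
    (hex : ∃ t : F, t ≠ 0 ∧ t * t ≠ 1) :
    Cfsg.Geo.IsMaximalIn C.isom (tenStab F U W ⊓ C.isom) := by
  have h : TF C (CForm.ofQuad Q₁) C₂ := ⟨hC, h₁, h₂, fun _ => rfl, fun _ => rfl,
    by simp [quadType, altType], by simp [altType], hB,
    fun _ _ _ _ _ _ => by rw [H12.alt_N, H12.alt_N], fun _ _ => H12.alt_N _, by omega⟩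
  have hK := ma_quad h₁ h2 le_rfl OmegaV_le hU (.inr hex) (.inr (.inr le_rfl))
  have hF := fw_alt h₂ (by omega)
  have : Nontrivial W := Module.nontrivial_of_finrank_pos (R := F) (by omega)
  obtain ⟨w, hw, -⟩ := hF.ex
  refine isMaximalIn_of _ _ inf_le_right (fun e => ?_)
    fun X a1 a2 g a3 a4 => by_contra fun hc => a4 ⟨?_, a2 a3⟩
  · obtain ⟨u, b1, b2⟩ := hK.ex
    obtain ⟨f, hf⟩ := h.nd₁.exists_eq b1 1
    obtain ⟨w', hw'⟩ := h₂.exists_eq hw 1
    obtain ⟨t, c1, c2⟩ := (fw_alt hC (finrank_pos_iff_exists_ne_zero.2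
      ⟨_, tmul_ne_zero b1 hw⟩)).tv' (H12.alt_N (u ⊗ₜ w)) (c := 1) (by simp [altType])
    refine not_gd (t := t) hw (φ := C₂.B w) (fun e => by simp [e] at hw') (H12.alt_B_self w) b1
      (fun v => by simp [c2, h.hB, H12.alt_B_self]) (fun x => by simp [c2, H12.alt_B_self])
      (fun y => by simp [c2, h.hB, (CForm.ofQuad Q₁).B_self_of_zero b2]) (fun e => ?_)
      (.inl (e c1).1)
    have := c2 (f ⊗ₜ w')
    simp [e, h.hB, hf, hw'] at this
    exact tmul_ne_zero b1 hw this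
  have h' : TZ C (CForm.ofQuad Q₁) C₂ X C₂.isom :=
    { h with fw := hF, le := a2, hX := fun β hβ => a1 ⟨rH_mem β, h.congr_isom (one_mem _) hβ⟩ }
  have hK' := fun α hα => a1 (x := lH F U W α) ⟨congr_mem _ _, h.congr_isom hα (one_mem _)⟩
  obtain ⟨a, a0, a1⟩ := hex
  refine (h'.gd_sp hW h2 a0 a1 (fun S hS => by_contra fun hn => ?_) a3).resolve_right fun e =>
    Nat.not_even_iff_odd.2 ho (hF.even_of_cm hW e)
  obtain ⟨A, rfl⟩ := exists_rTensor hS.1
  refine hc (h'.le_of_zI h2 (fun _ _ => polar_comm _ _ _) hK hK' (fun e y b3 b4 =>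
    ⟨_, (rq_eich h₁ (notExc_of_two_ne_zero h2) b3 b4).mono OmegaV_le⟩) (A := A) (fun c => ?_)
    (fun ⟨c, e⟩ => hn ⟨c, TensorProduct.ext' fun u y => by simp [e, smul_tmul']⟩) hw)
  obtain ⟨t, b1, b2⟩ := ((zS C₂ X h2).smul_mem c hS).2 w (H12.alt_N w)
  exact ⟨t, b1, fun x => by simp [b2, nW_apply, smul_tmul']⟩

open Cfsg Cfsg.Geo in
theorem spl_ten2 {F : Type*} [Field F] [Fintype F] {m : ℕ} (hodd : Odd (Fintype.card F))
    (h5 : 5 ≤ Fintype.card F) {n : ℕ} (hn : 3 ≤ n) (ho : Odd n)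
    {e : (Fin m ⊕ Fin m) ≃ Fin 2 × Fin n} {P : GL (Fin m ⊕ Fin m) F}
    {f₁ : (Fin 2 → F) → (Fin 2 → F) → F} {f₂ : (Fin n → F) → (Fin n → F) → F}
    (hf₁ : IsSymplecticForm f₁) (hf₂ : IsSymmetricForm f₂)
    (hT : IsTensorFormStructure id (sympForm m F) f₁ f₂ e P) :
    IsMaximalIn (spGL m F) (tensorProductSubgroup 2 n e P ⊓ spGL m F) := by
  have h2 := odd_card_iff.1 hodd
  obtain ⟨c, hc, h⟩ := H13.KL.tf_bridge (fun _ _ => rfl) (H13.KL.formOfGram_bilin hf₁.bilinear)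
    (H13.KL.formOfGram_bilin hf₂.bilinear) hT
  obtain ⟨C₁, d₁, e₁⟩ := exists_cform_alt hf₁
  obtain ⟨Q₂, d₂, e₂⟩ := exists_quad_sym hf₂ h2 hc
  have hC := fun {V : Type _} [AddCommGroup V] [Module F V] (θ : V ≃ₗ[F] _) =>
    H13.KL.comap_nondeg (spForm_nondeg (ι := Fin m) (F := F)) θ
  rw [H13.KL.tensorProductSubgroup_eq', H13.KL.spGL_eq_trE ((TensorProduct.comm F _ _).trans
    (H13.KL.tenIso e P)), ← Subgroup.comap_inf]
  refine isMaximalIn_comap _ (isMaximalIn_o_sp2 (hC _) d₂ d₁ h2 (fun u w u' w' => ?_)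
    (by simpa) (by simpa) (by simp) (exists_sq_ne_one_of_card (by omega)))
  simp only [CForm.comap_B, spForm_B_eq, LinearEquiv.coe_coe, LinearEquiv.trans_apply,
    TensorProduct.comm_tmul, h, e₁, e₂]
  ring

end H12
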