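import Cfsg.Agent.H12.Ten11

/-!
# The tensor product of a unitary plane and a unitary three-space
-/

set_option autoImplicit false
set_option maxHeartbeats 400000

namespace H12

open Module H11 Submodule TensorProduct H13.KL

variable {F : Type*} [Field F] {U W : Type*} [AddCommGroup U] [Module F U] [AddCommGroup W]
  [Module F W] {X G : Subgroup ((U ⊗[F] W) ≃ₗ[F] (U ⊗[F] W))} {w w' y : W} {A : End F U} {l : F}
  [FiniteDimensional F U] [FiniteDimensional F W] {σ : F →+* F} {hσ2 : ∀ a, σ (σ a) = a}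
  {C : CForm (hermType σ hσ2) (U ⊗[F] W)} {C₁ : CForm (hermType σ hσ2) U}
  {C₂ : CForm (hermType σ hσ2) W} (hσ : σ ≠ RingHom.id F) (hN : ∀ a, σ a = a → ∃ b, b * σ b = a)

theorem not_cm_of_lt (h0 : 0 < finrank F U) (hd : finrank F U < finrank F W)
    {k : (U ⊗[F] W) ≃ₗ[F] (U ⊗[F] W)} : ¬ Cm k := fun hk => by
  have : Nontrivial W := Module.nontrivial_of_finrank_pos (R := F) (by omega)
  have : Nontrivial U := Module.nontrivial_of_finrank_pos (R := F) h0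
  have := nontrivial_ten (F := F) (U := U) (W := W)
  let f : End F W →ₗ[F] End F (U ⊗[F] W) := (k.conj : _ →ₗ[F] _) ∘ₗ (rA U).toLinearMap
  have h1 : Function.Injective f := k.conj.injective.comp (tau_inj (rA U))
  have h2 : LinearMap.range f ≤ LinearMap.range (LinearMap.rTensorHom (R := F) W (N := U) (P := U)) := by
    rintro _ ⟨D, rfl⟩
    obtain ⟨A, hA⟩ := exists_rTensor (hk D)
    exact ⟨A, hA.symm⟩
  have h3 := (Submodule.finrank_mono h2).trans (LinearMap.finrank_range_le _)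
  rw [LinearMap.finrank_range_of_inj h1, finrank_linearMap, finrank_linearMap] at h3
  nlinarith

include hσ hN

theorem TZ.gd_herm3 [Finite F] (hX : TZ C C₁ C₂ X (C₂.isom ⊓ SLV F W)) (hd : finrank F W = 3)
    (hl : σ l = l) (l0 : l ≠ 0) (l1 : l ≠ 1) (hs : ∀ S ∈ zJ C₂ X, ∃ c : F, S = c • 1) :
    ∀ g ∈ X, Gd g := by
  obtain ⟨b, hb⟩ := hN l hl
  have : Nontrivial W := Module.nontrivial_of_finrank_pos (R := F) (by omega)
  obtain ⟨a, b1, b2⟩ := hX.fw.ex₀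
  refine fun g => hX.gd_two (hX.bp (by omega) (.inl hd.ge) fun w w₁ c1 c2 g =>
    hX.pt (fun w c1 c2 t ht e0 e => ?_) (fun w w' e => ?_) c1 c2) hd.ge b1 (mul_ne_zero b1 l0)
    (by simpa [b1, eq_comm]) b2 (by rw [map_mul, hermσ' l, hl]; linear_combination l * b2)
  · obtain ⟨w', e'⟩ := exists_hypPair hX.nd₂ c2 c1
    obtain ⟨y, d1, -, d2, d3⟩ := herm_mid hσ hX.nd₂ hd e'
    obtain ⟨Φ, d4, d5⟩ := exists_qw' c2 e0 e
    obtain ⟨A, hA⟩ : ∃ A : End F U, ∀ x, cB U C₂ w x = 0 → t x = x + (A ∘ₗ cB U C₂ y) x ⊗ₜ w :=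
      ⟨Φ ∘ₗ (TensorProduct.mk F U W).flip ((C₂.N y)⁻¹ • y), fun x hx => by
        rw [d5 x hx]
        obtain ⟨u, u', rfl⟩ := mem_tl_pair.1 (d3 ▸ hX.perp_tl ▸ hX.mem_perp_point.2 hx)
        simp [d4, C₂.B_swap_zero d1, herm_B_self, smul_smul, d2]⟩
    obtain ⟨θ, hθ⟩ := exists_ne_of_ne_id hσ
    obtain ⟨s, f1⟩ := hs _ (hX.comm_herm hσ c1 c2 d1 d2 ⟨t, ht, hA⟩ θ)
    obtain ⟨s', f2⟩ := hs _ (hX.comm_herm hσ c1 c2 d1 d2 ⟨t, ht, hA⟩ 1)
    have f3 : (θ - σ θ) • A = (s - σ θ * s') • 1 := by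
      have f1 := rTensor_inj (B := s • 1) (f1.trans (TensorProduct.ext' fun _ _ => rfl))
      have f2 := rTensor_inj (B := s' • 1) (f2.trans (TensorProduct.ext' fun _ _ => rfl))
      rw [map_one] at f2
      linear_combination (norm := module) f1 - σ θ • f2
    rw [← eq_inv_smul_iff₀ (sub_ne_zero.2 hθ.symm), smul_smul] at f3
    generalize (θ - σ θ)⁻¹ * (s - σ θ * s') = a at f3
    obtain ⟨a', β, f4, f5⟩ := rq_herm hσ c1 (-σ a • y) (by simp [d1])
    rw [← mul_inv_cancel_left (rH F U W β) t]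
    exact mul_mem ⟨β, rfl⟩ (hX.range_of_cen hs (mul_mem (inv_mem (hX.hX β f4)) ht) c1 c2
      fun x hx => (rH F U W β).injective (by
        rw [LinearEquiv.mul_apply, apply_inv_apply, hA x hx, rH_rho f5, f3, cB_smul]
        simp [hx, hermσ', hermε', hσ2, neg_tmul]))
  · have b0 : b ≠ 0 := by rintro rfl; simp [l0.symm] at hb
    have b0' := (map_ne_zero σ).2 b0
    obtain ⟨y, d1, d2, d3, d4⟩ := herm_mid hσ hX.nd₂ hd e
    obtain ⟨k, f1, f2, f3, f4⟩ := e.exists_torus hX.nd₂ b0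
    obtain ⟨s, f5, f6, f7, f8⟩ := exists_qrefl_det d3 (d := σ b / b) (by
      rw [map_div₀, hσ2]; field_simp)
    refine ⟨k * s, ⟨mul_mem k.2 f5, mem_SLV.2 (by
      rw [LinearEquiv.coe_toLinearMap_mul, map_mul, f8, ← LinearEquiv.coe_det, f4, hermσ']
      field_simp)⟩, b, σ b / b, (σ b)⁻¹, fun c => l1 (by rw [← hb]; field_simp at c; linear_combination -c),
      fun c => l1 ?_, by rw [LinearEquiv.mul_apply, f6 w (C₂.B_swap_zero d1), f1],
      by rw [LinearEquiv.mul_apply, f6 w' (C₂.B_swap_zero d2), f2]; rfl, fun z c1 c2 => ?_⟩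
    · have c1 : b = σ b * σ b := by field_simp at c; linear_combination c
      have c2 := congrArg σ c1
      rw [map_mul, hσ2] at c2
      exact mul_left_cancel₀ b0 (by rw [← hb]; linear_combination -c1 - σ b * c2)
    · obtain ⟨r, p, rfl⟩ := mem_span_pair.1 (d4 ▸ C₂.mem_perp_singleton.2 c1)
      obtain rfl : r = 0 := by simpa [e.B_fe, d2, hermε'] using c2
      simp [f7, f3 y d1 d2, smul_comm p]

theorem TF.fin2 (h : TF C C₁ C₂) (hG : RootG C G) (hX : X ≤ G) (hU : finrank F U = 2)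
    (hd : finrank F W = 3) (hQ : QF C₂ X G) : G ≤ X := by
  have h0 : ∀ w u y a, C₂.N w = 0 → w ≠ 0 → cB U C₂ w y = 0 → Rq C G (u ⊗ₜ w) y a →
      Rq C X (u ⊗ₜ w) y a := fun w u y a a1 a2 a3 ⟨g, b1, b2⟩ =>
    ⟨g, hQ w a1 a2 g b1 (fun v => by simp [b2, h.B_tmul, a3, C₂.B_self_of_zero a1]) fun x hx => by
      rw [b2, h.B_tmul, hx, map_zero, zero_smul, add_zero, sub_sub_cancel_left]
      exact neg_mem (smul_mem _ _ (tmul_mem_tl u (mem_span_singleton_self w))), b2⟩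
  have hn : ∀ u y, C₁.N u = 0 → C.N (u ⊗ₜ y) = 0 := fun u y hu => by
    rw [← herm_B_self, h.hB, herm_B_self, hu, zero_mul]
  have key : ∀ u f w w', IsHypPair C₁ u f → IsHypPair C₂ w w' → Q1 C G X (u ⊗ₜ w) :=
      fun u f w w' e₁ e => by
    have hw0 : w ≠ 0 := by rintro rfl; simpa using e.pair
    have hu : u ≠ 0 := by rintro rfl; simpa using e₁.pair
    have hN := h.N_tmul u e.left
    have b0 := e.B_ee
    refine q1_of_rho hG.le hX hN (p := f ⊗ₜ w') (by simp [h.hB, e.pair, e₁.pair])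
      (fun y hy => ?_) fun a => h0 w u 0 a e.left hw0 (map_zero _)
    refine (mem_rqS (hv := hN)).1 ?_ |>.2
    rw [← sub_add_cancel y (cB U C₂ w y ⊗ₜ w')]
    rw [h.B_tmul] at hy
    refine add_mem ?_ ?_
    · have a2 : cB U C₂ w (y - cB U C₂ w y ⊗ₜ w') = 0 := by simp [e.pair]
      obtain ⟨a3, a, a4⟩ := TSP.perp_add ⟨hN, h.N_tmul f e.left, by simp [h.hB, b0],
        tmul_ne_zero hu hw0, fun c => by
          obtain ⟨c, hc⟩ := mem_span_singleton.1 c
          have := e₁.pair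
          rw [← tmul_left_inj hw0 (show (c • u) ⊗ₜ[F] w = f ⊗ₜ w from hc)] at this
          simp [e₁.B_ee] at this⟩ h.nd (rqS G hN)
        (fun y a => ⟨a.hB, 0, hG.rho _ y a.hv a.hc a.hB⟩) (by rw [h.B_tmul, a2, map_zero])
      exact ⟨a3, a, h0 w u _ a e.left hw0 a2 a4⟩
    generalize cB U C₂ w y = u' at hy
    obtain ⟨c, d, rfl⟩ := mem_span_pair.1 ((eq_top_of_finrank_eq (e₁.finrank_span.trans hU.symm)).ge
      (mem_top (x := u')))
    obtain rfl : d = 0 := by simpa [e₁.B_ee, e₁.pair] using hy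
    obtain ⟨m, a1, a2, a3, -⟩ := herm_mid hσ h.nd₂ hd e
    obtain ⟨k, b1, b2⟩ := h0 w' u ((-σ c / C₂.N m) • f ⊗ₜ m) 0 e.right
      (by rintro rfl; simpa using e.pair) (by simp [a2])
      (hG.rho _ _ (hn _ _ e₁.left) (C.N_smul_of_zero (hn _ _ e₁.right) _) (by simp [h.hB, a2]))
    have b3 := (h0 w u (u ⊗ₜ m) 0 e.left hw0 (by simp [a1]) (hG.rho _ _ hN (hn _ _ e₁.left)
      (by simp [h.hB, a1]))).comm b1 (hG.le (hX b1))
      (by simp [b2, h.hB, e₁.B_ee, a1]) (C.B_self_of_zero hN) (by simp [h.hB, a1])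
    rw [show k (u ⊗ₜ m) - u ⊗ₜ m = (c • u + (0 : F) • f) ⊗ₜ w' by
      simp [b2, h.hB, e₁.B_ee, e₁.pair, herm_B_self, hermσ', hσ2, a3, herm_σN, smul_tmul']] at b3
    exact ⟨by simp [h.hB, e₁.B_ee], _, b3⟩
  obtain ⟨w, -, a1, a2⟩ := herm_exists_iso hN C₂ (W := ⊤) (by simp; omega)
  obtain ⟨u, -, c1, c2⟩ := herm_exists_iso hN C₁ (W := ⊤) (by simp; omega)
  obtain ⟨w', b⟩ := exists_hypPair h.nd₂ a1 a2
  obtain ⟨f, c⟩ := exists_hypPair h.nd₁ c1 c2
  exact hG.fin X _ _ (h.N_tmul u a2) (h.N_tmul f b.right) (by simp [h.hB, b.pair, c.pair])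
    (key _ _ _ _ c b) (key _ _ _ _
      ⟨c.right, c.left, by rw [herm_symm, c.pair, map_one]⟩
      ⟨b.right, b.left, by rw [herm_symm, b.pair, map_one]⟩)

theorem isMaximalIn_u2_u3 [Finite F] (hC : C.Nondeg) (h₁ : C₁.Nondeg) (h₂ : C₂.Nondeg)
    (hB : ∀ u w u' w', C.B (u ⊗ₜ w) (u' ⊗ₜ w') = C₁.B u u' * C₂.B w w')
    (hU : finrank F U = 2) (hd : finrank F W = 3) (hl : σ l = l) (l0 : l ≠ 0) (l1 : l ≠ 1) :
    Cfsg.Geo.IsMaximalIn (C.isom ⊓ SLV F _) (tenStab F U W ⊓ (C.isom ⊓ SLV F _)) := by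
  have h : TF C C₁ C₂ := ⟨hC, h₁, h₂, fun _ => rfl, fun _ => rfl, by simp [hermType],
    by simp [hermType], hB, fun u w u' w' a b => by
      rw [← herm_B_self, ← herm_B_self, hB, hB, herm_B_self, herm_B_self, a, b, herm_B_self,
        herm_B_self], fun w e => (herm_B_self w).symm.trans e, by omega⟩
  have : Nontrivial W := Module.nontrivial_of_finrank_pos (R := F) (by omega)
  obtain ⟨a, a1, a2⟩ := exists_trace_zero' (hσ2 := hσ2) hσ
  have hG := rootG_herm hσ hN hC (by rw [finrank_tensorProduct, hU, hd]; omega)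
  have hF := fw_herm hσ hN h₂ hd.ge
  obtain ⟨u, -, u0, u1⟩ := herm_exists_iso hN C₁ (W := ⊤) (by simp; omega)
  have hF₁ : FW C₁ C₁.isom := ⟨h₁, le_rfl, fun _ _ hv ha => (rq_tv_herm hv
    (by simpa [hermType] using ha)).mono inf_le_left,
    fun w y a b c d => h₁.witt_one b d (c.trans a.symm), ⟨u, u0, u1⟩, a, a1,
    by simpa [hermType] using a2⟩
  refine isMaximalIn_of _ _ inf_le_right (fun e => ?_)
    fun X c1 c2 g c3 c4 => by_contra fun hc => c4 ⟨?_, c2 c3⟩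
  · obtain ⟨w, hw, hw1⟩ := hF.ex
    obtain ⟨f, hf⟩ := h₁.exists_eq u0 1
    obtain ⟨w', hw'⟩ := h₂.exists_eq hw 1
    obtain ⟨t, b1, b2⟩ := rq_tv_herm (h.N_tmul u hw1) a2
    have b0 := C₂.B_self_of_zero hw1
    refine not_gd (t := t) hw (φ := C₂.B w) (fun e => by simp [e] at hw') b0 u0
      (fun v => by simp [b2, h.hB, b0]) (fun x => by simp [b2, b0])
      (fun y => by simp [b2, h.hB, C₁.B_self_of_zero u1]) (fun e => ?_) (.inl (e b1).1)
    have := b2 (f ⊗ₜ w')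
    simp [e, h.hB, hf, hw', a1, sub_eq_add_neg] at this
    exact tmul_ne_zero u0 hw this
  have hX : TZ C C₁ C₂ X (C₂.isom ⊓ SLV F W) :=
    { h with
      fw := hF
      le := c2.trans inf_le_left
      hX := fun β hβ => c1 ⟨rH_mem β, h.congr_isom (one_mem _) hβ.1, congr_one_mem_SLV hβ.2⟩ }
  have hK : ∀ α ∈ C₁.isom ⊓ SLV F U, lH F U W α ∈ X := fun α hα =>
    c1 ⟨congr_mem _ _, h.congr_isom hα.1 (one_mem _), congr_mem_SLV_one hα.2⟩
  refine (hX.gd_herm3 hσ hN hd hl l0 l1 (fun S hS => by_contra fun hn => hc ?_) g c3).resolve_right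
    (not_cm_of_lt (by omega) (by omega))
  obtain ⟨A, rfl⟩ := exists_rTensor hS.1
  have cj1 : ∀ α ∈ C₁.isom ⊓ SLV F U, ∀ B : End F U, B.rTensor W ∈ zJ C₂ X →
      (cj α B).rTensor W ∈ zJ C₂ X := fun α hα B hB => cj_lH (W := W) α B ▸
    zJ_conj hB (hK α hα) fun E => cj_of_comm (comm_rTensor (α : End F U) E)
  obtain ⟨v, v1, v2⟩ : ∃ v, C₁.N v = 0 ∧ C₁.B v (A v) ≠ 0 := by
    by_contra H
    push Not at H
    obtain ⟨c, hc⟩ := exists_scalar_of_eigen (hF₁.hp_herm hσ A H)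
    exact hn ⟨c, TensorProduct.ext' fun x y => by simp [hc, smul_tmul']⟩
  have v0 : v ≠ 0 := by rintro rfl; simp at v2
  have v3 := C₁.B_self_of_zero v1
  obtain ⟨b, hb⟩ := hN l hl
  have key : ∀ c, c + σ c = 0 → ((1 + -c • (C₁.B v).smulRight v) * A *
      (1 - -c • (C₁.B v).smulRight v) - A).rTensor W ∈ zJ C₂ X := fun c hc => by
    obtain ⟨β, b1, b2⟩ := rq_tv_herm v1 hc
    rw [← cj_tr (α := β) (fun x => by simp [b2, mul_smul, sub_eq_add_neg])
      (LinearMap.ext fun x => by simp [v3]), LinearMap.rTensor_sub]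
    exact sub_mem (cj1 β b1 A hS) hS
  have k1 : ((l * (l - 1) * (a * a) * C₁.B v (A v)) • (C₁.B v).smulRight v).rTensor W ∈
      zJ C₂ X := by
    have := sub_mem (zJ_smul (key a a2) b) (key (l * a) (by rw [map_mul, hl]; linear_combination l * a2))
    rw [hermσ', hb, ← LinearMap.rTensor_smul, ← LinearMap.rTensor_sub] at this
    convert this using 2
    ext x
    simp
    module
  have k0 : l * (l - 1) * (a * a) * C₁.B v (A v) ≠ 0 := by simp [l0, sub_ne_zero.2 l1, a1, v2]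
  generalize l * (l - 1) * (a * a) * C₁.B v (A v) = c at k1 k0
  obtain ⟨f, e⟩ := exists_hypPair h₁ v0 v1
  obtain ⟨β, b1, b2⟩ := rq_tv_herm e.right a2
  have k2 := cj1 β b1 _ k1
  have b3 : β v = v - a • f := by simp [b2, e.B_fe, hermε']
  have b4 : C₁.N (β v) = 0 := (CForm.isom_N b1.1 v).trans v1
  rw [show cj β (c • (C₁.B v).smulRight v) = c • (C₁.B (β v)).smulRight (β v) from
    LinearMap.ext fun x => by simp [← CForm.isom_B b1.1 v, apply_inv_apply]] at k2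
  have b5 : C₁.B v (β v) ≠ 0 := by simp [b3, v3, e.pair, a1]
  have b6 : ∀ x, x ∈ span F {v, β v} := fun x => by
    obtain ⟨s, t, rfl⟩ := mem_span_pair.1 ((eq_top_of_finrank_eq (e.finrank_span.trans hU.symm)).ge
      (mem_top (x := x)))
    exact mem_span_pair.2 ⟨s + t / a, -(t / a), by rw [b3]; match_scalars <;> field_simp <;> ring⟩
  generalize β v = v' at k2 b4 b5 b6
  have b7 : ∀ w (hw : C₂.N w = 0), w ≠ 0 → ∀ D, D ∈ qI C₂ X hw := fun w d1 d2 D => by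
    let I := (stabAlg (qI C₂ X d1)).comap (Algebra.lmul F (End F U))
    have i1 : ∀ p, C₁.N p = 0 → (c • (C₁.B p).smulRight p).rTensor W ∈ zJ C₂ X →
        (C₁.B p).smulRight p ∈ I := fun p p1 p2 => (I.toSubmodule.smul_mem_iff k0).1
      (hX.mul_of_sq p2 (LinearMap.ext fun x => by simp [C₁.B_self_of_zero p1]) d1 d2)
    have i2 : ∀ p r, C₁.B p r ≠ 0 → (C₁.B p).smulRight p ∈ I → (C₁.B r).smulRight r ∈ I →
        (C₁.B r).smulRight p ∈ I := fun p r p1 p2 p3 => (I.toSubmodule.smul_mem_iff p1).1 (by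
      change _ ∈ I
      convert mul_mem p2 p3 using 1
      ext x; simp [smul_smul, mul_comm])
    have i3 := i1 v v1 k1
    have i4 := i1 v' b4 k2
    have i5 : ∀ D, D ∈ I := mem_of_rk I.toSubmodule fun φ x => by
      obtain ⟨y, hy⟩ := h₁.exists_rep φ
      obtain ⟨s, t, rfl⟩ := mem_span_pair.1 (b6 x)
      obtain ⟨s', t', rfl⟩ := mem_span_pair.1 (b6 y)
      change _ ∈ I
      convert add_mem (add_mem (I.smul_mem i3 (s * σ s')) (I.smul_mem i4 (t * σ t')))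
        (add_mem (I.smul_mem (i2 _ _ b5 i3 i4) (s * σ t'))
          (I.smul_mem (i2 _ _ (C₁.B_swap_ne b5) i4 i3) (t * σ s'))) using 1
      ext z
      simp [← hy, hermσ']
      module
    simpa using i5 D 1 (hX.one_qI d1 (rq_herm hσ d1))
  refine h.fin2 hσ hN hG c2 hU hd fun w d1 d2 g hg => hX.qf_of_top b7 (fun D hD => ?_)
    w d1 d2 g (hG.le hg)
  obtain ⟨w', e⟩ := exists_hypPair h₂ d2 d1
  obtain ⟨y, f1, -, f2, -⟩ := herm_mid hσ h₂ hd e
  obtain ⟨θ, hθ⟩ := exists_trace_eq hσ hσ2 (map_one σ)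
  have := hX.comm_herm hσ d1 d2 f1 f2 (b7 w d1 d2 D y f1) θ
  rwa [show hX.nd₁.adj D = -D from LinearMap.ext fun u => h₁.ext fun u' => by
    simpa [h₁.B_adj, hermε'] using eq_neg_of_add_eq_zero_right (hD u u'), smul_neg, sub_neg_eq_add,
    ← add_smul, hθ, one_smul] at this

end H12
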