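import Cfsg.Agent.H12.Ten1

/-!
# Tensor products of forms: the algebra attached to an overgroup
-/

set_option autoImplicit false
set_option maxHeartbeats 400000

namespace H12

open Module H11 Submodule TensorProduct H13.KL

variable {F : Type*} [Field F] {U W : Type*} [AddCommGroup U] [Module F U] [AddCommGroup W]
  [Module F W] {T T₁ T₂ : FormType F} {C : CForm T (U ⊗[F] W)} {C₁ : CForm T₁ U}
  {C₂ : CForm T₂ W} {X G : Subgroup ((U ⊗[F] W) ≃ₗ[F] (U ⊗[F] W))} {R : Subgroup (W ≃ₗ[F] W)}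
  {x : U ⊗[F] W} {u : U} {w y z : W} {Φ Φ' : U ⊗[F] W →ₗ[F] U} {A D : End F U}

theorem CForm.Nondeg.B_adj' {V : Type*} [AddCommGroup V] [Module F V] [FiniteDimensional F V]
    {C : CForm T V} (hC : C.Nondeg) (f : V →ₗ[F] V) (x y : V) :
    C.B x (hC.adj f y) = C.B (f x) y := by rw [C.symm, hC.B_adj, ← C.symm]

theorem CForm.Nondeg.adj_adj {V : Type*} [AddCommGroup V] [Module F V] [FiniteDimensional F V]
    {C : CForm T V} (hC : C.Nondeg) (f : V →ₗ[F] V) : hC.adj (hC.adj f) = f :=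
  LinearMap.ext fun x => hC.ext fun y => by rw [hC.B_adj, hC.B_adj']

/-- The vectors occurring in root elements at `v`. -/
def rqS {V : Type*} [AddCommGroup V] [Module F V] {C : CForm T V} (X : Subgroup (V ≃ₗ[F] V))
    {v : V} (hv : C.N v = 0) : AddSubgroup V where
  carrier := {y | C.B v y = 0 ∧ ∃ a, Rq C X v y a}
  zero_mem' := ⟨by simp, 0, rho_zero⟩
  add_mem' := fun ⟨a1, _, e⟩ ⟨a3, _, e'⟩ => ⟨by simp [a1, a3], _,
    e.mul e' (C.B_self_of_zero hv) a1 a3⟩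
  neg_mem' := fun ⟨a1, a, e⟩ => ⟨by simp [a1], _, by
    simpa using rho_zero.div e (C.B_self_of_zero hv) (by simp) a1⟩

theorem mem_rqS {V : Type*} [AddCommGroup V] [Module F V] {C : CForm T V}
    {X : Subgroup (V ≃ₗ[F] V)} {v y : V} {hv : C.N v = 0} :
    y ∈ rqS X hv ↔ C.B v y = 0 ∧ ∃ a, Rq C X v y a := Iff.rfl

variable (C₂ X) in
/-- `X` contains an element acting on `(U ⊗ w)^⊥` as `x ↦ x + Φ x ⊗ w`. -/
def QW (w : W) (Φ : U ⊗[F] W →ₗ[F] U) : Prop :=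
  ∃ q ∈ X, ∀ x, cB U C₂ w x = 0 → q x = x + Φ x ⊗ₜ w

theorem QW.congr (h : QW C₂ X w Φ) (e : ∀ x, cB U C₂ w x = 0 → Φ x = Φ' x) : QW C₂ X w Φ' :=
  let ⟨q, h1, h2⟩ := h; ⟨q, h1, fun x hx => by rw [h2 x hx, e x hx]⟩

theorem qw_zero : QW C₂ X w 0 := ⟨1, one_mem _, fun x _ => by simp⟩

theorem QW.add (h : QW C₂ X w Φ) (h' : QW C₂ X w Φ') (hw : C₂.B w w = 0)
    (h0 : ∀ u, Φ (u ⊗ₜ w) = 0) : QW C₂ X w (Φ + Φ') := by
  obtain ⟨q, h1, h2⟩ := h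
  obtain ⟨q', h3, h4⟩ := h'
  refine ⟨q * q', mul_mem h1 h3, fun x hx => ?_⟩
  rw [LinearEquiv.mul_apply, h4 x hx, h2 _ (by simp [hx, hw])]
  simp [h0, add_tmul]; abel

theorem QW.inv_apply {q : (U ⊗[F] W) ≃ₗ[F] (U ⊗[F] W)}
    (h : ∀ x, cB U C₂ w x = 0 → q x = x + Φ x ⊗ₜ w) (hw : C₂.B w w = 0)
    (h0 : ∀ u, Φ (u ⊗ₜ w) = 0) (hx : cB U C₂ w x = 0) : q⁻¹ x = x + (-Φ) x ⊗ₜ w := by
  apply q.injective
  rw [apply_inv_apply, h _ (by simp [hx, hw])]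
  simp [h0, neg_tmul]

theorem QW.neg (h : QW C₂ X w Φ) (hw : C₂.B w w = 0) (h0 : ∀ u, Φ (u ⊗ₜ w) = 0) :
    QW C₂ X w (-Φ) :=
  let ⟨_, h1, h2⟩ := h; ⟨_, inv_mem h1, fun _ => QW.inv_apply h2 hw h0⟩

theorem QW.sub (h : QW C₂ X w Φ) (h' : QW C₂ X w Φ') (hw : C₂.B w w = 0)
    (h0 : ∀ u, Φ (u ⊗ₜ w) = 0) (h0' : ∀ u, Φ' (u ⊗ₜ w) = 0) : QW C₂ X w (Φ - Φ') := by
  rw [sub_eq_add_neg]; exact h.add (h'.neg hw h0') hw h0

variable (C₂ X) in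
/-- The endomorphisms attached to the point `w`. -/
def qI (hw : C₂.N w = 0) : Submodule F (End F U) where
  carrier := {A | ∀ y, C₂.B w y = 0 → QW C₂ X w (A ∘ₗ cB U C₂ y)}
  zero_mem' y _ := by simpa using qw_zero
  add_mem' a b y hy := by
    rw [LinearMap.add_comp]
    exact (a y hy).add (b y hy) (C₂.B_self_of_zero hw) (by simp [C₂.B_swap_zero hy])
  smul_mem' c A a y hy := (a (T₂.σ c • y) (by simp [hy])).congr fun x _ => by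
    simp [cB_smul, T₂.σσ]

variable (C₂ X) in
/-- The elements of the unipotent radicals are scalar on the first factor. -/
def QS : Prop := ∀ w y Φ, TSP C₂ w y → QW C₂ X w Φ → (∀ u, Φ (u ⊗ₜ w) = 0) →
  ∃ c : F, ∀ u, Φ (u ⊗ₜ y) = c • u

variable (C C₁ C₂ X R) in
/-- An overgroup of the isometry group of the second factor. -/
structure TX : Prop extends TF C C₁ C₂ where
  le : X ≤ C.isom
  hX : ∀ β ∈ R, rH F U W β ∈ X
  spec : Spec C₂ R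
  rho : ∀ v y, C₂.N v = 0 → C₂.N y = 0 → C₂.B v y = 0 → Rq C₂ R v y 0
  tv : ∀ v a, C₂.N v = 0 → a * T₂.ε + T₂.σ a = 0 → Rq C₂ R v 0 a
  conn : ∀ w w', ∃ y, y ≠ 0 ∧ C₂.N y = 0 ∧ C₂.B w y = 0 ∧ C₂.B w' y = 0
  dim : 4 ≤ finrank F W

namespace TX

variable [FiniteDimensional F U] [FiniteDimensional F W] (h : TX C C₁ C₂ X R)
include h

omit [FiniteDimensional F U] [FiniteDimensional F W] in
theorem mono {X' : Subgroup ((U ⊗[F] W) ≃ₗ[F] (U ⊗[F] W))} (h1 : X ≤ X') (h2 : X' ≤ C.isom) :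
    TX C C₁ C₂ X' R := { h with le := h2, hX := fun β hβ => h1 (h.hX β hβ) }

omit [FiniteDimensional F U] [FiniteDimensional F W] in
theorem tsp (hw : C₂.N w = 0) (hw0 : w ≠ 0) : ∃ y, TSP C₂ w y := by
  obtain ⟨p, hp⟩ := h.nd₂.exists_eq hw0 1
  obtain ⟨y, a1, a2, a3, a4⟩ := h.conn w p
  refine ⟨y, hw, a2, a3, hw0, fun e => ?_⟩
  obtain ⟨c, rfl⟩ := mem_span_singleton.1 e
  have := C₂.B_swap_zero a4
  rw [C₂.B_smul_left, hp, mul_one, T₂.σ_eq_zero] at this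
  simp [this] at a1

omit [FiniteDimensional F U] in
theorem perp_add (hw : C₂.N w = 0) (hw0 : w ≠ 0) (S : AddSubgroup W)
    (hS : ∀ y, TSP C₂ w y → y ∈ S) (hy : C₂.B w y = 0) : y ∈ S :=
  let ⟨_, e⟩ := h.tsp hw hw0; e.perp_add h.nd₂ S hS hy

omit [FiniteDimensional F U] in
theorem rho' (hw : C₂.N w = 0) (hw0 : w ≠ 0) (hy : C₂.B w y = 0) : ∃ a, Rq C₂ R w y a :=
  (h.perp_add hw hw0 (rqS R hw) (fun u a => ⟨a.hB, 0, h.rho w u a.hv a.hc a.hB⟩) hy).2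

omit [FiniteDimensional F U] [FiniteDimensional F W] in
theorem of_rq {a : F} (e : Rq C₂ R w y a) : ∃ k ∈ X, k ∈ R.map (rH F U W) ∧ ∀ x,
    k x = x + cB U C₂ w x ⊗ₜ y - (T₂.σ T₂.ε • cB U C₂ y x + a • cB U C₂ w x) ⊗ₜ w :=
  let ⟨β, h1, h2⟩ := e; ⟨_, h.hX β h1, ⟨β, h1, rfl⟩, rH_rho h2⟩

omit [FiniteDimensional F U] in
theorem rh (hw : C₂.N w = 0) (hw0 : w ≠ 0) (hy : C₂.B w y = 0) :
    ∃ k ∈ X, k ∈ R.map (rH F U W) ∧ ∃ a : F, ∀ x,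
      k x = x + cB U C₂ w x ⊗ₜ y - (T₂.σ T₂.ε • cB U C₂ y x + a • cB U C₂ w x) ⊗ₜ w :=
  let ⟨a, e⟩ := h.rho' hw hw0 hy; let ⟨k, h1, h2, h3⟩ := h.of_rq e; ⟨k, h1, h2, a, h3⟩

omit [FiniteDimensional F U] in
theorem one_mem_qI (hw : C₂.N w = 0) : 1 ∈ qI C₂ X hw := by
  by_cases hw0 : w = 0
  · exact fun y _ => ⟨1, one_mem _, fun x _ => by simp [hw0]⟩
  have : (-T₂.σ T₂.ε) • (1 : End F U) ∈ qI C₂ X hw := fun y hy =>
    let ⟨k, h1, _, a, h2⟩ := h.rh hw hw0 hy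
    ⟨k, h1, fun x hx => by simp [h2, hx, sub_eq_add_neg, neg_tmul]⟩
  have h1 := smul_mem _ (-T₂.σ T₂.ε)⁻¹ this
  rwa [smul_smul, inv_mul_cancel₀ (neg_ne_zero.2 h.η_ne), one_smul] at h1

omit [FiniteDimensional F U] [FiniteDimensional F W] in
theorem comp (hq : QW C₂ X w Φ) {k : (U ⊗[F] W) ≃ₗ[F] (U ⊗[F] W)} (hk : k ∈ X)
    (e : ∀ u, k (u ⊗ₜ w) = u ⊗ₜ w) : QW C₂ X w (Φ ∘ₗ k) := by
  obtain ⟨q, h1, h2⟩ := hq
  refine ⟨k⁻¹ * q * k, mul_mem (mul_mem (inv_mem hk) h1) hk, fun x hx => ?_⟩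
  rw [LinearEquiv.mul_apply, LinearEquiv.mul_apply, h2 _ (by rw [h.cB_fix (h.le hk) e, hx]),
    map_add, inv_apply_apply, ← e, inv_apply_apply]
  rfl

omit [FiniteDimensional F U] [FiniteDimensional F W] in
theorem comm (hw : C₂.N w = 0) (hq : QW C₂ X w Φ) (h0 : ∀ u, Φ (u ⊗ₜ w) = 0)
    {k : (U ⊗[F] W) ≃ₗ[F] (U ⊗[F] W)} (hk : k ∈ X) (e : ∀ u, k (u ⊗ₜ w) = u ⊗ₜ w) :
    QW C₂ X w (Φ ∘ₗ k - Φ) :=
  (h.comp hq hk e).sub hq (C₂.B_self_of_zero hw) (by simp [e, h0]) h0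

omit [FiniteDimensional F U] [FiniteDimensional F W] in
theorem conj_qI (hw : C₂.N w = 0) (hA : A ∈ qI C₂ X hw) {α : U ≃ₗ[F] U} {β : W ≃ₗ[F] W}
    (hβ : β ∈ C₂.isom) (hk : TensorProduct.congr α β ∈ X) (hw' : C₂.N (β w) = 0) :
    cj α A ∈ qI C₂ X hw' := fun y hy => by
  obtain ⟨y, rfl⟩ := β.surjective y
  obtain ⟨q, h1, h2⟩ := hA y (by rwa [CForm.isom_B hβ] at hy)
  refine ⟨_ * q * _⁻¹, mul_mem (mul_mem hk h1) (inv_mem hk), fun x hx => ?_⟩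
  obtain ⟨x, rfl⟩ := (TensorProduct.congr α β).surjective x
  rw [cB_congr hβ, EmbeddingLike.map_eq_zero_iff] at hx
  rw [LinearEquiv.mul_apply, LinearEquiv.mul_apply, inv_apply_apply, h2 x hx]
  simp [cB_congr hβ, inv_apply_apply]

omit [FiniteDimensional F W] in
theorem cB_inv {q : (U ⊗[F] W) ≃ₗ[F] (U ⊗[F] W)} (hq : q ∈ X)
    (e : ∀ x, cB U C₂ y x = 0 → q x = x + (h.nd₁.adj D ∘ₗ cB U C₂ z) x ⊗ₜ y) {t : W}
    (ht : C₂.B y t = 0) (x : U ⊗[F] W) :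
    cB U C₂ t (q⁻¹ x) = cB U C₂ t x + T₂.σ (C₂.B z t) • D (cB U C₂ y x) :=
  h.nd₁.ext' fun u => by
    rw [← h.B_tmul, ← CForm.isom_B (h.le hq), apply_inv_apply, e _ (by simp [ht])]
    simp [h.B_tmul, h.nd₁.B_adj, h.σ₁, h.σ₂]

omit [FiniteDimensional F U] in
theorem exists_mid (hd : 5 ≤ finrank F W) (e : TSP C₂ w y) (a : F) : ∃ z z', C₂.B w z = 0 ∧
    C₂.B y z = 0 ∧ C₂.B w z' = 0 ∧ C₂.B y z' = 0 ∧ C₂.B z z' = a ∧ z ∉ span F {w, y} := by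
  obtain ⟨z, a1, a2⟩ := exists_mem_not_mem_of_finrank_lt (W := span F {w, y})
    (W' := C₂.perp (span F {w, y})) (by
      have := h.nd₂.finrank_add_finrank_perp (span F {w, y})
      rw [e.finrank_eq] at this ⊢; omega)
  obtain ⟨z', a3, a4⟩ := h.nd₂.exists_perp_eq a2 a
  exact ⟨z, z', (C₂.mem_perp_pair.1 a1).1, (C₂.mem_perp_pair.1 a1).2, (C₂.mem_perp_pair.1 a3).1,
    (C₂.mem_perp_pair.1 a3).2, a4, a2⟩

omit [FiniteDimensional F U] in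
/-- Purification. -/
theorem pur (hd : 5 ≤ finrank F W) (e : TSP C₂ w y) (hq : QW C₂ X w Φ)
    (h0 : ∀ u, Φ (u ⊗ₜ w) = 0) (hA : ∀ u, Φ (u ⊗ₜ y) = A u) (a : F) :
    QW C₂ X w ((a • A) ∘ₗ cB U C₂ y) := by
  obtain ⟨z, z', a1, a2, a3, a4, a5, -⟩ := h.exists_mid hd e (-a / T₂.σ T₂.ε)
  obtain ⟨k, b1, -, b, b2⟩ := h.rh e.hc e.symm.ne a2
  obtain ⟨k', c1, -, c, c2⟩ := h.rh e.hc e.symm.ne a4
  have d1 := e.symm.hB
  have d2 := C₂.B_self_of_zero e.hc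
  have d3 : ∀ u, k (u ⊗ₜ w) = u ⊗ₜ w := by simp [b2, d1, C₂.B_swap_zero a1]
  refine (h.comm e.hv (h.comm e.hv hq h0 b1 d3) (by simp [d3]) c1
    (by simp [c2, d1, C₂.B_swap_zero a3])).congr fun x _ => ?_
  simp [c2, b2, a4, a5, d2, C₂.B_swap_zero a2, hA, smul_smul]
  rw [mul_div_cancel₀ _ h.η_ne]; module

omit [FiniteDimensional F U] in
theorem of_one (hd : 5 ≤ finrank F W) (e : TSP C₂ w y)
    (hq : ∀ a : F, QW C₂ X w ((a • A) ∘ₗ cB U C₂ y)) : A ∈ qI C₂ X e.hv := by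
  have hw := C₂.B_self_of_zero e.hv
  let S : AddSubgroup W :=
    { carrier := {y | C₂.B w y = 0 ∧ QW C₂ X w (A ∘ₗ cB U C₂ y)}
      zero_mem' := ⟨by simp, by simpa [cB_zero] using qw_zero⟩
      add_mem' := fun ⟨a1, a2⟩ ⟨a3, a4⟩ => ⟨by simp [a1, a3], by
        rw [cB_add, LinearMap.comp_add]; exact a2.add a4 hw (by simp [C₂.B_swap_zero a1])⟩
      neg_mem' := fun ⟨a1, a2⟩ => ⟨by simp [a1], by
        simpa [cB] using a2.neg hw (by simp [C₂.B_swap_zero a1])⟩ }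
  have h1 : ∀ y', TSP C₂ w y' → C₂.B y y' ≠ 0 → y' ∈ S := fun y' a1 a2 => ⟨a1.hB, by
    simpa [smul_smul, a2] using h.pur hd a1 (hq 1) (by simp [e.symm.hB])
      (A := C₂.B y y' • A) (by simp) (C₂.B y y')⁻¹⟩
  obtain ⟨y₁, a1, a2⟩ : ∃ y₁, TSP C₂ w y₁ ∧ C₂.B y y₁ ≠ 0 := by
    by_contra hc
    push Not at hc
    obtain ⟨p, a1, a2⟩ := h.nd₂.exists_perp_ne e.nm
    exact a2 (h.perp_add e.hv e.ne (LinearMap.ker (C₂.B y)).toAddSubgroup hc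
      (C₂.mem_perp_singleton.1 a1))
  refine fun y' hy' => (h.perp_add e.hv e.ne S (fun y₂ b => ?_) hy').2
  by_cases b1 : C₂.B y y₂ = 0
  swap
  · exact h1 y₂ b b1
  by_cases b2 : C₂.B y₁ y₂ = 0
  · refine (add_mem_cancel_left (h1 y₁ a1 a2)).1 (h1 _ ⟨e.hv, by
      rw [C₂.N_add_of_orth b2, a1.hc, b.hc, add_zero], by simp [a1.hB, b.hB], e.ne, fun e' => ?_⟩
      (by simp [a2, b1]))
    obtain ⟨c, hc⟩ := mem_span_singleton.1 e'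
    simpa [e.symm.hB, b1, a2.symm] using congrArg (C₂.B y) hc
  · exact ⟨b.hB, by
      simpa [smul_smul, b2] using h.pur hd b (h1 y₁ a1 a2).2 (by simp [a1.symm.hB])
        (A := C₂.B y₁ y₂ • A) (by simp) (C₂.B y₁ y₂)⁻¹⟩

theorem mul_qI (hd : 5 ≤ finrank F W) (e : TSP C₂ w y) (hA : A ∈ qI C₂ X e.hv)
    (hD : h.nd₁.adj D ∈ qI C₂ X e.hc) : A * D ∈ qI C₂ X e.hv := by
  refine h.of_one hd e fun a => ?_
  obtain ⟨z, z', a1, a2, a3, a4, a5, -⟩ := h.exists_mid hd e (T₂.σ a)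
  obtain ⟨q, b1, b2⟩ := hD z a2
  have b3 : ∀ u, q⁻¹ (u ⊗ₜ w) = u ⊗ₜ w := fun u => q.injective (by
    rw [apply_inv_apply, b2 _ (by simp [e.symm.hB])]; simp [C₂.B_swap_zero a1])
  refine (h.comm e.hv (hA z' a3) (by simp [C₂.B_swap_zero a3]) (inv_mem b1) b3).congr
    fun x _ => ?_
  have := h.cB_inv b1 b2 a4 x
  simp only [LinearMap.sub_apply, LinearMap.comp_apply, LinearEquiv.coe_coe, this]
  simp [a5, T₂.σσ]

theorem adj_qI (hd : 5 ≤ finrank F W) (hw : C₂.N w = 0) (hw0 : w ≠ 0) (hy : C₂.N y = 0)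
    (hy0 : y ≠ 0) (hA : A ∈ qI C₂ X hw) : A ∈ qI C₂ X hy ∧ h.nd₁.adj A ∈ qI C₂ X hy := by
  have h1 : ∀ w y A (e : TSP C₂ w y), A ∈ qI C₂ X e.hv → h.nd₁.adj A ∈ qI C₂ X e.hc :=
    fun w y A e hA => by
      simpa using h.mul_qI hd e.symm (h.one_mem_qI _) (D := h.nd₁.adj A) (by rwa [h.nd₁.adj_adj])
  have h2 : ∀ w y A (e : TSP C₂ w y), A ∈ qI C₂ X e.hv → A ∈ qI C₂ X e.hc := fun w y A e hA => by
    have e' : TSP C₂ (w + y) y := ⟨by rw [C₂.N_add_of_orth e.hB, e.hv, e.hc, add_zero],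
      e.hc, by simp [e.hB, C₂.B_self_of_zero e.hc], fun e' => e.nm (by
        rw [eq_neg_of_add_eq_zero_right e']; exact neg_mem (mem_span_singleton_self w)),
      fun e' => by
        obtain ⟨c, hc⟩ := mem_span_singleton.1 e'
        have := e.ind (s := c) (t := c - 1) (by rw [← sub_eq_zero.2 hc]; module)
        simp [this.1] at this⟩
    have e'' : TSP C₂ w (w + y) := ⟨e.hv, e'.hv, by simp [e.hB, C₂.B_self_of_zero e.hv], e.ne,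
      fun a => e.nm ((add_mem_cancel_left (mem_span_singleton_self w)).1 a)⟩
    simpa [h.nd₁.adj_adj] using h1 _ _ _ e' (h1 _ _ _ e'' hA)
  have h3 : ∀ w y (hw : C₂.N w = 0) (hy : C₂.N y = 0), w ≠ 0 → y ≠ 0 → C₂.B w y = 0 →
      A ∈ qI C₂ X hw → A ∈ qI C₂ X hy := fun w y hw hy a1 a2 a3 hA => by
    by_cases a4 : y ∈ span F {w}
    · obtain ⟨z, e⟩ := h.tsp hw a1
      obtain ⟨c, rfl⟩ := mem_span_singleton.1 a4
      exact h2 _ _ _ (TSP.symm ⟨hy, e.hc, by simp [e.hB], a2, fun a => e.nm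
        ((span_singleton_le_iff_mem _ _).2 a4 a)⟩) (h2 _ _ _ e hA)
    · exact h2 _ _ _ ⟨hw, hy, a3, a1, a4⟩ hA
  obtain ⟨z, a1, a2, a3, a4⟩ := h.conn w y
  have h4 := h3 _ _ a2 hy a1 hy0 (C₂.B_swap_zero a4) (h3 _ _ hw a2 hw0 a1 a3 hA)
  obtain ⟨t, e⟩ := h.tsp hy hy0
  exact ⟨h4, h1 _ _ _ e.symm (h2 _ _ _ e h4)⟩

/-- The algebra attached to an overgroup. -/
def alg (hd : 5 ≤ finrank F W) : Subalgebra F (End F U) where
  carrier := {A | ∀ w (hw : C₂.N w = 0), w ≠ 0 → A ∈ qI C₂ X hw}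
  mul_mem' a b w hw hw0 :=
    let ⟨y, e⟩ := h.tsp hw hw0
    h.mul_qI hd e (a w hw hw0) (h.adj_qI hd hw hw0 e.hc e.symm.ne (b w hw hw0)).2
  add_mem' a b w hw hw0 := add_mem (a w hw hw0) (b w hw hw0)
  algebraMap_mem' c w hw _ := by
    rw [Algebra.algebraMap_eq_smul_one]; exact smul_mem _ _ (h.one_mem_qI hw)

theorem mem_alg (hd : 5 ≤ finrank F W) (hw : C₂.N w = 0) (hw0 : w ≠ 0) (hA : A ∈ qI C₂ X hw) :
    A ∈ h.alg hd := fun _ hy hy0 => (h.adj_qI hd hw hw0 hy hy0 hA).1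

theorem adj_mem_alg (hd : 5 ≤ finrank F W) (hA : A ∈ h.alg hd) : h.nd₁.adj A ∈ h.alg hd :=
  fun y hy hy0 => (h.adj_qI hd hy hy0 hy hy0 (hA y hy hy0)).2

theorem conj_mem_alg (hd : 5 ≤ finrank F W) (hA : A ∈ h.alg hd) {α : U ≃ₗ[F] U}
    (hk : lH F U W α ∈ X) : cj α A ∈ h.alg hd :=
  fun y hy hy0 => h.conj_qI hy (hA y hy hy0) (β := 1) (one_mem _) hk hy

theorem qs_of_alg (hd : 5 ≤ finrank F W) (hs : ∀ A ∈ h.alg hd, ∃ c : F, ∀ u, A u = c • u) :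
    QS C₂ X := fun w y Φ e hq h0 =>
  hs (Φ ∘ₗ (TensorProduct.mk F U W).flip y) (h.mem_alg hd e.hv e.ne
    (h.of_one hd e (h.pur hd e hq h0 fun _ => rfl)))

theorem rq_tmul (hd : 5 ≤ finrank F W) (hs : ∀ A, A ∈ h.alg hd) (e : TSP C₂ w y) (u u' : U) :
    Rq C X (u ⊗ₜ w) (u' ⊗ₜ y) 0 := by
  obtain ⟨z, z', a1, a2, a3, a4, a5, -⟩ := h.exists_mid hd e 1
  obtain ⟨q, b1, b2⟩ := hs (h.nd₁.adj ((C₁.B u).smulRight ((-T₂.ε) • u'))) w e.hv e.ne z a1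
  obtain ⟨k, c1, -, c, c2⟩ := h.rh e.hc e.symm.ne a4
  have d1 : ∀ u, k (u ⊗ₜ w) = u ⊗ₜ w := by simp [c2, e.symm.hB, C₂.B_swap_zero a3]
  have d2 : ∀ u, k (u ⊗ₜ y) = u ⊗ₜ y := by
    simp [c2, C₂.B_self_of_zero e.hc, C₂.B_swap_zero a4]
  have d3 : ∀ u, q (u ⊗ₜ y) = u ⊗ₜ y := fun u => by
    rw [b2 _ (by simp [e.hB])]; simp [C₂.B_swap_zero a2]
  refine ⟨k⁻¹ * (q * k * q⁻¹), mul_mem (inv_mem c1) (mul_mem (mul_mem b1 c1) (inv_mem b1)),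
    fun x => k.injective ?_⟩
  have d4 := h.cB_inv b1 b2 a3 x
  have d5 := h.cB_inv b1 b2 e.hB x
  have d6 : h.nd₁.adj ((C₁.B u).smulRight ((-T₂.ε) • u')) (cB U C₂ y x) =
      -T.σ (C.B x (u' ⊗ₜ y)) • u := h.nd₁.ext fun v => by
    rw [h.nd₁.B_adj, C.symm (u' ⊗ₜ y), h.B_tmul, h.hε]
    simp [h.σ₁, T.σσ, C₁.symm u' (cB U C₂ y x)]; ring
  have d7 : q (cB U C₂ y x ⊗ₜ z') = cB U C₂ y x ⊗ₜ z' - T.σ (C.B x (u' ⊗ₜ y)) • u ⊗ₜ w := by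
    rw [b2 _ (by simp [a3]), LinearMap.comp_apply, cB_tmul, a5, one_smul, d6, neg_smul, neg_tmul,
      smul_tmul', sub_eq_add_neg]
  have d8 : T₂.σ T₂.ε * T₂.ε = 1 := by rw [mul_comm, h.ε₂]
  simp only [LinearEquiv.mul_apply, apply_inv_apply, c2 (q⁻¹ x), map_add, map_sub, d3, d4, d5,
    C₂.B_swap_zero a2, map_zero, zero_smul, add_zero, d7, map_smul, d1, d2, c2 x, a5, map_one,
    one_smul, zero_mul, h.B_tmul, LinearMap.smulRight_apply, smul_add, add_tmul, smul_smul,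
    ← smul_tmul']
  match_scalars <;> first | ring1 | linear_combination (C₁.B u (cB U C₂ w x)) * d8

theorem rq_all (hd : 5 ≤ finrank F W) (hs : ∀ A, A ∈ h.alg hd) (hw : C₂.N w = 0) (hw0 : w ≠ 0)
    (hu : u ≠ 0) (hx : C.B (u ⊗ₜ w) x = 0) : ∃ a, Rq C X (u ⊗ₜ w) x a := by
  have hp := C.B_self_of_zero (h.N_tmul u hw)
  generalize hS : rqS X (h.N_tmul u hw) = S
  have hS' : ∀ y, y ∈ S ↔ C.B (u ⊗ₜ w) y = 0 ∧ ∃ a, Rq C X (u ⊗ₜ w) y a := fun y => hS ▸ mem_rqS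
  have h1 : ∀ u' y, C₂.B w y = 0 → u' ⊗ₜ y ∈ S := fun u' y hy =>
    h.perp_add hw hw0 (S.comap (TensorProduct.mk F U W u').toAddMonoidHom)
      (fun y e => (hS' _).2 ⟨by simp [h.hB, e.hB], 0, h.rq_tmul hd hs e u u'⟩) hy
  obtain ⟨w', -, a1, a2⟩ := h.nd₂.exists_partner (Z := ⊥) (x := w) (by simpa using hw0) hw
    (by simp [C₂.perp_bot])
  have h2 : ∀ u', C₁.B u' u = 0 → u' ⊗ₜ w' ∈ S := fun u' hu' => by
    obtain ⟨y, b1, b2, b3, b4⟩ := h.conn w w'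
    have b5 : TSP C₂ w' y := ⟨a1, b2, b4, by rintro rfl; simp at a2, fun e => by
      obtain ⟨c, rfl⟩ := mem_span_singleton.1 e
      simp [a2] at b3; simp [b3] at b1⟩
    obtain ⟨y', b6, b7⟩ := h.nd₂.exists_perp_eq (W := span F {w, w'}) (x := y) (fun e => by
      obtain ⟨s, t, rfl⟩ := mem_span_pair.1 e
      simp [a2, C₂.B_self_of_zero hw, C₂.B_self_of_zero a1, C₂.symm w w', T₂.ε_ne] at b3 b4
      simp [b3, b4] at b1) 1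
    obtain ⟨b8, b9⟩ := C₂.mem_perp_pair.1 b6
    obtain ⟨v, v', c1⟩ := h.ex_one
    obtain ⟨k, c2, c3⟩ := h.rq_tmul hd hs b5 u' v
    obtain ⟨c4, a, c5⟩ := (hS' _).1 (h1 ((-T.ε) • v') y' b8)
    have c7 := c5.comm c2 (h.le c2) (by simp [c3, h.hB, hu', b3]) hp c4
    have c6 := C.εσε (v ⊗ₜ y) (v' ⊗ₜ y')
    rw [show k ((-T.ε • v') ⊗ₜ y') - (-T.ε • v') ⊗ₜ y' = u' ⊗ₜ w' by
      rw [c3, C.σ_B]
      simp only [h.hB, c1, b7, b9, map_smul, smul_eq_mul, mul_one] at c6 ⊢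
      match_scalars <;> first | ring1 | linear_combination c6] at c7
    exact (hS' _).2 ⟨by simp [h.hB, C₁.B_swap_zero hu'], _, c7⟩
  have h3 : x - cB U C₂ w x ⊗ₜ w' ∈ S := tl_add (Y := C₂.perp (span F {w})) S
    (fun u' y hy => h1 _ _ (C₂.mem_perp_singleton.1 hy))
    (by rw [← h.perp_tl, h.mem_perp_point]; simp [a2])
  have h4 := add_mem h3 (h2 _ (C₁.B_swap_zero (by rw [← h.B_tmul, hx])))
  rw [sub_add_cancel] at h4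
  exact ((hS' _).1 h4).2

theorem le_of_alg (hd : 5 ≤ finrank F W) (hs : ∀ A, A ∈ h.alg hd) (hG : RootG C G) (hX : X ≤ G)
    (hZ : ∀ a, a * T.ε + T.σ a = 0 → T.τ (a * T.ε) = 0 → ∃ b, a = T.σ T.ε * b - T.σ b) :
    G ≤ X := by
  have key : ∀ u w p, C₂.N w = 0 → C.B (u ⊗ₜ w) p = 1 → Q1 C G X (u ⊗ₜ w) := fun u w p hw hp => by
    have hw0 : w ≠ 0 := by rintro rfl; simp at hp
    have hu : u ≠ 0 := by rintro rfl; simp at hp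
    have hN := h.N_tmul u hw
    have hvv := C.B_self_of_zero hN
    refine q1_of_rho hG.le hX hN hp (fun y => h.rq_all hd hs hw hw0 hu) fun a ha => ?_
    obtain ⟨β, rfl⟩ := hZ a (ha.tvOk hG.le hN hp).1 (ha.tvOk hG.le hN hp).2
    obtain ⟨y, e⟩ := h.tsp hw hw0
    obtain ⟨-, y', -, -, b1, b2⟩ := e.exists_dual h.nd₂
    obtain ⟨v, v', c0⟩ := h.ex_one
    have c1 : C.B (u ⊗ₜ w) (v ⊗ₜ y) = 0 := by simp [h.hB, e.hB]
    have c2 : C.B (u ⊗ₜ w) (β • v' ⊗ₜ y') = 0 := by simp [h.hB, b1]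
    obtain ⟨a, e1⟩ := h.rq_all hd hs hw hw0 hu c1
    obtain ⟨a', e2⟩ := h.rq_all hd hs hw hw0 hu c2
    convert (e1.mul e2 hvv c1 c2).div (e2.mul e1 hvv c2 c1) hvv (by rw [map_add, c1, c2, add_zero])
      (by rw [map_add, c1, c2, add_zero]) using 1
    · simp [add_comm]
    · simp [add_comm (v ⊗ₜ[F] y), C.σ_B (v' ⊗ₜ y'), h.hB v, c0, b2, T.σσ]
      ring
  obtain ⟨w, a1, a2, -⟩ := h.conn 0 0
  obtain ⟨w', -, b1, b2⟩ := h.nd₂.exists_partner (Z := ⊥) (x := w) (by simpa using a1) a2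
    (by simp [C₂.perp_bot])
  obtain ⟨v, v', c0⟩ := h.ex_one
  have c1 : C.B (v ⊗ₜ w) (v' ⊗ₜ w') = 1 := by simp [h.hB, c0, b2]
  obtain ⟨p, c2⟩ := h.nd.exists_eq (x := v' ⊗ₜ w') (fun e => by simp [e] at c1) 1
  exact hG.fin X _ _ (h.N_tmul v a2) (h.N_tmul v' b1) (by simp [c1]) (key _ _ _ a2 c1)
    (key _ _ _ b1 c2)

end TX

end H12
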