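import Cfsg.Agent.H12.Ten2

/-!
# Tensor products of forms: stabilisers of the subspaces `U ⊗ w`
-/

set_option autoImplicit false
set_option maxHeartbeats 400000

namespace H12

open Module H11 Submodule TensorProduct H13.KL

variable {F : Type*} [Field F] {U W : Type*} [AddCommGroup U] [Module F U] [AddCommGroup W]
  [Module F W] {T T₁ T₂ : FormType F} {C : CForm T (U ⊗[F] W)} {C₁ : CForm T₁ U}
  {C₂ : CForm T₂ W} {X G : Subgroup ((U ⊗[F] W) ≃ₗ[F] (U ⊗[F] W))} {R : Subgroup (W ≃ₗ[F] W)}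
  {x : U ⊗[F] W} {u : U} {w y z w₁ : W} {Φ : U ⊗[F] W →ₗ[F] U} {Y : Submodule F W}
  {g t : (U ⊗[F] W) ≃ₗ[F] (U ⊗[F] W)}

theorem inv_mem_of_finrank {V : Type*} [AddCommGroup V] [Module F V] [FiniteDimensional F V]
    {A B : Submodule F V} {g : V ≃ₗ[F] V} (h : ∀ x ∈ A, g x ∈ B) (hd : finrank F B ≤ finrank F A)
    {x : V} (hx : x ∈ B) : g⁻¹ x ∈ A := by
  have : A.map (g : V →ₗ[F] V) = B := eq_of_le_of_finrank_le
    (by rintro _ ⟨a, ha, rfl⟩; exact h a ha) (by rwa [finrank_map_equiv])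
  obtain ⟨a, ha, rfl⟩ := this.ge hx
  simpa [inv_apply_apply] using ha

theorem conj_sub {V : Type*} [AddCommGroup V] [Module F V] (g k : V ≃ₗ[F] V) (x : V) :
    (g * k * g⁻¹) x - x = g (k (g⁻¹ x) - g⁻¹ x) := by
  rw [map_sub, apply_inv_apply]; rfl

theorem TSP.add {V : Type*} [AddCommGroup V] [Module F V] {C : CForm T V} {v c : V}
    (e : TSP C v c) : TSP C v (v + c) :=
  ⟨e.hv, by rw [C.N_add_of_orth e.hB, e.hv, e.hc, add_zero],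
    by simp [e.hB, C.B_self_of_zero e.hv], e.ne,
    fun a => e.nm ((add_mem_cancel_left (mem_span_singleton_self v)).1 a)⟩

theorem exists_pair_of_finrank {V : Type*} [AddCommGroup V] [Module F V] [FiniteDimensional F V]
    {Y : Submodule F V} (h : finrank F Y = 2) :
    ∃ a b, a ≠ 0 ∧ b ∉ span F {a} ∧ Y = span F {a, b} := by
  obtain ⟨a, a1, a2⟩ := exists_mem_not_mem_of_finrank_lt (W := ⊥) (W' := Y) (by simp [h])
  obtain ⟨b, b1, b2⟩ := exists_mem_not_mem_of_finrank_lt (W := span F {a}) (W' := Y)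
    (by have := finrank_span_singleton_le (F := F) a; omega)
  refine ⟨a, b, by simpa using a2, b2, (eq_of_le_of_finrank_le (span_le.2 (by
    rintro _ (rfl | rfl); exacts [a1, b1])) ?_).symm⟩
  have := finrank_lt_finrank_of_lt (SetLike.lt_iff_le_and_exists.2
    ⟨span_mono (by simp), b, mem_pair_right a b, b2⟩ : span F {a} < span F {a, b})
  rw [finrank_span_singleton (by simpa using a2)] at this
  omega

namespace TX

variable [FiniteDimensional F U] [FiniteDimensional F W] (h : TX C C₁ C₂ X R)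
include h

theorem inv_point (hw : w ≠ 0) (e : ∀ u, g (u ⊗ₜ w) ∈ tl U (span F {w₁})) (u : U) :
    g⁻¹ (u ⊗ₜ w₁) ∈ tl U (span F {w}) :=
  inv_mem_of_finrank (fun x hx => by obtain ⟨u, rfl⟩ := mem_tl_singleton.1 hx; exact e u)
    (by rw [finrank_tl, finrank_tl, finrank_span_singleton hw]
        exact Nat.mul_le_mul_left _ (finrank_span_singleton_le _))
    (tmul_mem_tl u (mem_span_singleton_self _))

theorem ne_of_point (hw : w ≠ 0) (e : ∀ u, g (u ⊗ₜ w) ∈ tl U (span F {w₁})) : w₁ ≠ 0 := by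
  rintro rfl
  obtain ⟨u, hu⟩ := h.ex
  obtain ⟨v, hv⟩ := mem_tl_singleton.1 (e u)
  exact tmul_ne_zero hu hw (by simpa using hv)

theorem sing_of_point (hg : g ∈ X) (hw : C₂.N w₁ = 0)
    (e : ∀ u, g (u ⊗ₜ w) ∈ tl U (span F {w₁})) : C₂.N w = 0 :=
  h.sing _ (h.B_eq_zero (h.ts_tl (h.point_ts hw)) (h.le hg) e e)

variable (hQ : QS C₂ X)
include hQ

theorem qs_rep (hw : C₂.N w = 0) (hw0 : w ≠ 0) (hq : QW C₂ X w Φ) (h0 : ∀ u, Φ (u ⊗ₜ w) = 0) :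
    ∃ y, C₂.B y w = 0 ∧ ∀ x, cB U C₂ w x = 0 → Φ x = cB U C₂ y x := by
  obtain ⟨u, hu⟩ := h.ex
  obtain ⟨ψ, hψ⟩ := exists_dual_one (F := F) hu
  obtain ⟨y, hy⟩ := h.nd₂.exists_rep (ψ ∘ₗ Φ ∘ₗ TensorProduct.mk F U W u)
  refine ⟨y, by simp [hy, h0], fun x hx => tl_ext (Y := C₂.perp (span F {w})) (fun v z hz => ?_)
    (by rwa [← h.perp_tl, h.mem_perp_point])⟩
  obtain ⟨c, hc⟩ := h.perp_add hw hw0
    { carrier := {y | ∃ c : F, ∀ u, Φ (u ⊗ₜ y) = c • u}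
      zero_mem' := ⟨0, by simp⟩
      add_mem' := fun ⟨a, a1⟩ ⟨b, b1⟩ => ⟨a + b, by simp [tmul_add, a1, b1, add_smul]⟩
      neg_mem' := fun ⟨a, a1⟩ => ⟨-a, by simp [tmul_neg, a1]⟩ }
    (fun y e => hQ w y Φ e hq h0) (C₂.mem_perp_singleton.1 hz)
  simp [hy, hc, hψ]

theorem coef (hw : C₂.N w = 0) (hw0 : w ≠ 0) (ht : t ∈ X) (e : ∀ u, t (u ⊗ₜ w) = u ⊗ₜ w) {v : W}
    (hv : C₂.B w v = 0) : ∃ z, ∀ x, cB U C₂ w x = 0 → cB U C₂ v (t x - x) = cB U C₂ z x := by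
  obtain ⟨z, -, hz⟩ := h.qs_rep hQ hw hw0 (h.comm hw (h.one_mem_qI hw v hv)
    (by simp [C₂.B_swap_zero hv]) ht e) (by simp [e])
  exact ⟨z, fun x hx => by simpa using hz x hx⟩

omit hQ [FiniteDimensional F W] in
theorem tv_of (ht : t ∈ X) (hy : C₂.N y = 0) {r : W} {c : F} (hr : C₂.B y r = 1)
    (hw : C₂.B w r = 0) (hw' : C₂.B w w = 0) (hwy : C₂.B w y = 0)
    (e : ∀ u, ∃ s, t (u ⊗ₜ r) = u ⊗ₜ r + s ⊗ₜ w + c • u ⊗ₜ y) :
    ∃ k ∈ X, k ∈ R.map (rH F U W) ∧ -c * T₂.ε + T₂.σ (-c) = 0 ∧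
      ∀ x, k x = x + (c • cB U C₂ y x) ⊗ₜ y := by
  obtain ⟨u, u', e1⟩ := h.ex_one
  obtain ⟨s, e2⟩ := e u
  obtain ⟨s', e3⟩ := e u'
  have h1 := CForm.isom_B (h.le ht) (u ⊗ₜ r) (u' ⊗ₜ r)
  rw [e2, e3] at h1
  simp [h.hB, e1, hr, hw, hw', hwy, C₂.B_swap_zero hw, C₂.B_swap_zero hwy, C₂.symm y r,
    C₂.B_self_of_zero hy] at h1
  have h2 : -c * T₂.ε + T₂.σ (-c) = 0 := by rw [map_neg, h.σ₂]; linear_combination -h1
  obtain ⟨k, a1, a2, a3⟩ := h.of_rq (h.tv y (-c) hy h2)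
  exact ⟨k, a1, a2, h2, fun x => by simp [a3, cB_zero, neg_tmul]⟩

theorem cen_point (hw : C₂.N w = 0) (hw0 : w ≠ 0) (ht : t ∈ X)
    (ht' : t ∈ cen (tl U (span F {w}))) :
    t ∈ R.map (rH F U W) ∧ ∃ c : F, -c * T₂.ε + T₂.σ (-c) = 0 ∧
      ∀ x, t x = x + (c • cB U C₂ w x) ⊗ₜ w := by
  obtain ⟨y, e⟩ := h.tsp hw hw0
  obtain ⟨r, -, a1, a2, -⟩ := e.exists_dual h.nd₂
  have h1 : ∀ x, cB U C₂ w x = 0 → t x = x := fun x hx =>
    h.nd.cen_fix (h.le ht) ht' (h.mem_perp_point.2 hx)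
  obtain ⟨z, hz⟩ := h.coef hQ e.hc e.symm.ne ht (fun u => h1 _ (by simp [e.hB]))
    (v := T₂.ε • r) (by simp [a2])
  have h2 : ∀ u, t (u ⊗ₜ r) = u ⊗ₜ r + C₂.B z r • u ⊗ₜ w := fun u => by
    obtain ⟨s, hs⟩ := mem_tl_singleton.1 (ht' (u ⊗ₜ r))
    have := hz (u ⊗ₜ r) (by simp [a2])
    rw [hs] at this
    simp [C₂.symm w r, a1, T₂.σσ, mul_comm (T₂.σ T₂.ε), h.ε₂] at this
    rw [smul_tmul', ← this, ← hs, add_sub_cancel]
  obtain ⟨k, -, b1, b3, b2⟩ := h.tv_of (w := 0) ht hw a1 (by simp) (by simp) (by simp)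
    fun u => ⟨0, by simpa using h2 u⟩
  have : t = k := LinearEquiv.ext fun x => by
    have := h1 (x - cB U C₂ w x ⊗ₜ r) (by simp [a1])
    rw [map_sub, h2, sub_eq_iff_eq_add] at this
    rw [this, b2, smul_tmul']; abel
  exact ⟨this ▸ b1, _, b3, this ▸ b2⟩

omit hQ in
theorem exists_qw (ht : t ∈ X) (hw0 : w ≠ 0)
    (e : ∀ x, cB U C₂ w x = 0 → t x - x ∈ tl U (span F {w})) :
    ∃ Φ : U ⊗[F] W →ₗ[F] U, (∀ x, t x = x → Φ x = 0) ∧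
      ∀ x, cB U C₂ w x = 0 → t x = x + Φ x ⊗ₜ w := by
  obtain ⟨φ, hφ⟩ := exists_dual_one (F := F) hw0
  refine ⟨cR U φ ∘ₗ (t.toLinearMap - 1), fun x hx => by simp [hx], fun x hx => ?_⟩
  obtain ⟨s, hs⟩ := mem_tl_singleton.1 (e x hx)
  have : cR U φ (t x - x) = s := by simp [hs, hφ]
  exact (by rw [this, ← hs, add_sub_cancel] : t x = x + cR U φ (t x - x) ⊗ₜ w)

theorem q_point (hw : C₂.N w = 0) (hw0 : w ≠ 0) (ht : t ∈ X) (e0 : ∀ u, t (u ⊗ₜ w) = u ⊗ₜ w)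
    (e : ∀ x, cB U C₂ w x = 0 → t x - x ∈ tl U (span F {w})) : t ∈ R.map (rH F U W) := by
  obtain ⟨Φ, a1, a2⟩ := h.exists_qw ht hw0 e
  obtain ⟨y, b1, b2⟩ := h.qs_rep hQ hw hw0 ⟨t, ht, a2⟩ fun u => a1 _ (e0 u)
  obtain ⟨k, c1, c2, a, c3⟩ := h.rh hw hw0 (y := (-T₂.σ T₂.ε) • y) (by simp [C₂.B_swap_zero b1])
  have := (h.cen_point hQ hw hw0 (mul_mem (inv_mem c1) ht) (h.nd.mem_cen_of_fix
    (h.le (mul_mem (inv_mem c1) ht)) fun x hx => k.injective (by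
      rw [h.mem_perp_point] at hx
      rw [LinearEquiv.mul_apply, apply_inv_apply, a2 x hx, c3, b2 x hx, cB_smul]
      simp [hx, T₂.σσ, smul_smul, mul_comm (T₂.σ T₂.ε), h.ε₂, neg_tmul]))).1
  simpa using mul_mem c2 this

theorem cen_plane (e : TSP C₂ w y) (ht : t ∈ X) (ht' : t ∈ cen (tl U (span F {w, y}))) :
    t ∈ R.map (rH F U W) := by
  obtain ⟨-, r, -, -, a1, a2⟩ := e.exists_dual h.nd₂
  have hw := C₂.B_self_of_zero e.hv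
  have h1 : ∀ x, cB U C₂ w x = 0 → cB U C₂ y x = 0 → t x = x := fun x hx hx' =>
    h.nd.cen_fix (h.le ht) ht' (h.mem_perp_plane.2 ⟨hx, hx'⟩)
  have h0 : ∀ u, t (u ⊗ₜ w) = u ⊗ₜ w := fun u => h1 _ (by simp [hw]) (by simp [e.symm.hB])
  obtain ⟨z, hz⟩ := h.coef hQ e.hv e.ne ht h0 (v := T₂.ε • r) (by simp [a1])
  have h2 : ∀ u, ∃ s, t (u ⊗ₜ r) = u ⊗ₜ r + s ⊗ₜ w + C₂.B z r • u ⊗ₜ y := fun u => by
    obtain ⟨s, s', hs⟩ := mem_tl_pair.1 (ht' (u ⊗ₜ r))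
    have := hz (u ⊗ₜ r) (by simp [a1])
    rw [hs] at this
    simp [C₂.symm y r, C₂.B_swap_zero a1, a2, T₂.σσ, mul_comm (T₂.σ T₂.ε), h.ε₂] at this
    exact ⟨s, by rw [smul_tmul', ← this, add_assoc, ← hs, add_sub_cancel]⟩
  obtain ⟨k, b0, b1, -, b2⟩ := h.tv_of ht e.hc a2 a1 hw e.hB h2
  have := h.q_point hQ e.hv e.ne (mul_mem (inv_mem b0) ht) (fun u => k.injective (by
    rw [LinearEquiv.mul_apply, apply_inv_apply, h0, b2]; simp [e.symm.hB])) fun x hx => by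
      obtain ⟨s, hs⟩ := h2 (cB U C₂ y x)
      have := h1 (x - cB U C₂ y x ⊗ₜ r) (by simp [a1, hx]) (by simp [a2])
      rw [map_sub, hs, sub_eq_iff_eq_add] at this
      refine mem_tl_singleton.2 ⟨s, sub_eq_iff_eq_add'.2 (k.injective ?_)⟩
      rw [LinearEquiv.mul_apply, apply_inv_apply, this, b2, smul_tmul']
      simp [e.symm.hB]; abel
  simpa using mul_mem b1 this

theorem plane_of_point (hg : g ∈ X) (e : TSP C₂ w y)
    (e₁ : ∀ u, g (u ⊗ₜ w) ∈ tl U (span F {w₁})) :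
    ∃ y₁, ∀ x ∈ tl U (span F {w, y}), g x ∈ tl U (span F {w₁, y₁}) := by
  have a0 := h.ne_of_point e.ne e₁
  have a1 := h.inv_point e.ne e₁
  have a2 := h.sing_of_point (inv_mem hg) e.hv a1
  have a3 : ∀ x, cB U C₂ w₁ x = 0 → cB U C₂ w (g⁻¹ x) = 0 := fun x hx =>
    h.nd₁.eq_zero' fun u => by
      rw [← h.B_tmul, ← CForm.isom_B (h.le hg), apply_inv_apply]
      exact C.mem_perp.1 (h.mem_perp_point.2 hx) _ (e₁ u)
  obtain ⟨k, c1, -, a, c3⟩ := h.rh e.hv e.ne e.hB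
  have c4 := mul_mem (mul_mem hg c1) (inv_mem hg)
  have c5 : ∀ x, cB U C₂ w₁ x = 0 →
      (g * k * g⁻¹) x - x = g ((-T₂.σ T₂.ε • cB U C₂ y (g⁻¹ x)) ⊗ₜ w) := fun x hx => by
    rw [conj_sub, c3, a3 x hx]; simp [neg_tmul]
  obtain ⟨Φ, b1, b2⟩ := h.exists_qw c4 a0 fun x hx => c5 x hx ▸ e₁ _
  obtain ⟨y₁, -, b4⟩ := h.qs_rep hQ a2 a0 ⟨_, c4, b2⟩ fun u => b1 _ (by
    obtain ⟨s, hs⟩ := mem_tl_singleton.1 (a1 u)
    rw [← sub_eq_zero, c5 _ (by simp [C₂.B_self_of_zero a2]), hs]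
    simp [e.symm.hB])
  refine ⟨y₁, fun x hx => ?_⟩
  rw [← h.nd.perp_perp (tl U (span F {w₁, y₁}))]
  refine C.mem_perp.2 fun v hv => ?_
  obtain ⟨d1, d2⟩ := h.mem_perp_plane.1 hv
  have d3 := c5 v d1
  rw [b2 v d1, b4 v d1, d2, zero_tmul, add_zero, sub_self, eq_comm,
    EmbeddingLike.map_eq_zero_iff] at d3
  rw [CForm.isom_B_right (h.le hg)]
  refine C.B_swap_zero (C.mem_perp.1 (h.mem_perp_plane.2 ⟨a3 v d1, ?_⟩) x hx)
  by_contra hc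
  exact tmul_ne_zero (smul_ne_zero (neg_ne_zero.2 h.η_ne) hc) e.ne d3

omit hQ in
theorem exists_tsp_of_plane (hg : g ∈ X) (e : TSP C₂ w y) (hY : finrank F Y ≤ 2)
    (e₁ : ∀ x ∈ tl U (span F {w, y}), g x ∈ tl U Y) : ∃ w₁ y₁, TSP C₂ w₁ y₁ ∧
      Y = span F {w₁, y₁} ∧ ∀ x ∈ tl U Y, g⁻¹ x ∈ tl U (span F {w, y}) := by
  have h1 : ∀ x ∈ tl U Y, g⁻¹ x ∈ tl U (span F {w, y}) := fun x =>
    inv_mem_of_finrank e₁ (by
      rw [finrank_tl, finrank_tl, e.finrank_eq]; exact Nat.mul_le_mul_left _ hY)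
  have h2 := finrank_mono (show (tl U (span F {w, y})).map (g : _ →ₗ[F] _) ≤ tl U Y by
    rintro _ ⟨x, hx, rfl⟩; exact e₁ x hx)
  rw [finrank_map_equiv, finrank_tl, finrank_tl, e.finrank_eq] at h2
  obtain ⟨a, b, a1, a2, rfl⟩ := exists_pair_of_finrank (le_antisymm hY
    (Nat.le_of_mul_le_mul_left h2 h.pos))
  have h3 : ∀ p ∈ span F {a, b}, ∀ q ∈ span F {a, b}, C₂.B p q = 0 := fun p hp q hq =>
    h.B_eq_zero (h.ts_tl fun x hx => C₂.mem_perp.2 fun l hl => e.ts.2 l hl x hx)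
      (h.le (inv_mem hg)) (fun u => h1 _ (tmul_mem_tl u hp)) fun u => h1 _ (tmul_mem_tl u hq)
  have a3 := mem_pair_left (F := F) a b
  have a4 := mem_pair_right (F := F) a b
  exact ⟨a, b, ⟨h.sing _ (h3 a a3 a a3), h.sing _ (h3 b a4 b a4), h3 a a3 b a4, a1, a2⟩, rfl, h1⟩

variable (hS : 5 ≤ finrank F W ∨ ∃ a : F, a ≠ 0 ∧ a * T₂.ε + T₂.σ a = 0)
include hS

theorem point_of_plane (hg : g ∈ X) (e : TSP C₂ w y) (hY : finrank F Y ≤ 2)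
    (e₁ : ∀ x ∈ tl U (span F {w, y}), g x ∈ tl U Y) :
    ∃ y₁, ∀ u, g (u ⊗ₜ y) ∈ tl U (span F {y₁}) := by
  obtain ⟨w₁, y₁, e₂, rfl, e₃⟩ := h.exists_tsp_of_plane hg e hY e₁
  suffices ∃ y', y' ≠ 0 ∧ ∀ u, g⁻¹ (u ⊗ₜ y') ∈ tl U (span F {y}) by
    obtain ⟨y', a1, a2⟩ := this
    exact ⟨y', by simpa using h.inv_point a1 a2⟩
  obtain ⟨u₀, hu₀⟩ := h.ex
  have hy := fun u : U => tmul_mem_tl u (mem_span_singleton_self (R := F) y)
  rcases hS with hd | ⟨a, a1, a2⟩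
  · obtain ⟨z, z', a1, a2, a3, a4, a5, -⟩ := h.exists_mid hd e 1
    obtain ⟨k, c1, -, a, c3⟩ := h.rh e.hc e.symm.ne a2
    have c4 := mul_mem (mul_mem hg c1) (inv_mem hg)
    have c5 : ∀ x ∈ C.perp (tl U (span F {w₁, y₁})),
        (g * k * g⁻¹) x - x = g ((-T₂.σ T₂.ε • cB U C₂ z (g⁻¹ x)) ⊗ₜ y) := fun x hx => by
      have : g⁻¹ x ∈ C.perp (tl U (span F {w, y})) := C.mem_perp.2 fun l hl => by
        rw [← CForm.isom_B (h.le hg), apply_inv_apply]; exact C.mem_perp.1 hx _ (e₁ l hl)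
      rw [conj_sub, c3, (h.mem_perp_plane.1 this).2]; simp [neg_tmul]
    have c6 : ∀ p ∈ span F {w₁, y₁}, ∀ u, (g * k * g⁻¹) (u ⊗ₜ p) = u ⊗ₜ p := fun p hp u => by
      rw [← sub_eq_zero, c5 _ (h.ts_tl (fun x hx => C₂.mem_perp.2 fun l hl => e₂.ts.2 l hl x hx)
        (tmul_mem_tl u hp)), cB_of_mem (e₃ _ (tmul_mem_tl u hp)) fun l hl => C₂.B_swap_zero
          (C₂.mem_perp.1 (C₂.mem_perp_pair.2 ⟨a1, a2⟩) l hl)]
      simp
    obtain ⟨r', r, b1, b2, b3, b4⟩ := e₂.exists_dual h.nd₂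
    obtain ⟨s, hs⟩ := h.coef hQ e₂.hv e₂.ne c4 (c6 _ (mem_pair_left _ _)) (v := T₂.ε • r)
      (by simp [b3])
    obtain ⟨s', hs'⟩ := h.coef hQ e₂.hc e₂.symm.ne c4 (c6 _ (mem_pair_right _ _)) (v := T₂.ε • r')
      (by simp [b2])
    have c7 : ∀ u, ∀ p ∈ C₂.perp (span F {w₁, y₁}), (g * k * g⁻¹) (u ⊗ₜ p) - u ⊗ₜ p =
        u ⊗ₜ (C₂.B s' p • w₁ + C₂.B s p • y₁) := fun u p hp => by
      obtain ⟨d1, d2⟩ := C₂.mem_perp_pair.1 hp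
      have d3 := hs (u ⊗ₜ p) (by simp [d1])
      have d4 := hs' (u ⊗ₜ p) (by simp [d2])
      obtain ⟨v, v', d5⟩ := mem_tl_pair.1 (show (g * k * g⁻¹) (u ⊗ₜ p) - u ⊗ₜ p ∈ _ by
        rw [c5 _ (h.tmul_mem_perp u hp)]; exact e₁ _ (tmul_mem_tl _ (mem_pair_right w y)))
      rw [d5] at d3 d4 ⊢
      simp [C₂.symm y₁ r, C₂.symm w₁ r', C₂.B_swap_zero b2, C₂.B_swap_zero b3, b1, b4,
        mul_comm (T₂.σ T₂.ε), h.ε₂] at d3 d4
      simp [d3, d4, tmul_add, smul_tmul]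
    by_contra hc
    push Not at hc
    have c8 : g (u₀ ⊗ₜ z') ∈ C.perp (tl U (span F {w₁, y₁})) := C.mem_perp.2 fun l hl => by
      rw [CForm.isom_B_right (h.le hg)]
      exact C.mem_perp.1 (h.mem_perp_plane.2 (by simp [a3, a4])) _ (e₃ l hl)
    have c9 := tl_ext (f := (g * k * g⁻¹).toLinearMap - 1) (g := 0) (fun u p hp => by
      by_contra hp'
      obtain ⟨v, hv⟩ := hc (C₂.B s' p • w₁ + C₂.B s p • y₁) fun e' => hp' (by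
        simpa [e'] using c7 u p hp)
      rw [← c7 v p hp, c5 _ (h.tmul_mem_perp v hp), inv_apply_apply] at hv
      exact hv (hy _)) (by rwa [h.perp_tl] at c8)
    have := c5 _ c8
    rw [inv_apply_apply, show (g * k * g⁻¹) _ - g (u₀ ⊗ₜ z') = 0 from c9, eq_comm,
      EmbeddingLike.map_eq_zero_iff] at this
    exact tmul_ne_zero (smul_ne_zero (neg_ne_zero.2 h.η_ne) (by simpa [a5] using hu₀))
      e.symm.ne this
  · obtain ⟨k, c1, -, c3⟩ := h.of_rq (h.tv y a e.hc a2)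
    have c5 : ∀ x, (g * k * g⁻¹) x - x = g ((-a • cB U C₂ y (g⁻¹ x)) ⊗ₜ y) := fun x => by
      rw [conj_sub, c3]; simp [neg_tmul, cB_zero]
    obtain ⟨β, -, hβ⟩ := h.cen_plane hQ e₂ (mul_mem (mul_mem hg c1) (inv_mem hg)) fun x => by
      rw [c5]; exact e₁ _ (tmul_mem_tl _ (mem_pair_right w y))
    obtain ⟨r, hr⟩ : ∃ r, β r - r ≠ 0 := by
      by_contra hc
      push Not at hc
      obtain ⟨p, hp⟩ := h.nd₂.exists_eq e.symm.ne 1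
      have := c5 (g (u₀ ⊗ₜ p))
      rw [← hβ, (LinearEquiv.ext fun r => sub_eq_zero.1 (hc r) : β = 1), map_one,
        inv_apply_apply, LinearEquiv.coe_one, id, sub_self, eq_comm,
        EmbeddingLike.map_eq_zero_iff] at this
      exact tmul_ne_zero (smul_ne_zero (neg_ne_zero.2 a1) (by simpa [hp] using hu₀)) e.symm.ne this
    refine ⟨_, hr, fun u => ?_⟩
    rw [tmul_sub, ← rH_tmul, hβ, c5, inv_apply_apply]
    exact hy _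

theorem mem_of_point (hg : g ∈ X) (hw : C₂.N w = 0) (hw0 : w ≠ 0)
    (e₁ : ∀ u, g (u ⊗ₜ w) ∈ tl U (span F {w₁})) : g ∈ tenStab F U W := by
  obtain ⟨φ₀, h0⟩ := exists_dual_one (F := F) (h.ne_of_point hw0 e₁)
  let A : End F U := cR U φ₀ ∘ₗ g.toLinearMap ∘ₗ (TensorProduct.mk F U W).flip w
  have hA : ∀ u, g (u ⊗ₜ w) = A u ⊗ₜ w₁ := fun u => by
    obtain ⟨s, hs⟩ := mem_tl_singleton.1 (e₁ u)
    simp [A, hs, h0]
  let α : U ≃ₗ[F] U := LinearEquiv.ofInjectiveEndo A fun u u' e =>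
    tmul_left_inj hw0 (g.injective (by rw [hA, hA, e]))
  let S : Submodule F W :=
    { carrier := {y | ∃ y', ∀ u, g (u ⊗ₜ y) = α u ⊗ₜ y'}
      zero_mem' := ⟨0, by simp⟩
      add_mem' := fun ⟨a, a1⟩ ⟨b, b1⟩ => ⟨a + b, by simp [tmul_add, a1, b1]⟩
      smul_mem' := fun c _ ⟨a, a1⟩ => ⟨c • a, by simp [a1]⟩ }
  obtain ⟨u₀, hu₀⟩ := h.ex
  have h1 : ∀ w y, C₂.N w = 0 → w ≠ 0 → C₂.N y = 0 → C₂.B w y = 0 → w ∈ S → y ∈ S := by
    intro w y a1 a2 a3 a4 ⟨w', a5⟩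
    by_cases a6 : y ∈ span F {w}
    · exact (span_singleton_le_iff_mem _ S).2 ⟨w', a5⟩ a6
    have e : TSP C₂ w y := ⟨a1, a3, a4, a2, a6⟩
    have a7 : ∀ u, g (u ⊗ₜ w) ∈ tl U (span F {w'}) := fun u =>
      a5 u ▸ tmul_mem_tl _ (mem_span_singleton_self _)
    have a8 : ∀ y, TSP C₂ w y → ∃ y₁, ∀ u, ∃ v, g (u ⊗ₜ y) = v ⊗ₜ y₁ := fun y e =>
      let ⟨_, b⟩ := h.plane_of_point hQ hg e a7
      let ⟨y₁, c⟩ := h.point_of_plane hQ hS hg e (finrank_span_pair_le _ _) b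
      ⟨y₁, fun u => mem_tl_singleton.1 (c u)⟩
    obtain ⟨y₁, b1⟩ := a8 y e
    obtain ⟨y₂, b2⟩ := a8 _ e.add
    have b3 : y₁ ∉ span F {w'} := fun b => by
      obtain ⟨v, b4⟩ := b1 u₀
      have := tl_le (Z := (tl U (span F {w})).comap (g⁻¹ : _ ≃ₗ[F] _).toLinearMap) (fun u p hp => by
        obtain ⟨c, rfl⟩ := mem_span_singleton.1 hp
        rw [tmul_smul]; exact smul_mem _ _ (h.inv_point a2 a7 u)) (tmul_mem_tl v b)
      rw [← b4, mem_comap, LinearEquiv.coe_coe, inv_apply_apply] at this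
      exact a6 (mem_of_tmul_mem_tl hu₀ this)
    have b4 := h.ne_of_point a2 a7
    obtain ⟨φ, c1, c2⟩ := exists_dual_eq_one b3
    obtain ⟨φ', c3, c4⟩ := exists_dual_eq_one (not_mem_span_symm b3 b4)
    have c5 : ∀ u v v', g (u ⊗ₜ y) = v ⊗ₜ y₁ → g (u ⊗ₜ (w + y)) = v' ⊗ₜ y₂ →
        v = φ y₂ • v' ∧ α u = φ' y₂ • v' := fun u v v' d1 d2 => by
      rw [tmul_add, map_add, a5, d1] at d2
      exact ⟨by simpa [c1 w' (mem_span_singleton_self _), c2] using congrArg (cR U φ) d2,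
        by simpa [c3 y₁ (mem_span_singleton_self _), c4] using congrArg (cR U φ') d2⟩
    have c6 : φ' y₂ ≠ 0 := fun c => by
      obtain ⟨v, d1⟩ := b1 u₀
      obtain ⟨v', d2⟩ := b2 u₀
      simpa [c, hu₀] using (c5 u₀ v v' d1 d2).2
    refine ⟨(φ y₂ / φ' y₂) • y₁, fun u => ?_⟩
    obtain ⟨v, d1⟩ := b1 u
    obtain ⟨v', d2⟩ := b2 u
    obtain ⟨d3, d4⟩ := c5 u v v' d1 d2
    rw [d1, d3, d4, ← smul_tmul, smul_smul, div_mul_cancel₀ _ c6]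
  have h2 : ∀ y, y ∈ S := h.spec.iso3.mem_of_iso h.nd₂ (by have := h.dim; omega) S.toAddSubgroup
    fun y hy => by
      obtain ⟨z, a1, a2, a3, a4⟩ := h.conn w y
      exact h1 z y a2 a1 hy (C₂.B_swap_zero a4) (h1 w z hw hw0 a2 a3 ⟨w₁, hA⟩)
  obtain ⟨ψ, hψ⟩ := exists_dual_one (F := F) (v := α u₀) (by simpa using hu₀)
  let B : End F W := cL W ψ ∘ₗ g.toLinearMap ∘ₗ TensorProduct.mk F U W u₀
  have hB : ∀ u y, g (u ⊗ₜ y) = α u ⊗ₜ B y := fun u y => by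
    obtain ⟨y', a⟩ := h2 y
    simp [B, a, hψ]
  exact mem_tenStab.2 ⟨α, LinearEquiv.ofInjectiveEndo B fun y y' e =>
    tmul_right_inj hu₀ (g.injective (by rw [hB, hB, e])), hB⟩

theorem mem_of_plane (hg : g ∈ X) (e : TSP C₂ w y) (hY : finrank F Y ≤ 2)
    (e₁ : ∀ x ∈ tl U (span F {w, y}), g x ∈ tl U Y) : g ∈ tenStab F U W :=
  let ⟨_, a⟩ := h.point_of_plane hQ hS hg e hY e₁
  h.mem_of_point hQ hS hg e.hc e.symm.ne a

end TX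

end H12
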