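import Cfsg.Agent.H12.Ten3

/-!
# Tensor products of forms: second factor with transvections
-/

set_option autoImplicit false
set_option maxHeartbeats 400000

namespace H12

open Module H11 Submodule TensorProduct H13.KL

variable {F : Type*} [Field F] {U W : Type*} [AddCommGroup U] [Module F U] [AddCommGroup W]
  [Module F W] {T T₁ T₂ : FormType F} {C : CForm T (U ⊗[F] W)} {C₁ : CForm T₁ U}
  {C₂ : CForm T₂ W} {X G : Subgroup ((U ⊗[F] W) ≃ₗ[F] (U ⊗[F] W))} {R : Subgroup (W ≃ₗ[F] W)}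
  {x : U ⊗[F] W} {u : U} {w y z w₁ : W} {Y : Submodule F W}
  {g t k s : (U ⊗[F] W) ≃ₗ[F] (U ⊗[F] W)} {α : U ≃ₗ[F] U} {β : W ≃ₗ[F] W}

/-- `g` acts trivially on the first factor. -/
def IsR (g : (U ⊗[F] W) ≃ₗ[F] (U ⊗[F] W)) : Prop := ∃ B : End F W, ∀ u y, g (u ⊗ₜ y) = u ⊗ₜ B y

theorem isR_of_scalar (h : ∃ c : F, ∀ u, α u = c • u) : IsR (TensorProduct.congr α β) :=
  let ⟨c, hc⟩ := h; ⟨c • β.toLinearMap, fun u y => by simp [hc, smul_tmul]⟩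

theorem isR_of_perp (hg : g ∈ tenStab F U W) (hz : z ∉ Y)
    (e : ∀ u, g (u ⊗ₜ z) - u ⊗ₜ z ∈ tl U Y) : IsR g := by
  obtain ⟨α, β, rfl⟩ := hg
  obtain ⟨φ, h1, h2⟩ := exists_dual_eq_one hz
  refine isR_of_scalar ⟨(φ (β z))⁻¹, fun u => ?_⟩
  have h3 : φ (β z) • α u = u := by
    simpa [h2, sub_eq_zero] using cR_eq_zero_of_mem_tl (e u) h1
  by_cases h4 : φ (β z) = 0
  · rw [h4, zero_smul] at h3; simp [← h3]
  · rw [eq_inv_smul_iff₀ h4, h3]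

theorem IsR.exists_not_mem (h : IsR g) (hL : g ∉ cen (tl U Y)) :
    ∃ r ∉ Y, ∀ u, ∃ x, g x - x = u ⊗ₜ r := by
  obtain ⟨B, hB⟩ := h
  by_contra hc
  push Not at hc
  refine hL fun x => ?_
  induction x with
  | zero => simp
  | tmul u y =>
    rw [hB, ← tmul_sub]
    refine tmul_mem_tl u (by_contra fun e => ?_)
    obtain ⟨v, hv⟩ := hc _ e
    exact hv (v ⊗ₜ y) (by rw [hB, tmul_sub])
  | add x y a b => rw [map_add, add_sub_add_comm]; exact add_mem a b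

theorem IsR.exists_ne [FiniteDimensional F U] (h : IsR g) (h1 : g ≠ 1) :
    ∃ r ≠ 0, ∀ u, ∃ x, g x - x = u ⊗ₜ r := by
  simpa using h.exists_not_mem (Y := ⊥) fun e => h1 (LinearEquiv.ext fun x =>
    sub_eq_zero.1 (eq_zero_of_cL fun ψ => mem_tl.1 (e x) ψ))

theorem conj_sub' {V : Type*} [AddCommGroup V] [Module F V] (k s : V ≃ₗ[F] V) (x : V) :
    k ((k⁻¹ * s * k) x - x) = s (k x) - k x := by
  rw [map_sub, LinearEquiv.mul_apply, LinearEquiv.mul_apply, apply_inv_apply]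

theorem MaxK.of_fix {V : Type*} [AddCommGroup V] [Module F V] [FiniteDimensional F V]
    {X H : Subgroup (V ≃ₗ[F] V)} {L : Submodule F V} {k t : V ≃ₗ[F] V} (h : MaxK X H L k)
    (ht : t ∈ X) (e : ∀ l ∈ L, t l = l) {x : V} (hx : x ∈ L.map (k : V →ₗ[F] V)) (hx' : x ∉ L)
    (e' : t x = x) : k⁻¹ * t * k ∈ H := by
  refine h.mem_of_lt ht (Z := (L ⊓ L.map (k : V →ₗ[F] V)) ⊔ span F {x})
    (sup_le inf_le_right ((span_singleton_le_iff_mem _ _).2 hx)) (fun z hz => ?_)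
    (finrank_lt_finrank_of_lt (SetLike.lt_iff_le_and_exists.2 ⟨le_sup_left, x,
      mem_sup_right (mem_span_singleton_self x), fun e => hx' e.1⟩))
  obtain ⟨c, hc⟩ := mem_sup_span_singleton.1 hz
  have := e _ hc.1
  rw [map_sub, map_smul, e', sub_left_inj] at this
  rw [this, ← sub_add_cancel z (c • x)]
  exact add_mem hc.2 (smul_mem _ _ hx)

theorem TI.exists_not_mem {V : Type*} [AddCommGroup V] [Module F V] [FiniteDimensional F V]
    {C : CForm T V} {X H : Subgroup (V ≃ₗ[F] V)} {L : Submodule F V} {k : V ≃ₗ[F] V}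
    (h : TI C X H L) (hk : k ∈ X) (hk' : k ∉ H) : ∃ x ∈ L.map (k : V →ₗ[F] V), x ∉ L := by
  by_contra hc
  push Not at hc
  exact hk' (h.stab hk (mem_glStab_of_mapsTo fun l hl => hc _ ⟨l, hl, rfl⟩))

variable (C) in
/-- Quadratic elements of small rank in the stabiliser are scalar on the first factor. -/
def ScS : Prop := ∀ (α : U ≃ₗ[F] U) (β : W ≃ₗ[F] W) (Z : Submodule F (U ⊗[F] W)),
  TensorProduct.congr α β ∈ C.isom → finrank F Z ≤ finrank F U → TensorProduct.congr α β ∈ cen Z →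
  (∀ x, TensorProduct.congr α β (TensorProduct.congr α β x - x) =
    TensorProduct.congr α β x - x) → ∃ c : F, ∀ u, α u = c • u

variable [FiniteDimensional F U] [FiniteDimensional F W]

theorem scS_of_lt [Finite F] (hd : finrank F U < finrank F W) : ScS C :=
  fun _ _ _ _ hZ h _ => scalar_of_small hd hZ h

namespace TX

variable (h : TX C C₁ C₂ X R)
include h

omit [FiniteDimensional F W] in
theorem exists_tv (hw : C₂.N w = 0) {a : F} (e : a * T₂.ε + T₂.σ a = 0) :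
    ∃ t ∈ X, t ∈ cen (tl U (span F {w})) ∧ ∀ x, t x = x + (-a • cB U C₂ w x) ⊗ₜ w := by
  obtain ⟨t, a1, -, a2⟩ := h.of_rq (h.tv w a hw e)
  have : ∀ x, t x = x + (-a • cB U C₂ w x) ⊗ₜ w := fun x => by
    simp [a2, cB_zero, neg_tmul, sub_eq_add_neg]
  exact ⟨t, a1, fun x => mem_tl_singleton.2 ⟨_, by rw [this, add_sub_cancel_left]⟩, this⟩

omit [FiniteDimensional F W] in
theorem tv_inj (hw0 : w ≠ 0) {a b : F} (e : ∀ x, t x = x + (a • cB U C₂ w x) ⊗ₜ w)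
    (e' : ∀ x, t x = x + (b • cB U C₂ w x) ⊗ₜ w) : a = b := by
  obtain ⟨u, hu⟩ := h.ex
  obtain ⟨p, hp⟩ := h.nd₂.exists_eq hw0 1
  have := (e (u ⊗ₜ p)).symm.trans (e' _)
  rw [add_right_inj, cB_tmul, hp, one_smul] at this
  exact smul_left_injective F hu (tmul_left_inj hw0 this)

variable (hQ : QS C₂ X) (hsc : ScS C) {a₀ : F} (ha₀ : a₀ ≠ 0) (e₀ : a₀ * T₂.ε + T₂.σ a₀ = 0)
include hQ hsc ha₀ e₀

theorem tiS (hw : C₂.N w = 0) (hw0 : w ≠ 0) : TI C X (tenStab F U W) (tl U (span F {w})) where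
  nd := h.nd
  le := h.le
  ts := h.ts_tl (h.point_ts hw)
  hZ s hs hs' h1 l hl := by
    obtain ⟨-, c, -, e⟩ := h.cen_point hQ hw hw0 hs hs'
    obtain ⟨u, rfl⟩ := mem_tl_singleton.1 hl
    obtain ⟨p, hp⟩ := h.nd₂.exists_eq hw0 1
    have : c ≠ 0 := fun hc => h1 (LinearEquiv.ext fun x => by simp [e, hc])
    exact ⟨(c⁻¹ • u) ⊗ₜ p, by
      rw [e, add_sub_cancel_left, cB_tmul, hp, one_smul, smul_inv_smul₀ this]⟩
  hZH s hs hs' := let ⟨⟨_, _, e⟩, _⟩ := h.cen_point hQ hw hw0 hs hs'; e ▸ rH_mem _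
  hR k hk s hs hs' h1 := fun ⟨α, β, e⟩ => by
    have a1 := h.le (mul_mem (mul_mem (inv_mem hk) hs) hk)
    have a2 := conj_mem_cen (k := k⁻¹) hs'
    have a3 := conj_sq (k := k) fun x =>
      h.nd.cen_fix (h.le hs) hs' (h.ts_tl (h.point_ts hw) (hs' x))
    have a4 := conj_ne_one (k := k) h1
    rw [inv_inv] at a2
    rw [e] at a1 a2 a3 a4
    obtain ⟨r, b1, b2⟩ := (isR_of_scalar (hsc α β _ a1 (by
      rw [finrank_map_equiv, finrank_tl, finrank_span_singleton hw0, mul_one]) a2 a3)).exists_ne a4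
    have b3 : ∀ u, k (u ⊗ₜ r) ∈ tl U (span F {w}) := fun u => by
      obtain ⟨x, hx⟩ := b2 u
      rw [← hx, ← e, conj_sub']
      exact hs' _
    exact h.mem_of_point hQ (.inr ⟨a₀, ha₀, e₀⟩) hk (h.sing_of_point hk hw b3) b1 b3
  ex :=
    let ⟨t, a1, a2, a3⟩ := h.exists_tv hw e₀
    ⟨t, a1, a2, fun e => ha₀ (neg_eq_zero.1 (h.tv_inj hw0 a3 (b := 0) (by simp [e])))⟩

theorem of_fix (hk : MaxK X (tenStab F U W) (tl U (span F {w})) k)
    (hx : x ∈ (tl U (span F {w})).map (k : _ →ₗ[F] _)) (hx' : x ∉ tl U (span F {w}))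
    (hy : C₂.N y = 0) (hy0 : y ≠ 0) (e : C₂.B y w = 0) (e' : cB U C₂ y x = 0) : False := by
  obtain ⟨t, a1, a2, a3⟩ := h.exists_tv hy e₀
  refine hk.nm ((h.tiS hQ hsc ha₀ e₀ hy hy0).hR k hk.mem t a1 a2
    (fun e => ha₀ (neg_eq_zero.1 (h.tv_inj hy0 a3 (b := 0) (by simp [e]))))
    (hk.of_fix a1 (fun l hl => ?_) hx hx' (by simp [a3, e'])))
  obtain ⟨u, rfl⟩ := mem_tl_singleton.1 hl
  simp [a3, e]

theorem le_of_big (hb : ∀ Y : Submodule F W, finrank F Y ≤ finrank F U + 1 →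
    ∃ y ∈ C₂.perp Y, y ≠ 0 ∧ C₂.N y = 0) : X ≤ tenStab F U W := by
  by_contra hc
  obtain ⟨w, a1, a2, -⟩ := h.conn 0 0
  obtain ⟨k, hk⟩ := exists_maxK (L := tl U (span F {w})) hc
  obtain ⟨x, b1, b2⟩ := (h.tiS hQ hsc ha₀ e₀ a2 a1).exists_not_mem hk.mem hk.nm
  obtain ⟨y, c1, c2, c3⟩ := hb (LinearMap.range (LinearMap.applyₗ x ∘ₗ cL W) ⊔ span F {w})
    ((finrank_sup_span_le _ _).trans (by
      simpa using LinearMap.finrank_range_le (LinearMap.applyₗ x ∘ₗ cL W (F := F) (U := U))))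
  have c4 := C₂.mem_perp'.1 c1
  exact h.of_fix hQ hsc ha₀ e₀ hk b1 b2 c3 c2 (c4 _ (mem_sup_right (mem_span_singleton_self w)))
    (cB_of_mem (mem_tl.2 fun ψ => mem_sup_left (LinearMap.mem_range.2 ⟨ψ, rfl⟩)) c4)

theorem of_fr (hw0 : w ≠ 0) (hk : MaxK X (tenStab F U W) (tl U (span F {w})) k)
    (hg : g ∈ tenStab F U W)
    (h1 : g ∈ cen (tl U (span F {w}) ⊔ (tl U (span F {w})).map (k : _ →ₗ[F] _)))
    (h2 : g ∉ cen (tl U (span F {w})))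
    (h3 : ∀ x ∈ C.perp (tl U (span F {w})), g x - x ∈ tl U (span F {w})) : False := by
  obtain ⟨z, a1, a2⟩ := exists_mem_not_mem_of_finrank_lt (W := span F {w})
    (W' := C₂.perp (span F {w})) (by
      have := h.nd₂.finrank_add_finrank_perp (span F {w})
      have := h.dim
      rw [finrank_span_singleton hw0] at *; omega)
  obtain ⟨r, b1, b2⟩ := (isR_of_perp hg a2 fun u => h3 _ (h.tmul_mem_perp u a1)).exists_not_mem h2
  obtain ⟨u, hu⟩ := h.ex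
  obtain ⟨x, hx⟩ := b2 u
  obtain ⟨l, hl, m, hm, e⟩ := mem_sup.1 (h1 x)
  obtain ⟨y, c1, c2, c3, c4⟩ := h.conn w r
  obtain ⟨v, rfl⟩ := mem_tl_singleton.1 hl
  refine h.of_fix hQ hsc ha₀ e₀ hk hm (fun e' => b1 (mem_of_tmul_mem_tl hu ?_)) c2 c1
    (C₂.B_swap_zero c3) ?_
  · rw [← hx, ← e]; exact add_mem hl e'
  · rw [eq_sub_of_add_eq' e, hx]; simp [C₂.B_swap_zero c3, C₂.B_swap_zero c4]

theorem le_of_two [Finite F] {a₁ : F} (ha₁ : a₁ ≠ 0) (e₁ : a₁ * T₂.ε + T₂.σ a₁ = 0)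
    (h01 : a₀ ≠ a₁) : X ≤ tenStab F U W := by
  by_contra hc
  have : Finite (U ⊗[F] W) := Module.finite_of_finite F
  obtain ⟨w, a1, a2, -⟩ := h.conn 0 0
  obtain ⟨k, hk⟩ := exists_maxK (L := tl U (span F {w})) hc
  obtain ⟨s, b1, b2, b3⟩ := h.exists_tv a2 e₀
  obtain ⟨t, c1, c2, c3⟩ := h.exists_tv a2 e₁
  obtain ⟨g, -, d1, -, d2, d3, d4⟩ := (h.tiS hQ hsc ha₀ e₀ a2 a1).fr' hk b1 b2 c1 c2
    (fun e => ha₀ (neg_eq_zero.1 (h.tv_inj a1 b3 (b := 0) (by simp [e]))))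
    (fun e => ha₁ (neg_eq_zero.1 (h.tv_inj a1 c3 (b := 0) (by simp [e]))))
    fun e => h01 (neg_injective (h.tv_inj a1 b3 (e ▸ c3)))
  exact h.of_fr hQ hsc ha₀ e₀ a1 hk d1 d2 d3 d4

end TX

end H12
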