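import Cfsg.Agent.H12.Ten6

/-!
# Tensor products of forms: orthogonal second factor
-/

set_option autoImplicit false
set_option maxHeartbeats 400000

namespace H12

open Module H11 Submodule TensorProduct H13.KL

variable {F : Type*} [Field F] {U W : Type*} [AddCommGroup U] [Module F U] [AddCommGroup W]
  [Module F W] {T T₁ T₂ : FormType F} {C : CForm T (U ⊗[F] W)} {C₁ : CForm T₁ U}
  {C₂ : CForm T₂ W} {X G : Subgroup ((U ⊗[F] W) ≃ₗ[F] (U ⊗[F] W))} {R : Subgroup (W ≃ₗ[F] W)}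
  {x : U ⊗[F] W} {u : U} {w y z w₁ : W} {Y : Submodule F W}
  {g t k s : (U ⊗[F] W) ≃ₗ[F] (U ⊗[F] W)} {α : U ≃ₗ[F] U} {β : W ≃ₗ[F] W}

theorem quad_scalar (h2 : (2 : F) ≠ 0) (h : ∀ x, TensorProduct.congr α β
    (TensorProduct.congr α β x - x) = TensorProduct.congr α β x - x) :
    (∃ c : F, ∀ u, α u = c • u) ∨ ∃ c : F, ∀ w, β w = c • w := by
  refine or_iff_not_imp_right.2 fun hn => ?_
  obtain ⟨w, hw⟩ := not_forall.1 (mt (exists_scalar_of_eigen (A := β.toLinearMap)) hn)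
  obtain ⟨φ, a1, a2⟩ := exists_dual_eq_one hw
  obtain ⟨φ', a3⟩ := exists_dual_one (F := F) (v := w) (by rintro rfl; simp at hw)
  have key : ∀ (ψ : Dual F W) u, ψ (β w) • α (α u) + ψ (β⁻¹ w) • u = (2 * ψ w) • α u :=
    fun ψ u => by
      have := congrArg (cR U ψ) (h (u ⊗ₜ β⁻¹ w))
      simp only [map_sub, congr_tmul, apply_inv_apply, cR_tmul] at this
      linear_combination (norm := module) this
  refine ⟨(2 : F)⁻¹ * (φ' (β⁻¹ w) - φ' (β w) * φ (β⁻¹ w)), fun u => ?_⟩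
  have b1 := key φ u
  have b2 := key φ' u
  rw [a1 w (mem_span_singleton_self w), show φ (β w) = 1 from a2] at b1
  rw [a3] at b2
  rw [mul_smul, eq_inv_smul_iff₀ h2]
  linear_combination (norm := module) φ' (β w) • b1 - b2

theorem congr_mem_tl [FiniteDimensional F U] (hx : x ∈ tl U Y) :
    TensorProduct.congr α β x ∈ tl U (Y.map (β : W →ₗ[F] W)) :=
  tl_le (Z := (tl U (Y.map (β : W →ₗ[F] W))).comap (TensorProduct.congr α β).toLinearMap)
    (fun u _ hy => tmul_mem_tl (α u) (mem_map_of_mem hy)) hx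

theorem MaxK.inv {V : Type*} [AddCommGroup V] [Module F V] {X H : Subgroup (V ≃ₗ[F] V)}
    {L : Submodule F V} {k : V ≃ₗ[F] V} (h : MaxK X H L k) : MaxK X H L k⁻¹ :=
  ⟨inv_mem h.mem, mt inv_mem_iff.1 h.nm, fun k' a b => (h.max k' a b).trans_eq (by
    rw [← finrank_map_equiv _ k⁻¹, show (L ⊓ L.map (k : V →ₗ[F] V)).map ((k⁻¹ : V ≃ₗ[F] V) : V →ₗ[F] V) =
      L ⊓ L.map ((k⁻¹ : V ≃ₗ[F] V) : V →ₗ[F] V) from Submodule.ext fun x => by
        simp only [mem_map_iff, mem_inf, inv_inv, inv_apply_apply, and_comm]])⟩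

variable [FiniteDimensional F U] [FiniteDimensional F W]

theorem exists_rank_one {c : F} (hc : ∀ w, β w = c • w) {Z : Submodule F (U ⊗[F] W)}
    (hZ : finrank F Z < 2 * finrank F W) (h : TensorProduct.congr α β ∈ cen Z)
    (h1 : TensorProduct.congr α β ≠ 1) :
    ∃ u₀, c • α u₀ - u₀ ≠ 0 ∧ ∀ u, c • α u - u ∈ span F {c • α u₀ - u₀} := by
  have h2 : ∀ u w, TensorProduct.congr α β (u ⊗ₜ w) - u ⊗ₜ w = (c • α u - u) ⊗ₜ w := fun u w => by
    simp [hc, sub_tmul, smul_tmul]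
  obtain ⟨u₀, a1⟩ : ∃ u₀, c • α u₀ - u₀ ≠ 0 := by
    by_contra hn
    push Not at hn
    exact h1 (LinearEquiv.toLinearMap_injective (TensorProduct.ext' fun u w =>
      sub_eq_zero.1 (by simpa [hn] using h2 u w)))
  refine ⟨u₀, a1, fun u => by_contra fun a2 => ?_⟩
  obtain ⟨⟨y, y'⟩, b1, b2⟩ := exists_ker_ne_zero (LinearMap.codRestrict Z
    ((TensorProduct.mk F U W (c • α u₀ - u₀)).coprod (TensorProduct.mk F U W (c • α u - u)))
    fun p => add_mem (h2 u₀ p.1 ▸ h (u₀ ⊗ₜ p.1)) (h2 u p.2 ▸ h (u ⊗ₜ p.2)))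
    (by simpa [two_mul] using hZ)
  have b3 : (c • α u₀ - u₀) ⊗ₜ[F] y + (c • α u - u) ⊗ₜ y' = 0 := congrArg Subtype.val b2
  obtain ⟨ψ, c1, c2⟩ := exists_dual_eq_one a2
  have b4 : y' = 0 := by
    simpa only [map_add, cL_tmul, c1 _ (mem_span_singleton_self _), c2, zero_smul, one_smul,
      zero_add, map_zero] using congrArg (cL W ψ) b3
  rw [b4, tmul_zero, add_zero] at b3
  exact tmul_ne_zero a1 (fun e => b1 (by simp [e, b4])) b3

omit [FiniteDimensional F U] in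
theorem TF.scS (h : TF C C₁ C₂) (h2 : (2 : F) ≠ 0) (hσ : ∀ a, T₁.σ a = a)
    (hs : ∀ x y, C₁.B y x = C₁.B x y) (hd : finrank F U ≤ finrank F W) (hW : 0 < finrank F W) :
    ScS C := fun α β Z a1 a2 a3 a4 => by
  have : FiniteDimensional F U := Module.finite_of_finrank_pos h.pos
  obtain a5 | ⟨c, hc⟩ := quad_scalar h2 a4
  · exact a5
  obtain ⟨w, hw⟩ := finrank_pos_iff_exists_ne_zero.1 hW
  obtain ⟨w', hw'⟩ := h.nd₂.exists_eq hw 1
  have h3 : ∀ u w, TensorProduct.congr α β (u ⊗ₜ w) = (c • α u) ⊗ₜ w := fun u w => by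
    simp [hc, smul_tmul]
  by_cases h1 : TensorProduct.congr α β = 1
  · have : ∀ u, c • α u = u := fun u => tmul_left_inj hw (by rw [← h3, h1]; rfl)
    obtain ⟨u, hu⟩ := h.ex
    exact ⟨c⁻¹, fun v => by rw [eq_inv_smul_iff₀ fun e => hu (by rw [← this u, e, zero_smul]), this]⟩
  obtain ⟨u₀, b1, b2⟩ := exists_rank_one hc (by omega) a3 h1
  have b3 : ∀ u u', C₁.B (c • α u) (c • α u') = C₁.B u u' := fun u u' => by
    simpa only [h3, h.hB, hw', mul_one] using CForm.isom_B a1 (u ⊗ₜ w) (u' ⊗ₜ w')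
  generalize he : c • α u₀ - u₀ = e at *
  have b4 : c • α e = e := tmul_left_inj hw (by
    simpa only [h3, ← sub_tmul, he] using a4 (u₀ ⊗ₜ w))
  have b5 : C₁.B e e = 0 := by
    nth_rw 1 [← he]; rw [C₁.B_sub_left, ← b3 u₀, b4, sub_self]
  have b6 : ∀ (u : U) (d : F), c • α u = u + d • e → d * C₁.B e u = 0 := fun u d hd => by
    have := b3 u u
    rw [hd] at this
    simp [hσ, b5, hs e u] at this
    exact mul_left_cancel₀ h2 (by linear_combination this)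
  obtain ⟨p, hp⟩ := h.nd₁.exists_eq b1 1
  obtain ⟨d, hd⟩ := mem_span_singleton.1 (b2 p)
  have c1 := b6 u₀ 1 (by simp [← he])
  have c2 := b6 p d (by simp [hd])
  have c3 := b6 (u₀ + p) (1 + d) (by rw [add_smul, hd, one_smul, ← he, map_add, smul_add]; abel)
  rw [hp, mul_one] at c2
  rw [one_mul] at c1
  simp [c1, c2, hp] at c3

namespace TX

variable (h : TX C C₁ C₂ X R)
include h

theorem exists_E (e : TSP C₂ w y) : ∃ s ∈ X, s ∈ R.map (rH F U W) ∧ s ≠ 1 ∧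
    s ∈ cen (tl U (span F {w, y})) ∧
      ∀ x, s x = x + cB U C₂ w x ⊗ₜ y - (T₂.σ T₂.ε • cB U C₂ y x) ⊗ₜ w := by
  obtain ⟨s, a1, a2, a3⟩ := h.of_rq (h.rho w y e.hv e.hc e.hB)
  simp only [zero_smul, add_zero] at a3
  refine ⟨s, a1, a2, fun e' => ?_, fun x => ?_, a3⟩
  · obtain ⟨r, -, c1, c2, -⟩ := e.exists_dual h.nd₂
    obtain ⟨u, hu⟩ := h.ex
    exact tmul_ne_zero hu e.symm.ne (by simpa [e', c1, c2] using a3 (u ⊗ₜ r))
  · rw [a3, add_sub_assoc, add_sub_cancel_left]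
    exact sub_mem (tmul_mem_tl _ (mem_pair_right _ _)) (tmul_mem_tl _ (mem_pair_left _ _))

omit [FiniteDimensional F W] in
theorem ts_plane (e : TSP C₂ w y) : tl U (span F {w, y}) ≤ C.perp (tl U (span F {w, y})) :=
  h.ts_tl fun x hx => C₂.mem_perp.2 fun l hl => e.ts.2 l hl x hx

variable (hQ : QS C₂ X) (hn : ∀ a, a * T₂.ε + T₂.σ a = 0 → a = 0)
include hQ hn

theorem exists_tsp_of_isR (hg : g ∈ X) (hR : IsR g) (h1 : g ≠ 1) (hk : k ∈ X) (e : TSP C₂ w y)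
    (e' : ∀ x, k (g x - x) ∈ tl U (span F {w, y})) : ∃ r r', TSP C₂ r r' ∧
      (∀ u, ∃ x, g x - x = u ⊗ₜ r) ∧ ∀ u, ∃ x, g x - x = u ⊗ₜ r' := by
  have key : ∀ r r', (∀ u, ∃ x, g x - x = u ⊗ₜ r) → (∀ u, ∃ x, g x - x = u ⊗ₜ r') →
      C₂.B r r' = 0 := fun r r' a b => h.B_eq_zero (h.ts_plane e) (h.le hk)
    (fun u => let ⟨x, c⟩ := a u; c ▸ e' x) fun u => let ⟨x, c⟩ := b u; c ▸ e' x
  obtain ⟨r, a1, a2⟩ := hR.exists_ne h1
  have a3 := h.sing _ (key r r a2 a2)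
  obtain ⟨r', b1, b2⟩ := hR.exists_not_mem (Y := span F {r}) fun c => by
    obtain ⟨-, c, c1, c2⟩ := h.cen_point hQ a3 a1 hg c
    exact h1 (LinearEquiv.ext fun x => by simp [c2, neg_eq_zero.1 (hn _ c1)])
  exact ⟨r, r', ⟨a3, h.sing _ (key r' r' b2 b2), key r r' a2 b2, a1, b1⟩, a2, b2⟩

theorem plane_range (e : TSP C₂ w y) (hs : s ∈ X) (hs' : s ∈ cen (tl U (span F {w, y})))
    (h1 : s ≠ 1) (hx : x ∈ tl U (span F {w, y})) : ∃ x', s x' - x' = x := by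
  obtain ⟨β, -, hβ⟩ := h.cen_plane hQ e hs hs'
  obtain ⟨r, r', a1, a2, a3⟩ := h.exists_tsp_of_isR hQ hn hs ⟨β.toLinearMap, fun _ _ => hβ ▸ rfl⟩ h1
    (one_mem _) e hs'
  obtain ⟨u, hu⟩ := h.ex
  have : span F {r, r'} = span F {w, y} := eq_of_le_of_finrank_le (span_le.2 (by
    rintro _ (rfl | rfl)
    · obtain ⟨x, c⟩ := a2 u; exact mem_of_tmul_mem_tl hu (c ▸ hs' x)
    · obtain ⟨x, c⟩ := a3 u; exact mem_of_tmul_mem_tl hu (c ▸ hs' x)))
    (by rw [e.finrank_eq, a1.finrank_eq])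
  obtain ⟨v, v', rfl⟩ := mem_tl_pair.1 (this ▸ hx)
  obtain ⟨x, c⟩ := a2 v
  obtain ⟨x', c'⟩ := a3 v'
  exact ⟨x + x', by rw [← c, ← c', map_add]; abel⟩

variable (h2 : (2 : F) ≠ 0) (hd : 5 ≤ finrank F W) (hUW : finrank F U < finrank F W)
include h2 hd hUW

theorem mem_or_tie (e : TSP C₂ w y) (hk : k ∈ X) (hs : s ∈ X)
    (hs' : s ∈ cen (tl U (span F {w, y}))) (h1 : s ≠ 1) (hH : k⁻¹ * s * k ∈ tenStab F U W) :
    k ∈ tenStab F U W ∨ ∃ v : U, v ≠ 0 ∧ ∀ x, k x ∈ tl U (span F {w, y}) ↔ ∃ z, x = v ⊗ₜ z := by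
  obtain ⟨α, β, e'⟩ := hH
  have a1 := mul_mem (mul_mem (inv_mem hk) hs) hk
  have a2 := conj_mem_cen (k := k⁻¹) hs'
  have a3 := conj_sq (k := k) fun x => h.nd.cen_fix (h.le hs) hs' (h.ts_plane e (hs' x))
  have a4 := conj_ne_one (k := k) h1
  have a5 := conj_sub' k s
  rw [inv_inv] at a2
  rw [e'] at a1 a2 a3 a4 a5
  obtain b1 | ⟨c, hc⟩ := quad_scalar h2 a3
  · obtain ⟨r, r', b2, b3, b4⟩ := h.exists_tsp_of_isR hQ hn a1 (isR_of_scalar b1) a4 hk e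
      fun x => a5 x ▸ hs' _
    refine .inl (h.mem_of_plane hQ (.inl hd) hk b2 (finrank_span_pair_le w y) fun x hx => ?_)
    obtain ⟨v, v', rfl⟩ := mem_tl_pair.1 hx
    obtain ⟨x, c⟩ := b3 v
    obtain ⟨x', c'⟩ := b4 v'
    rw [← c, ← c', map_add, a5, a5]
    exact add_mem (hs' _) (hs' _)
  obtain ⟨u₀, b1, b2⟩ := exists_rank_one hc (by
    rw [finrank_map_equiv, finrank_tl, e.finrank_eq]; omega) a2 a4
  have b3 : ∀ u w, TensorProduct.congr α β (u ⊗ₜ w) - u ⊗ₜ w = (c • α u - u) ⊗ₜ w := fun u w => by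
    simp [hc, sub_tmul, smul_tmul]
  refine .inr ⟨_, b1, fun x => ⟨fun hx => ?_, by rintro ⟨z, rfl⟩; rw [← b3, a5]; exact hs' _⟩⟩
  obtain ⟨x', hx'⟩ := h.plane_range hQ hn e hs hs' h1 hx
  obtain ⟨x', rfl⟩ := k.surjective x'
  rw [← a5, EmbeddingLike.apply_eq_iff_eq] at hx'
  subst hx'
  clear hx
  induction x' with
  | zero => exact ⟨0, by simp⟩
  | tmul u z =>
    obtain ⟨d, hd⟩ := mem_span_singleton.1 (b2 u)
    exact ⟨d • z, by rw [b3, ← hd, smul_tmul]⟩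
  | add x y a b =>
    obtain ⟨z, a⟩ := a
    obtain ⟨z', b⟩ := b
    exact ⟨z + z', by rw [map_add, add_sub_add_comm, a, b, tmul_add]⟩

theorem tiO (e : TSP C₂ w y) : TI C X (tenStab F U W) (tl U (span F {w, y})) where
  nd := h.nd
  le := h.le
  ts := h.ts_plane e
  hZ _ hs hs' h1 _ := h.plane_range hQ hn e hs hs' h1
  hZH _ hs hs' := let ⟨_, _, e⟩ := h.cen_plane hQ e hs hs'; e ▸ rH_mem _
  ex := let ⟨s, a, _, b, c, _⟩ := h.exists_E e; ⟨s, a, c, b⟩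
  hR k hk s hs hs' h1 hH := by
    by_contra hc
    obtain ⟨v, -, a2⟩ := (h.mem_or_tie hQ hn h2 hd hUW e hk hs hs' h1 hH).resolve_left hc
    have key : ∀ b, TSP C₂ w b → ∃ v : U, v ≠ 0 ∧ ∀ x, k⁻¹ x ∈ tl U (span F {w, b}) ↔
        ∃ z, x = v ⊗ₜ z := fun b e' => by
      obtain ⟨t, b1, ⟨β, -, rfl⟩, b2, b3, -⟩ := h.exists_E e'
      refine (h.mem_or_tie hQ hn h2 hd hUW e' (inv_mem hk) b1 b3 b2 (h.mem_of_plane hQ (.inl hd)
        (mul_mem (mul_mem (inv_mem (inv_mem hk)) b1) (inv_mem hk)) e (finrank_span_pair_le w y)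
        fun x hx => ?_)).resolve_left (mt inv_mem_iff.1 hc)
      obtain ⟨z, hz⟩ := (a2 (k⁻¹ x)).1 (by rwa [apply_inv_apply])
      rw [inv_inv, LinearEquiv.mul_apply, LinearEquiv.mul_apply, hz, rH_tmul]
      exact (a2 _).2 ⟨_, rfl⟩
    obtain ⟨b, b1, b2⟩ : ∃ b, TSP C₂ w b ∧ b ∉ span F {w, y} := by
      by_contra hb
      push Not at hb
      obtain ⟨z, -, c1, -, -, -, -, c2⟩ := h.exists_mid hd e 1
      exact c2 (h.perp_add e.hv e.ne (span F {w, y}).toAddSubgroup hb c1)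
    obtain ⟨v₁, c1, c2⟩ := key y e
    obtain ⟨v₂, -, c4⟩ := key b b1
    obtain ⟨u, hu⟩ := h.ex
    obtain ⟨z₁, d1⟩ := (c2 (k (u ⊗ₜ w))).1 (by
      rw [inv_apply_apply]; exact tmul_mem_tl u (mem_pair_left _ _))
    obtain ⟨z₂, d2⟩ := (c4 (k (u ⊗ₜ w))).1 (by
      rw [inv_apply_apply]; exact tmul_mem_tl u (mem_pair_left _ _))
    obtain ⟨z₃, d3⟩ := (c4 (k (u ⊗ₜ b))).1 (by
      rw [inv_apply_apply]; exact tmul_mem_tl u (mem_pair_right _ _))
    obtain ⟨φ, hφ⟩ := exists_dual_one (F := F) (v := z₂) (by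
      rintro rfl; exact tmul_ne_zero hu e.ne (by simpa using d2))
    have d4 : v₂ = φ z₁ • v₁ := by simpa [hφ] using congrArg (cR U φ) (d2.symm.trans d1)
    have := (c2 (k (u ⊗ₜ b))).2 ⟨_, by rw [d3, d4, smul_tmul]⟩
    rw [inv_apply_apply] at this
    exact b2 (mem_of_tmul_mem_tl hu this)

theorem le_of_orth [Finite F] : X ≤ tenStab F U W := by
  by_contra hc
  have : Finite (U ⊗[F] W) := Module.finite_of_finite F
  obtain ⟨w, a1, a2, -⟩ := h.conn 0 0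
  obtain ⟨w', e⟩ := h.tsp a2 a1
  have hT := h.tiO hQ hn h2 hd hUW e
  obtain ⟨k, hk⟩ := exists_maxK (L := tl U (span F {w, w'})) hc
  obtain ⟨g, -, b1, -, b2, b3, b4⟩ := hT.fr_odd h2 hk
  obtain ⟨z, -, c1, c2, -, -, -, c3⟩ := h.exists_mid hd e 1
  obtain ⟨r, d1, d2⟩ := (isR_of_perp b1 c3 fun u => b4 _ (h.tmul_mem_perp u
    (C₂.mem_perp_pair.2 ⟨c1, c2⟩))).exists_not_mem b3
  have d3 := fun u => let ⟨x, hx⟩ := d2 u; hx ▸ b2 x
  obtain ⟨u₀, hu₀⟩ := h.ex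
  obtain ⟨p, p1, p2, p3⟩ := exists_perp_in_pair C₂ e.nm e.ne r
  generalize hP : span F {w, w'} = P at *
  have P1 : finrank F P = 2 := hP ▸ e.finrank_eq
  have P2 := hP ▸ e.ts
  obtain ⟨y, y1, y2⟩ : ∃ y ∈ C₂.perp (P ⊔ span F {r}), y ∉ P := by
    by_contra hy
    push Not at hy
    have := (eq_of_le_of_finrank_le hy (by
      have := h.nd₂.finrank_add_finrank_perp (P ⊔ span F {r})
      have := finrank_sup_span_le P r
      omega)).ge
    exact d1 (mem_of_tmul_mem_tl hu₀ (hT.mem_of_sup_perp hk (d3 u₀) (h.tmul_mem_perp u₀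
      (C₂.mem_perp'.2 fun l hl => C₂.mem_perp.1 (this hl) r
        (mem_sup_right (mem_span_singleton_self r))))))
  have p4 : p ∈ C₂.perp (P ⊔ span F {r}) := C₂.mem_perp.2 fun l hl => by
    obtain ⟨c, hc⟩ := mem_sup_span_singleton.1 hl
    simpa [p3] using P2.2 _ hc p p1
  have y3 : C₂.B p y = 0 := C₂.mem_perp.1 y1 p (mem_sup_left p1)
  have p5 := P2.1 p p1
  obtain ⟨a, ha⟩ := h.rho' p5 p2 y3
  obtain ⟨t, t1, -, t2⟩ := h.of_rq ha
  have t3 : ∀ x ∈ tl U (P ⊔ span F {r}), t x = x := fun x hx => by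
    simp [t2, cB_of_mem hx (C₂.mem_perp'.1 p4), cB_of_mem hx (C₂.mem_perp'.1 y1)]
  have t4 : tl U (P ⊔ span F {r}) ≤ tl U P ⊔ (tl U P).map k.toLinearMap ⊓ tl U (P ⊔ span F {r}) :=
    tl_le fun u l hl => by
      obtain ⟨c, hc⟩ := mem_sup_span_singleton.1 hl
      obtain ⟨l', e1, m, e2, e3⟩ := mem_sup.1 (d3 u)
      rw [← sub_add_cancel l (c • r), tmul_add, tmul_smul, ← e3]
      refine add_mem (mem_sup_left (tmul_mem_tl u hc)) (smul_mem _ _ (add_mem (mem_sup_left e1)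
        (mem_sup_right ⟨e2, ?_⟩)))
      rw [eq_sub_of_add_eq' e3]
      exact sub_mem (tmul_mem_tl u (mem_sup_right (mem_span_singleton_self r)))
        (tl_mono le_sup_left e1)
  obtain ⟨α, β, t5⟩ : k⁻¹ * t * k ∈ tenStab F U W := by
    obtain ⟨l, e1, m, e2, e3⟩ := mem_sup.1 (t4 (tmul_mem_tl u₀
      (mem_sup_right (mem_span_singleton_self r))))
    exact hk.of_fix t1 (fun l hl => t3 l (tl_mono le_sup_left hl)) e2.1
      (fun e4 => d1 (mem_of_tmul_mem_tl hu₀ (e3 ▸ add_mem e1 e4))) (t3 m e2.2)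
  have t6 := conj_sub' k t
  obtain ⟨p', hp'⟩ := h.nd₂.exists_eq p2 1
  by_cases y4 : C₂.B y y = 0
  · have e' : TSP C₂ p y := ⟨p5, h.sing y y4, y3, p2, fun c => y2
      ((span_singleton_le_iff_mem _ _).2 p1 c)⟩
    refine hk.nm ((h.tiO hQ hn h2 hd hUW e').hR k hk.mem t t1 (fun x => ?_) (fun c => ?_) ⟨α, β, t5⟩)
    · rw [t2, add_sub_assoc, add_sub_cancel_left]
      exact sub_mem (tmul_mem_tl _ (mem_pair_right _ _)) (tmul_mem_tl _ (mem_pair_left _ _))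
    · have := t2 (u₀ ⊗ₜ p')
      rw [c, add_sub_assoc, LinearEquiv.coe_one, id, left_eq_add, sub_eq_zero, cB_tmul, hp',
        one_smul] at this
      exact e'.nm (mem_of_tmul_mem_tl hu₀ (this ▸ tmul_mem_tl _ (mem_span_singleton_self p)))
  rw [t5] at t6
  by_cases hβ : finrank F ↥(P ⊓ P.map (β : W →ₗ[F] W)) ≤ 1
  · have f1 : ((tl U P).map k.toLinearMap ⊓ tl U (P ⊔ span F {r})).map (k⁻¹).toLinearMap =
        tl U (P ⊓ P.map (β : W →ₗ[F] W)) ∧ 0 < finrank F ↥(P ⊓ P.map (β : W →ₗ[F] W)) := by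
      have f2 : ((tl U P).map k.toLinearMap ⊓ tl U (P ⊔ span F {r})).map (k⁻¹).toLinearMap ≤
          tl U (P ⊓ P.map (β : W →ₗ[F] W)) := by
        rintro _ ⟨_, ⟨⟨l, f2, rfl⟩, f3⟩, rfl⟩
        have f4 := t6 l
        rw [t3 (k l) f3, sub_self, EmbeddingLike.map_eq_zero_iff, sub_eq_zero] at f4
        simp only [LinearEquiv.coe_coe, inv_apply_apply]
        exact mem_tl.2 fun ψ => ⟨mem_tl.1 f2 ψ, mem_tl.1 (f4 ▸ congr_mem_tl f2) ψ⟩
      have f3 := (finrank_mono t4).trans (finrank_sup_le' _ _)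
      have f4 := finrank_lt_finrank_of_lt (SetLike.lt_iff_le_and_exists.2 ⟨le_sup_left, r,
        mem_sup_right (mem_span_singleton_self r), d1⟩ : P < P ⊔ span F {r})
      have f5 := finrank_mono f2
      have f6 := h.pos
      rw [finrank_tl, finrank_tl, P1] at f3
      rw [finrank_map_equiv, finrank_tl] at f5
      have f7 := Nat.mul_le_mul_left (finrank F U) (show 3 ≤ finrank F ↥(P ⊔ span F {r}) by omega)
      have f8 := Nat.mul_le_mul_left (finrank F U) hβ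
      exact ⟨eq_of_le_of_finrank_le f2 (by rw [finrank_map_equiv, finrank_tl]; omega),
        Nat.pos_of_mul_pos_left (show 0 < finrank F U * _ by omega)⟩
    obtain ⟨q, q1, q2⟩ := exists_mem_ne_zero_of_ne_bot (ne_bot_of_finrank_pos f1.2)
    obtain ⟨B, hB⟩ := isR_of_perp (Y := ⊥) (congr_mem α β) (z := q) q2 fun u => by
      obtain ⟨m, f2, f3⟩ := f1.1.ge (tmul_mem_tl u q1)
      have f4 := t6 (u ⊗ₜ q)
      rw [← f3, LinearEquiv.coe_coe, apply_inv_apply, t3 m f2.2, sub_self,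
        EmbeddingLike.map_eq_zero_iff] at f4
      rw [← f3, LinearEquiv.coe_coe, f4]
      exact zero_mem _
    have f2 : ∀ x, k (TensorProduct.congr α β (TensorProduct.congr α β x - x) -
        (TensorProduct.congr α β x - x)) =
        ((-T₂.σ T₂.ε * C₂.B y y) • cB U C₂ p (k x)) ⊗ₜ p := fun x => by
      rw [t6, t6, t2 (k x), add_sub_assoc, add_sub_cancel_left, t2]
      simp [y3, C₂.B_swap_zero y3, C₂.B_self_of_zero p5, smul_smul, neg_tmul]
    have f3 : ∀ u v, TensorProduct.congr α β (TensorProduct.congr α β (u ⊗ₜ v) - u ⊗ₜ v) -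
        (TensorProduct.congr α β (u ⊗ₜ v) - u ⊗ₜ v) = u ⊗ₜ (B (B v - v) - (B v - v)) :=
      fun u v => by rw [hB, ← tmul_sub, hB, ← tmul_sub]
    obtain ⟨v, hv⟩ : ∃ v, B (B v - v) - (B v - v) ≠ 0 := by
      by_contra hv
      push Not at hv
      have f4 : ∀ x, TensorProduct.congr α β (TensorProduct.congr α β x - x) -
          (TensorProduct.congr α β x - x) = 0 := fun x => by
        induction x with
        | zero => simp
        | tmul u v => rw [f3, hv, tmul_zero]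
        | add x y a b => rw [map_add, add_sub_add_comm, map_add, add_sub_add_comm, a, b, add_zero]
      have := f2 (k⁻¹ (u₀ ⊗ₜ p'))
      rw [f4, map_zero, apply_inv_apply, cB_tmul, hp', one_smul] at this
      exact tmul_ne_zero (smul_ne_zero (mul_ne_zero (neg_ne_zero.2 h.η_ne) y4) hu₀) p2 this.symm
    have f4 : ∀ u, k (u ⊗ₜ (B (B v - v) - (B v - v))) ∈ tl U (span F {p}) := fun u => by
      rw [← f3, f2]; exact tmul_mem_tl _ (mem_span_singleton_self p)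
    exact hk.nm (h.mem_of_point hQ (.inl hd) hk.mem (h.sing_of_point hk.mem p5 f4) hv f4)
  have f1 : P.map (β : W →ₗ[F] W) = P := ((eq_of_le_of_finrank_le inf_le_right (by
    rw [finrank_map_equiv]; omega)).symm.trans (eq_of_le_of_finrank_le inf_le_left (by omega)))
  have f2 : ∀ l ∈ tl U P, cB U C₂ p (k l) = 0 := fun l hl => by
    have f2 := hT.mem_of_perp hk ⟨_, sub_mem (f1 ▸ congr_mem_tl hl) hl, t6 l⟩ (by
      rw [t2, add_sub_assoc, add_sub_cancel_left]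
      exact sub_mem (h.tmul_mem_perp _ (C₂.perp_anti le_sup_left y1))
        (h.tmul_mem_perp _ (C₂.perp_anti le_sup_left p4)))
    rw [t2, add_sub_assoc, add_sub_cancel_left] at f2
    exact by_contra fun f3 => y2 (mem_of_tmul_mem_tl f3 (by
      simpa using add_mem f2 (tmul_mem_tl (T₂.σ T₂.ε • cB U C₂ y (k l) + a • cB U C₂ p (k l)) p1)))
  have f3 : ∀ u, u ⊗ₜ p ∈ (tl U P).map k.toLinearMap := fun u =>
    mem_map_iff.2 (hT.mem_of_perp hk.inv ⟨_, tmul_mem_tl u p1, rfl⟩ (C.mem_perp'.2 fun l hl => by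
      rw [← CForm.isom_B (h.le hk.mem), apply_inv_apply, h.B_tmul, f2 l hl, map_zero]))
  obtain ⟨q, q1, q2⟩ := exists_mem_not_mem_of_finrank_lt (W := span F {p}) (W' := P)
    (by have := finrank_span_singleton_le (F := F) p; omega)
  obtain ⟨s, s1, -, s2, s3, s4⟩ := h.exists_E ⟨p5, P2.1 q q1, P2.2 p p1 q q1, p2, q2⟩
  refine hk.nm (hT.stab hk.mem (mem_glStab_of_mapsTo fun l hl => hT.caseII hk s1 (cen_mono
    (tl_mono (span_le.2 (by rintro _ (rfl | rfl); exacts [p1, q1]))) s3) s2 ⟨l, hl, rfl⟩ ?_))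
  rw [s4, f2 l hl, zero_tmul, add_zero, sub_sub_cancel_left]
  exact neg_mem (f3 _)

end TX

end H12
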