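import Cfsg.Agent.H12.SUList
import Cfsg.Agent.H12.SLList

/-!
# Hermitian spaces of dimension four
-/

set_option autoImplicit false
set_option maxHeartbeats 400000

namespace H12

open Module H11 QuadraticMap Cfsg Cfsg.Geo

section

variable {F : Type*} [Field F] {V : Type*} [AddCommGroup V] [Module F V] {σ : F →+* F}
  {hσ2 : ∀ a, σ (σ a) = a} {C : CForm (hermType σ hσ2) V} {X : Subgroup (V ≃ₗ[F] V)}
  [FiniteDimensional F V] (hσ : σ ≠ RingHom.id F) (hN : ∀ a, σ a = a → ∃ b, b * σ b = a)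
  (hC : C.Nondeg) (hV : 4 ≤ finrank F V)

local notation "𝐒" => C.isom ⊓ SLV F V

include hσ hN hC hV

theorem herm_not_le_glStab {W : Submodule F V} (h0 : W ≠ ⊥) (h1 : W ≠ ⊤) : ¬ 𝐒 ≤ glStab W :=
  fun hW => by
    obtain ⟨x, hx, hx0⟩ := Submodule.exists_mem_ne_zero_of_ne_bot h0
    have hT := C.nondegOn_top.2 hC
    refine h1 (top_le_iff.1 ((irr_herm hσ hN hT).le_of_norm hC hT trivial hx0 fun b _ e => ?_))
    by_cases hb : b = 0
    · exact hb ▸ W.zero_mem
    obtain ⟨g, hg, rfl⟩ := (spec_herm hσ hN hC).witt_one hV hx0 hb e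
    exact (mem_glStab.1 (hW hg) x).1 hx

theorem herm_not_le_decStab {κ : Type*} [Finite κ] [Nontrivial κ] {D : κ → Submodule F V}
    (hD : OrthDec C D) : ¬ 𝐒 ≤ decStab D := by
  intro hG
  obtain ⟨i, j, hij⟩ := exists_pair_ne κ
  have h1 := Submodule.finrank_mono (hD.orth i j hij)
  have h2 := hC.finrank_add_finrank_perp (D i)
  have h3 : finrank F (D i) = finrank F (D j) := let ⟨e, _⟩ := hD.iso i j; e.finrank_eq
  obtain ⟨z, hz, hz0, hz1⟩ := herm_exists_iso hN C (W := C.perp (D i)) (by omega)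
  obtain ⟨x, hx, hx0⟩ := Submodule.exists_mem_ne_zero_of_ne_bot (hD.ne_bot i)
  have h4 : x + z ∉ C.perp (D i) := fun e => hx0 ((hD.nondeg i).eq_zero hx (by
    simpa using sub_mem e hz))
  obtain ⟨g, hg, e⟩ := (spec_herm hσ hN hC).witt_one hV hx0 (v := x + z)
    (fun e => h4 (e ▸ zero_mem _))
    (by rw [C.N_add_of_orth (C.mem_perp.1 hz x hx), hz1, add_zero])
  obtain ⟨τ, hτ⟩ := mem_decStab.1 (hG hg)
  have h5 : x + z ∈ D (τ i) := hτ i ▸ ⟨x, hx, e⟩
  by_cases h6 : i = τ i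
  · rw [← h6] at h5
    exact hz0 ((hD.nondeg i).eq_zero (by simpa using sub_mem h5 hx) hz)
  · exact h4 (hD.orth i _ h6 h5)

omit hσ in
theorem herm_exists_perp_eq {v z : V} (hz : z ∉ Submodule.span F {v}) (a : F) :
    ∃ w, C.B v w = 0 ∧ C.N w = 0 ∧ C.B z w = a := by
  suffices ∃ w, C.B v w = 0 ∧ C.N w = 0 ∧ C.B z w ≠ 0 by
    obtain ⟨w, h1, h2, h3⟩ := this
    exact ⟨(a / C.B z w) • w, by simp [h1], C.N_smul_of_zero h2 _, by simp [h3]⟩
  have d1 := finrank_span_singleton_le (F := F) v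
  have d2 := hC.finrank_add_finrank_perp (Submodule.span F {v})
  obtain ⟨Y, h1, h2, h3, -⟩ := exists_le_disjoint (C.perp (Submodule.span F {v}))
    (Submodule.span F {v})
  have := Submodule.finrank_mono
    (inf_le_right : C.perp (Submodule.span F {v}) ⊓ Submodule.span F {v} ≤ _)
  obtain ⟨u, hu, u0, u1⟩ := herm_exists_iso hN C (W := Y) (by omega)
  have u2 := C.mem_perp_singleton.1 (h1 hu)
  by_cases h4 : C.B z u = 0
  swap
  · exact ⟨u, u2, u1, h4⟩
  obtain ⟨y, hy, y1, y2⟩ := hC.exists_perp_ne_ne hz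
    fun e => u0 (Submodule.disjoint_def.1 h2 u hu e)
  obtain ⟨c, hc⟩ := exists_add_smul_singular u1 y2
  exact ⟨_, by simp [u2, C.mem_perp_singleton.1 hy], hc, by simpa [h4]⟩

omit hσ in
theorem herm_perp_le {v x : V} {Z : Submodule F V} (hZ : ∀ w, C.B v w = 0 → C.N w = 0 → w ∈ Z)
    (hx : C.B v x = 0) : x ∈ Z := by
  by_contra h1
  obtain ⟨z, hz, h2⟩ := hC.exists_perp_ne h1
  obtain ⟨w, a1, a2, a3⟩ := herm_exists_perp_eq hN hC hV (v := v) (z := z) (fun e => by
    obtain ⟨c, rfl⟩ := Submodule.mem_span_singleton.1 e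
    simp [C.B_swap_zero hx] at h2) 1
  rw [C.B_swap_zero (C.mem_perp.1 hz w (hZ w a1 a2))] at a3
  exact zero_ne_one a3

omit hσ in
theorem herm_exists_scalar (ψ : V →ₗ[F] V)
    (hψ : ∀ u, C.N u = 0 → ψ u ∈ Submodule.span F {u}) : ∃ a : F, ∀ x, ψ x = a • x := by
  have h := iso3_herm hN C
  have k1 : ∀ (u w : V) (a b : F), C.N u = 0 → C.N w = 0 → C.B u w = 0 → u ≠ 0 →
      w ∉ Submodule.span F {u} → ψ u = a • u → ψ w = b • w → a = b := by
    intro u w a b hu hw huw hu0 hwu ha hb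
    obtain ⟨c, hc⟩ := Submodule.mem_span_singleton.1
      (hψ (u + w) (by rw [C.N_add_of_orth huw, hu, hw, add_zero]))
    rw [map_add, ha, hb] at hc
    have := (LinearIndependent.pair_iff.1 (linearIndependent_of_not_mem hu0 hwu)) (c - b) (c - a)
      (by linear_combination (norm := module) hc)
    linear_combination this.1 - this.2
  obtain ⟨e, he0, he⟩ := h.exists_iso (by omega)
  obtain ⟨a, ha⟩ := Submodule.mem_span_singleton.1 (hψ e he)
  refine ⟨a, fun x => ?_⟩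
  refine h.mem_of_iso hC (by omega) (LinearMap.eqLocus ψ (a • LinearMap.id)).toAddSubgroup
    (fun u hu => ?_) x
  change ψ u = a • u
  by_cases hu0 : u = 0
  · simp [hu0]
  obtain ⟨b, hb⟩ := Submodule.mem_span_singleton.1 (hψ u hu)
  by_cases h0 : C.B e u = 0
  · by_cases h1 : u ∈ Submodule.span F {e}
    · obtain ⟨c, rfl⟩ := Submodule.mem_span_singleton.1 h1
      rw [map_smul, ← ha, smul_comm]
    · rw [← hb, k1 e u a b he hu h0 he0 h1 ha.symm hb.symm]
  have d1 := finrank_span_pair_le (F := F) e u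
  have d2 := hC.finrank_add_finrank_perp (Submodule.span F {e, u})
  obtain ⟨w, h1, hw, h3⟩ := herm_exists_iso hN C (W := C.perp (Submodule.span F {e, u})) (by omega)
  rw [C.mem_perp_pair] at h1
  obtain ⟨c, hc⟩ := Submodule.mem_span_singleton.1 (hψ w h3)
  rw [← hb, k1 e w a c he h3 h1.1 he0 (C.not_mem_span_of_B h1.2 (C.B_swap_ne h0) hw) ha.symm hc.symm,
    k1 u w b c hu h3 h1.2 hu0 (C.not_mem_span_of_B h1.1 h0 hw) hb.symm hc.symm]

omit hσ in
theorem herm_mem_sim (g : V ≃ₗ[F] V)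
    (hg : ∀ u, C.N u = 0 → hC.adj (g⁻¹ : V ≃ₗ[F] V) u ∈ Submodule.span F {g u}) : g ∈ C.sim := by
  obtain ⟨a, ha⟩ := herm_exists_scalar hN hC hV ((g⁻¹ : V ≃ₗ[F] V) ∘ₗ hC.adj (g⁻¹ : V ≃ₗ[F] V))
    fun u hu => by
      obtain ⟨c, hc⟩ := Submodule.mem_span_singleton.1 (hg u hu)
      refine Submodule.mem_span_singleton.2 ⟨c, ?_⟩
      rw [LinearMap.comp_apply, ← hc, LinearEquiv.coe_coe, map_smul, inv_apply_apply]
  have k : ∀ x y, C.B x y = σ a * C.B (g x) (g y) := by
    intro x y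
    have h1 := congrArg g (ha x)
    rw [LinearMap.comp_apply, LinearEquiv.coe_coe, apply_inv_apply, map_smul] at h1
    rw [← herm_B_smul_left, ← h1, hC.B_adj, LinearEquiv.coe_coe, inv_apply_apply]
  have h0 : σ a ≠ 0 := by
    intro h0
    obtain ⟨e, he0, -⟩ := (iso3_herm hN C).exists_iso (by omega)
    obtain ⟨y, hy⟩ := hC.exists_ne he0
    exact hy (by rw [k, h0, zero_mul])
  exact ⟨(σ a)⁻¹, inv_ne_zero h0, fun x y => by rw [k x y, inv_mul_cancel_left₀ h0]⟩

theorem herm_SLV_le_of_tr [Fintype F] (hX : 𝐒 ≤ X) {p α : V} (hp0 : p ≠ 0) (hp : C.N p = 0)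
    (hα : C.B p α = 0) (hαp : α ∉ Submodule.span F {p}) (ht : Tr X α (C.B p)) : SLV F V ≤ X := by
  have h := spec_herm hσ hN hC
  have pp := C.B_self_of_zero hp
  have conj : ∀ {p α : V} {g : V ≃ₗ[F] V}, g ∈ 𝐒 → Tr X α (C.B p) → Tr X (g α) (C.B (g p)) :=
    fun hg ht => ht.conj' (hX hg) rfl fun x => CForm.isom_B hg.1 _ _
  obtain ⟨c, hc0, hc⟩ := exists_trace_zero' (hσ2 := hσ2) hσ
  obtain ⟨α, hα, hα0, ht⟩ : ∃ α, C.B p α = 0 ∧ C.N α ≠ 0 ∧ Tr X α (C.B p) := by
    by_cases h0 : C.N α = 0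
    swap
    · exact ⟨α, hα, h0, ht⟩
    have α0 : α ≠ 0 := fun e => hαp (e ▸ zero_mem _)
    obtain ⟨p', a1, a2, a3⟩ := hC.exists_partner (not_mem_span_of_not_mem hp0 hαp α0) hp
      (C.mem_perp_singleton.2 (C.B_swap_zero hα))
    rw [C.mem_perp_singleton] at a1
    obtain ⟨f, b1, b2, b3⟩ := hC.exists_partner (Z := Submodule.span F {p, p'}) (x := α) (fun e => by
      obtain ⟨s, t, rfl⟩ := Submodule.mem_span_pair.1 e
      obtain rfl : t = 0 := by simpa [pp, a3] using hα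
      exact hαp (by simpa using Submodule.smul_mem _ _ (Submodule.mem_span_singleton_self p))) h0
      (C.mem_perp_pair.2 ⟨hα, C.B_swap_zero a1⟩)
    rw [C.mem_perp_pair] at b1
    obtain ⟨a, c1, c2⟩ : ∃ a, σ a ≠ a ∧ a + σ a ≠ 0 := by
      obtain ⟨a, ha⟩ := exists_ne_of_ne_id hσ
      by_cases H : a + σ a = 0
      · exact ⟨a + 1, by simpa using ha, fun e => ha (by
          rw [map_add, map_one] at e; linear_combination H - a * e + a * H)⟩
      · exact ⟨a, ha, H⟩
    have a0 : a ≠ 0 := by rintro rfl; simp at c1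
    have a0' := (map_ne_zero σ).2 a0
    obtain ⟨k, k1, -, k3, k4⟩ := IsHypPair.exists_torus hC ⟨hp, a2, a3⟩ a0
    obtain ⟨l, l1, -, l3, l4⟩ := IsHypPair.exists_torus hC ⟨h0, b2, b3⟩ a0'
    have t1 := conj (g := k.1 * l.1) ⟨mul_mem k.2 l.2, mem_SLV.2 (by
      rw [LinearEquiv.coe_toLinearMap_mul, map_mul, ← LinearEquiv.coe_det, ← LinearEquiv.coe_det, k4,
        l4, hermσ, hermσ, hσ2]
      field_simp)⟩ ht
    rw [LinearEquiv.mul_apply, LinearEquiv.mul_apply, l1, map_smul, k3 α hα (C.B_swap_zero a1),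
      l3 p (C.B_swap_zero hα) (C.B_swap_zero b1.1), k1, map_smulₛₗ, ← tr_smul] at t1
    obtain ⟨t, t2, t3⟩ := tr_of_tv b2 (tvOk_herm.2 hc)
    have t4 := conj t2 ht
    have b4 : C.B f α = 1 := by rw [herm_symm, b3, map_one]
    rw [t3, t3, LinearMap.smul_apply, LinearMap.smul_apply, C.B_swap_zero b1.1, b4, smul_zero,
      zero_smul, add_zero, smul_eq_mul, mul_one] at t4
    have t5 := t4.sub_left ht hα
    rw [add_sub_cancel_left] at t5
    refine ⟨_, by simp [hα, b1.1], ?_, t1.add_left t5 (by simp [b1.1])⟩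
    simp only [herm_N_add, herm_N_smul, h0, b2, map_smul, herm_B_smul_left, b3, hσ2, map_mul,
      smul_eq_mul, eq_neg_of_add_eq_zero_right hc, hermσ, map_one, map_neg]
    convert mul_ne_zero (mul_ne_zero hc0 c2) (sub_ne_zero.2 c1.symm) using 1
    ring
  have ns : ∀ β, C.N β = C.N α → β ∉ Submodule.span F {p} := fun β e e' => by
    obtain ⟨c, rfl⟩ := Submodule.mem_span_singleton.1 e'
    exact hα0 (by rw [← e, C.N_smul_of_zero hp])
  have α0 : α ≠ 0 := by rintro rfl; exact hα0 C.N_zero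
  obtain ⟨p', a1, a2, a3⟩ := hC.exists_partner (not_mem_span_of_not_mem hp0 (ns α rfl) α0) hp
    (C.mem_perp_singleton.2 (C.B_swap_zero hα))
  rw [C.mem_perp_singleton] at a1
  have hH : IsHypPair C p p' := ⟨hp, a2, a3⟩
  have hP := hC.nondegOn_perp hH.nondegOn
  have αP : α ∈ C.perp (Submodule.span F {p, p'}) := C.mem_perp_pair.2 ⟨hα, C.B_swap_zero a1⟩
  obtain ⟨w, w1, w3⟩ := herm_exists_nonisotropic hσ (nondegOn_inf_perp_singleton hP αP
    (by rwa [herm_B_self])) (by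
      intro e
      have d1 := finrank_span_pair_le (F := F) p p'
      have d2 := hC.finrank_add_finrank_perp (Submodule.span F {p, p'})
      have d3 := finrank_span_singleton_le (F := F) α
      have d4 := hC.finrank_add_finrank_perp (Submodule.span F {α})
      have d5 := Submodule.finrank_sup_add_finrank_inf_eq (C.perp (Submodule.span F {p, p'}))
        (C.perp (Submodule.span F {α}))
      have d6 := Submodule.finrank_le (C.perp (Submodule.span F {p, p'}) ⊔
        C.perp (Submodule.span F {α}))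
      rw [e, finrank_bot] at d5
      omega)
  have w2 := (C.mem_perp_pair.1 w1.1).1
  replace w1 := C.mem_perp_singleton.1 w1.2
  have move : ∀ β, C.B p β = 0 → C.N β = C.N α → Tr X β (C.B p) := by
    intro β h5 h6
    obtain ⟨g, hg, h7, h8⟩ := hC.witt_step (Submodule.span F {p}) (ns α rfl) (ns β h6) (fun x hx => by
      obtain ⟨c, rfl⟩ := Submodule.mem_span_singleton.1 hx
      rw [C.B_smul_left, C.B_smul_left, hα, h5]) h6
    have h3 := hC.σ_det_mul_det hg
    obtain ⟨s, hs, h4, -, h9⟩ := exists_qrefl_det w3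
      (d := σ (LinearMap.det (g : V →ₗ[F] V))) (by rw [hσ2]; exact h3)
    have := conj (g := g * s) ⟨mul_mem hg hs, mem_SLV.2 (by
      rw [LinearEquiv.coe_toLinearMap_mul, map_mul, h9, mul_comm]; exact h3)⟩ ht
    rwa [LinearEquiv.mul_apply, LinearEquiv.mul_apply, h4 α (C.B_swap_zero w1),
      h4 p (C.B_swap_zero w2), h8, h7 p (Submodule.mem_span_singleton_self p)] at this
  let S : Submodule F V :=
    { carrier := {β | C.B p β = 0 ∧ ∀ c : F, Tr X (c • β) (C.B p)}
      add_mem' := fun ha hb => ⟨by rw [map_add, ha.1, hb.1, add_zero], fun c => by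
        rw [smul_add]; exact (ha.2 c).add_left (hb.2 c) (by simp [hb.1])⟩
      zero_mem' := ⟨map_zero _, fun c => by rw [smul_zero]; exact tr_zero_left⟩
      smul_mem' := fun d x ha => ⟨by simp [ha.1], fun c => by rw [smul_smul]; exact ha.2 _⟩ }
  have k1 : ∀ β, C.B p β = 0 → C.N β = C.N α → β ∈ S := fun β h5 h6 => ⟨h5, fun c => by
    let A : AddSubgroup F :=
      { carrier := {a | ∀ ω, ω * σ ω = 1 → Tr X ((ω * a) • β) (C.B p)}
        add_mem' := fun ha hb ω hω => by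
          rw [mul_add, add_smul]; exact (ha ω hω).add_left (hb ω hω) (by simp [h5])
        zero_mem' := fun ω _ => by rw [mul_zero, zero_smul]; exact tr_zero_left
        neg_mem' := fun ha ω hω => by
          rw [mul_neg, neg_smul]; exact (ha ω hω).neg_left (by simp [h5]) }
    have := addSubgroup_all hσ hσ2 (A := A) (fun ω hω a ha ω' hω' => by
      rw [← mul_assoc]
      exact ha _ (by rw [map_mul]; linear_combination ω * σ ω * hω' + hω)) (a := 1)
      (fun ω hω => move _ (by simp [h5]) (by rw [herm_N_smul, mul_one, hω, one_mul, h6]))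
      one_ne_zero c 1 (by simp)
    rwa [one_mul] at this⟩
  have k2 : p ∈ S := by
    simpa using S.sub_mem (k1 (p + α) (by simp [pp, hα])
      (by rw [C.N_add_of_orth hα, hp, zero_add])) (k1 α hα rfl)
  have k3 := (irr_herm hσ hN hP).le_of_norm hC hP αP α0 (Z := S) fun b hb e =>
    k1 b (C.mem_perp_pair.1 hb).1 e
  have t2 : ∀ β, C.B p β = 0 → Tr X β (C.B p) := fun β hβ => by
    obtain ⟨a, b, y, rfl⟩ := hH.exists_decomp β
    obtain rfl : b = 0 := by simpa [pp, a3, (C.mem_perp_pair.1 y.2).1] using hβ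
    simpa using (S.add_mem (S.smul_mem a k2) (k3 y.2)).2 1
  have t3 : ∀ z β, C.N z = 0 → C.B z β = 0 → Tr X β (C.B z) := by
    intro z β hz hβ
    by_cases hz0 : z = 0
    · rw [hz0, map_zero]; exact tr_zero_right
    obtain ⟨g, hg, rfl⟩ := h.witt_one hV hp0 hz0 (hz.trans hp.symm)
    have := conj hg (t2 (g⁻¹ β) (by
      rw [← CForm.isom_B (h.le hg), apply_inv_apply, hβ]))
    rwa [apply_inv_apply] at this
  refine H12.SLV_le_of_tr fun v φ hv => ?_
  obtain ⟨z, hz⟩ := hC.exists_rep φ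
  obtain rfl : C.B z = φ := LinearMap.ext hz
  let S' : Submodule F V :=
    { carrier := {z | C.B z v = 0 ∧ ∀ c : F, Tr X v (C.B (c • z))}
      add_mem' := fun ha hb => ⟨by rw [C.B_add_left, ha.1, hb.1, add_zero], fun c => by
        rw [smul_add, map_add]; exact (ha.2 c).add_right (hb.2 c) (by simp [ha.1])⟩
      zero_mem' := ⟨by simp, fun c => by rw [smul_zero, map_zero]; exact tr_zero_right⟩
      smul_mem' := fun d x ha => ⟨by simp [ha.1], fun c => by rw [smul_smul]; exact ha.2 _⟩ }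
  simpa using (herm_perp_le hN hC hV (Z := S') (fun u hu h3 =>
    ⟨C.B_swap_zero hu, fun c => t3 _ v (C.N_smul_of_zero h3 c) (by simp [C.B_swap_zero hu])⟩)
    (C.B_swap_zero hv)).2 1

theorem herm_SLV_le_of_not_sim [Fintype F] (hX : 𝐒 ≤ X) {g : V ≃ₗ[F] V} (hg : g ∈ X)
    (hg' : g ∉ C.sim) : SLV F V ≤ X := by
  obtain ⟨c, hc0, hc'⟩ := exists_trace_zero' (hσ2 := hσ2) hσ
  have hc : ∀ u, C.N u = 0 → Tr (𝐒) u (c • C.B u) := fun u hu => tr_of_tv hu (tvOk_herm.2 hc')
  obtain ⟨u, hu, hu'⟩ : ∃ u, C.N u = 0 ∧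
      hC.adj (g⁻¹ : V ≃ₗ[F] V) u ∉ Submodule.span F {g u} := by
    by_contra hc
    push Not at hc
    exact hg' (herm_mem_sim hN hC hV g hc)
  set w := hC.adj (g⁻¹ : V ≃ₗ[F] V) u
  have hw : ∀ x, C.B w (g x) = C.B u x := fun x => by
    rw [hC.B_adj, LinearEquiv.coe_coe, inv_apply_apply]
  have t1 : Tr X (g u) (c • C.B w) := ((hc u hu).mono hX).conj' hg rfl fun x => by simp [hw]
  obtain ⟨p, hp1, hp2, hp3⟩ := herm_exists_perp_eq hN hC hV hu' 1
  have hp1 := C.B_swap_zero hp1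
  have h0 : C.B w (g u) = 0 := by rw [hw, C.B_self_of_zero hu]
  have t2 := t1.comm ((hc p hp2).mono hX) (by simp [h0]) (by simp [C.B_self_of_zero hp2])
    (by simp [hp1])
  rw [← tr_smul] at t2
  refine herm_SLV_le_of_tr hσ hN hC hV hX (by rintro rfl; simp at hp3) hp2 (by simp [hp1])
    (fun h' => ?_) t2
  obtain ⟨a, ha⟩ := Submodule.mem_span_singleton.1 h'
  have h2 := congrArg (C.B w) ha
  simp only [map_smul, hp3, h0, smul_eq_mul, mul_one, mul_zero] at h2
  rw [h2, zero_smul, LinearMap.smul_apply, hp3, smul_eq_mul, mul_one, smul_smul, eq_comm,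
    smul_eq_zero] at ha
  rcases ha with ha | ha
  · exact hc0 (mul_self_eq_zero.1 ha)
  · rw [map_eq_zero_iff _ g.injective] at ha
    exact hu' (by simp [w, ha])

end

theorem sl4_herm {F : Type*} [Field F] [Fintype F] {n : ℕ} (hn : 4 ≤ n) (σ : F ≃+* F)
    (f : (Fin n → F) → (Fin n → F) → F) (hf : IsUnitaryForm σ f) :
    IsMaximalIn (specialLinear (Fin n) F) (similarityGroup f ⊓ specialLinear (Fin n) F) := by
  obtain ⟨C, hC, hB⟩ := exists_cform_herm hf
  have hd : Module.finrank F (Fin n → F) = n := by simp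
  have hσ := ringEquiv_ne_id hf.ne_refl
  rw [specialLinear_eq, similarityGroup_eq' C hB, ← Subgroup.comap_inf]
  refine isMaximalIn_comap _ (isMaximalIn_of _ _ inf_le_right
    (fun h => not_SLV_le_sim hC (by omega) (h.trans inf_le_left)) fun M h1 h2 g hg hg' => ?_)
  exact herm_SLV_le_of_not_sim hσ (exists_norm_of_finite hf.involutive hσ) hC
    (by omega) ((inf_le_inf_right _ C.isom_le_sim).trans h1) hg fun h => hg' ⟨h, h2 hg⟩

end H12
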