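import Cfsg.Agent.H12.U4a

/-!
# Reducible and imprimitive maximal subgroups of `SU_4`
-/

set_option autoImplicit false
set_option maxHeartbeats 400000

namespace H12

open Module H11 QuadraticMap Equiv Finset Cfsg Cfsg.Geo

section

variable {F : Type*} [Field F] {V : Type*} [AddCommGroup V] [Module F V] {σ : F →+* F}
  {hσ2 : ∀ a, σ (σ a) = a} {C : CForm (hermType σ hσ2) V} {X : Subgroup (V ≃ₗ[F] V)}
  {κ : Type*} [Fintype κ] {D : κ → Submodule F V} [FiniteDimensional F V]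
  (hσ : σ ≠ RingHom.id F) (hN : ∀ a, σ a = a → ∃ b, b * σ b = a)
include hσ hN

theorem OrthDec.isMaximalIn_uplanes4 [Nontrivial κ] (hD : OrthDec C D) (hC : C.Nondeg)
    (hV : 4 ≤ finrank F V) (hd : ∀ i, 2 ≤ finrank F (D i)) (hq : ∃ a, σ a = a ∧ a ≠ 0 ∧ a ≠ 1) :
    Cfsg.Geo.IsMaximalIn (C.isom ⊓ SLV F V) (decStab D ⊓ (C.isom ⊓ SLV F V)) := by
  have h := spec_herm hσ hN hC
  refine isMaximalIn_of _ _ inf_le_right (fun e => herm_not_le_decStab hσ hN hC hV hD (e.trans inf_le_left))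
    fun M h2 h3 g hg hg' => ?_
  have hM : M ≤ C.isom := h3.trans inf_le_left
  have sub := fun i => (hD.subG_le hC i).trans h2
  have key : ∀ i, ∀ s ∈ D i, ∀ r ∈ C.perp (D i), C.N s ≠ 0 → PU M C (s + r) →
      C.isom ⊓ SLV F V ≤ M := by
    intro i s hs r hr h0 hp
    obtain ⟨S, a1, a2, a3⟩ := herm_enlarge_of_nonisotropic hσ hN hC hM (hD.nondeg i) (hd i)
      (Or.inr hq) (sub i) hs hr (fun e => h0 (by
        simpa [C.N_add_of_orth (C.mem_perp.1 hr s hs), e] using hp.1)) hp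
    exact ((enlarge_herm hσ hN hC).le_or_of_dec h hD hd h3 h2 a1.le a2
      ((hd i).trans_lt (Submodule.finrank_lt_finrank_of_lt a1)) a3).resolve_right
      fun e => a1.ne' e.1
  obtain ⟨i⟩ : Nonempty κ := inferInstance
  by_contra hc
  refine hg' ⟨hD.le_decStab hC hM i (fun j => ?_) (fun k hk => ?_) hg, h3 hg⟩
  · obtain ⟨k, hk, e, -⟩ := hD.exists_swap h hd i j
    exact ⟨k, h2 hk, e⟩
  by_contra H
  push Not at H
  obtain ⟨_, ⟨x, hx, rfl⟩, a1, a2, a3⟩ := exists_singular_not_mem_two ((hD.nondeg i).map (hM hk))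
    (herm_exists_iso hN C (by rw [finrank_map_equiv]; exact hd i))
    (fun e => H.1 (map_eq_of_le e)) H.2
  have hp : PU M C (k x) := (pu_of_mem (sub i) hx
    (by rw [← CForm.isom_N (hM hk)]; exact a1)).conj hk (hM hk)
  change k x ∉ _ at a2 a3
  generalize k x = p at *
  obtain ⟨e, he, r, hr, rfl⟩ := hC.exists_add (hD.nondeg i) p
  obtain ⟨j, hj, b1⟩ : ∃ j, j ≠ i ∧ r ∉ C.perp (D j) := by
    by_contra H
    push Not at H
    exact a2 (add_mem he (hD.mem_of_perp hC H))
  obtain ⟨e', he', r', hr', rfl⟩ := hC.exists_add (hD.nondeg j) r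
  have b2 : e' ∈ C.perp (D i) := C.mem_perp.2 fun x hx => hD.B_eq_zero hj.symm hx he'
  have b3 : e ∈ C.perp (D j) := C.mem_perp.2 fun x hx => hD.B_eq_zero hj hx he
  by_cases c1 : C.N e = 0
  swap
  · exact hc (key i e he _ hr c1 hp)
  by_cases c2 : C.N e' = 0
  swap
  · exact hc (key j e' he' _ (add_mem b3 hr') c2 (by convert hp using 1; abel))
  obtain ⟨s, hs, t, ht, c3, c4⟩ := hD.exists_pu hσ hC hM h2 hj.symm he he'
    (by rintro rfl; exact a3 (by simpa using hr)) (by rintro rfl; exact b1 (by simpa using hr'))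
    (by simpa using sub_mem hr b2) hr' c1 c2 (by rwa [add_assoc])
  exact hc (key i s hs t ht c3 c4)

end

variable {F : Type*} [Field F] [Fintype F] {n q : ℕ} (hF : Fintype.card F = q ^ 2)
include hF

local notation "𝓖" => GU n F q ⊓ specialLinear (Fin n) F

theorem su4_ts (hn : 4 ≤ n) {W : Submodule F (Fin n → F)} (hW0 : W ≠ ⊥)
    (hW : IsTotallySingularFor (hermForm n F q) W) : IsMaximalIn 𝓖 (subspaceStabilizer W ⊓ 𝓖) := by
  have hC := hermC_nondeg (ι := Fin n) hF
  have hd : finrank F (Fin n → F) = n := by simp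
  have hW' : (hermC (Fin n) hF).TS W := ⟨fun x hx => hW x hx x hx, fun x hx y hy => hW y hy x hx⟩
  have hσ := frob_ne_id hF
  have hN := exists_norm_of_finite (frob_frob hF) hσ
  have hR := rootData_herm hσ hN hC (by omega)
  rw [SU_eq hF, subspaceStabilizer_eq, ← Subgroup.comap_inf]
  refine isMaximalIn_comap _ (isMaximalIn_of _ _ inf_le_right
    (fun h => herm_not_le_glStab hσ hN hC (by omega) hW0 (hW'.ne_top hC hW0)
      (h.trans inf_le_left)) fun M h1 h2 g hg hg' => ?_)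
  exact hR.le_of_parabolic hW' (herm_move hσ hC hW') h1 hg (h2 hg) fun h => hg' ⟨h, h2 hg⟩

theorem su4_nondeg (hn : 4 ≤ n) {W : Submodule F (Fin n → F)} (hW0 : W ≠ ⊥)
    (hW : IsNondegenerateOn (hermForm n F q) W) (hdim : 2 * finrank F W < n) :
    IsMaximalIn 𝓖 (subspaceStabilizer W ⊓ 𝓖) := by
  have hC := hermC_nondeg (ι := Fin n) hF
  have hd : finrank F (Fin n → F) = n := by simp
  have hW' := nondegOn_of_geo _ (Or.inr (hermC_B_eq hF n)) hW
  have h1 := hC.finrank_add_finrank_perp W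
  have hσ := frob_ne_id hF
  have hN := exists_norm_of_finite (frob_frob hF) hσ
  have h := spec_herm hσ hN hC
  rw [SU_eq hF, subspaceStabilizer_eq, ← Subgroup.comap_inf]
  refine isMaximalIn_comap _ (isMaximalIn_of _ _ inf_le_right (fun e => herm_not_le_glStab hσ hN hC
    (by omega) hW0 (by
      rintro rfl
      rw [finrank_top] at hdim
      omega) (e.trans inf_le_left)) fun M h2 h3 g hg hg' => ?_)
  rw [← glStab_perp_inf hC h.le] at h2 hg'
  refine (enlarge_herm hσ hN hC).le_of_nondeg h h3 (hC.nondegOn_perp hW') (by omega) (by omega)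
    (by rw [hC.perp_perp]; exact irr_herm hσ hN hW') (fun k hk e => ?_) h2 hg fun e => hg' ⟨e, h3 hg⟩
  rw [hC.perp_perp] at e
  have h4 := finrank_map_equiv ((hermC (Fin n) hF).perp W) k
  have h5 := Submodule.finrank_mono e
  omega

theorem su4_planes (hn : 4 ≤ n) (hq : 3 ≤ q) {t : ℕ} {D : Fin t → Submodule F (Fin n → F)}
    (hD : IsNondegenerateMDecomposition (hermForm n F q) 2 D) :
    IsMaximalIn 𝓖 (decompositionStabilizer D ⊓ 𝓖) := by
  have hC := hermC_nondeg (ι := Fin n) hF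
  have hd : finrank F (Fin n → F) = n := by simp
  have h1 := fun i => nondegOn_of_geo _ (Or.inr (hermC_B_eq hF n)) (hD.nondegenerate i)
  have h2 := hD.decomp.finrank_eq
  have hD' := orthDec_of_geo _ (Or.inr (hermC_B_eq hF n)) hD fun i j =>
    hermT_iso hF ((CForm.restrict_nondeg_iff _).2 (h1 i))
      ((CForm.restrict_nondeg_iff _).2 (h1 j)) (by rw [h2, h2])
  haveI : Nontrivial (Fin t) := Fin.nontrivial_iff_two_le.2 hD.decomp.two_le
  rw [SU_eq hF, decompositionStabilizer_eq, ← Subgroup.comap_inf]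
  exact isMaximalIn_comap _ (hD'.isMaximalIn_uplanes4 (frob_ne_id hF)
    (exists_norm_of_finite (frob_frob hF) (frob_ne_id hF)) hC (by omega) (fun i => (h2 i).ge)
    (exists_fixed_ne hF (by omega)))

end H12
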