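import Cfsg.Agent.H12.U4b

/-!
# Subfield subgroups of unitary groups of dimension at least four
-/

set_option autoImplicit false
set_option maxHeartbeats 400000

namespace H12

open Module H11 Submodule

section

variable {F : Type*} [Field F] {V : Type*} [AddCommGroup V] [Module F V] {σ : F →+* F}
  {hσ2 : ∀ a, σ (σ a) = a} {C : CForm (hermType σ hσ2) V} [FiniteDimensional F V]
  (hN : ∀ a, σ a = a → ∃ b, b * σ b = a) (hC : C.Nondeg) (hV : 4 ≤ finrank F V)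
include hN hC hV

theorem herm_tsp {v : V} (hv : C.N v = 0) (hv0 : v ≠ 0) : ∃ c, TSP C v c := by
  have d1 := finrank_span_singleton_le (F := F) v
  have d2 := hC.finrank_add_finrank_perp (span F {v})
  obtain ⟨Y, h1, h2, h3, -⟩ := exists_le_disjoint (C.perp (span F {v})) (span F {v})
  have := Submodule.finrank_mono (inf_le_right : C.perp (span F {v}) ⊓ span F {v} ≤ _)
  obtain ⟨u, hu, u0, u1⟩ := herm_exists_iso hN C (W := Y) (by omega)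
  exact ⟨u, hv, u1, C.mem_perp_singleton.1 (h1 hu), hv0, fun e => u0 (disjoint_def.1 h2 u hu e)⟩

theorem herm_perp_pair (x x' : V) : ∃ z, z ≠ 0 ∧ C.N z = 0 ∧ C.B x z = 0 ∧ C.B x' z = 0 := by
  have d1 := finrank_span_pair_le (F := F) x x'
  have d2 := hC.finrank_add_finrank_perp (span F {x, x'})
  obtain ⟨w, h1, hw, h3⟩ := herm_exists_iso hN C (W := C.perp (span F {x, x'})) (by omega)
  exact ⟨w, hw, h3, C.mem_perp_pair.1 h1⟩

theorem herm_perp_two {x x' : V} (hx : C.N x = 0) (hx' : C.N x' = 0) (h0 : x ≠ 0) (h0' : x' ≠ 0) :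
    ∃ z, TSP C x z ∧ TSP C x' z := by
  by_cases h1 : C.B x x' = 0
  · by_cases h2 : x' ∈ span F {x}
    · obtain ⟨c, hc⟩ := herm_tsp hN hC hV hx h0
      obtain ⟨t, rfl⟩ := mem_span_singleton.1 h2
      exact ⟨c, hc, hx', hc.hc, by simp [hc.hB], h0', fun e => hc.nm
        ((span_singleton_le_iff_mem _ _).2 h2 e)⟩
    · have h3 : C.N (x + x') = 0 := by rw [C.N_add_of_orth h1, hx, hx', add_zero]
      exact ⟨x + x', ⟨hx, h3, by simp [h1, C.B_self_of_zero hx], h0, fun e => h2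
        ((add_mem_cancel_left (mem_span_singleton_self x)).1 e)⟩, hx', h3,
        by simp [C.B_swap_zero h1, C.B_self_of_zero hx'], h0', fun e =>
          not_mem_span_of_not_mem h0 h2 h0' ((add_mem_cancel_right (mem_span_singleton_self x')).1 e)⟩
  · obtain ⟨z, a4, a3, a1, a2⟩ := herm_perp_pair hN hC hV x x'
    exact ⟨z, ⟨hx, a3, a1, h0, C.not_mem_span_of_B a2 (C.B_swap_ne h1) a4⟩, hx', a3, a2, h0',
      C.not_mem_span_of_B a1 h1 a4⟩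

omit hN hV in
theorem TSP.exists_partner {v c : V} (h : TSP C v c) : ∃ f, TSP C v f ∧ C.B c f = 1 := by
  obtain ⟨f, a1, a2, a3⟩ := hC.exists_partner h.nm h.hc (C.mem_perp_singleton.2 h.hB)
  rw [C.mem_perp_singleton] at a1
  exact ⟨f, ⟨h.hv, a2, a1, h.ne, fun e => by
    obtain ⟨t, rfl⟩ := mem_span_singleton.1 e
    simp [C.B_swap_zero h.hB] at a3⟩, a3⟩

omit hN hV in
theorem TSP.exists_torW {v c : V} (h : TSP C v c) {l : F} (hl : l ≠ 0) :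
    ∃ k ∈ C.isom, k v = v ∧ k c = l • c ∧ LinearMap.det (k : V →ₗ[F] V) = l * (σ l)⁻¹ := by
  obtain ⟨f, a1, a2⟩ := h.exists_partner hC
  obtain ⟨k, k1, -, k3, k4⟩ := IsHypPair.exists_torus hC ⟨h.hc, a1.hc, a2⟩ hl
  exact ⟨k.1, k.2, k3 v (C.B_swap_zero h.hB) (C.B_swap_zero a1.hB), k1,
    (LinearEquiv.coe_det _).symm.trans k4⟩

omit hV in
theorem TSP.exists_move (hσ : σ ≠ RingHom.id F) {v c v' c' : V} (h : TSP C v c) (h' : TSP C v' c') :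
    ∃ k ∈ C.isom ⊓ SLV F V, ∃ l : F, l ≠ 0 ∧ k v = v' ∧ k c = l • c' := by
  obtain ⟨g, hg, e⟩ := hC.witt_one h.ne h'.ne (h'.hv.trans h.hv.symm)
  obtain ⟨g', hg', e1, e2⟩ := hC.witt_step (span F {v'}) (u := g c) (v := c') (fun e' => h.nm (by
      obtain ⟨t, ht⟩ := mem_span_singleton.1 e'
      exact mem_span_singleton.2 ⟨t, g.injective (by rw [map_smul, e, ht])⟩)) h'.nm (fun x hx => by
      obtain ⟨t, rfl⟩ := mem_span_singleton.1 hx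
      rw [C.B_smul_left, C.B_smul_left, h'.hB, ← e, CForm.isom_B hg, h.hB])
    (by rw [CForm.isom_N hg, h.hc, h'.hc])
  have h1 := hC.σ_det_mul_det (mul_mem hg' hg)
  obtain ⟨l, hl, e'⟩ := hilbert90 hσ hσ2 (d := σ (LinearMap.det ((g' * g : V ≃ₗ[F] V) : V →ₗ[F] V)))
    (by rw [hσ2]; exact h1)
  obtain ⟨k, k0, k1, k2, k3⟩ := h.exists_torW hC hl
  refine ⟨g' * g * k, ⟨mul_mem (mul_mem hg' hg) k0, mem_SLV.2 ?_⟩, l, hl, ?_, ?_⟩
  · rw [LinearEquiv.coe_toLinearMap_mul, map_mul, k3, e', mul_comm]; exact h1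
  · rw [LinearEquiv.mul_apply, LinearEquiv.mul_apply, k1, e, e1 _ (mem_span_singleton_self _)]
  · rw [LinearEquiv.mul_apply, k2, map_smul, LinearEquiv.mul_apply, e2]

end

variable {K F : Type*} [Field K] [Field F] [Algebra K F] {V₀ V : Type*} [AddCommGroup V₀]
  [Module K V₀] [AddCommGroup V] [Module F V] [Module K V] [IsScalarTower K F V]
  {ι : V₀ →ₗ[K] V} {σ : F →+* F} {hσ2 : ∀ a, σ (σ a) = a} {σ₀ : K →+* K}
  {hσ₀ : ∀ a, σ₀ (σ₀ a) = a} {C : CForm (hermType σ hσ2) V} {C₀ : CForm (hermType σ₀ hσ₀) V₀}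
  {X : Subgroup (V ≃ₗ[F] V)} [FiniteDimensional K V₀] [FiniteDimensional F V] [Finite F]
  [Finite V₀]

local notation "𝔣" => algebraMap K F

variable (C C₀ ι X) in
/-- A unitary rational structure; `X` contains the rational group. -/
structure RH : Prop where
  rat : Rat F ι
  hB : ∀ x y, C.B (ι x) (ι y) = 𝔣 (C₀.B x y)
  hσ : ∀ k, σ (𝔣 k) = 𝔣 (σ₀ k)
  ne₀ : σ₀ ≠ RingHom.id K
  nd : C.Nondeg
  dim : 4 ≤ finrank K V₀
  le : X ≤ C.isom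
  sub : ratStab F ι ⊓ (C.isom ⊓ SLV F V) ≤ X

namespace RH

variable (h : RH ι C C₀ X)
include h

theorem nd₀ : C₀.Nondeg := h.rat.nondeg₀ h.nd h.hB

theorem nm₀ : ∀ a, σ₀ a = a → ∃ b, b * σ₀ b = a :=
  have := Finite.of_injective _ (𝔣).injective
  exists_norm_of_finite hσ₀ h.ne₀

theorem ne : σ ≠ RingHom.id F := fun e => h.ne₀ (RingHom.ext fun k => (𝔣).injective (by
  rw [← h.hσ, e]; rfl))

theorem B0 {x y : V₀} (e : C₀.B x y = 0) : C.B (ι x) (ι y) = 0 := by rw [h.hB, e, map_zero]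

theorem B1 {x y : V₀} (e : C₀.B x y = 1) : C.B (ι x) (ι y) = 1 := by rw [h.hB, e, map_one]

theorem B0' {x y : V₀} (e : C.B (ι x) (ι y) = 0) : C₀.B x y = 0 := by
  rwa [h.hB, map_eq_zero] at e

theorem hN (x : V₀) (e : C₀.N x = 0) : C.N (ι x) = 0 := by
  rw [← herm_B_self, h.hB, herm_B_self, e, map_zero]

theorem hN' (x : V₀) (e : C.N (ι x) = 0) : C₀.N x = 0 := by
  rwa [← herm_B_self, h.hB, herm_B_self, map_eq_zero] at e

theorem tsp {v : V₀} (hv : C₀.N v = 0) (hv0 : v ≠ 0) : ∃ c, TSP C₀ v c :=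
  herm_tsp h.nm₀ h.nd₀ h.dim hv hv0

theorem map_tsp {v c : V₀} (e : TSP C₀ v c) : TSP C (ι v) (ι c) :=
  ⟨h.hN v e.hv, h.hN c e.hc, h.B0 e.hB, h.rat.ne_zero e.ne, h.rat.not_mem_span_singleton e.nm⟩

theorem sing : ∃ v, C₀.N v = 0 ∧ v ≠ 0 :=
  let ⟨v, a, b⟩ := (iso3_herm h.nm₀ C₀).exists_iso (by have := h.dim; omega); ⟨v, b, a⟩

theorem rootG : RootG C (C.isom ⊓ SLV F V) :=
  rootG_herm h.ne (exists_norm_of_finite hσ2 h.ne) h.nd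
    (by have := h.dim; rw [← h.rat.finrank_eq]; omega)

theorem ext {g : V₀ ≃ₗ[K] V₀} (hg : g ∈ C₀.isom ⊓ SLV K V₀) : ∃ k ∈ X, ∀ x, k (ι x) = ι (g x) := by
  obtain ⟨k, hk⟩ := h.rat.exists_extend g
  exact ⟨k, h.sub ⟨h.rat.mem_ratStab_one fun x => ⟨_, hk x⟩, herm_mem_isom (h.rat.B_ext fun x y => by
    rw [hk, hk, h.hB, h.hB, CForm.isom_B hg.1]),
    mem_SLV.2 (by rw [h.rat.det_eq hk, mem_SLV.1 hg.2, map_one])⟩, hk⟩

theorem rho (v u : V₀) (hv : C₀.N v = 0) (hu : C₀.N u = 0) (e : C₀.B v u = 0) :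
    Rq C X (ι v) (ι u) 0 := by
  simpa using (h.rat.rq_rat (C₀ := C₀) h.hB h.hσ (k := 0) (by
    simpa using h.rootG.rho _ _ (h.hN v hv) (h.hN u hu) (h.B0 e))).mono h.sub

theorem tv {v : V₀} (hv : C₀.N v = 0) {k : K} (hk : k + σ₀ k = 0) : Rq C X (ι v) 0 (𝔣 k) := by
  obtain ⟨g, hg, e⟩ := tr_of_tv (C := C) (h.hN v hv) (tvOk_herm.2 (show -𝔣 k + σ (-𝔣 k) = 0 by
    rw [map_neg, h.hσ, ← neg_add, ← map_add, hk]; simp))
  simpa using (h.rat.rq_rat (C₀ := C₀) h.hB h.hσ (k := k) (u := 0) (by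
    rw [map_zero]
    exact ⟨g, hg, fun x => by simp [e, sub_eq_add_neg]⟩)).mono h.sub

theorem witt1 {u v : V₀} (hu : C₀.N u = 0) (hv : C₀.N v = 0) (hu0 : u ≠ 0) (hv0 : v ≠ 0) :
    ∃ k ∈ X, IsRat ι k ∧ k (ι u) = ι v := by
  obtain ⟨g, hg, e'⟩ := (spec_herm h.ne₀ h.nm₀ h.nd₀).witt_one h.dim hu0 hv0 (hv.trans hu.symm)
  obtain ⟨k, hk, e⟩ := h.ext hg
  exact ⟨k, hk, fun x => ⟨_, e x⟩, by rw [e, e']⟩

theorem perp_add {v : V₀} (hv : C₀.N v = 0) (hv0 : v ≠ 0) (S : AddSubgroup V₀)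
    (hS : ∀ u, TSP C₀ v u → u ∈ S) {x : V₀} (hx : C₀.B v x = 0) : x ∈ S :=
  let ⟨_, hc⟩ := h.tsp hv hv0; hc.perp_add h.nd₀ S hS hx

theorem perp_mem {v : V₀} (hv : C₀.N v = 0) (hv0 : v ≠ 0) {Z : Submodule F V}
    (hZ : ∀ u, TSP C₀ v u → ι u ∈ Z) {y : V} (hy : C.B (ι v) y = 0) : y ∈ Z := by
  have h1 : ∀ x, C₀.B v x = 0 → ι x ∈ Z := fun x =>
    h.perp_add hv hv0 (Z.toAddSubgroup.comap ι.toAddMonoidHom) hZ
  obtain ⟨p, hp⟩ := h.nd₀.exists_eq hv0 1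
  have := h.rat.mem (Z := Z.comap (LinearMap.id - (C.B (ι v)).smulRight (ι p)))
    (fun x => by simpa [h.hB] using h1 (x - C₀.B v x • p) (by simp [hp])) y
  simpa [hy] using mem_comap.1 this

theorem rat_of_pair {y : V} (hy : ∀ x, ∃ k, C.B (ι x) y = 𝔣 k) : ∃ p, y = ι p :=
  h.rat.mem_range fun φ₀ φ e => by
    obtain ⟨z, hz⟩ := h.nd₀.exists_rep φ₀
    obtain ⟨k, hk⟩ := hy z
    exact ⟨k, by simpa [hk, sub_eq_zero] using
      h.rat.map_eq_zero (φ := φ - C.B (ι z)) (fun x => by simp [e, h.hB, hz]) y⟩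

theorem rat_mod {v : V₀} (hv : C₀.N v = 0) (hv0 : v ≠ 0) {y : V}
    (hy : ∀ u, TSP C₀ v u → ∃ k, C.B (ι u) y = 𝔣 k) : ∃ (p : V₀) (μ : F), y = ι p + μ • ι v := by
  have h1 : ∀ x, C₀.B v x = 0 → ∃ k, C.B (ι x) y = 𝔣 k := fun x => h.perp_add hv hv0
    { carrier := {x | ∃ k, C.B (ι x) y = 𝔣 k}
      zero_mem' := ⟨0, by simp⟩
      add_mem' := fun ⟨k, e⟩ ⟨k', e'⟩ => ⟨k + k', by simp [e, e']⟩
      neg_mem' := fun ⟨k, e⟩ => ⟨-k, by simp [e]⟩ } hy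
  obtain ⟨q, hq⟩ := h.nd₀.exists_eq hv0 1
  have h3 : C.B (ι q) (ι v) ≠ 0 := C.B_swap_ne (by rw [h.B1 hq]; exact one_ne_zero)
  obtain ⟨p, e⟩ := h.rat_of_pair (y := y - (C.B (ι q) y / C.B (ι q) (ι v)) • ι v) fun x => by
    obtain ⟨k, hk⟩ := h1 (x - C₀.B v x • q) (by simp [hq])
    have h4 := C.B_swap_zero (h.B0 (x := v) (y := x - C₀.B v x • q) (by simp [hq]))
    rw [map_sub, ι_smul (F := F), C.B_sub_left, C.B_smul_left] at hk h4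
    refine ⟨k, ?_⟩
    rw [map_sub, map_smul, sub_eq_zero.1 h4, ← hk, smul_eq_mul]
    field_simp
  exact ⟨p, _, eq_add_of_sub_eq e⟩

theorem rq_smul {v c : V₀} (e : TSP C₀ v c) {γ a : F} (hr : Rq C X (ι v) (γ • ι c) a) (k : K) :
    ∃ a, Rq C X (ι v) ((𝔣 k * γ) • ι c) a := by
  have := Finite.of_injective _ (𝔣).injective
  have := Fintype.ofFinite K
  have hvv := h.B0 (C₀.B_self_of_zero e.hv)
  let A : AddSubgroup K :=
    { carrier := {k | ∃ a, Rq C X (ι v) ((𝔣 k * γ) • ι c) a}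
      zero_mem' := ⟨0, by simpa using rho_zero⟩
      add_mem' := fun ⟨_, a⟩ ⟨_, b⟩ => ⟨_, by
        rw [map_add, add_mul, add_smul]
        exact a.mul b hvv (by simp [h.B0 e.hB]) (by simp [h.B0 e.hB])⟩
      neg_mem' := fun ⟨_, a⟩ => ⟨_, by
        simpa using rho_zero.div a hvv (by simp) (by simp [h.B0 e.hB])⟩ }
  refine addSubgroup_all h.ne₀ hσ₀ (A := A) (fun ω hω k ⟨a, ha⟩ => ?_) (a := 1)
    ⟨a, by simpa using hr⟩ one_ne_zero k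
  obtain ⟨μ, hμ, e'⟩ := hilbert90 h.ne₀ hσ₀ (d := σ₀ ω) (by rwa [hσ₀, mul_comm])
  have hμ' := (map_ne_zero σ₀).2 hμ
  obtain ⟨s, s0, s1, s2, s3⟩ := e.exists_torW h.nd₀ (inv_ne_zero hμ)
  obtain ⟨t, t0, t1, t2, t3⟩ := e.symm.exists_torW h.nd₀ hμ
  obtain ⟨g, hg, eg⟩ := h.ext (g := s * t) ⟨mul_mem s0 t0, mem_SLV.2 (by
    rw [LinearEquiv.coe_toLinearMap_mul, map_mul, s3, t3, map_inv₀]; field_simp)⟩
  have := ha.conj hg (h.le hg)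
  rw [map_smul, eg, eg, LinearEquiv.mul_apply, LinearEquiv.mul_apply, t1, t2, map_smul, s1, s2,
    ι_smul (F := F), ι_smul (F := F)] at this
  refine ⟨_, (congrArg (Rq C X (ι v) · _) ?_).mp this.smul_left'⟩
  have e2 : ω = σ₀ μ * μ⁻¹ := by simpa [hσ₀] using (congrArg σ₀ e').symm
  simp only [smul_smul, hermσ, h.hσ, e2, map_mul]
  congr 1; ring

theorem trans {γ a : F} {v c v' c' : V₀} (h1 : TSP C₀ v c) (h2 : TSP C₀ v' c')
    (hr : Rq C X (ι v) (γ • ι c) a) : ∃ a, Rq C X (ι v') (γ • ι c') a := by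
  obtain ⟨g, hg, l, hl, e1, e2⟩ := h1.exists_move h.nm₀ h.nd₀ h.ne₀ h2
  obtain ⟨k, hk, e⟩ := h.ext hg
  have := hr.conj hk (h.le hk)
  rw [map_smul, e, e, e1, e2, ι_smul (F := F), smul_smul] at this
  obtain ⟨a', ha'⟩ := h.rq_smul h2 this l⁻¹
  have hl' : 𝔣 l ≠ 0 := (map_ne_zero 𝔣).2 hl
  exact ⟨a', by rwa [map_inv₀, mul_comm γ, inv_mul_cancel_left₀ hl'] at ha'⟩

theorem tv_of_comm {γ : F} (hA : ∀ v c, TSP C₀ v c → ∃ a, Rq C X (ι v) (γ • ι c) a) {v : V₀}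
    (hv : C₀.N v = 0) (hv0 : v ≠ 0) : Rq C X (ι v) 0 (σ γ - γ) := by
  have hvv := h.B0 (C₀.B_self_of_zero hv)
  obtain ⟨c, hc⟩ := h.tsp hv hv0
  obtain ⟨f, hf, e0⟩ := hc.exists_partner h.nd₀
  have c1 : C.B (ι v) (γ • ι c) = 0 := by simp [h.B0 hc.hB]
  have c2 := h.B0 hf.hB
  obtain ⟨a, e⟩ := hA v c hc
  have e' := h.rho v f hv hf.hc hf.hB
  convert (e.mul e' hvv c1 c2).div (e'.mul e hvv c2 c1) hvv (by simp [c1, c2]) (by simp [c1, c2])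
    using 1
  · simp [add_comm]
  · simp [add_comm (ι f), herm_symm (ι c) (ι f), h.B1 e0, hermσ, hσ2]

theorem all (hmax : MaxSub K F) {v : V₀} (hv : C₀.N v = 0) (hv0 : v ≠ 0) {y : V} {a : F}
    (hy : C.B (ι v) y = 0) (hr : Rq C X (ι v) y a) (hn : ∀ (p : V₀) (μ : F), y ≠ ι p + μ • ι v)
    (β : F) : ∀ v c, TSP C₀ v c → ∃ a, Rq C X (ι v) (β • ι c) a := by
  let M : F → Prop := fun γ => ∀ v c, TSP C₀ v c → ∃ a, Rq C X (ι v) (γ • ι c) a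
  have m1 : ∀ k γ, M γ → M (𝔣 k * γ) := fun k γ hγ v c e =>
    let ⟨_, ha⟩ := hγ v c e; h.rq_smul e ha k
  have m2 : ∀ {γ γ'}, M γ → M γ' → M (γ + γ') := fun hγ hγ' v c e =>
    let ⟨_, ha⟩ := hγ v c e
    let ⟨_, hb⟩ := hγ' v c e
    ⟨_, by
      rw [add_smul]
      exact ha.mul hb (h.B0 (C₀.B_self_of_zero e.hv)) (by simp [h.B0 e.hB]) (by simp [h.B0 e.hB])⟩
  let A : Subring F :=
    { carrier := {α | ∀ γ, M γ → M (α * γ)}
      zero_mem' := fun γ hγ => by simpa using m1 0 γ hγ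
      one_mem' := fun γ hγ => by rwa [one_mul]
      add_mem' := fun ha hb γ hγ => by rw [add_mul]; exact m2 (ha γ hγ) (hb γ hγ)
      neg_mem' := fun ha γ hγ => by simpa using m1 (-1) _ (ha γ hγ)
      mul_mem' := fun ha hb γ hγ => by rw [mul_assoc]; exact ha _ (hb γ hγ) }
  have m3 : ∀ δ, M δ → σ δ - δ ∈ A := fun δ hδ γ hγ v c e => by
    obtain ⟨f, hf, e0⟩ := e.exists_partner h.nd₀
    obtain ⟨a, ha⟩ := m1 (-1) γ hγ v f hf
    obtain ⟨k, hk, ek⟩ := h.tv_of_comm hδ e.hc e.symm.ne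
    have := ha.comm hk (h.le hk) (by simp [ek, h.B0 e.symm.hB]) (h.B0 (C₀.B_self_of_zero e.hv))
      (by simp [h.B0 hf.hB])
    exact ⟨_, (congrArg (Rq C X (ι v) · _) (by simp [ek, h.B1 e0])).mp this⟩
  obtain ⟨u, a1, a3⟩ : ∃ u, TSP C₀ v u ∧ ∀ k, C.B (ι u) y ≠ 𝔣 k := by
    by_contra hc
    push Not at hc
    obtain ⟨p, μ, e⟩ := h.rat_mod hv hv0 hc
    exact hn p μ e
  obtain ⟨k₀, h3, h4⟩ := exists_trace_zero' (hσ2 := hσ₀) h.ne₀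
  obtain ⟨k, hk, ek⟩ := h.tv a1.hc h4
  have h1 := hr.comm hk (h.le hk) (by simp [ek, h.B0 a1.symm.hB]) (h.B0 (C₀.B_self_of_zero hv)) hy
  rw [show k y - y = (-(𝔣 k₀ * C.B (ι u) y)) • ι u by rw [ek]; simp] at h1
  have h2 : M (C.B (ι u) y) := by
    have h3' : 𝔣 k₀ ≠ 0 := (map_ne_zero 𝔣).2 h3
    simpa [h3'] using m1 (-k₀⁻¹) _ fun v' c' e => h.trans a1 e h1
  generalize C.B (ι u) y = γ at a3 h2
  obtain ⟨θ, hθ⟩ := exists_ne_of_ne_id h.ne₀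
  obtain ⟨δ, d1, d2⟩ : ∃ δ, M δ ∧ ∀ k, σ δ - δ ≠ 𝔣 k := by
    by_contra hc
    push Not at hc
    obtain ⟨k₁, e₁⟩ := hc γ h2
    obtain ⟨k₂, e₂⟩ := hc _ (m1 θ γ h2)
    have h5 : 𝔣 (σ₀ θ - θ) ≠ 0 := (map_ne_zero 𝔣).2 (sub_ne_zero.2 hθ)
    refine a3 ((k₂ - σ₀ θ * k₁) / (σ₀ θ - θ)) ?_
    rw [map_div₀, eq_div_iff h5]
    rw [map_mul, h.hσ] at e₂
    simp only [map_sub, map_mul]
    linear_combination e₂ - 𝔣 (σ₀ θ) * e₁
  simpa using hmax A (fun k γ hγ => m1 k γ hγ) _ (m3 δ d1) d2 β 1 fun v c e =>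
    ⟨0, by simpa using h.rho v c e.hv e.hc e.hB⟩

theorem exists_rho (hA : ∀ (β : F) v c, TSP C₀ v c → ∃ a, Rq C X (ι v) (β • ι c) a) {v : V₀}
    (hv : C₀.N v = 0) (hv0 : v ≠ 0) (y : V) (hy : C.B (ι v) y = 0) : ∃ a, Rq C X (ι v) y a := by
  simpa using (h.perp_mem hv hv0 (Z :=
    { carrier := {y | C.B (ι v) y = 0 ∧ ∀ β : F, ∃ a, Rq C X (ι v) (β • y) a}
      zero_mem' := ⟨by simp, fun _ => ⟨0, by simpa using rho_zero⟩⟩
      add_mem' := fun ⟨a1, a2⟩ ⟨a3, a4⟩ => ⟨by simp [a1, a3], fun β => by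
        obtain ⟨a, e⟩ := a2 β
        obtain ⟨a', e'⟩ := a4 β
        rw [smul_add]
        exact ⟨_, e.mul e' (h.B0 (C₀.B_self_of_zero hv)) (by simp [a1]) (by simp [a3])⟩⟩
      smul_mem' := fun c _ ⟨a1, a2⟩ => ⟨by simp [a1], fun β => by rw [smul_smul]; exact a2 _⟩ })
    (fun u a => ⟨h.B0 a.hB, fun β => hA β v u a⟩) hy).2 1

theorem exists_rho₀ {v y : V₀} (hv : C₀.N v = 0) (hv0 : v ≠ 0) (hy : C₀.B v y = 0) :
    ∃ a, Rq C X (ι v) (ι y) a :=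
  (h.perp_add hv hv0
    { carrier := {y | C₀.B v y = 0 ∧ ∃ a, Rq C X (ι v) (ι y) a}
      zero_mem' := ⟨by simp, 0, by simpa using rho_zero⟩
      add_mem' := fun ⟨a1, a, e⟩ ⟨a3, a', e'⟩ => ⟨by simp [a1, a3], _, by
        rw [map_add]; exact e.mul e' (h.B0 (C₀.B_self_of_zero hv)) (h.B0 a1) (h.B0 a3)⟩
      neg_mem' := fun ⟨a1, a, e⟩ => ⟨by simp [a1], _, by
        simpa using rho_zero.div e (h.B0 (C₀.B_self_of_zero hv)) (by simp) (h.B0 a1)⟩ }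
    (fun u a => ⟨a.hB, 0, h.rho v u a.hv a.hc a.hB⟩) hy).2

theorem le_of_all (hX : X ≤ C.isom ⊓ SLV F V)
    (hA : ∀ (β : F) v c, TSP C₀ v c → ∃ a, Rq C X (ι v) (β • ι c) a) : C.isom ⊓ SLV F V ≤ X := by
  have hG := h.rootG
  have key : ∀ v p, C₀.N v = 0 → C₀.B v p = 1 → Q1 C _ X (ι v) := fun v p hv hp => by
    have hv0 : v ≠ 0 := by rintro rfl; simp at hp
    refine q1_of_rho hG.le hX (h.hN v hv) (h.B1 hp) (h.exists_rho hA hv hv0) fun a ha => ?_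
    obtain ⟨e, -⟩ := ha.tvOk hG.le (h.hN v hv) (h.B1 hp)
    change a * 1 + σ a = 0 at e
    obtain ⟨θ, hθ⟩ := exists_trace_eq h.ne hσ2 (map_one σ)
    convert h.tv_of_comm (hA (-(a * θ))) hv hv0 using 1
    rw [map_neg, map_mul]
    linear_combination -a * hθ + σ θ * e
  obtain ⟨v, a2, a1⟩ := h.sing
  obtain ⟨p, -, b1, b2⟩ := h.nd₀.exists_partner (Z := ⊥) (x := v) (by simpa) a2
    (by simp [C₀.perp_bot])
  obtain ⟨q, hq⟩ := h.nd₀.exists_eq (show p ≠ 0 by rintro rfl; simp at b2) 1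
  exact hG.fin X _ _ (h.hN v a2) (h.hN p b1) (by rw [h.B1 b2]; exact one_ne_zero) (key v p a2 b2)
    (key p q b1 hq)

end RH

end H12
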