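import Cfsg.Agent.H12.U4c

/-!
# Subfield subgroups of unitary groups of dimension at least four, II
-/

set_option autoImplicit false
set_option maxHeartbeats 400000

namespace H12

open Module H11 Submodule Cfsg Cfsg.Geo

section

variable {K F : Type*} [Field K] [Field F] [Algebra K F] {V₀ V : Type*} [AddCommGroup V₀]
  [Module K V₀] [AddCommGroup V] [Module F V] [Module K V] [IsScalarTower K F V]
  {ι : V₀ →ₗ[K] V} {σ : F →+* F} {hσ2 : ∀ a, σ (σ a) = a} {σ₀ : K →+* K}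
  {hσ₀ : ∀ a, σ₀ (σ₀ a) = a} {C : CForm (hermType σ hσ2) V} {C₀ : CForm (hermType σ₀ hσ₀) V₀}
  {X : Subgroup (V ≃ₗ[F] V)} [FiniteDimensional K V₀] [FiniteDimensional F V] [Finite F]
  [Finite V₀]

local notation "𝔣" => algebraMap K F

namespace RH

variable (h : RH ι C C₀ X) (hQ : RatQ ι C C₀ X)
include h hQ

theorem norm_rat {u b : V₀} (e : TSP C₀ u b) {α β : F} {k : K} (hk : k ≠ 0)
    (hr : Rq C X (α • ι u + β • ι b) 0 (𝔣 k)) : ∃ k', β * σ β = 𝔣 k' := by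
  obtain ⟨-, f, -, -, d1, d2⟩ := e.exists_dual h.nd₀
  have te := h.map_tsp e
  obtain ⟨s, hs, es⟩ := hr
  obtain ⟨a, ha⟩ := h.exists_rho₀ e.hv e.ne d1
  have c := ha.comm hs (h.le hs) (by simp [es, C.B_self_of_zero te.hv, te.symm.hB])
    (C.B_self_of_zero te.hv) (h.B0 d1)
  rw [show s (ι f) - ι f = -(𝔣 k * σ β) • (α • ι u + β • ι b) by
    rw [es]; simp [h.B0 d1, h.B1 d2, hermσ, add_comm]] at c
  obtain ⟨p, μ, ep⟩ := hQ u e.hv e.ne _ _ (by simp [C.B_self_of_zero te.hv, te.hB]) c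
  obtain ⟨φ₀, φ, f1, f2, f3⟩ := h.rat.exists_one_zero e.nm
  have c4 := congrArg φ ep
  simp only [map_add, map_smul, f3, f2 u (mem_span_singleton_self _), f1 p, smul_eq_mul] at c4
  have hk' : 𝔣 k ≠ 0 := (map_ne_zero 𝔣).2 hk
  exact ⟨-φ₀ p / k, by rw [map_div₀, map_neg, eq_div_iff hk']; linear_combination -c4⟩

variable {g : V ≃ₗ[F] V} (hg : g ∈ X)
include hg

theorem good_of_line {a b x : V₀} (e : TSP C₀ a b) (hx : C₀.N x = 0)
    (hm : g (ι x) ∈ span F {ι a, ι b}) : Good ι g x := by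
  obtain ⟨k, k1, k2⟩ := exists_trace_zero' (hσ2 := hσ₀) h.ne₀
  have hr := (h.tv hx k2).conj hg (h.le hg)
  obtain ⟨α, β, em⟩ := mem_span_pair.1 hm
  rw [map_zero, ← em] at hr
  by_cases hβ : β = 0
  · exact ⟨α, a, by rw [← em, hβ, zero_smul, add_zero]⟩
  obtain ⟨n₁, e₁⟩ := h.norm_rat hQ e k1 hr
  obtain ⟨n₂, e₂⟩ := h.norm_rat hQ e.symm k1 (add_comm (α • ι a) _ ▸ hr)
  have key : ∀ κ : K, ∃ k', 𝔣 κ * (α * σ β) + 𝔣 (σ₀ κ) * (σ α * β) = 𝔣 k' := fun κ => by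
    have t : TSP C₀ b (a + κ • b) := ⟨e.hc, by
      rw [C₀.N_add_of_orth (by simp [e.hB]), e.hv, C₀.N_smul_of_zero e.hc, add_zero],
      by simp [e.symm.hB, C₀.B_self_of_zero e.hc], e.symm.ne, fun e' => e.symm.nm
        ((add_mem_cancel_right (smul_mem _ _ (mem_span_singleton_self b))).1 e')⟩
    obtain ⟨n, en⟩ := h.norm_rat hQ t.symm k1 (α := α) (β := β - 𝔣 κ * α) (by
      convert hr using 1
      rw [map_add, ι_smul (F := F)]; module)
    rw [map_sub, map_mul, h.hσ] at en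
    exact ⟨n₁ + κ * σ₀ κ * n₂ - n, by
      simp only [map_sub, map_add, map_mul]
      linear_combination e₁ + 𝔣 κ * 𝔣 (σ₀ κ) * e₂ - en⟩
  obtain ⟨θ, hθ⟩ := exists_ne_of_ne_id h.ne₀
  obtain ⟨m₁, c₁⟩ := key 1
  obtain ⟨m₂, c₂⟩ := key θ
  have h5 : 𝔣 (θ - σ₀ θ) ≠ 0 := (map_ne_zero 𝔣).2 (sub_ne_zero.2 (Ne.symm hθ))
  have h6 : 𝔣 n₁ ≠ 0 := e₁ ▸ mul_ne_zero hβ ((map_ne_zero σ).2 hβ)
  refine ⟨β, ((m₂ - σ₀ θ * m₁) / (θ - σ₀ θ) / n₁) • a + b, ?_⟩
  rw [← em, map_add, ι_smul (F := F), smul_add, smul_smul, map_div₀, map_div₀]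
  congr 2
  rw [mul_div_assoc', mul_div_assoc', eq_div_iff h6, eq_div_iff h5]
  simp only [map_sub, map_mul, map_one] at c₁ ⊢
  linear_combination β * c₂ - β * 𝔣 (σ₀ θ) * c₁ - α * (𝔣 θ - 𝔣 (σ₀ θ)) * e₁

theorem good_data {p x : V₀} (e : TSP C₀ p x) (gp : Good ι g p) :
    ∃ (c : F) (q y : V₀) (μ : F), c ≠ 0 ∧ TSP C₀ q y ∧ g (ι p) = c • ι q ∧
      (hermType σ hσ2).σ c • g (ι x) = ι y + μ • ι q := by
  obtain ⟨c, q, e1⟩ := gp
  have n0 : g (ι p) ≠ 0 := by simpa using h.rat.ne_zero e.ne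
  have hc : c ≠ 0 := by rintro rfl; simp [e1] at n0
  have hq0 : q ≠ 0 := by rintro rfl; simp [e1] at n0
  have hq : C.N (ι q) = 0 := by
    rw [← inv_smul_smul₀ hc (ι q), ← e1, C.N_smul_of_zero]
    rw [CForm.isom_N (h.le hg), h.hN p e.hv]
  have hr := (h.rho p x e.hv e.hc e.hB).conj hg (h.le hg)
  have hB : C.B (ι q) ((hermType σ hσ2).σ c • g (ι x)) = 0 := by
    rw [map_smul, smul_eq_mul, ← C.B_smul_left, ← e1, CForm.isom_B (h.le hg), h.B0 e.hB]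
  rw [e1] at hr
  obtain ⟨y, μ, e2⟩ := hQ q (h.hN' q hq) hq0 _ _ hB hr.smul_left'
  have h1 : C.B (ι q) (ι y) = 0 := by simpa [e2, C.B_self_of_zero hq] using hB
  refine ⟨c, q, y, μ, hc, ⟨h.hN' q hq, h.hN' y ?_, h.B0' h1, hq0, fun e' => ?_⟩, e1, e2⟩
  · have : C.N ((hermType σ hσ2).σ c • g (ι x)) = 0 :=
      C.N_smul_of_zero (by rw [CForm.isom_N (h.le hg), h.hN x e.hc]) _
    rwa [e2, C.N_add_of_orth (by simp [C.B_swap_zero h1]), C.N_smul_of_zero hq, add_zero] at this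
  · obtain ⟨t, rfl⟩ := mem_span_singleton.1 e'
    refine h.rat.not_mem_span_singleton e.nm (mem_span_singleton.2
      ⟨((hermType σ hσ2).σ c)⁻¹ * (𝔣 t + μ) * c⁻¹, g.injective (smul_right_injective V ((hermType σ hσ2).σ_ne_zero hc) ?_)⟩)
    have := (hermType σ hσ2).σ_ne_zero hc
    simp only [e2, map_smul g, e1, smul_smul, ι_smul (F := F), ← add_smul]
    congr 1; field_simp

theorem good_step {p x : V₀} (e : TSP C₀ p x) (gp : Good ι g p) : Good ι g x := by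
  obtain ⟨c, q, y, μ, a1, a2, -, a4⟩ := h.good_data hQ hg e gp
  exact h.good_of_line hQ hg a2 e.hc ((smul_mem_iff _ ((hermType σ hσ2).σ_ne_zero a1)).1
    (a4 ▸ add_mem (mem_pair_right _ _) (smul_mem _ _ (mem_pair_left _ _))))

theorem mem_of_good {a : V₀} (ha : C₀.N a = 0) (ha0 : a ≠ 0) (ga : Good ι g a) :
    g ∈ ratStab F ι := by
  have hd := h.dim
  refine h.rat.mem_ratStab_of_points {x | C₀.N x = 0} ha ha0
    ((iso3_herm h.nm₀ C₀).mem_of_iso h.nd₀ (by omega)) (fun x hx x' hx' n n' => ?_) fun x hx => ?_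
  · obtain ⟨z, b1, b2⟩ := herm_perp_two h.nm₀ h.nd₀ hd hx hx' n n'
    exact ⟨z, b1.hc, b1.nm, b2.nm, by simpa [C₀.N_add, b1.hc, b1.symm.hB] using hx,
      by simpa [C₀.N_add, b1.hc, b2.symm.hB] using hx'⟩
  by_cases h0 : x = 0
  · exact ⟨0, 0, by simp [h0]⟩
  obtain ⟨z, b1, b2⟩ := herm_perp_two h.nm₀ h.nd₀ hd ha hx ha0 h0
  exact h.good_step hQ hg b2.symm (h.good_step hQ hg b1 ga)

omit hg

theorem ti_point {a₀ : F} (ha₀ : a₀ ≠ 0) {v : V₀} (hv : C₀.N v = 0) (hv0 : v ≠ 0)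
    (hT : Rq C X (ι v) 0 a₀) : TI C X (ratStab F ι) (span F {ι v}) := by
  have h1 : span F {ι v} ≤ C.perp (span F {ι v}) := (span_singleton_le_iff_mem _ _).2
    (C.mem_perp_singleton.2 (C.B_self_of_zero (h.hN v hv)))
  refine ⟨h.nd, h.le, h1, fun s _ hs h0 l hl => ?_, fun s hs hs' => ?_,
    fun k hk s hs hs' h0 e => ?_, ?_⟩
  · obtain ⟨x, hx⟩ := not_forall.1 (not_mem_cen_bot h0)
    obtain ⟨c, hc⟩ := mem_span_singleton.1 (hs x)
    obtain ⟨d, rfl⟩ := mem_span_singleton.1 hl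
    have : c ≠ 0 := by rintro rfl; exact hx (by simp [← hc])
    exact ⟨(d / c) • x, by rw [map_smul, ← smul_sub, ← hc, smul_smul, div_mul_cancel₀ _ this]⟩
  · exact h.mem_of_good hQ hs hv hv0 ⟨1, v, by
      rw [h.nd.cen_fix (h.le hs) hs' (h1 (mem_span_singleton_self _)), one_smul]⟩
  · obtain ⟨x, u, a1, a2⟩ := h.rat.exists_sub (h.rat.isRat_of_unip e (conj_sq fun x =>
      h.nd.cen_fix (h.le hs) hs' (h1 (hs' x)))) (not_mem_cen_bot (conj_ne_one h0))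
    obtain ⟨c, hc⟩ := mem_span_singleton.1 (hs' (k (ι x)))
    have a3 : k (ι u) = c • ι v := by
      rw [← a1, hc, map_sub, LinearEquiv.mul_apply, LinearEquiv.mul_apply, apply_inv_apply]
    exact h.mem_of_good hQ hk (h.hN' u (by
      rw [← CForm.isom_N (h.le hk), a3, C.N_smul_of_zero (h.hN v hv)]))
      (by rintro rfl; simp at a2) ⟨c, v, a3⟩
  · obtain ⟨s, hs, e⟩ := hT
    obtain ⟨p, hp⟩ := h.nd.exists_eq (h.rat.ne_zero hv0) 1
    refine ⟨s, hs, fun x => by simp [e, smul_mem, mem_span_singleton_self], fun e' => ?_⟩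
    simpa [e', hp, ha₀, h.rat.ne_zero hv0, eq_sub_iff_add_eq] using e p

theorem le_of_point : X ≤ ratStab F ι := by
  obtain ⟨k₀, k1, k2⟩ := exists_trace_zero' (hσ2 := hσ₀) h.ne₀
  have ha₀ : 𝔣 k₀ ≠ 0 := (map_ne_zero 𝔣).2 k1
  have hT : ∀ u, C₀.N u = 0 → Rq C X (ι u) 0 (𝔣 k₀) := fun u hu => h.tv hu k2
  generalize 𝔣 k₀ = a₀ at ha₀ hT
  have h2 : (2 : F) = 0 → ∀ u, C₀.B u u = 0 → C₀.N u = 0 := fun _ u e => by rwa [← herm_B_self]
  have := Module.finite_of_finite F (M := V)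
  have hd := h.dim
  obtain ⟨v, hv, hv0⟩ := h.sing
  have ti := h.ti_point hQ ha₀ hv hv0 (hT v hv)
  by_contra hc
  obtain ⟨k, hk⟩ := exists_maxK (L := span F {ι v}) hc
  have hm : k (ι v) ∈ (span F {ι v}).map (k : V →ₗ[F] V) := ⟨_, mem_span_singleton_self _, rfl⟩
  have h0 : span F {ι v} ⊓ (span F {ι v}).map (k : V →ₗ[F] V) = ⊥ := by
    refine (Submodule.eq_bot_iff _).2 ?_
    rintro _ ⟨a1, l, hl, rfl⟩
    obtain ⟨c, rfl⟩ := mem_span_singleton.1 hl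
    obtain ⟨d, hd⟩ := mem_span_singleton.1 a1
    by_contra h0
    have : c ≠ 0 := by rintro rfl; simp at h0
    exact hk.nm (h.mem_of_good hQ hk.mem hv hv0 ⟨c⁻¹ * d, v, by
      rw [mul_smul, hd]; simp [smul_smul, this]⟩)
  have key : ∀ u, C₀.N u = 0 → C.B (ι u) (k (ι v)) = 0 → u = 0 := fun u hu e => by
    by_contra hu0
    obtain ⟨g, hg, a1, a2⟩ := h.witt1 hv hu hv0 hu0
    have := ti.perp_eq_zero hk h0 hg (h.rat.mem_ratStab_one a1) hm fun l hl => by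
      obtain ⟨c, rfl⟩ := mem_span_singleton.1 hl
      rw [map_smul, a2, C.B_smul_left, e, mul_zero]
    exact h.rat.ne_zero hv0 (by simpa using this)
  obtain ⟨c, hc⟩ := h.tsp hv hv0
  by_cases h2' : (2 : F) = 0
  · obtain ⟨s, hs, e⟩ := hT v hv
    obtain ⟨t, ht, e'⟩ := hT c hc.hc
    have tc := h.map_tsp hc
    have e1 : ∀ x, (s * t) x = x - (a₀ * C.B (ι v) x) • ι v - (a₀ * C.B (ι c) x) • ι c := fun x => by
      rw [LinearEquiv.mul_apply, e, e']; simp [tc.hB]; module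
    have e2 : s * t ∈ cen (span F {ι v, ι c}) := fun x => by
      rw [e1, sub_sub x, sub_sub_cancel_left]
      exact neg_mem (add_mem (smul_mem _ _ (mem_pair_left _ _)) (smul_mem _ _ (mem_pair_right _ _)))
    obtain ⟨a', b', d1, d2, d3, d4⟩ := tc.exists_dual h.nd
    have e3 : (s * t) a' - a' = -a₀ • ι v := by rw [e1, d1, d2]; module
    have e4 : (s * t) b' - b' = -a₀ • ι c := by rw [e1, d3, d4]; module
    have n0 := neg_ne_zero.2 ha₀
    obtain ⟨z, z1, z2, z3, z4, -, z5⟩ := ti.dih h2' hk.mem (mul_mem hs ht)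
      (sq_of_sub h2' fun x => h.nd.cen_fix (h.le (mul_mem hs ht)) e2
        (C.mem_perp.2 fun y hy => tc.ts.2 y hy _ (e2 x)))
      (fun x _ e' => by
        have a1 := Submodule.finrank_mono (span_le.2 (by
          rintro _ (rfl | rfl)
          exacts [(smul_mem_iff _ n0).1 (e3 ▸ e' a'), (smul_mem_iff _ n0).1 (e4 ▸ e' b')]) :
          span F {ι v, ι c} ≤ (span F {ι v}).map (x : V →ₗ[F] V))
        have a2 := finrank_span_singleton_le (F := F) (ι v)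
        rw [finrank_map_equiv, tc.finrank_eq] at a1
        omega)
      fun z hz e' => by
        have a1 : ∀ x, z ((s * t) x - x) ∈ span F {ι v, ι c} := fun x => by
          rw [map_sub, ← LinearEquiv.mul_apply z, e']; exact e2 (z x)
        exact h.mem_of_good hQ hz hv hv0 (h.good_of_line hQ hz hc hv
          ((smul_mem_iff _ n0).1 (by rw [← map_smul, ← e3]; exact a1 _)))
    have z6 := sub_of_sq h2' z4
    have z7 : z (k (ι v)) = k (ι v) := by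
      obtain ⟨l, hl, e'⟩ := z5 _ hm
      obtain ⟨d, rfl⟩ := mem_span_singleton.1 hl
      replace e' : z (k (ι v)) = d • k (ι v) := by rw [← e']; simp
      have a1 := z6 (k (ι v))
      rw [map_sub, e', map_smul, e'] at a1
      have a2 : ((d - 1) * (d - 1)) • k (ι v) = 0 := by linear_combination (norm := module) a1
      rw [e', sub_eq_zero.1 (mul_self_eq_zero.1 ((smul_eq_zero.1 a2).resolve_right
        (by simpa using h.rat.ne_zero hv0))), one_smul]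
    obtain ⟨x, u, a1, a2⟩ := h.rat.exists_sub (h.rat.isRat_of_unip z2 z6) (not_mem_cen_bot z3)
    exact a2 (by
      rw [key u (h2 h2' u (h.B0' (by rw [← a1]; exact isom_B_fix (h.le z1) (z6 _) _)))
        (a1 ▸ isom_B_fix (h.le z1) z7 _)]; simp)
  · obtain ⟨g, g1, g2, -, g3, g4, g5⟩ := ti.fr_odd h2' hk
    obtain ⟨x, t, a1, a2⟩ := h.rat.exists_sub (h.rat.isRat_of_sub g2 hc.nm (span_mono
      (by simpa using ⟨v, mem_span_singleton_self v, rfl⟩)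
      (g5 _ (C.mem_perp_singleton.2 (h.B0 hc.hB))))) g4
    obtain ⟨l, hl, _, ⟨m, hm, rfl⟩, e⟩ := mem_sup.1 (a1 ▸ g3 (ι x))
    obtain ⟨d, rfl⟩ := mem_span_singleton.1 hl
    obtain ⟨d', rfl⟩ := mem_span_singleton.1 hm
    obtain ⟨u, u2, u3, u1, u1'⟩ := herm_perp_pair h.nm₀ h.nd₀ hd v t
    have a3 := congrArg (C.B (ι u)) e
    have : d' ≠ 0 := by rintro rfl; exact a2 (by simpa [← e] using hl)
    refine u2 (key u u3 ?_)
    simpa [h.B0 (C₀.B_swap_zero u1), h.B0 (C₀.B_swap_zero u1'), this] using a3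

end RH

theorem isMaximalIn_rat_herm4 (hR : Rat F ι) (hmax : MaxSub K F)
    (hne : ∃ α : F, ∀ k : K, α ≠ algebraMap K F k) (hC : C.Nondeg) (hd : 4 ≤ finrank K V₀)
    {σ₀ : K →+* K} (hσ' : ∀ k, σ (𝔣 k) = 𝔣 (σ₀ k)) (hσ₀ : σ₀ ≠ RingHom.id K)
    (hr : ∀ x y, ∃ k, C.B (ι x) (ι y) = 𝔣 k) :
    IsMaximalIn (C.isom ⊓ SLV F V) (ratStab F ι ⊓ (C.isom ⊓ SLV F V)) := by
  obtain ⟨B₀, hB⟩ := exists_restrB C hσ' hr
  have h2 : ∀ k, σ₀ (σ₀ k) = k := fun k => (𝔣).injective (by rw [← hσ', ← hσ', hσ2])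
  let C₀ := CForm.ofHerm σ₀ hσ₀ h2 B₀
    ⟨fun x y => (𝔣).injective (by rw [← hσ', ← hB, ← hB, ← herm_symm])⟩
  have H : ∀ Y, ratStab F ι ⊓ (C.isom ⊓ SLV F V) ≤ Y → Y ≤ C.isom ⊓ SLV F V → RH ι C C₀ Y :=
    fun Y a b => ⟨hR, hB, hσ', hσ₀, hC, hd, b.trans inf_le_left, a⟩
  refine isMaximalIn_of _ _ inf_le_right (fun hle => ?_) fun Y hY hYX g hg hg' => ?_
  · have h := H _ le_rfl inf_le_right
    obtain ⟨α, hα⟩ := hne
    obtain ⟨p, a2, a1⟩ := h.sing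
    obtain ⟨c, hc⟩ := h.tsp a2 a1
    obtain ⟨w, -, p3, p5, -⟩ := hc.exists_dual h.nd₀
    obtain ⟨g, hg, e⟩ := h.rootG.rho (ι p) (α • ι c) (h.hN p a2)
      (C.N_smul_of_zero (h.hN c hc.hc) _) (by simp [h.B0 hc.hB])
    exact hR.not_mem_ratStab hα (y₁ := c) (y₂ := w) (by rintro rfl; simp at p3)
      (C₀.not_mem_span_of_B hc.hB (p3 ▸ one_ne_zero) hc.symm.ne)
      (x := w) (by simp [e, h.B1 p3, h.B0 (C₀.B_swap_zero p5), add_comm]) (hle hg).1
  have h := H Y hY hYX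
  by_contra hc
  exact hg' ⟨h.le_of_point (fun v a1 a2 y a a3 a4 => by_contra fun hn =>
    hc (h.le_of_all hYX (h.all hmax a1 a2 a3 a4 (by simpa using hn)))) hg, hYX hg⟩

end

variable {F : Type*} [Field F] [Fintype F] {n q : ℕ} (hF : Fintype.card F = q ^ 2)
include hF

local notation "𝓖" => GU n F q ⊓ specialLinear (Fin n) F

theorem su4_rat (hn : 4 ≤ n) {F₀ : Subfield F} {r : ℕ} {P : GL (Fin n) F} (hr : r.Prime)
    (hro : Odd r) (hcard : Fintype.card F = Nat.card F₀ ^ r)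
    (hP : IsFormRationalStructure (hermForm n F q) F₀ 1 P) :
    IsMaximalIn 𝓖 (subfieldSubgroup F₀ P ⊓ 𝓖) := by
  have hc : Nat.card F = Nat.card F₀ ^ r := by rwa [Nat.card_eq_fintype_card]
  rw [SU_eq hF, subfieldSubgroup_eq, ← Subgroup.comap_inf]
  refine isMaximalIn_comap _ (isMaximalIn_rat_herm4 (rat_ratMap F₀ P) (maxSub_subfield hr hc)
    (exists_not_mem_subfield hr hc) (hermC_nondeg hF) (by simpa)
    (σ₀ := (frob hF).restrict F₀ F₀ fun x hx => pow_mem hx q) (fun _ => rfl) (fun h => ?_)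
    fun x y => ⟨⟨_, hP _ _ (fun i => (y i).2) fun i => (x i).2⟩, by
      rw [hermC_B_eq, ratMap_apply, ratMap_apply]; exact (one_mul _).symm⟩)
  obtain ⟨θ, hθ⟩ := (maxSub_subfield hr hc).two (frob_ne_id hF) (frob_frob hF)
    fun k => congrArg Subtype.val (RingHom.congr_fun h k)
  have := Nat.card_le_card_of_surjective (fun k : F₀ × F₀ => (k.1 : F) + k.2 * θ) fun α =>
    let ⟨k, k', e⟩ := hθ α; ⟨(k, k'), e.symm⟩
  rw [Nat.card_prod, hc, ← sq, Nat.pow_le_pow_iff_right Finite.one_lt_card] at this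
  have := hr.two_le
  obtain rfl : r = 2 := by omega
  exact absurd hro (by decide)

end H12
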