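import Cfsg.Agent.H12.UF1

/-!
# Groups generated by unitary quasi-reflections containing a monomial group
-/

set_option autoImplicit false
set_option maxHeartbeats 400000

namespace H12

open Module H11 QuadraticMap Equiv Finset

variable {F : Type*} [Field F] {V : Type*} [AddCommGroup V] [Module F V] {σ : F →+* F}
  {hσ2 : ∀ a, σ (σ a) = a} {C : CForm (hermType σ hσ2) V} {Y : Subgroup (V ≃ₗ[F] V)}
  {κ : Type*} {e : κ → V} {g k : V ≃ₗ[F] V} {u v w x y : V} {a c ω : F} {o : κ}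

local notation "𝐌" => decStab (frD F e)

theorem hermσ (t : F) : (hermType σ hσ2).σ t = σ t := rfl

variable (e) in
theorem ufr_eb (x : V) (i : κ) : C.B x (e i) = σ (C.B (e i) x) := herm_symm _ _

theorem urS_map (hv : C.N v = 0) (hy : y ∈ urS C Y hv) (hk : k ∈ Y) (hk' : k ∈ C.isom)
    (e : k v = v) : k y ∈ urS C Y hv :=
  ⟨by rw [← e, CForm.isom_B hk', hy.1], hy.2.imp fun _ h => by simpa [e] using h.conj hk hk'⟩

variable (C e) in
/-- An orthonormal basis. -/
structure UFr : Prop where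
  nd : C.Nondeg
  one : ∀ i, C.N (e i) = 1
  orth : ∀ i j, i ≠ j → C.B (e i) (e j) = 0
  ext0 : ∀ x, (∀ i, C.B (e i) x = 0) → x = 0

namespace UFr

variable (h : UFr C e)
include h

theorem ext (H : ∀ i, C.B (e i) x = C.B (e i) y) : x = y :=
  sub_eq_zero.1 (h.ext0 _ fun i => by rw [map_sub, H, sub_self])

theorem e_ne (i : κ) : e i ≠ 0 := fun H => by simpa [H, C.N_zero] using h.one i

theorem bee (i : κ) : C.B (e i) (e i) = 1 := by rw [herm_B_self, h.one]

theorem N_rt {i j : κ} (hij : i ≠ j) (a : F) : C.N (e i + a • e j) = 1 + a * σ a := by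
  simp [herm_N_add, herm_N_smul, h.one, h.orth i j hij]

theorem N_sub {i j : κ} (hij : i ≠ j) : C.N (e i - e j) = 2 := by
  have := h.N_rt hij (-1)
  rw [neg_one_smul, ← sub_eq_add_neg] at this
  rw [this]; simp; ring

theorem frD_inj : Function.Injective (frD F e) := fun i j H => by
  by_contra hij
  obtain ⟨c, hc⟩ := Submodule.mem_span_singleton.1
    (H.le (Submodule.mem_span_singleton_self (e i)))
  have := h.orth j i (Ne.symm hij)
  rw [← hc, map_smul, h.bee, smul_eq_mul, mul_one] at this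
  exact h.e_ne i (by rw [← hc, this, zero_smul])

variable [DecidableEq κ]

theorem be (i j : κ) : C.B (e i) (e j) = if i = j then 1 else 0 := by
  split_ifs with H
  exacts [H ▸ h.bee i, h.orth i j H]

theorem eq_smul {i : κ} (H : ∀ l, l ≠ i → C.B (e l) x = 0) : x = C.B (e i) x • e i :=
  h.ext fun l => by
    by_cases e : l = i
    · simp [e, h.bee]
    · simp [H l e, h.be, e]

theorem co_q (hω : ω * σ ω = 1) (i : κ) (x : V) (l : κ) :
    C.B (e l) (uq C (e i) (ω - 1) x) = if l = i then ω * C.B (e l) x else C.B (e l) x := by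
  rw [uq_apply (uq_ok (h.one i) hω), map_add, map_smul, h.be]
  split_ifs with H
  · rw [H, smul_eq_mul]; ring
  · simp

theorem co_sw {i j : κ} (hij : i ≠ j) (x : V) (l : κ) :
    C.B (e l) (uq C (e i - e j) (-1) x) = C.B (e (swap i j l)) x := by
  rw [uq_apply (uq_ok2 (h.N_sub hij)), C.B_sub_left, map_add, map_smul, map_sub, h.be, h.be,
    swap_apply_def]
  split_ifs <;> simp_all

variable [Fintype κ]

theorem sum (x : V) : ∑ i, C.B (e i) x • e i = x := h.ext fun l => by simp [h.be]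

theorem B_eq (x y : V) : C.B x y = ∑ i, σ (C.B (e i) x) * C.B (e i) y := by
  conv_lhs => rw [← h.sum y]
  simp [ufr_eb e x, mul_comm]

omit [DecidableEq κ] in
theorem mem_dec [FiniteDimensional F V] (H : ∀ i, ∃ j, ∀ l, l ≠ j → C.B (e l) (g (e i)) = 0) :
    g ∈ 𝐌 := by
  classical
  refine mem_decStab_of_exists h.frD_inj fun i => ?_
  obtain ⟨j, e1⟩ := H i
  have e2 := h.eq_smul e1
  refine ⟨j, ?_⟩
  rw [frD, Submodule.map_span, Set.image_singleton, LinearEquiv.coe_coe, e2, frD,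
    Submodule.span_singleton_smul_eq (IsUnit.mk0 _ fun e3 =>
      h.e_ne i (g.injective (by rw [e2, e3, zero_smul, map_zero])))]

omit [DecidableEq κ] [Fintype κ] in
theorem two (hg : g ∈ 𝐌) {i p q : κ} (hp : C.B (e p) (g (e i)) ≠ 0)
    (hq : C.B (e q) (g (e i)) ≠ 0) : p = q := by
  classical
  obtain ⟨j, c, -, e1⟩ := of_mem_frD h.e_ne hg i
  simp only [e1, map_smul, h.be, smul_eq_mul, mul_ite, mul_zero, ne_eq, ite_eq_right_iff,
    not_forall] at hp hq
  exact hp.1.trans hq.1.symm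

end UFr

variable (C Y e o) in
/-- A group containing the monomial group on the complement of a frame vector. -/
structure UY : Prop extends UFr C e where
  le : Y ≤ C.isom
  fix : ∀ k ∈ Y, k (e o) = e o
  qr : ∀ i, i ≠ o → ∀ ω, ω * σ ω = 1 → uq C (e i) (ω - 1) ∈ Y
  sw : ∀ i j, i ≠ o → j ≠ o → i ≠ j → uq C (e i - e j) (-1) ∈ Y

variable (C Y e o) in
/-- The unit vectors whose quasi-reflections lie in `Y`. -/
def RU (y : V) : Prop :=
  C.N y = 1 ∧ C.B (e o) y = 0 ∧ ∀ ω, ω * σ ω = 1 → uq C y (ω - 1) ∈ Y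

variable (C Y e) in
/-- `Y` contains a short root subgroup adapted to the frame. -/
def UGoal : Prop := ∃ m p l, m ≠ p ∧ l ≠ m ∧ l ≠ p ∧ ∃ a, a * σ a = -1 ∧
  ∀ μ : F, ∃ b, Rq C Y (e m + a • e p) (μ • e l) b

namespace UY

variable (h : UY C Y e o)
include h

theorem map (hy : RU C Y e o y) (hk : k ∈ Y) : RU C Y e o (k y) :=
  ⟨(CForm.isom_N (h.le hk) y).trans hy.1, by rw [← h.fix k hk, CForm.isom_B (h.le hk), hy.2.1],
    fun ω hω => uq_conj (h.le hk) ▸ mul_mem (mul_mem hk (hy.2.2 ω hω)) (inv_mem hk)⟩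

theorem base {i : κ} (hi : i ≠ o) : RU C Y e o (e i) := ⟨h.one i, h.orth _ _ hi.symm, h.qr i hi⟩

variable [Fintype F] (hσ : σ ≠ RingHom.id F) (hN : ∀ a, σ a = a → ∃ b, b * σ b = a)
include hσ hN

theorem tan1 {m p : κ} (hmp : m ≠ p) (hm : m ≠ o) (hp : p ≠ o) (hv0 : v ≠ 0) (hv : C.N v = 0)
    (h1 : C.B (e m) v = 0) (h2 : C.B (e p) v = 0) (h3 : RU C Y e o (e m + v)) : UGoal C Y e := by
  classical
  obtain ⟨ω, hω, hω1, -⟩ := exists_nOne hσ hσ2 1 1
  have h1' := C.B_swap_zero h1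
  have h2' := C.B_swap_zero h2
  have a1 : (ω - 1) • e m ∈ urS C Y hv := ⟨by simp [h1'], 1 - ω, _,
    mul_mem (h3.2.2 ω hω) (h.qr m hm _ (nOne_σ hω hσ2)), fun x => by
      rw [LinearEquiv.mul_apply, uq_apply (uq_ok h3.1 hω), uq_apply (uq_ok (h.one m) (nOne_σ hω hσ2))]
      simp only [map_add, map_smul, LinearMap.add_apply, h.bee, h1', smul_eq_mul, hermσ, map_mul,
        map_sub, map_one, ← herm_symm x]
      match_scalars
      · ring
      · linear_combination C.B (e m) x * hω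
      · linear_combination C.B (e m) x * hω⟩
  have a2 : ∀ μ : F, μ • e m ∈ urS C Y hv := addSubgroup_all hσ hσ2
    (A := (urS C Y hv).comap (LinearMap.toSpanSingleton F V (e m)).toAddMonoidHom)
    (fun ω hω a ha => by
      have := urS_map hv ha (h.qr m hm ω hω) uq_isom (uq_of_perp h1)
      change (ω * a) • e m ∈ urS C Y hv
      convert this using 1
      exact h.ext fun l => by simp [h.co_q hω, h.be]; grind) a1 (sub_ne_zero.2 hω1)
  have a3 : ∀ μ : F, μ • e p ∈ urS C Y hv := fun μ => by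
    convert urS_map hv (a2 μ) (h.sw m p hm hp hmp) uq_isom
      (uq_of_perp (by rw [C.B_sub_left, h1, h2, sub_self])) using 1
    exact h.ext fun l => by simp [h.co_sw hmp, h.be, swap_apply_eq_iff]
  obtain ⟨a, ha⟩ := hN (-1) (by simp)
  have hu : C.N (e m + a • e p) = 0 := by rw [h.N_rt hmp, ha, add_neg_cancel]
  have a4 : ∀ μ : F, μ • v ∈ urS C Y hu := fun μ => by
    obtain ⟨b1, b, b2⟩ := add_mem (a2 (-σ μ)) (a3 (-σ μ * a))
    have b3 := urq_norm (b2.mono h.le) h.nd hv0 hv b1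
    rw [mul_smul, ← smul_add] at b1 b2 b3
    rw [C.N_smul_of_zero hu] at b3
    obtain ⟨k, hk, e1⟩ := b2.div (urq_tv hσ hv (h.one m) a2 b3) (C.B_self_of_zero hv) b1 (map_zero _)
    refine ⟨by simp [C.B_add_left, herm_B_smul_left, h1, h2], 0, k, hk, fun x => ?_⟩
    rw [e1]
    generalize e m + a • e p = u
    simp [hermσ, hσ2, ← herm_symm x]
    module
  obtain ⟨l, hl⟩ : ∃ l, C.B (e l) v ≠ 0 := by
    by_contra H
    push Not at H
    exact hv0 (h.ext0 v H)
  have b1 : l ≠ m := by rintro rfl; exact hl h1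
  have b2 : l ≠ p := by rintro rfl; exact hl h2
  have b3 : l ≠ o := by
    rintro rfl
    exact hl (by simpa [h.orth _ _ b1] using h3.2.1)
  refine ⟨m, p, l, hmp, b1, b2, a, ha, fun μ => ?_⟩
  have b4 := sub_ne_zero.2 hω1
  have := sub_mem (urS_map hu (a4 (μ / ((ω - 1) * C.B (e l) v))) (h.qr l b3 ω hω) uq_isom
    (uq_of_perp (by simp [h.be, b1, b2]))) (a4 (μ / ((ω - 1) * C.B (e l) v)))
  rw [uq_apply (uq_ok (h.one l) hω), add_sub_cancel_left, map_smul, smul_eq_mul, mul_left_comm,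
    div_mul_cancel₀ _ (mul_ne_zero b4 hl)] at this
  exact this.2

theorem tan (hy : RU C Y e o y) (hu : RU C Y e o (y + u)) (hu0 : u ≠ 0) (h0 : C.B y u = 0)
    {m p : κ} (hmp : m ≠ p) (hm : m ≠ o) (hp : p ≠ o) (h1 : C.B (e m) u = 0)
    (h2 : C.B (e p) u = 0) (h3 : C.B (e m) y ≠ 0) : UGoal C Y e := by
  obtain ⟨ω, hω, hω1, -⟩ := exists_nOne hσ hσ2 1 1
  have h4 : C.N u = 0 := by simpa [herm_N_add, hy.1, h0] using hu.1
  have h5 : 1 - σ ω ≠ 0 := fun H => hω1 (by
    rw [← sub_eq_zero.1 H, mul_one] at hω; exact hω)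
  refine h.tan1 hσ hN hmp hm hp (v := ((1 - σ ω) * C.B y (e m)) • u)
    (smul_ne_zero (mul_ne_zero h5 (C.B_swap_ne h3)) hu0) (C.N_smul_of_zero h4 _) (by simp [h1])
    (by simp [h2]) ?_
  convert h.map (h.base hm) (mul_mem (hu.2.2 ω hω) (hy.2.2 _ (nOne_σ hω hσ2))) using 1
  rw [LinearEquiv.mul_apply, uq_apply (uq_ok hu.1 hω), uq_apply (uq_ok hy.1 (nOne_σ hω hσ2))]
  simp only [map_add, map_smul, LinearMap.add_apply, herm_B_self, hy.1, C.B_swap_zero h0,
    C.B_swap_zero h1, smul_eq_mul]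
  match_scalars
  · ring
  · linear_combination -C.B y (e m) * hω
  · linear_combination -C.B y (e m) * hω

variable [Fintype κ] (h7 : 7 ≤ Fintype.card κ)
include h7

open Classical in
theorem grow (hy : RU C Y e o y) (h2 : 2 ≤ (univ.filter fun i => C.B (e i) y ≠ 0).card)
    (h4 : (univ.filter fun i => C.B (e i) y ≠ 0).card ≤ 4) : UGoal C Y e ∨ ∃ z, RU C Y e o z ∧
      (univ.filter fun i => C.B (e i) y ≠ 0).card < (univ.filter fun i => C.B (e i) z ≠ 0).card := by
  obtain ⟨p, -, hp⟩ := exists_mem_notMem_of_card_lt_card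
    (s := insert o (univ.filter fun i => C.B (e i) y ≠ 0)) (t := univ)
    ((card_insert_le _ _).trans_lt (by rw [card_univ]; omega))
  simp only [mem_insert, mem_filter, mem_univ, true_and, not_or, not_not] at hp
  obtain ⟨l, hl, r, hr, hlr⟩ := one_lt_card.1 h2
  simp only [mem_filter, mem_univ, true_and] at hl hr
  have h5 : l ≠ o := by rintro rfl; exact hl hy.2.1
  have h6 : l ≠ p := by rintro rfl; exact hl hp.2
  by_cases H : C.B (e l) y * σ (C.B (e l) y) = 1
  · have h8 : RU C Y e o (C.B (e l) y • e l) := by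
      convert h.map (h.base h5) (h.qr l h5 _ H) using 1
      exact h.ext fun t => by simp [h.co_q H, h.be]; grind
    refine Or.inl (h.tan hσ hN h8 (u := y - C.B (e l) y • e l) (by simpa using hy)
      (fun H => hr ?_) (by simp [herm_B_smul_left, h.bee]) h6 h5 hp.1 (by simp [h.bee])
      (by simp [hp.2, h.be, h6.symm]) (by simpa [h.bee] using hl))
    rw [sub_eq_zero.1 H]
    simp [h.be, hlr.symm]
  have h8 : C.B y (uq C (e l - e p) (-1) y) = 1 - C.B (e l) y * σ (C.B (e l) y) := by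
    rw [uq_apply (uq_ok2 (h.N_sub h6))]
    simp [herm_B_self, hy.1, hp.2, ufr_eb e y]
    ring
  have h9 := sub_ne_zero.2 (Ne.symm H)
  obtain ⟨ω, hω, hω1, hω2⟩ := exists_nOne hσ hσ2 1 (1 - (1 - C.B (e l) y * σ (C.B (e l) y))⁻¹)
  refine Or.inr ⟨_, h.map (h.map hy (h.sw l p h5 hp.1 h6)) (hy.2.2 ω hω), ?_⟩
  refine (card_insert_of_notMem (a := p) (by simp [hp.2])).ge.trans (card_le_card fun t ht => ?_)
  simp only [mem_insert, mem_filter, mem_univ, true_and] at ht ⊢
  rw [uq_apply (uq_ok hy.1 hω), map_add, map_smul, h.co_sw h6, h8, smul_eq_mul]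
  generalize 1 - C.B (e l) y * σ (C.B (e l) y) = β at *
  rcases ht with rfl | ht
  · simpa [hp.2] using hl
  by_cases e1 : t = l
  · simp [e1, hp.2, sub_eq_zero, hω1, h9, hl]
  rw [swap_apply_of_ne_of_ne e1 (by rintro rfl; exact ht hp.2), ← one_add_mul]
  exact mul_ne_zero (fun e2 => hω2 (by field_simp; linear_combination e2)) ht

open Classical in
theorem five (hy : RU C Y e o y) (h5 : 5 ≤ (univ.filter fun i => C.B (e i) y ≠ 0).card) :
    UGoal C Y e := by
  have ex : ∀ s : Finset κ, s.card < 5 → ∃ p, C.B (e p) y ≠ 0 ∧ p ∉ s := fun s hs => by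
    simpa using exists_mem_notMem_of_card_lt_card (s := s)
      (t := univ.filter fun i => C.B (e i) y ≠ 0) (by omega)
  obtain ⟨i, hi, -⟩ := ex ∅ (by simp)
  obtain ⟨j, hj, a1⟩ := ex {i} (by simp)
  obtain ⟨k, hk, a2⟩ := ex {j, i} (card_le_two.trans_lt (by omega))
  obtain ⟨l, hl, a3⟩ := ex {k, j, i} (card_le_three.trans_lt (by omega))
  obtain ⟨m, hm, a4⟩ := ex {l, k, j, i} (card_le_four.trans_lt (by omega))
  obtain ⟨p, a5⟩ := exists_notMem_list [o, m, l, k, j, i] (by simp; omega)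
  have ne : ∀ t, C.B (e t) y ≠ 0 → t ≠ o := by rintro t ht rfl; exact ht hy.2.1
  simp only [mem_insert, mem_singleton, not_or, List.mem_cons, List.not_mem_nil,
    not_false_eq_true, and_true] at a1 a2 a3 a4 a5
  have fx : ∀ t, σ (σ (C.B (e t) y) * C.B (e t) y) = σ (C.B (e t) y) * C.B (e t) y := fun t => by
    rw [map_mul, hσ2, mul_comm]
  have n0 : ∀ t, C.B (e t) y ≠ 0 → σ (C.B (e t) y) * C.B (e t) y ≠ 0 := fun t ht =>
    mul_ne_zero ((map_ne_zero σ).2 ht) ht
  obtain ⟨α, β, γ, δ, b1, b2, b3, b4, b5, b6⟩ := exists_four_nOne hσ hσ2 (fx i) (fx j) (fx k) (fx l)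
    (n0 i hi) (n0 j hj) (n0 k hk) (n0 l hl)
  refine h.tan hσ hN hy (u := ((α - 1) * C.B (e i) y) • e i + ((β - 1) * C.B (e j) y) • e j +
    ((γ - 1) * C.B (e k) y) • e k + ((δ - 1) * C.B (e l) y) • e l) ?_ (fun H => ?_) ?_
    (Ne.symm a5.2.1) (ne m hm) a5.1 (by simp [h.be, a4]) (by simp [h.be, a5]) hm
  · convert h.map (h.map (h.map (h.map hy (h.qr i (ne i hi) α b1)) (h.qr j (ne j hj) β b2))
      (h.qr k (ne k hk) γ b3)) (h.qr l (ne l hl) δ b4) using 1
    refine h.ext fun t => ?_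
    simp only [h.co_q, b1, b2, b3, b4, map_add, map_smul, h.be, smul_eq_mul]
    clear * - a1 a2 a3
    grind
  · have c1 := congrArg (C.B (e i)) H
    have c2 := congrArg (C.B (e j)) H
    simp only [map_add, map_smul, h.be, smul_eq_mul, map_zero] at c1 c2
    clear * - a1 a2 a3 c1 c2 b5 hi hj
    grind
  · simp only [map_add, map_smul, ufr_eb e y, smul_eq_mul]
    linear_combination b6

theorem goal (hy : RU C Y e o y) {i j : κ} (hij : i ≠ j) (hi : C.B (e i) y ≠ 0)
    (hj : C.B (e j) y ≠ 0) : UGoal C Y e := by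
  classical
  have key : ∀ n, ∀ y, RU C Y e o y → 2 ≤ (univ.filter fun i => C.B (e i) y ≠ 0).card →
      5 ≤ (univ.filter fun i => C.B (e i) y ≠ 0).card + n → UGoal C Y e := by
    intro n
    induction n with
    | zero => exact fun y hy _ h5 => h.five hσ hN h7 hy (by convert h5.trans_eq (add_zero _))
    | succ n ih =>
      intro y hy h2 h5
      by_cases h4 : (univ.filter fun i => C.B (e i) y ≠ 0).card ≤ 4
      · rcases h.grow hσ hN h7 hy (by convert h2) (by convert h4) with H | ⟨z, hz, H⟩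
        · exact H
        · have : (univ.filter fun i => C.B (e i) y ≠ 0).card <
            (univ.filter fun i => C.B (e i) z ≠ 0).card := by convert H
          exact ih z hz (by omega) (by omega)
      · exact ih y hy h2 (by omega)
  have := one_lt_card.2 ⟨i, (by simpa using hi : i ∈ univ.filter fun i => C.B (e i) y ≠ 0), j,
    by simpa using hj, hij⟩
  exact key 3 y hy this (by omega)

end UY

end H12
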