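import Cfsg.Agent.H12.UF2

/-!
# Overgroups of the stabiliser of an orthonormal frame in the special unitary group
-/

set_option autoImplicit false
set_option maxHeartbeats 400000

namespace H12

open Module H11 QuadraticMap Equiv Finset

variable {F : Type*} [Field F] {V : Type*} [AddCommGroup V] [Module F V] {σ : F →+* F}
  {hσ2 : ∀ a, σ (σ a) = a} {C : CForm (hermType σ hσ2) V} {X : Subgroup (V ≃ₗ[F] V)}
  {κ : Type*} {e : κ → V} {g k : V ≃ₗ[F] V} {u v w x y : V} {a c ω : F}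

local notation "𝐌" => decStab (frD F e)
local notation "𝐒" => C.isom ⊓ SLV F V

variable (C) in
/-- A product of two quasi-reflections of determinant one. -/
noncomputable def uss (x y : V) (ω : F) : V ≃ₗ[F] V := uq C x (ω - 1) * uq C y (σ ω - 1)

theorem uss_isom : uss C x y ω ∈ C.isom := mul_mem uq_isom uq_isom

theorem uss_conj (hg : g ∈ C.isom) : g * uss C x y ω * g⁻¹ = uss C (g x) (g y) ω := by
  rw [uss, uss, ← uq_conj hg, ← uq_conj hg]; group

theorem uss_apply (hx : C.N x = 1) (hy : C.N y = 1) (hxy : C.B x y = 0) (hω : ω * σ ω = 1) (z : V) :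
    uss C x y ω z = z + ((ω - 1) * C.B x z) • x + ((σ ω - 1) * C.B y z) • y := by
  rw [uss, LinearEquiv.mul_apply, uq_apply (uq_ok hx hω), uq_apply (uq_ok hy (nOne_σ hω hσ2))]
  simp [hxy, add_right_comm]

theorem uss_su [FiniteDimensional F V] (hx : C.N x = 1) (hy : C.N y = 1) (hω : ω * σ ω = 1) :
    uss C x y ω ∈ 𝐒 :=
  ⟨uss_isom, mem_SLV.2 (by
    rw [uss, LinearEquiv.coe_toLinearMap_mul, map_mul, det_uq (uq_ok hx hω),
      det_uq (uq_ok hy (nOne_σ hω hσ2)), hx, hy]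
    linear_combination hω)⟩

namespace UFr

variable (h : UFr C e)
include h

theorem alt (hk : k ∈ 𝐌) (p : κ) : (∃ c : F, k (e p) = c • e p) ∨ C.B (e p) (k (e p)) = 0 := by
  obtain ⟨j, c, -, e1⟩ := of_mem_frD h.e_ne hk p
  by_cases H : p = j
  · exact Or.inl ⟨c, H ▸ e1⟩
  · exact Or.inr (by simp [e1, h.orth _ _ H])

variable [Fintype κ] [FiniteDimensional F V]

theorem q_mem (hω : ω * σ ω = 1) (i : κ) : uq C (e i) (ω - 1) ∈ 𝐌 := by
  classical
  exact h.mem_dec fun j => ⟨j, fun l hl => by simp [h.co_q hω, h.be, hl]⟩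

theorem rt_mem {i j : κ} (hij : i ≠ j) (ha : a * σ a = 1) : uq C (e i + a • e j) (-1) ∈ 𝐌 := by
  classical
  refine h.mem_dec fun p => ⟨swap i j p, fun l hl => ?_⟩
  rw [uq_apply (uq_ok2 (by rw [h.N_rt hij, ha]; norm_num))]
  simp only [map_add, map_smul, LinearMap.add_apply, herm_B_smul_left, h.be, smul_eq_mul]
  rw [swap_apply_def] at hl
  grind

theorem sw_mem {i j : κ} (hij : i ≠ j) : uq C (e i - e j) (-1) ∈ 𝐌 := by
  simpa [sub_eq_add_neg] using h.rt_mem hij (a := -1) (by simp)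

end UFr

variable (C X e) in
/-- An overgroup of the stabiliser of a frame. -/
structure UX : Prop extends UFr C e where
  le : X ≤ 𝐒
  ge : 𝐌 ⊓ 𝐒 ≤ X

namespace UX

variable [Fintype κ] [FiniteDimensional F V] (h : UX C X e)
include h

theorem ss_mem (i j : κ) (hω : ω * σ ω = 1) : uss C (e i) (e j) ω ∈ X :=
  h.ge ⟨mul_mem (h.q_mem hω i) (h.q_mem (nOne_σ hω hσ2) j), uss_su (h.one i) (h.one j) hω⟩

theorem sw_memX {i j : κ} (hij : i ≠ j) (o : κ) : uq C (e i - e j) (-1) * uq C (e o) (-1 - 1) ∈ X :=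
  h.ge ⟨mul_mem (h.sw_mem hij) (h.q_mem (by simp) o), mul_mem uq_isom uq_isom, mem_SLV.2 (by
    rw [LinearEquiv.coe_toLinearMap_mul, map_mul, det_uq (uq_ok2 (h.N_sub hij)),
      det_uq (uq_ok (h.one o) (by simp)), h.N_sub hij, h.one]
    ring)⟩

variable [Fintype F] (hσ : σ ≠ RingHom.id F) (hN : ∀ a, σ a = a → ∃ b, b * σ b = a)
  (h7 : 7 ≤ Fintype.card κ)
include hσ hN h7

theorem le_of_goal (H : UGoal C X e) : 𝐒 ≤ X := by
  classical
  obtain ⟨m, p, l, hmp, hl, hl', a, ha, H⟩ := H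
  have hv : C.N (e m + a • e p) = 0 := by rw [h.N_rt hmp, ha, add_neg_cancel]
  have a1 : ∀ μ : F, μ • e l ∈ urS C X hv := fun μ =>
    ⟨by simp [herm_B_smul_left, h.be, hl.symm, hl'.symm], H μ⟩
  have a2 : ∀ t, t ≠ m → t ≠ p → ∀ μ : F, μ • e t ∈ urS C X hv := fun t h1 h2 μ => by
    by_cases h3 : l = t
    · exact h3 ▸ a1 μ
    convert urS_map hv (a1 (-μ)) (h.sw_memX h3 l) (mul_mem uq_isom uq_isom) (by
      rw [LinearEquiv.mul_apply, uq_of_perp (v := e l) (by simp [h.be, hl, hl']),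
        uq_of_perp (by simp [h.be, *])]) using 1
    refine h.ext fun r => ?_
    rw [LinearEquiv.mul_apply, h.co_sw h3, h.co_q (by simp)]
    simp only [map_smul, h.be, swap_apply_eq_iff, swap_apply_left]
    split_ifs <;> simp
  have a3 : C.B (e m + a • e p) (e m) = 1 := by simp [herm_B_smul_left, h.be, hmp.symm]
  have a4 : Q1 C 𝐒 X (e m + a • e p) := q1_of_rho inf_le_left h.le hv a3 (fun y hy => by
      have : y ∈ urS C X hv := by
        convert add_mem (urq_self hv (C.B (e m) y)) (sum_mem (t := (univ.erase m).erase p)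
          fun t ht => a2 t (ne_of_mem_erase (mem_of_mem_erase ht)) (ne_of_mem_erase ht)
            (C.B (e t) y)) using 1
        simp only [map_add, LinearMap.add_apply, herm_B_smul_left] at hy
        refine h.ext fun r => ?_
        simp only [map_add, map_smul, map_sum, h.be, smul_eq_mul, mul_ite, mul_one, mul_zero,
          sum_ite_eq, mem_erase, mem_univ, and_true]
        clear * - hy ha hmp
        grind
      exact this.2)
    fun b hb => urq_tv hσ hv (h.one l) a1 (by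
      simpa [hermType] using (hb.tvOk inf_le_left hv a3).1)
  obtain ⟨ω, hω, hω1, -⟩ := exists_nOne hσ hσ2 1 1
  have a5 := h.ss_mem m l hω
  have : finrank F V ≠ 3 := by
    have := (LinearIndependent.fintype_card_le_finrank (R := F) (b := e) (Fintype.linearIndependent_iff.2
      fun c hc i => by simpa [h.be] using congrArg (C.B (e i)) hc))
    omega
  refine (rootG_herm hσ hN h.nd this).fin X _ _ hv ((CForm.isom_N uss_isom _).trans hv) ?_ a4
    (a4.conj inf_le_left a5 (h.le a5))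
  rw [uss_apply (h.one m) (h.one l) (h.orth _ _ hl.symm) hω]
  simp [h.be, hl, hl', hl.symm, hl'.symm, hmp, hmp.symm, hermσ, mul_comm (σ a), ha,
    ← sub_eq_add_neg, sub_eq_zero, hω1]

variable (hn : ¬ C.isom ⊓ SLV F V ≤ X)
include hn

theorem mon_of_fix (hg : g ∈ X) {o : κ} (H : g (e o) = c • e o) : g ∈ 𝐌 := by
  have hg' := (h.le hg).1
  have hc : c * σ c = 1 := by simpa [H, herm_N_smul, h.one] using CForm.isom_N hg' (e o)
  let Y : Subgroup (V ≃ₗ[F] V) :=
    { carrier := {k | k ∈ C.isom ∧ k (e o) = e o ∧ ∃ ω, ω * σ ω = 1 ∧ k * uq C (e o) (ω - 1) ∈ X}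
      one_mem' := ⟨one_mem _, rfl, 1, by simp, by simp [uq_zero]⟩
      mul_mem' := by
        rintro k k' ⟨a1, a2, ω, a3, a4⟩ ⟨b1, b2, ω', b3, b4⟩
        refine ⟨mul_mem a1 b1, by simp [a2, b2], ω * ω', by
          rw [map_mul]; linear_combination ω' * σ ω' * a3 + b3, ?_⟩
        convert mul_mem a4 b4 using 1
        have := uq_conj (v := e o) (c := ω - 1) b1
        rw [b2, mul_inv_eq_iff_eq_mul] at this
        rw [← uq_mul (h.one o) a3 b3, mul_assoc, ← mul_assoc k', this]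
        group
      inv_mem' := by
        rintro k ⟨a1, a2, ω, a3, a4⟩
        have a5 : k⁻¹ (e o) = e o := by rw [← a2, inv_apply_apply, a2]
        refine ⟨inv_mem a1, a5, σ ω, nOne_σ a3 hσ2, ?_⟩
        convert inv_mem a4 using 1
        have := uq_conj (v := e o) (c := σ ω - 1) (inv_mem a1)
        rw [a5, mul_inv_eq_iff_eq_mul] at this
        rw [this, mul_inv_rev, mul_left_inj, eq_inv_iff_mul_eq_one,
          uq_mul (h.one o) (nOne_σ a3 hσ2) a3, mul_comm, a3, sub_self, uq_zero] }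
  have hY : UY C Y e o := ⟨h.toUFr, fun k hk => hk.1, fun k hk => hk.2.1,
    fun i hi ω hω => ⟨uq_isom, uq_of_perp (h.orth _ _ hi), _, nOne_σ hω hσ2, h.ss_mem i o hω⟩,
    fun i j hi hj hij => ⟨uq_isom, uq_of_perp (by simp [h.orth _ _ hi, h.orth _ _ hj]), -1, by simp,
      h.sw_memX hij o⟩⟩
  refine h.mem_dec fun b => ?_
  by_contra hb
  push Not at hb
  obtain ⟨i, -, hi⟩ := hb o
  obtain ⟨j, hij, hj⟩ := hb i
  have h1 : b ≠ o := by
    rintro rfl
    obtain ⟨l, h1, h2⟩ := hb b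
    exact h2 (by simp [H, h.orth _ _ h1])
  have h2 : C.B (e o) (g (e b)) = 0 := by
    have := CForm.isom_B hg' (e o) (e b)
    rw [H, herm_B_smul_left, h.orth _ _ h1.symm] at this
    linear_combination c * this - C.B (e o) (g (e b)) * hc
  obtain ⟨m, p, l, a1, a2, a3, a, a4, a5⟩ := hY.goal hσ hN h7 (y := g (e b))
    ⟨(CForm.isom_N hg' _).trans (h.one b), h2, fun ω hω => ⟨uq_isom,
      uq_of_perp (C.B_swap_zero h2), _, nOne_σ hω hσ2, by
        have := mul_mem (mul_mem hg (h.ss_mem b o hω)) (inv_mem hg)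
        rwa [uss_conj hg', uss, H, uq_smul hc] at this⟩⟩ hij hj hi
  refine hn (h.le_of_goal hσ hN h7 ⟨m, p, l, a1, a2, a3, a, a4, fun μ => ?_⟩)
  obtain ⟨b, k, ⟨b1, -, ω, b2, b3⟩, b4⟩ := a5 μ
  refine ⟨b, k, ?_, b4⟩
  have b5 := mem_SLV.1 (urq_su h.nd (ne_of_apply_ne (C.B (e m)) (by simp [h.bee, h.orth _ _ a1]))
    (by rw [h.N_rt a1, a4, add_neg_cancel])
    (by simp [herm_B_smul_left, h.orth _ _ a2.symm, h.orth _ _ a3.symm]) b1 b4)
  have b6 := mem_SLV.1 (h.le b3).2
  rw [LinearEquiv.coe_toLinearMap_mul, map_mul, b5, det_uq (uq_ok (h.one o) b2), h.one] at b6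
  rwa [show ω - 1 = 0 by linear_combination b6, uq_zero, mul_one] at b3

theorem mon_of_eq (hg : g ∈ X) {i j : κ} (H : g (e i) = c • e j) : g ∈ 𝐌 := by
  classical
  by_cases hij : i = j
  · exact h.mon_of_fix hσ hN h7 hn hg (hij ▸ H)
  refine (Subgroup.mul_mem_cancel_left _ (mul_mem (h.sw_mem hij) (h.q_mem (ω := -1) (by simp) j))).1
    (h.mon_of_fix hσ hN h7 hn (mul_mem (h.sw_memX hij j) hg) (o := i) (c := -c) (h.ext fun r => ?_))
  rw [LinearEquiv.mul_apply, LinearEquiv.mul_apply, h.co_sw hij, h.co_q (by simp), H]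
  simp only [map_smul, h.be, swap_apply_eq_iff, swap_apply_right]
  split_ifs <;> simp

theorem four (hg : g ∈ X) (hω : ω * σ ω = 1) (h1 : ω ≠ -1) (h2 : σ ω ≠ ω) {Z : Finset κ}
    (h4 : 4 ≤ Z.card) (H : ∀ i ∈ Z, ∀ j ∈ Z, i ≠ j → g * uss C (e i) (e j) ω * g⁻¹ ∈ 𝐌) :
    g ∈ 𝐌 := by
  classical
  have hg' := (h.le hg).1
  have n1 : ∀ i, C.N (g (e i)) = 1 := fun i => (CForm.isom_N hg' _).trans (h.one i)
  have n2 : ∀ i j, C.B (g (e i)) (g (e j)) = if i = j then 1 else 0 := fun i j =>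
    (CForm.isom_B hg' _ _).trans (h.be i j)
  have ex : ∀ s : Finset κ, s.card < 4 → ∃ p ∈ Z, p ∉ s := fun s hs =>
    exists_mem_notMem_of_card_lt_card (by omega)
  obtain ⟨i, hi, -⟩ := ex ∅ (by simp)
  obtain ⟨j, hj, a1⟩ := ex {i} (by simp)
  obtain ⟨k, hk, a2⟩ := ex {j, i} (card_le_two.trans_lt (by omega))
  obtain ⟨l, hl, a3⟩ := ex {k, j, i} (card_le_three.trans_lt (by omega))
  simp only [mem_insert, mem_singleton, not_or] at a1 a2 a3
  obtain ⟨p, hp⟩ : ∃ p, C.B (g (e i)) (e p) ≠ 0 := by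
    by_contra H
    push Not at H
    exact h.e_ne i (g.injective (by rw [map_zero]; exact h.ext0 _ fun p => C.B_swap_zero (H p)))
  have h3 : ω - 1 ≠ 0 := fun H => h2 (by rw [sub_eq_zero.1 H, map_one])
  have ap : ∀ i j, i ≠ j → ∀ z, (g * uss C (e i) (e j) ω * g⁻¹) z =
      z + ((ω - 1) * C.B (g (e i)) z) • g (e i) + ((σ ω - 1) * C.B (g (e j)) z) • g (e j) :=
    fun i j hij z => by rw [uss_conj hg', uss_apply (n1 i) (n1 j) (by simp [n2, hij]) hω]
  by_contra hc
  have key : ∀ t ∈ Z, t ≠ i → C.B (g (e t)) (e p) * σ (C.B (g (e t)) (e p)) =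
      C.B (g (e i)) (e p) * σ (C.B (g (e i)) (e p)) ∧
      1 + (ω + σ ω - 2) * (C.B (g (e i)) (e p) * σ (C.B (g (e i)) (e p))) = 0 := by
    intro t ht hti
    rcases h.alt (H i hi t ht hti.symm) p with ⟨c, e1⟩ | e1
    · rw [ap _ _ hti.symm] at e1
      have e2 := congrArg (C.B (g (e i))) e1
      have e3 := congrArg (C.B (g (e t))) e1
      simp only [map_add, map_smul, n2, smul_eq_mul, if_neg hti, if_neg hti.symm, if_true] at e2 e3
      have e4 : c = ω := mul_right_cancel₀ hp (by linear_combination -e2)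
      have e5 : C.B (g (e t)) (e p) = 0 :=
        mul_left_cancel₀ (sub_ne_zero.2 h2) (by linear_combination e3 + C.B (g (e t)) (e p) * e4)
      refine absurd (h.mon_of_eq hσ hN h7 hn hg (i := i) (j := p) (c := (C.B (g (e i)) (e p))⁻¹)
        (smul_right_injective V (mul_ne_zero h3 hp) ?_)) hc
      rw [e5, e4] at e1
      simp only [smul_smul, mul_assoc, mul_inv_cancel₀ hp]
      linear_combination (norm := module) e1
    · rw [ap _ _ hti.symm] at e1
      simp only [map_add, map_smul, h.bee, smul_eq_mul, herm_symm (g _) (e p)] at e1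
      have e2 := congrArg σ e1
      simp only [map_add, map_mul, map_sub, map_one, hσ2, map_zero] at e2
      have e3 := mul_left_cancel₀ (sub_ne_zero.2 h2) (show (σ ω - ω) *
        (C.B (g (e t)) (e p) * σ (C.B (g (e t)) (e p))) = (σ ω - ω) *
        (C.B (g (e i)) (e p) * σ (C.B (g (e i)) (e p))) by linear_combination e1 - e2)
      exact ⟨e3, by linear_combination e1 - (σ ω - 1) * e3⟩
  obtain ⟨b1, b2⟩ := key j hj a1
  have b3 := (key k hk a2.2).1
  have b4 := (key l hl a3.2.2).1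
  rcases h.alt (mul_mem (H i hi j hj (Ne.symm a1)) (H k hk l hl (Ne.symm a3.1))) p with ⟨c, e1⟩ | e1
  · have e2 := congrArg (C.B (g (e i))) e1
    have e3 := congrArg (C.B (e p)) e1
    rw [LinearEquiv.mul_apply, ap _ _ (Ne.symm a1), ap _ _ (Ne.symm a3.1)] at e2 e3
    simp only [map_add, map_smul, n2, smul_eq_mul, h.bee, herm_symm (g _) (e p), a1, a2, a3,
      eq_comm (a := i), eq_comm (a := j) (b := k), eq_comm (a := j) (b := l), if_false,
      if_true] at e2 e3
    exact h1 (mul_right_cancel₀ hp (by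
      linear_combination e2 - C.B (g (e i)) (e p) * (e3 - 2 * b2 - (σ ω - 1) * b1 - (ω - 1) * b3 -
        (σ ω - 1) * b4)))
  · rw [LinearEquiv.mul_apply, ap _ _ (Ne.symm a1), ap _ _ (Ne.symm a3.1)] at e1
    simp only [map_add, map_smul, n2, smul_eq_mul, h.bee, herm_symm (g _) (e p), a1, a2, a3,
      eq_comm (a := i), eq_comm (a := j) (b := k), eq_comm (a := j) (b := l), if_false] at e1
    exact one_ne_zero (α := F) (by
      linear_combination -(e1 - 2 * b2 - (σ ω - 1) * b1 - (ω - 1) * b3 - (σ ω - 1) * b4))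

/-- The zero bound. -/
theorem zb (hg : g ∈ X) {i : κ} {Z : Finset κ} (h4 : 4 ≤ Z.card)
    (h0 : ∀ l ∈ Z, C.B (e l) (g (e i)) = 0) : g ∈ 𝐌 := by
  obtain ⟨ω, a1, -, a2, a3⟩ := exists_nOne' hσ hσ2
  refine inv_mem_iff.1 (h.four hσ hN h7 hn (inv_mem hg) a1 a2 a3 h4 fun l hl m hm hlm =>
    h.mon_of_fix hσ hN h7 hn (mul_mem (mul_mem (inv_mem hg) (h.ss_mem l m a1))
      (inv_mem (inv_mem hg))) (o := i) (c := 1) ?_)
  rw [inv_inv, LinearEquiv.mul_apply, LinearEquiv.mul_apply,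
    uss_apply (h.one l) (h.one m) (h.orth _ _ hlm) a1]
  simp [h0 l hl, h0 m hm, inv_apply_apply]

end UX

end H12
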