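import Cfsg.Agent.H12.UF3
import Cfsg.Agent.H12.Mon3

/-!
# Stabilisers of orthonormal frames in odd characteristic
-/

set_option autoImplicit false
set_option maxHeartbeats 400000

namespace H12

open Module H11 QuadraticMap Equiv Finset

variable {F : Type*} [Field F] {V : Type*} [AddCommGroup V] [Module F V] {σ : F →+* F}
  {hσ2 : ∀ a, σ (σ a) = a} {C : CForm (hermType σ hσ2) V} {X : Subgroup (V ≃ₗ[F] V)}
  {κ : Type*} [DecidableEq κ] {e : κ → V} {g k : V ≃ₗ[F] V}

local notation "𝐌" => decStab (frD F e)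
local notation "𝐳" a:max b:max => uss C (e a) (e b) (-1)

variable (C e) in
/-- `k` changes the signs of the coordinates in `J`. -/
def UDg (k : V ≃ₗ[F] V) (J : Finset κ) : Prop :=
  ∀ x p, C.B (e p) (k x) = if p ∈ J then -C.B (e p) x else C.B (e p) x

theorem UDg.mul {J J' : Finset κ} (h : UDg C e g J) (h' : UDg C e k J') :
    UDg C e (g * k) (symmDiff J J') := fun x p => by
  rw [LinearEquiv.mul_apply, h, h']
  simp only [Finset.mem_symmDiff]
  grind

namespace UFr

variable (h : UFr C e)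
include h

theorem dg_zz {a b : κ} (hab : a ≠ b) : UDg C e (𝐳 a b) {a, b} := fun x p => by
  rw [uss_apply (h.one a) (h.one b) (h.orth _ _ hab) (by simp)]
  simp only [map_add, map_smul, h.be, smul_eq_mul, map_neg, map_one]
  grind

theorem dg_empty (H : UDg C e k ∅) : k = 1 := by
  ext x; exact h.ext fun p => by simpa using H x p

theorem dg_sq {J : Finset κ} (H : UDg C e k J) : k * k = 1 :=
  h.dg_empty (by simpa using H.mul H)

theorem dg_unique (h2 : (2 : F) ≠ 0) {J J' : Finset κ} (H : UDg C e k J) (H' : UDg C e k J') :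
    J = J' := by
  ext p
  have := (H (e p) p).symm.trans (H' (e p) p)
  rw [h.bee] at this
  grind

theorem dg_conj (hg : g ∈ 𝐌) (hg' : g ∈ C.isom) {a b : κ} (hab : a ≠ b) :
    ∃ a' b', UDg C e (g * 𝐳 a b * g⁻¹) {a', b'} := by
  obtain ⟨a', c, hc, e1⟩ := of_mem_frD h.e_ne hg a
  obtain ⟨b', d, hd, e2⟩ := of_mem_frD h.e_ne hg b
  refine ⟨a', b', ?_⟩
  convert h.dg_zz (a := a') (b := b') ?_ using 1
  · rw [uss_conj hg', e1, e2, uss, uss,
      uq_smul (by simpa [e1, herm_N_smul, h.one] using CForm.isom_N hg' (e a)),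
      uq_smul (by simpa [e2, herm_N_smul, h.one] using CForm.isom_N hg' (e b))]
  · rintro rfl
    have := (CForm.isom_B hg' (e a) (e b)).trans (h.orth _ _ hab)
    simp [e1, e2, h.bee, hc, hd, hermσ] at this

theorem dg_mem [Fintype κ] [FiniteDimensional F V] {J : Finset κ} (H : UDg C e k J) : k ∈ 𝐌 :=
  h.mem_dec fun j => ⟨j, fun l hl => by rw [H, h.orth _ _ hl]; simp⟩

end UFr

namespace UX

variable [Fintype κ] [FiniteDimensional F V] (h : UX C X e) [Fintype F] (hσ : σ ≠ RingHom.id F)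
  (hN : ∀ a, σ a = a → ∃ b, b * σ b = a) (h8 : 8 ≤ Fintype.card κ)
  (hn : ¬ C.isom ⊓ SLV F V ≤ X) (two : (2 : F) ≠ 0)
include h hσ hN h8 hn two

/-- The centraliser of a non-scalar diagonal involution is monomial. -/
theorem ce {J : Finset κ} (H : UDg C e k J) (h1 : J ≠ ∅) (h2 : J.card ≤ 6) (hg : g ∈ X)
    (hc : Commute k g) : g ∈ 𝐌 := by
  have h3 := Finset.card_compl J
  have h4 : ∀ x, k (g x) = g (k x) := fun x => congrArg (· x) hc.eq
  by_cases h5 : 4 ≤ J.card
  · obtain ⟨i, hi⟩ := Finset.card_pos.1 (show 0 < Jᶜ.card by omega)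
    rw [Finset.mem_compl] at hi
    refine h.zb hσ hN (by omega) hn hg (i := i) h5 fun l hl => ?_
    have := H (g (e i)) l
    rw [h4, h.ext (x := k (e i)) (y := e i) (fun p => by rw [H, h.be]; grind), if_pos hl] at this
    exact mul_left_cancel₀ two (by linear_combination this)
  · obtain ⟨i, hi⟩ := Finset.nonempty_iff_ne_empty.2 h1
    refine h.zb hσ hN (by omega) hn hg (i := i) (Z := Jᶜ) (by omega) fun l hl => ?_
    have := H (g (e i)) l
    rw [h4, h.ext (x := k (e i)) (y := -e i) (fun p => by rw [H, map_neg, h.be]; grind),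
      if_neg (by simpa using hl), map_neg, map_neg] at this
    exact mul_left_cancel₀ two (by linear_combination -this)

theorem ll (hg : g ∈ X) {a b : κ} (hab : a ≠ b) (H : g * 𝐳 a b * g⁻¹ ∈ 𝐌) : g ∈ 𝐌 := by
  classical
  have hg' := (h.le hg).1
  have n1 : ∀ b, C.N (g (e b)) = 1 := fun b => (CForm.isom_N hg' _).trans (h.one b)
  have n2 : C.B (g (e a)) (g (e b)) = 0 := (CForm.isom_B hg' _ _).trans (h.orth _ _ hab)
  choose τ c hc e1 using of_mem_frD h.e_ne H
  have e0 : ∀ l, c l • e (τ l) - e l =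
      (-2 : F) • (C.B (g (e a)) (e l) • g (e a) + C.B (g (e b)) (e l) • g (e b)) := fun l => by
    rw [← e1, uss_conj hg', uss_apply (n1 a) (n1 b) n2 (by simp), map_neg, map_one]
    module
  have e2 : ∀ l p, (if p = τ l then c l else 0) - (if p = l then 1 else 0) =
      -2 * (C.B (g (e a)) (e l) * C.B (e p) (g (e a)) +
        C.B (g (e b)) (e l) * C.B (e p) (g (e b))) := fun l p => by
    simpa [h.be, mul_add] using congrArg (C.B (e p)) (e0 l)
  have e3 : ∀ l, C.B (e l) (g (e a)) ≠ 0 → (if l = τ l then c l else 0) - 1 ≠ 0 := by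
    intro l hl h0
    have h1 : l = τ l ∧ c l = 1 := by clear * - h0; grind
    have h2 := congrArg (C.B (g (e a))) (e0 l)
    rw [← h1.1, h1.2, one_smul, sub_self] at h2
    simp [n2, herm_B_self, n1, two, C.B_swap_ne hl] at h2
  have h4 : (Finset.univ.filter fun l => C.B (e l) (g (e a)) ≠ 0).card ≤ 4 := by
    by_contra h4
    have ex : ∀ s : Finset κ, s.card < 5 → ∃ p, C.B (e p) (g (e a)) ≠ 0 ∧ p ∉ s := fun s hs => by
      simpa using Finset.exists_mem_notMem_of_card_lt_card (s := s)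
        (t := Finset.univ.filter fun l => C.B (e l) (g (e a)) ≠ 0) (by omega)
    obtain ⟨p, hp, -⟩ := ex ∅ (by simp)
    obtain ⟨q, hq, h5⟩ := ex {p, τ p} (Finset.card_le_two.trans_lt (by omega))
    obtain ⟨r, hr, h6⟩ := ex {q, τ q, p, τ p} (Finset.card_le_four.trans_lt (by omega))
    simp only [Finset.mem_insert, Finset.mem_singleton, not_or] at h5 h6
    obtain ⟨x, y, z, h7, h8, h9⟩ := exists_ker_three (LinearMap.fst F F F) (LinearMap.snd F F F)
      (C.B (g (e a)) (e p), C.B (g (e b)) (e p)) (C.B (g (e a)) (e q), C.B (g (e b)) (e q))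
      (C.B (g (e a)) (e r), C.B (g (e b)) (e r))
    simp only [LinearMap.fst_apply, LinearMap.snd_apply, Prod.smul_mk, Prod.mk_add_mk,
      smul_eq_mul] at h8 h9
    have k : ∀ t, x * ((if t = τ p then c p else 0) - if t = p then 1 else 0) +
        y * ((if t = τ q then c q else 0) - if t = q then 1 else 0) +
        z * ((if t = τ r then c r else 0) - if t = r then 1 else 0) = 0 := fun t => by
      rw [e2, e2, e2]
      linear_combination -2 * C.B (e t) (g (e a)) * h8 - 2 * C.B (e t) (g (e b)) * h9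
    have k1 : z = 0 := by simpa [h6, e3 r hr] using k r
    have k2 : y = 0 := by simpa [h5, e3 q hq, k1] using k q
    exact h7 ⟨by simpa [e3 p hp, k1, k2] using k p, k2, k1⟩
  have h5 := Finset.card_compl (Finset.univ.filter fun l => C.B (e l) (g (e a)) ≠ 0)
  exact h.zb hσ hN (by omega) hn hg (i := a)
    (Z := (Finset.univ.filter fun l => C.B (e l) (g (e a)) ≠ 0)ᶜ) (by omega) (by simp)

theorem tt {y y' c : V ≃ₗ[F] V} {J : Finset κ} (H : UDg C e y J) (h1 : J ≠ ∅) (h2 : J.card ≤ 4)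
    (hc : c ∈ X) (h3 : c ≠ 1) (h4 : Commute c y) (hk : k ∈ X) {a b : κ} (hab : a ≠ b)
    (h5 : c * y = k * 𝐳 a b * k⁻¹) (hy' : y' ∈ X) (h6 : Commute c y') : y' ∈ 𝐌 := by
  obtain ⟨a', b', h7⟩ := h.dg_conj (h.ll hσ hN h8 hn two hk hab (h5 ▸ mul_mem
    (h.ce hσ hN h8 hn two H h1 (by omega) hc h4.symm) (h.dg_mem H))) (h.le hk).1 hab
  have h9 := h7.mul H
  rw [← h5, mul_assoc, h.dg_sq H, mul_one] at h9
  refine h.ce hσ hN h8 hn two h9 (fun e => h3 (h.dg_empty (e ▸ h9))) ?_ hy' h6
  have := Finset.card_le_card (symmDiff_le_sup (a := ({a', b'} : Finset κ)) (b := J))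
  have := Finset.card_union_le {a', b'} J
  have := Finset.card_le_two (a := a') (b := b')
  simp only [Finset.sup_eq_union] at *
  omega

theorem le_of_odd : X ≤ 𝐌 := by
  intro g hg
  have zm : ∀ a b, 𝐳 a b ∈ X := fun a b => h.ss_mem a b (by simp)
  obtain ⟨a, b, c, d, h1, h2, h3, h4, h5, h6⟩ := exists_four (κ := κ) (by omega)
  have key : ∀ d, a ≠ d → b ≠ d → c ≠ d → g * (𝐳 a b * 𝐳 c d) * g⁻¹ ∈ 𝐌 := by
    intro d h3 h5 h6
    have H : UDg C e (𝐳 a b * 𝐳 c d) {a, b, c, d} := by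
      convert (h.dg_zz h1).mul (h.dg_zz h6) using 1
      ext t; simp only [Finset.mem_symmDiff]; grind
    have hy := mul_mem (zm a b) (zm c d)
    generalize 𝐳 a b * 𝐳 c d = y at *
    haveI : Finite V := Module.finite_of_finite F
    haveI : Finite (V ≃ₗ[F] V) := DFunLike.finite _
    rcases dihedral_alt (zm a b) (mul_mem (mul_mem hg hy) (inv_mem hg)) (h.dg_sq (h.dg_zz h1))
      (by rw [conj_mul, h.dg_sq H]; simp) with ⟨k, hk, e1⟩ | ⟨z, hz, e1, e2, e3, k, hk, e4 | e4⟩
    · have e2 : y = g⁻¹ * k * 𝐳 a b * (g⁻¹ * k)⁻¹ := by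
        simpa [mul_assoc] using congrArg (g⁻¹ * · * g) e1
      have hk' := mul_mem (inv_mem hg) hk
      obtain ⟨a', b', h7⟩ := h.dg_conj (h.ll hσ hN h8 hn two hk' h1 (e2 ▸ h.dg_mem H))
        (h.le hk').1 h1
      have h8 := congrArg Finset.card (h.dg_unique two H (e2 ▸ h7))
      have := Finset.card_le_two (a := a') (b := b')
      rw [Finset.card_insert_of_notMem (by grind), Finset.card_insert_of_notMem (by grind),
        Finset.card_pair h6] at h8
      omega
    · exact h.tt hσ hN h8 hn two (h.dg_zz h1) (by simp) (Finset.card_le_two.trans (by omega)) hz e1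
        e2 hk h1 e4 (mul_mem (mul_mem hg hy) (inv_mem hg)) e3
    · have h7 := h.tt hσ hN h8 hn two H (by simp) Finset.card_le_four (c := g⁻¹ * z * g)
        (y' := g⁻¹ * 𝐳 a b * g⁻¹⁻¹) (mul_mem (mul_mem (inv_mem hg) hz) hg)
        (fun e => e1 (by
          simpa only [mul_assoc, mul_inv_cancel_left, mul_inv_cancel, mul_one] using
            congrArg (fun t => g * t * g⁻¹) e))
        (by simpa [mul_assoc] using (e3.map (MulAut.conj g⁻¹))) (mul_mem (inv_mem hg) hk) h1
        (by simpa [mul_assoc] using congrArg (g⁻¹ * · * g) e4)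
        (mul_mem (mul_mem (inv_mem hg) (zm a b)) (inv_mem (inv_mem hg)))
        (by simpa [mul_assoc] using (e2.map (MulAut.conj g⁻¹)))
      have h8 := h.ll hσ hN h8 hn two (inv_mem hg) h1 h7
      exact mul_mem (mul_mem (inv_mem_iff.1 h8) (h.dg_mem H)) h8
  obtain ⟨f, hf⟩ := exists_notMem_list [a, b, c, d] (by simp; omega)
  simp only [List.mem_cons, List.not_mem_nil, or_false, not_or] at hf
  refine h.ll hσ hN h8 hn two hg (Ne.symm hf.2.2.2) ?_
  convert mul_mem (inv_mem (key d h3 h5 h6))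
    (key f (Ne.symm hf.1) (Ne.symm hf.2.1) (Ne.symm hf.2.2.1)) using 1
  have : 𝐳 c d * 𝐳 d f = 𝐳 c f := by
    rw [uss, uss, uss, map_neg, map_one, mul_assoc, ← mul_assoc (uq C (e d) _),
      uq_mul (h.one d) (by simp) (by simp)]
    simp [uq_zero]
  rw [← this]; group

end UX

end H12
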