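import Cfsg.Agent.H12.UF4

/-!
# Stabilisers of orthonormal frames in characteristic two
-/

set_option autoImplicit false
set_option maxHeartbeats 400000

namespace H12

open Module H11 QuadraticMap Equiv Finset

variable {F : Type*} [Field F] {V : Type*} [AddCommGroup V] [Module F V] {σ : F →+* F}
  {hσ2 : ∀ a, σ (σ a) = a} {C : CForm (hermType σ hσ2) V} {X : Subgroup (V ≃ₗ[F] V)}
  {κ : Type*} {e : κ → V} {g k : V ≃ₗ[F] V} {v : V}

local notation "𝐌" => decStab (frD F e)

theorem uq_sq (hv : C.N v = 2) : uq C v (-1) * uq C v (-1) = 1 := by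
  ext x
  simp only [LinearEquiv.mul_apply, uq_apply (uq_ok2 hv), map_add, map_smul, herm_B_self, hv,
    smul_eq_mul, LinearEquiv.coe_one, id]
  module

theorem sq_of_comm {G : Type*} [Group G] {c t z k : G} (h1 : Commute c t) (h2 : t * t = 1)
    (h3 : z * z = 1) (h4 : c * t = k * z * k⁻¹) : c * c = 1 := by
  have : c * t * (c * t) = 1 := by rw [h4, conj_mul, h3]; simp
  rwa [h1.symm.mul_mul_mul_comm, h2, mul_one] at this

namespace UX

variable [Fintype κ] [FiniteDimensional F V] (h : UX C X e) (two : (2 : F) = 0)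
include h two

theorem rt_memX {i j : κ} (hij : i ≠ j) {a : F} (ha : a * σ a = 1) :
    uq C (e i + a • e j) (-1) ∈ X := by
  have h1 : C.N (e i + a • e j) = 2 := by rw [h.N_rt hij, ha]; norm_num
  exact h.ge ⟨h.rt_mem hij ha, uq_isom, mem_SLV.2 (by
    rw [det_uq (uq_ok2 h1), h1]; linear_combination -two)⟩

variable [Fintype F] (hσ : σ ≠ RingHom.id F) (hN : ∀ a, σ a = a → ∃ b, b * σ b = a)
  (h7 : 7 ≤ Fintype.card κ) (hn : ¬ C.isom ⊓ SLV F V ≤ X)
include hσ hN h7 hn

theorem dih (hv : C.N v = 2) (hX : uq C v (-1) ∈ X) {i j k l : κ} (n : [i, j, k, l].Nodup)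
    {a b : F} (ha : a * σ a = 1) (hb : b * σ b = 1) (h1 : C.B (e i + a • e j) v ≠ 0)
    (h2 : C.B (e k + b • e l) v ≠ 0) : C.B (e i + a • e j) v * σ (C.B (e i + a • e j) v) +
      C.B (e k + b • e l) v * σ (C.B (e k + b • e l) v) = 0 := by
  classical
  by_contra h3
  obtain ⟨p, hp⟩ := exists_notMem_list [i, j, k, l] (by simp; omega)
  simp only [List.nodup_cons, List.mem_cons, List.not_mem_nil, not_or, or_false] at n hp
  obtain ⟨⟨n1, n2, n3⟩, ⟨n4, n5⟩, n6, -⟩ := n
  have ha0 : a ≠ 0 := left_ne_zero_of_mul_eq_one ha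
  have hb0 : b ≠ 0 := left_ne_zero_of_mul_eq_one hb
  have m1 := h.rt_memX two n1 ha
  have m2 := h.rt_memX two n6 hb
  have c1 : ∀ t, C.B (e t) (e i + a • e j) = (if t = i then 1 else 0) + if t = j then a else 0 :=
    fun t => by simp [h.be]
  have c2 : ∀ t, C.B (e t) (e k + b • e l) = (if t = k then 1 else 0) + if t = l then b else 0 :=
    fun t => by simp [h.be]
  have N1 : C.N (e i + a • e j) = 2 := by rw [h.N_rt n1, ha]; norm_num
  have N2 : C.N (e k + b • e l) = 2 := by rw [h.N_rt n6, hb]; norm_num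
  have o1 : C.B (e i + a • e j) (e k + b • e l) = 0 := by simp [h.be, *]
  generalize e i + a • e j = u at *
  generalize e k + b • e l = w at *
  have o2 := C.B_swap_zero o1
  have ap : ∀ x, (uq C u (-1) * uq C w (-1)) x = x - C.B u x • u - C.B w x • w := fun x => by
    simp only [LinearEquiv.mul_apply, uq_apply (uq_ok2 N1), uq_apply (uq_ok2 N2), map_add,
      map_smul, o1, smul_eq_mul]
    module
  have hi : X ≤ C.isom := fun g hg => (h.le hg).1
  have sq : uq C u (-1) * uq C w (-1) * (uq C u (-1) * uq C w (-1)) = 1 := by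
    ext x
    simp only [LinearEquiv.mul_apply (uq C u (-1) * _), ap, map_sub, map_smul, herm_B_self, N1, N2,
      o1, o2, smul_eq_mul, LinearEquiv.coe_one, id]
    module
  haveI : Finite V := Module.finite_of_finite F
  haveI : Finite (V ≃ₗ[F] V) := DFunLike.finite _
  rcases dihedral_alt (X := subG C X (spanL F [v, u, w])) (z := uq C v (-1))
    (y := uq C u (-1) * uq C w (-1))
    ((mem_subG hi).2 ⟨hX, fun x hx => uq_of_perp (mem_perp_spanL.1 hx v (by simp))⟩)
    ((mem_subG hi).2 ⟨mul_mem m1 m2, fun x hx => by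
      simp [ap, mem_perp_spanL.1 hx u (by simp), mem_perp_spanL.1 hx w (by simp)]⟩) (uq_sq hv) sq
    with ⟨s, hs, e1⟩ | ⟨c, hc, e1, e2, e3, s, -, e4⟩
  · have hs' := hi (subG_le _ hs)
    rw [uq_conj hs'] at e1
    have a1 := fun x => (ap x).symm.trans ((congrArg (· x) e1).trans
      (uq_apply (uq_ok2 ((CForm.isom_N hs' v).trans hv)) x))
    have a2 := congrArg (C.B (e i)) (a1 (e i))
    have a3 := congrArg (C.B (e i)) (a1 (e k))
    have a4 := congrArg (C.B (e k)) (a1 (e k))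
    simp [ufr_eb e u, ufr_eb e w, c1, c2, h.be, n1, n2, n3, n6, Ne.symm n2, Ne.symm n4] at a2 a3 a4
    rcases a3 with a3 | a3
    · simp [a3] at a4
    · simp [a3] at a2
  obtain ⟨hc, hc'⟩ := (mem_subG hi).1 hc
  have hc1 := hi hc
  have cc : ∀ x, c (c x) = x := fun x => congrArg (· x)
    (e4.elim (sq_of_comm e2 (uq_sq hv) (uq_sq hv)) (sq_of_comm e3 sq (uq_sq hv)))
  have cv : c v = v := by
    obtain ⟨x, hx⟩ := h.nd.exists_eq (x := v) (by rintro rfl; simp at h1) 1
    have a1 := congrArg (· x) ((uq_conj (v := v) (c := -1) hc1).symm.trans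
      (mul_inv_eq_iff_eq_mul.2 e2.eq))
    simp only [uq_apply (uq_ok2 hv), uq_apply (uq_ok2 ((CForm.isom_N hc1 v).trans hv)), hx,
      add_right_inj, neg_mul, one_mul, neg_smul, neg_inj, one_smul] at a1
    have a2 := congrArg c a1
    rw [map_smul, cc] at a2
    generalize C.B (c v) x = γ at *
    have a3 := congrArg (C.B u) a1
    rw [← a2, smul_smul, map_smul, smul_eq_mul] at a3
    have a4 : (γ - 1) * (γ - 1) = 0 := mul_right_cancel₀ h1 (by
      linear_combination a3 + (1 - γ) * C.B u v * two)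
    rw [← a2, sub_eq_zero.1 (mul_self_eq_zero.1 a4), one_smul]
  have bv : ∀ x, C.B v (c x) = C.B v x := fun x => by rw [← cv, CForm.isom_B hc1, cv]
  have key : ∀ x, ∃ β γ : F, c x = x + β • u + γ • w ∧ β * σ (C.B u v) + γ * σ (C.B w v) = 0 := by
    intro x
    have a1 : c x - x ∈ spanL F [v, u, w] := by
      rw [← h.nd.perp_perp (spanL F [v, u, w])]
      exact C.mem_perp.2 fun y hy => by
        rw [map_sub, ← hc' y hy, CForm.isom_B hc1, hc' y hy, sub_self]
    rw [spanL, show {x | x ∈ [v, u, w]} = {v, u, w} by ext; simp] at a1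
    obtain ⟨α, β, γ, a2⟩ := Submodule.mem_span_triple.1 a1
    have a3 := eq_add_of_sub_eq' a2.symm
    have a4 := bv x
    have a5 := congrArg (C.B v) (congrArg (· x) e3.eq)
    simp only [LinearEquiv.mul_apply (f := c), LinearEquiv.mul_apply (g := c), bv] at a5
    simp only [ap, a3, map_add, map_sub, map_smul, herm_B_self, hv, N1, N2, o1, o2, smul_eq_mul,
      herm_symm u v, herm_symm w v] at a4 a5
    have a6 : α = 0 := mul_right_cancel₀ h3 (by
      linear_combination a5 - a4 + 2 * α * two)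
    exact ⟨β, γ, by rw [a3, a6]; module, by linear_combination a4 - α * two⟩
  have cm : c ∈ 𝐌 := h.mon_of_fix hσ hN h7 hn hc (o := p) (c := 1) (h.nd.ext' fun x => by
    obtain ⟨β, γ, a1, -⟩ := key x
    rw [one_smul, ← CForm.isom_B hc1, cc, a1]
    simp [ufr_eb e u, ufr_eb e w, c1, c2, hp])
  obtain ⟨r, hr⟩ : ∃ r, c (e r) ≠ e r := by
    by_contra H
    push Not at H
    exact e1 (LinearEquiv.ext fun x => by rw [← h.sum x]; simp [H])
  obtain ⟨β, γ, a1, a2⟩ := key (e r)
  have s1 := (map_ne_zero σ).2 h1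
  have s2 := (map_ne_zero σ).2 h2
  have a3 : β ≠ 0 := by
    rintro rfl
    exact hr (by simpa [show γ = 0 by simpa [s2] using a2] using a1)
  have a4 : γ ≠ 0 := by
    rintro rfl
    exact a3 (by simpa [s1] using a2)
  by_cases H : r = i ∨ r = j
  · refine n6 (h.two cm (i := r) ?_ ?_) <;>
      rcases H with rfl | rfl <;>
      simp [a1, c1, c2, h.be, *, Ne.symm n2, Ne.symm n3, Ne.symm n4, Ne.symm n5, Ne.symm n6]
  · push Not at H
    refine n1 (h.two cm (i := r) ?_ ?_) <;>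
      simp [a1, c1, c2, h.be, *, H.1.symm, H.2.symm, Ne.symm n1]

theorem tv_mem (hv : C.N v = 2) (hX : uq C v (-1) ∈ X) : uq C v (-1) ∈ 𝐌 := by
  classical
  have zero : ∀ v, uq C v (-1) ∈ X → ∀ p, C.B (e p) v = 0 → uq C v (-1) ∈ 𝐌 := fun v hv p hp =>
    h.mon_of_fix hσ hN h7 hn hv (o := p) (c := 1) (by rw [uq_of_perp (C.B_swap_zero hp), one_smul])
  by_contra hc
  have h0 : ∀ p, C.B (e p) v ≠ 0 := fun p hp => hc (zero v hX p hp)
  obtain ⟨i, -⟩ := exists_notMem_list (κ := κ) [] (by simp; omega)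
  obtain ⟨j, a1⟩ := exists_notMem_list [i] (by simp; omega)
  obtain ⟨k, a2⟩ := exists_notMem_list [j, i] (by simp; omega)
  obtain ⟨l, a3⟩ := exists_notMem_list [k, j, i] (by simp; omega)
  by_cases H : ∃ a, σ a = a ∧ a ≠ 0 ∧ a ≠ 1
  · obtain ⟨b, hb, hb1, -⟩ := exists_nOne hσ hσ2 (σ (-C.B (e j) v / C.B (e i) v)) 1
    have h2 : C.B (e j + b • e i) v ≠ 0 := fun H => hb1 (by
      simp only [map_add, LinearMap.add_apply, herm_B_smul_left] at H
      have := h0 i
      rw [← hσ2 b]; congr 1; field_simp; linear_combination H)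
    generalize hβ : C.B (e j + b • e i) v * σ (C.B (e j + b • e i) v) = β
    obtain ⟨a, ha, h3⟩ := exists_mem_notMem_of_card_lt_card (t := nOne σ)
      (s := insert (σ (-C.B (e l) v / C.B (e k) v)) (qrts (C.B (e l) v * σ (C.B (e k) v))
        (C.B (e l) v * σ (C.B (e l) v) + C.B (e k) v * σ (C.B (e k) v) + β)
        (σ (C.B (e l) v) * C.B (e k) v)))
      ((card_insert_le _ _).trans_lt (Nat.lt_of_succ_le ((Nat.add_le_add_right (card_qrts fun H =>
        mul_ne_zero (h0 l) ((map_ne_zero σ).2 (h0 k)) H.1) 2).trans ((card_nOne hσ hσ2).2.2 H))))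
    rw [mem_nOne] at ha
    rw [mem_insert, not_or, mem_qrts] at h3
    have := h.dih two hσ hN h7 hn hv hX (i := l) (j := k) (k := j) (l := i) (by grind) ha hb
      (fun H => h3.1 (by
        simp only [map_add, LinearMap.add_apply, herm_B_smul_left] at H
        have := h0 k
        rw [← hσ2 a]; congr 1; field_simp; linear_combination H)) h2
    rw [hβ] at this
    simp only [map_add, LinearMap.add_apply, herm_B_smul_left, map_mul, hσ2] at this
    exact h3.2 (by
      linear_combination a * this - (σ (C.B (e l) v) * C.B (e k) v +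
        a * C.B (e k) v * σ (C.B (e k) v)) * ha)
  push Not at H
  have h1 : ∀ p, σ (C.B (e p) v) * C.B (e p) v = 1 := fun p =>
    H _ (by rw [map_mul, hσ2, mul_comm]) (mul_ne_zero ((map_ne_zero σ).2 (h0 p)) (h0 p))
  obtain ⟨ω, hω, -, -, hω1⟩ := exists_nOne' hσ hσ2
  have hω2 : ω + σ ω = 1 := H _ (by rw [map_add, hσ2, add_comm]) fun e1 =>
    hω1 (by linear_combination e1 - ω * two)
  obtain ⟨m, a4⟩ := exists_notMem_list [l, k, j, i] (by simp; omega)
  obtain ⟨n, a5⟩ := exists_notMem_list [m, l, k, j, i] (by simp; omega)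
  obtain ⟨p, a6⟩ := exists_notMem_list [n, m, l, k, j, i] (by simp; omega)
  simp only [List.mem_cons, List.not_mem_nil, not_or, or_false] at a1 a2 a3 a4 a5 a6
  obtain ⟨t, ht, b1⟩ : ∃ t ∈ X, t v = v + ((ω - 1) * C.B (e i) v) • e i +
      ((σ ω - 1) * C.B (e j) v) • e j + ((ω - 1) * C.B (e k) v) • e k +
      ((σ ω - 1) * C.B (e l) v) • e l + ((ω - 1) * C.B (e m) v) • e m +
      ((σ ω - 1) * C.B (e n) v) • e n := by
    refine ⟨_, mul_mem (mul_mem (h.ss_mem m n hω) (h.ss_mem k l hω)) (h.ss_mem i j hω), ?_⟩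
    rw [LinearEquiv.mul_apply, LinearEquiv.mul_apply,
      uss_apply (h.one m) (h.one n) (h.orth _ _ (Ne.symm a5.1)) hω,
      uss_apply (h.one k) (h.one l) (h.orth _ _ (Ne.symm a3.1)) hω,
      uss_apply (h.one i) (h.one j) (h.orth _ _ (Ne.symm a1)) hω]
    simp [h.be, *]
  have b2 : C.B v (t v) = 1 := by
    simp only [b1, map_add, map_smul, herm_B_self, hv, ufr_eb e v, smul_eq_mul]
    linear_combination (ω - 1) * (h1 i + h1 k + h1 m) + (σ ω - 1) * (h1 j + h1 l + h1 n) +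
      3 * hω2 - two
  have b3 : C.N (t v) = 2 := (CForm.isom_N (h.le ht).1 v).trans hv
  have b4 := mul_mem (mul_mem hX (mul_mem (mul_mem ht hX) (inv_mem ht))) (inv_mem hX)
  rw [uq_conj (h.le ht).1, uq_conj uq_isom] at b4
  have b5 : C.N (uq C v (-1) (t v)) = 2 := (CForm.isom_N uq_isom _).trans b3
  have b6 : ∀ r, C.B (e r) (uq C v (-1) (t v)) = (if r = i then (ω - 1) * C.B (e i) v else 0) +
      (if r = j then (σ ω - 1) * C.B (e j) v else 0) + (if r = k then (ω - 1) * C.B (e k) v else 0) +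
      (if r = l then (σ ω - 1) * C.B (e l) v else 0) + (if r = m then (ω - 1) * C.B (e m) v else 0) +
      (if r = n then (σ ω - 1) * C.B (e n) v else 0) := fun r => by
    rw [uq_apply (uq_ok2 hv), b2, b1]
    simp only [map_add, map_smul, h.be, smul_eq_mul, mul_ite, mul_one, mul_zero]
    ring
  have c1 : ω - 1 ≠ 0 := fun H => hω1 (by rw [sub_eq_zero.1 H, map_one])
  have c2 : σ ω - 1 ≠ 0 := fun H => c1 (by simpa [hσ2] using congrArg σ H)
  generalize uq C v (-1) (t v) = w at b4 b5 b6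
  have d1 : C.B w (e i) ≠ 0 := C.B_swap_ne (by
    simp [b6, h0, c1, Ne.symm a1, Ne.symm a2.2, Ne.symm a3.2.2, Ne.symm a4.2.2.2,
      Ne.symm a5.2.2.2.2])
  refine a2.1 (h.two (zero w b4 p (by simp [b6, a6])) (i := i) ?_ ?_)
  · simp [uq_apply (uq_ok2 b5), b6, h.be, h0, c1, d1, a2, Ne.symm a3.1, Ne.symm a4.2.1,
      Ne.symm a5.2.2.1]
  · simp [uq_apply (uq_ok2 b5), b6, h.be, h0, c2, d1, a1, Ne.symm a2.1, Ne.symm a3.2.1,
      Ne.symm a4.2.2.1, Ne.symm a5.2.2.2.1]

theorem le_of_even : X ≤ 𝐌 := by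
  classical
  intro g hg
  obtain ⟨ω, a1, -, a2, a3⟩ := exists_nOne' hσ hσ2
  refine h.four hσ hN h7 hn hg a1 a2 a3 (Z := univ) (by rw [card_univ]; omega) fun i _ j _ hij => ?_
  have key : ∀ a, a * σ a = 1 → g * uq C (e i + a • e j) (-1) * g⁻¹ ∈ 𝐌 := fun a ha => by
    have := mul_mem (mul_mem hg (h.rt_memX two hij ha)) (inv_mem hg)
    rw [uq_conj (h.le hg).1] at this ⊢
    exact h.tv_mem two hσ hN h7 hn ((CForm.isom_N (h.le hg).1 _).trans (by
      rw [h.N_rt hij, ha]; norm_num)) this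
  convert mul_mem (key 1 (by simp)) (key ω a1) using 1
  rw [conj_mul]
  congr 2
  ext x
  rw [uss_apply (h.one i) (h.one j) (h.orth _ _ hij) a1, LinearEquiv.mul_apply,
    uq_apply (uq_ok2 (by rw [h.N_rt hij]; norm_num)),
    uq_apply (uq_ok2 (by rw [h.N_rt hij, a1]; norm_num))]
  simp only [map_add, map_smul, LinearMap.add_apply, herm_B_smul_left, h.bee, h.orth _ _ hij,
    h.orth _ _ hij.symm, smul_eq_mul, map_one]
  match_scalars
  · ring
  · linear_combination -C.B (e j) x * a1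
  · ring

end UX

theorem OrthDec.isMaximalIn_uframe [Fintype κ] [FiniteDimensional F V] [Fintype F]
    (hσ : σ ≠ RingHom.id F) (hN : ∀ a, σ a = a → ∃ b, b * σ b = a) {D : κ → Submodule F V}
    (hD : OrthDec C D) (hC : C.Nondeg) (h1 : ∀ i, finrank F (D i) = 1) (h8 : 8 ≤ Fintype.card κ) :
    Cfsg.Geo.IsMaximalIn (C.isom ⊓ SLV F V) (decStab D ⊓ (C.isom ⊓ SLV F V)) := by
  classical
  haveI : Nontrivial κ := Fintype.one_lt_card_iff_nontrivial.1 (by omega)
  have : ∀ j, ∃ y ∈ D j, C.N y = 1 := fun j => by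
    obtain ⟨x, hx, hx0⟩ := herm_exists_nonisotropic hσ (hD.nondeg j) (hD.ne_bot j)
    obtain ⟨b, hb⟩ := hN (C.N x)⁻¹ (by rw [map_inv₀, herm_σN])
    exact ⟨b • x, (D j).smul_mem b hx, by rw [herm_N_smul, hb, inv_mul_cancel₀ hx0]⟩
  choose e he he' using this
  obtain rfl : D = frD F e := funext fun j => (Submodule.eq_of_le_of_finrank_eq
    ((Submodule.span_singleton_le_iff_mem _ _).2 (he j)) (by
      rw [h1, finrank_span_singleton (ne_of_apply_ne C.N (by simp [he', C.N_zero]))])).symm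
  have hF : UFr C e := ⟨hC, he', fun i j hij => hD.B_eq_zero hij (he i) (he j),
    fun y hy => hD.eq_zero hC fun j => C.mem_perp_singleton.2 (hy j)⟩
  obtain ⟨π, hπ⟩ := hD.exists_isProj
  have h3 := hπ.finrank_eq h1
  refine isMaximalIn_of _ _ inf_le_right (fun e => (spec_herm hσ hN hC).not_le_decStab (by omega)
    hD (e.trans inf_le_left)) fun M h4 h5 g hg hg' => ?_
  by_contra hc
  have hM : UX C M e := ⟨hF, h5, h4⟩
  by_cases h2 : (2 : F) = 0
  · exact hg' ⟨hM.le_of_even h2 hσ hN (by omega) hc hg, h5 hg⟩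
  · exact hg' ⟨hM.le_of_odd hσ hN h8 hc h2 hg, h5 hg⟩

end H12
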