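import Cfsg.Agent.H12.UF6

/-!
# Stabilisers of orthonormal frames in dimension six
-/

set_option autoImplicit false
set_option maxHeartbeats 400000

namespace H12

open Module H11 QuadraticMap Equiv Finset

theorem exists_three_nOne {F : Type*} [Field F] [Fintype F] {σ : F →+* F}
    (hσ : σ ≠ RingHom.id F) (hσ2 : ∀ a, σ (σ a) = a) {a b c : F} (ha : σ a = a) (hb : σ b = b)
    (hc : σ c = c) (ha0 : a ≠ 0) (hb0 : b ≠ 0) (hc0 : c ≠ 0) : ∃ x y z : F, x * σ x = 1 ∧
      y * σ y = 1 ∧ z * σ z = 1 ∧ z ≠ 1 ∧ a * (x - 1) + b * (y - 1) + c * (z - 1) = 0 := by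
  classical
  by_cases hs : a + b + c = 0
  · obtain ⟨ω, h1, h2, -⟩ := exists_nOne hσ hσ2 1 1
    exact ⟨ω, ω, ω, h1, h1, h1, h2, by linear_combination (ω - 1) * hs⟩
  obtain ⟨θ, hθ⟩ := exists_ne_of_ne_id hσ
  set K : Finset F := univ.filter fun a => σ a = a with hK
  set T := ((nOne σ).erase 1).image fun ω => ω + σ ω with hT
  have h0 : ∀ t, σ t = t → σ θ + t ≠ 0 := fun t ht e => hθ (by
    have := congrArg σ e
    rw [map_add, hσ2, ht, map_zero] at this
    linear_combination e - this)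
  have h1 : K.card ≤ ((nOne σ).erase 1).card :=
    card_le_card_of_injOn (fun t => (θ + t) / (σ θ + t)) (fun t ht => by
      have ht : σ t = t := by simpa [hK] using ht
      have h2 := h0 t ht
      have h3 : θ + t ≠ 0 := fun e => h2 (by simpa [ht] using congrArg σ e)
      simp only [coe_erase, Set.mem_diff, mem_coe, mem_nOne, Set.mem_singleton_iff, map_div₀,
        map_add, hσ2, ht, div_eq_one_iff_eq h2, add_left_inj]
      exact ⟨by field_simp, hθ.symm⟩) fun t ht t' ht' e => by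
      have e' := (div_eq_div_iff (h0 t (by simpa [hK] using ht)) (h0 t' (by simpa [hK] using ht'))).1 e
      exact mul_left_cancel₀ (sub_ne_zero.2 hθ) (by linear_combination e')
  have h2 : ((nOne σ).erase 1).card ≤ 2 * T.card := card_le_mul_card_image _ 2 fun t _ =>
    (card_le_card fun x hx => by
      obtain ⟨h4, rfl⟩ := mem_filter.1 hx
      rw [mem_qrts]
      linear_combination -mem_nOne.1 (mem_of_mem_erase h4)).trans
      (card_qrts (a := 1) (b := -t) (c := 1) fun e => one_ne_zero e.1)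
  have h3 : ∀ t ∈ T, σ t = t ∧ t ≠ 2 := fun t ht => by
    obtain ⟨ω, h4, rfl⟩ := mem_image.1 ht
    have h5 := mem_nOne.1 (mem_of_mem_erase h4)
    exact ⟨by rw [map_add, hσ2, add_comm], fun e => ne_of_mem_erase h4 (sub_eq_zero.1
      (mul_self_eq_zero.1 (by linear_combination ω * e - h5)))⟩
  have h4 : ¬ Disjoint (T.image fun t => a * a + b * b + a * b * t)
      (T.image fun t => (a + b + c) * (a + b + c) + c * c - (a + b + c) * c * t) := fun H => by
    have h5 := card_le_card (t := K.erase ((a + b) * (a + b))) (s := _) (disjUnion_eq_union _ _ H ▸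
      union_subset (image_subset_iff.2 fun t ht => mem_erase.2 ⟨fun e => (h3 t ht).2
        (mul_left_cancel₀ (mul_ne_zero ha0 hb0) (by linear_combination e)),
        by simp [hK, ha, hb, (h3 t ht).1]⟩) (image_subset_iff.2 fun t ht => mem_erase.2
          ⟨fun e => (h3 t ht).2 (mul_left_cancel₀ (mul_ne_zero hs hc0) (by linear_combination -e)),
          by simp [hK, ha, hb, hc, (h3 t ht).1]⟩))
    rw [card_disjUnion, card_image_of_injective T (f := fun t => a * a + b * b + a * b * t)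
      fun t t' e => mul_left_cancel₀ (mul_ne_zero ha0 hb0) (by linear_combination e),
      card_image_of_injective T
        (f := fun t => (a + b + c) * (a + b + c) + c * c - (a + b + c) * c * t) fun t t' e =>
        mul_left_cancel₀ (mul_ne_zero hs hc0) (by linear_combination -e),
      card_erase_of_mem (a := (a + b) * (a + b)) (s := K) (by simp [hK, ha, hb])] at h5
    have := card_pos.2 ⟨0, (by simp [hK] : (0 : F) ∈ K)⟩
    omega
  obtain ⟨_, h5, h6⟩ := not_disjoint_iff.1 h4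
  obtain ⟨_, h7, rfl⟩ := mem_image.1 h5
  obtain ⟨ω, h8, rfl⟩ := mem_image.1 h7
  obtain ⟨_, h9, e⟩ := mem_image.1 h6
  obtain ⟨z, h10, rfl⟩ := mem_image.1 h9
  have b1 := mem_nOne.1 (mem_of_mem_erase h8)
  have b2 := mem_nOne.1 (mem_of_mem_erase h10)
  have b3 : (a + b + c - c * z) * σ (a + b + c - c * z) = (a * ω + b) * σ (a * ω + b) := by
    simp only [map_add, map_sub, map_mul, ha, hb, hc]
    linear_combination e + c * c * b2 - a * a * b1
  by_cases b4 : a * ω + b = 0
  · refine ⟨ω, 1, z, b1, by simp, b2, ne_of_mem_erase h10, ?_⟩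
    rw [b4, zero_mul, mul_eq_zero, map_eq_zero, or_self] at b3
    linear_combination b4 - b3
  have b5 := (map_ne_zero σ).2 b4
  have b6 : (a + b + c - c * z) / (a * ω + b) * σ ((a + b + c - c * z) / (a * ω + b)) = 1 := by
    rw [map_div₀, div_mul_div_comm, b3, div_self (mul_ne_zero b4 b5)]
  refine ⟨(a + b + c - c * z) / (a * ω + b) * ω, _, z, by
    rw [map_mul, mul_mul_mul_comm, b6, b1, mul_one], b6, b2, ne_of_mem_erase h10, ?_⟩
  field_simp
  ring

variable {F : Type*} [Field F] {V : Type*} [AddCommGroup V] [Module F V] {σ : F →+* F}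
  {hσ2 : ∀ a, σ (σ a) = a} {C : CForm (hermType σ hσ2) V} {X Y : Subgroup (V ≃ₗ[F] V)}
  {κ : Type*} {e : κ → V} {g k : V ≃ₗ[F] V} {u v w x y : V} {a c ω : F} {o : κ}

local notation "𝐌" => decStab (frD F e)
local notation "𝐒" => C.isom ⊓ SLV F V

namespace UY

variable (h : UY C Y e o) [Fintype F] (hσ : σ ≠ RingHom.id F)
  (hN : ∀ a, σ a = a → ∃ b, b * σ b = a) [Fintype κ] (h7 : 6 ≤ Fintype.card κ)
include h hσ hN h7

open Classical in
theorem grow6 (hy : RU C Y e o y) (h2 : 2 ≤ (univ.filter fun i => C.B (e i) y ≠ 0).card)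
    (h4 : (univ.filter fun i => C.B (e i) y ≠ 0).card ≤ 4) : UGoal C Y e ∨ ∃ z, RU C Y e o z ∧
      (univ.filter fun i => C.B (e i) y ≠ 0).card < (univ.filter fun i => C.B (e i) z ≠ 0).card := by
  obtain ⟨p, -, hp⟩ := exists_mem_notMem_of_card_lt_card
    (s := insert o (univ.filter fun i => C.B (e i) y ≠ 0)) (t := univ)
    ((card_insert_le _ _).trans_lt (by rw [card_univ]; omega))
  simp only [mem_insert, mem_filter, mem_univ, true_and, not_or, not_not] at hp
  obtain ⟨l, hl, r, hr, hlr⟩ := one_lt_card.1 h2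
  simp only [mem_filter, mem_univ, true_and] at hl hr
  have h5 : l ≠ o := by rintro rfl; exact hl hy.2.1
  have h6 : l ≠ p := by rintro rfl; exact hl hp.2
  by_cases H : C.B (e l) y * σ (C.B (e l) y) = 1
  · have h8 : RU C Y e o (C.B (e l) y • e l) := by
      convert h.map (h.base h5) (h.qr l h5 _ H) using 1
      exact h.ext fun t => by simp [h.co_q H, h.be]; grind
    refine Or.inl (h.tan hσ hN h8 (u := y - C.B (e l) y • e l) (by simpa using hy)
      (fun H => hr ?_) (by simp [herm_B_smul_left, h.bee]) h6 h5 hp.1 (by simp [h.bee])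
      (by simp [hp.2, h.be, h6.symm]) (by simpa [h.bee] using hl))
    rw [sub_eq_zero.1 H]
    simp [h.be, hlr.symm]
  have h8 : C.B y (uq C (e l - e p) (-1) y) = 1 - C.B (e l) y * σ (C.B (e l) y) := by
    rw [uq_apply (uq_ok2 (h.N_sub h6))]
    simp [herm_B_self, hy.1, hp.2, ufr_eb e y]
    ring
  have h9 := sub_ne_zero.2 (Ne.symm H)
  obtain ⟨ω, hω, hω1, hω2⟩ := exists_nOne hσ hσ2 1 (1 - (1 - C.B (e l) y * σ (C.B (e l) y))⁻¹)
  refine Or.inr ⟨_, h.map (h.map hy (h.sw l p h5 hp.1 h6)) (hy.2.2 ω hω), ?_⟩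
  refine (card_insert_of_notMem (a := p) (by simp [hp.2])).ge.trans (card_le_card fun t ht => ?_)
  simp only [mem_insert, mem_filter, mem_univ, true_and] at ht ⊢
  rw [uq_apply (uq_ok hy.1 hω), map_add, map_smul, h.co_sw h6, h8, smul_eq_mul]
  generalize 1 - C.B (e l) y * σ (C.B (e l) y) = β at *
  rcases ht with rfl | ht
  · simpa [hp.2] using hl
  by_cases e1 : t = l
  · simp [e1, hp.2, sub_eq_zero, hω1, h9, hl]
  rw [swap_apply_of_ne_of_ne e1 (by rintro rfl; exact ht hp.2), ← one_add_mul]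
  exact mul_ne_zero (fun e2 => hω2 (by field_simp; linear_combination e2)) ht

omit h7 in
open Classical in
theorem five6 (hy : RU C Y e o y) (h5 : 5 ≤ (univ.filter fun i => C.B (e i) y ≠ 0).card) :
    UGoal C Y e := by
  have ex : ∀ s : Finset κ, s.card < 5 → ∃ p, C.B (e p) y ≠ 0 ∧ p ∉ s := fun s hs => by
    simpa using exists_mem_notMem_of_card_lt_card (s := s)
      (t := univ.filter fun i => C.B (e i) y ≠ 0) (by omega)
  obtain ⟨i, hi, -⟩ := ex ∅ (by simp)
  obtain ⟨j, hj, a1⟩ := ex {i} (by simp)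
  obtain ⟨k, hk, a2⟩ := ex {j, i} (card_le_two.trans_lt (by omega))
  obtain ⟨m, hm, a4⟩ := ex {k, j, i} (card_le_three.trans_lt (by omega))
  obtain ⟨p, hp, a5⟩ := ex {m, k, j, i} (card_le_four.trans_lt (by omega))
  have ne : ∀ t, C.B (e t) y ≠ 0 → t ≠ o := by rintro t ht rfl; exact ht hy.2.1
  simp only [mem_insert, mem_singleton, not_or] at a1 a2 a4 a5
  have fx : ∀ t, σ (σ (C.B (e t) y) * C.B (e t) y) = σ (C.B (e t) y) * C.B (e t) y := fun t => by
    rw [map_mul, hσ2, mul_comm]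
  have n0 : ∀ t, C.B (e t) y ≠ 0 → σ (C.B (e t) y) * C.B (e t) y ≠ 0 := fun t ht =>
    mul_ne_zero ((map_ne_zero σ).2 ht) ht
  obtain ⟨α, β, γ, b1, b2, b3, b5, b6⟩ := exists_three_nOne hσ hσ2 (fx i) (fx j) (fx k)
    (n0 i hi) (n0 j hj) (n0 k hk)
  refine h.tan hσ hN hy (u := ((α - 1) * C.B (e i) y) • e i + ((β - 1) * C.B (e j) y) • e j +
    ((γ - 1) * C.B (e k) y) • e k) ?_ (fun H => ?_) ?_
    (Ne.symm a5.1) (ne m hm) (ne p hp) (by simp [h.be, a4]) (by simp [h.be, a5]) hm
  · convert h.map (h.map (h.map hy (h.qr i (ne i hi) α b1)) (h.qr j (ne j hj) β b2))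
      (h.qr k (ne k hk) γ b3) using 1
    refine h.ext fun t => ?_
    simp only [h.co_q, b1, b2, b3, map_add, map_smul, h.be, smul_eq_mul]
    clear * - a1 a2
    grind
  · have c1 := congrArg (C.B (e k)) H
    simp only [map_add, map_smul, h.be, smul_eq_mul, map_zero] at c1
    clear * - a2 c1 b5 hk
    grind
  · simp only [map_add, map_smul, ufr_eb e y, smul_eq_mul]
    linear_combination b6

theorem goal6 (hy : RU C Y e o y) {i j : κ} (hij : i ≠ j) (hi : C.B (e i) y ≠ 0)
    (hj : C.B (e j) y ≠ 0) : UGoal C Y e := by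
  classical
  have key : ∀ n, ∀ y, RU C Y e o y → 2 ≤ (univ.filter fun i => C.B (e i) y ≠ 0).card →
      5 ≤ (univ.filter fun i => C.B (e i) y ≠ 0).card + n → UGoal C Y e := by
    intro n
    induction n with
    | zero => exact fun y hy _ h5 => h.five6 hσ hN hy (by convert h5.trans_eq (add_zero _))
    | succ n ih =>
      intro y hy h2 h5
      by_cases h4 : (univ.filter fun i => C.B (e i) y ≠ 0).card ≤ 4
      · rcases h.grow6 hσ hN h7 hy (by convert h2) (by convert h4) with H | ⟨z, hz, H⟩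
        · exact H
        · have : (univ.filter fun i => C.B (e i) y ≠ 0).card <
            (univ.filter fun i => C.B (e i) z ≠ 0).card := by convert H
          exact ih z hz (by omega) (by omega)
      · exact ih y hy h2 (by omega)
  have := one_lt_card.2 ⟨i, (by simpa using hi : i ∈ univ.filter fun i => C.B (e i) y ≠ 0), j,
    by simpa using hj, hij⟩
  exact key 3 y hy this (by omega)

end UY

namespace UX

variable [Fintype κ] [FiniteDimensional F V] (h : UX C X e) [Fintype F] (hσ : σ ≠ RingHom.id F)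
  (hN : ∀ a, σ a = a → ∃ b, b * σ b = a) (h7 : 6 ≤ Fintype.card κ)
include h hσ hN h7

theorem le_of_goal6 (H : UGoal C X e) : 𝐒 ≤ X := by
  classical
  obtain ⟨m, p, l, hmp, hl, hl', a, ha, H⟩ := H
  have hv : C.N (e m + a • e p) = 0 := by rw [h.N_rt hmp, ha, add_neg_cancel]
  have a1 : ∀ μ : F, μ • e l ∈ urS C X hv := fun μ =>
    ⟨by simp [herm_B_smul_left, h.be, hl.symm, hl'.symm], H μ⟩
  have a2 : ∀ t, t ≠ m → t ≠ p → ∀ μ : F, μ • e t ∈ urS C X hv := fun t h1 h2 μ => by
    by_cases h3 : l = t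
    · exact h3 ▸ a1 μ
    convert urS_map hv (a1 (-μ)) (h.sw_memX h3 l) (mul_mem uq_isom uq_isom) (by
      rw [LinearEquiv.mul_apply, uq_of_perp (v := e l) (by simp [h.be, hl, hl']),
        uq_of_perp (by simp [h.be, *])]) using 1
    refine h.ext fun r => ?_
    rw [LinearEquiv.mul_apply, h.co_sw h3, h.co_q (by simp)]
    simp only [map_smul, h.be, swap_apply_eq_iff, swap_apply_left]
    split_ifs <;> simp
  have a3 : C.B (e m + a • e p) (e m) = 1 := by simp [herm_B_smul_left, h.be, hmp.symm]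
  have a4 : Q1 C 𝐒 X (e m + a • e p) := q1_of_rho inf_le_left h.le hv a3 (fun y hy => by
      have : y ∈ urS C X hv := by
        convert add_mem (urq_self hv (C.B (e m) y)) (sum_mem (t := (univ.erase m).erase p)
          fun t ht => a2 t (ne_of_mem_erase (mem_of_mem_erase ht)) (ne_of_mem_erase ht)
            (C.B (e t) y)) using 1
        simp only [map_add, LinearMap.add_apply, herm_B_smul_left] at hy
        refine h.ext fun r => ?_
        simp only [map_add, map_smul, map_sum, h.be, smul_eq_mul, mul_ite, mul_one, mul_zero,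
          sum_ite_eq, mem_erase, mem_univ, and_true]
        clear * - hy ha hmp
        grind
      exact this.2)
    fun b hb => urq_tv hσ hv (h.one l) a1 (by
      simpa [hermType] using (hb.tvOk inf_le_left hv a3).1)
  obtain ⟨ω, hω, hω1, -⟩ := exists_nOne hσ hσ2 1 1
  have a5 := h.ss_mem m l hω
  have : finrank F V ≠ 3 := by
    have := (LinearIndependent.fintype_card_le_finrank (R := F) (b := e) (Fintype.linearIndependent_iff.2
      fun c hc i => by simpa [h.be] using congrArg (C.B (e i)) hc))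
    omega
  refine (rootG_herm hσ hN h.nd this).fin X _ _ hv ((CForm.isom_N uss_isom _).trans hv) ?_ a4
    (a4.conj inf_le_left a5 (h.le a5))
  rw [uss_apply (h.one m) (h.one l) (h.orth _ _ hl.symm) hω]
  simp [h.be, hl, hl', hl.symm, hl'.symm, hmp, hmp.symm, hermσ, mul_comm (σ a), ha,
    ← sub_eq_add_neg, sub_eq_zero, hω1]

variable (hn : ¬ C.isom ⊓ SLV F V ≤ X)
include hn

theorem mon_of_fix6 (hg : g ∈ X) {o : κ} (H : g (e o) = c • e o) : g ∈ 𝐌 := by
  have hg' := (h.le hg).1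
  have hc : c * σ c = 1 := by simpa [H, herm_N_smul, h.one] using CForm.isom_N hg' (e o)
  let Y : Subgroup (V ≃ₗ[F] V) :=
    { carrier := {k | k ∈ C.isom ∧ k (e o) = e o ∧ ∃ ω, ω * σ ω = 1 ∧ k * uq C (e o) (ω - 1) ∈ X}
      one_mem' := ⟨one_mem _, rfl, 1, by simp, by simp [uq_zero]⟩
      mul_mem' := by
        rintro k k' ⟨a1, a2, ω, a3, a4⟩ ⟨b1, b2, ω', b3, b4⟩
        refine ⟨mul_mem a1 b1, by simp [a2, b2], ω * ω', by
          rw [map_mul]; linear_combination ω' * σ ω' * a3 + b3, ?_⟩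
        convert mul_mem a4 b4 using 1
        have := uq_conj (v := e o) (c := ω - 1) b1
        rw [b2, mul_inv_eq_iff_eq_mul] at this
        rw [← uq_mul (h.one o) a3 b3, mul_assoc, ← mul_assoc k', this]
        group
      inv_mem' := by
        rintro k ⟨a1, a2, ω, a3, a4⟩
        have a5 : k⁻¹ (e o) = e o := by rw [← a2, inv_apply_apply, a2]
        refine ⟨inv_mem a1, a5, σ ω, nOne_σ a3 hσ2, ?_⟩
        convert inv_mem a4 using 1
        have := uq_conj (v := e o) (c := σ ω - 1) (inv_mem a1)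
        rw [a5, mul_inv_eq_iff_eq_mul] at this
        rw [this, mul_inv_rev, mul_left_inj, eq_inv_iff_mul_eq_one,
          uq_mul (h.one o) (nOne_σ a3 hσ2) a3, mul_comm, a3, sub_self, uq_zero] }
  have hY : UY C Y e o := ⟨h.toUFr, fun k hk => hk.1, fun k hk => hk.2.1,
    fun i hi ω hω => ⟨uq_isom, uq_of_perp (h.orth _ _ hi), _, nOne_σ hω hσ2, h.ss_mem i o hω⟩,
    fun i j hi hj hij => ⟨uq_isom, uq_of_perp (by simp [h.orth _ _ hi, h.orth _ _ hj]), -1, by simp,
      h.sw_memX hij o⟩⟩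
  refine h.mem_dec fun b => ?_
  by_contra hb
  push Not at hb
  obtain ⟨i, -, hi⟩ := hb o
  obtain ⟨j, hij, hj⟩ := hb i
  have h1 : b ≠ o := by
    rintro rfl
    obtain ⟨l, h1, h2⟩ := hb b
    exact h2 (by simp [H, h.orth _ _ h1])
  have h2 : C.B (e o) (g (e b)) = 0 := by
    have := CForm.isom_B hg' (e o) (e b)
    rw [H, herm_B_smul_left, h.orth _ _ h1.symm] at this
    linear_combination c * this - C.B (e o) (g (e b)) * hc
  obtain ⟨m, p, l, a1, a2, a3, a, a4, a5⟩ := hY.goal6 hσ hN h7 (y := g (e b))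
    ⟨(CForm.isom_N hg' _).trans (h.one b), h2, fun ω hω => ⟨uq_isom,
      uq_of_perp (C.B_swap_zero h2), _, nOne_σ hω hσ2, by
        have := mul_mem (mul_mem hg (h.ss_mem b o hω)) (inv_mem hg)
        rwa [uss_conj hg', uss, H, uq_smul hc] at this⟩⟩ hij hj hi
  refine hn (h.le_of_goal6 hσ hN h7 ⟨m, p, l, a1, a2, a3, a, a4, fun μ => ?_⟩)
  obtain ⟨b, k, ⟨b1, -, ω, b2, b3⟩, b4⟩ := a5 μ
  refine ⟨b, k, ?_, b4⟩
  have b5 := mem_SLV.1 (urq_su h.nd (ne_of_apply_ne (C.B (e m)) (by simp [h.bee, h.orth _ _ a1]))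
    (by rw [h.N_rt a1, a4, add_neg_cancel])
    (by simp [herm_B_smul_left, h.orth _ _ a2.symm, h.orth _ _ a3.symm]) b1 b4)
  have b6 := mem_SLV.1 (h.le b3).2
  rw [LinearEquiv.coe_toLinearMap_mul, map_mul, b5, det_uq (uq_ok (h.one o) b2), h.one] at b6
  rwa [show ω - 1 = 0 by linear_combination b6, uq_zero, mul_one] at b3

theorem mon_of_eq6 (hg : g ∈ X) {i j : κ} (H : g (e i) = c • e j) : g ∈ 𝐌 := by
  classical
  by_cases hij : i = j
  · exact h.mon_of_fix6 hσ hN h7 hn hg (hij ▸ H)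
  refine (Subgroup.mul_mem_cancel_left _ (mul_mem (h.sw_mem hij) (h.q_mem (ω := -1) (by simp) j))).1
    (h.mon_of_fix6 hσ hN h7 hn (mul_mem (h.sw_memX hij j) hg) (o := i) (c := -c) (h.ext fun r => ?_))
  rw [LinearEquiv.mul_apply, LinearEquiv.mul_apply, h.co_sw hij, h.co_q (by simp), H]
  simp only [map_smul, h.be, swap_apply_eq_iff, swap_apply_right]
  split_ifs <;> simp

theorem four6 (hg : g ∈ X) (hω : ω * σ ω = 1) (h1 : ω ≠ -1) (h2 : σ ω ≠ ω) {Z : Finset κ}
    (h4 : 4 ≤ Z.card) (H : ∀ i ∈ Z, ∀ j ∈ Z, i ≠ j → g * uss C (e i) (e j) ω * g⁻¹ ∈ 𝐌) :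
    g ∈ 𝐌 := by
  classical
  have hg' := (h.le hg).1
  have n1 : ∀ i, C.N (g (e i)) = 1 := fun i => (CForm.isom_N hg' _).trans (h.one i)
  have n2 : ∀ i j, C.B (g (e i)) (g (e j)) = if i = j then 1 else 0 := fun i j =>
    (CForm.isom_B hg' _ _).trans (h.be i j)
  have ex : ∀ s : Finset κ, s.card < 4 → ∃ p ∈ Z, p ∉ s := fun s hs =>
    exists_mem_notMem_of_card_lt_card (by omega)
  obtain ⟨i, hi, -⟩ := ex ∅ (by simp)
  obtain ⟨j, hj, a1⟩ := ex {i} (by simp)
  obtain ⟨k, hk, a2⟩ := ex {j, i} (card_le_two.trans_lt (by omega))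
  obtain ⟨l, hl, a3⟩ := ex {k, j, i} (card_le_three.trans_lt (by omega))
  simp only [mem_insert, mem_singleton, not_or] at a1 a2 a3
  obtain ⟨p, hp⟩ : ∃ p, C.B (g (e i)) (e p) ≠ 0 := by
    by_contra H
    push Not at H
    exact h.e_ne i (g.injective (by rw [map_zero]; exact h.ext0 _ fun p => C.B_swap_zero (H p)))
  have h3 : ω - 1 ≠ 0 := fun H => h2 (by rw [sub_eq_zero.1 H, map_one])
  have ap : ∀ i j, i ≠ j → ∀ z, (g * uss C (e i) (e j) ω * g⁻¹) z =
      z + ((ω - 1) * C.B (g (e i)) z) • g (e i) + ((σ ω - 1) * C.B (g (e j)) z) • g (e j) :=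
    fun i j hij z => by rw [uss_conj hg', uss_apply (n1 i) (n1 j) (by simp [n2, hij]) hω]
  by_contra hc
  have key : ∀ t ∈ Z, t ≠ i → C.B (g (e t)) (e p) * σ (C.B (g (e t)) (e p)) =
      C.B (g (e i)) (e p) * σ (C.B (g (e i)) (e p)) ∧
      1 + (ω + σ ω - 2) * (C.B (g (e i)) (e p) * σ (C.B (g (e i)) (e p))) = 0 := by
    intro t ht hti
    rcases h.alt (H i hi t ht hti.symm) p with ⟨c, e1⟩ | e1
    · rw [ap _ _ hti.symm] at e1
      have e2 := congrArg (C.B (g (e i))) e1
      have e3 := congrArg (C.B (g (e t))) e1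
      simp only [map_add, map_smul, n2, smul_eq_mul, if_neg hti, if_neg hti.symm, if_true] at e2 e3
      have e4 : c = ω := mul_right_cancel₀ hp (by linear_combination -e2)
      have e5 : C.B (g (e t)) (e p) = 0 :=
        mul_left_cancel₀ (sub_ne_zero.2 h2) (by linear_combination e3 + C.B (g (e t)) (e p) * e4)
      refine absurd (h.mon_of_eq6 hσ hN h7 hn hg (i := i) (j := p) (c := (C.B (g (e i)) (e p))⁻¹)
        (smul_right_injective V (mul_ne_zero h3 hp) ?_)) hc
      rw [e5, e4] at e1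
      simp only [smul_smul, mul_assoc, mul_inv_cancel₀ hp]
      linear_combination (norm := module) e1
    · rw [ap _ _ hti.symm] at e1
      simp only [map_add, map_smul, h.bee, smul_eq_mul, herm_symm (g _) (e p)] at e1
      have e2 := congrArg σ e1
      simp only [map_add, map_mul, map_sub, map_one, hσ2, map_zero] at e2
      have e3 := mul_left_cancel₀ (sub_ne_zero.2 h2) (show (σ ω - ω) *
        (C.B (g (e t)) (e p) * σ (C.B (g (e t)) (e p))) = (σ ω - ω) *
        (C.B (g (e i)) (e p) * σ (C.B (g (e i)) (e p))) by linear_combination e1 - e2)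
      exact ⟨e3, by linear_combination e1 - (σ ω - 1) * e3⟩
  obtain ⟨b1, b2⟩ := key j hj a1
  have b3 := (key k hk a2.2).1
  have b4 := (key l hl a3.2.2).1
  rcases h.alt (mul_mem (H i hi j hj (Ne.symm a1)) (H k hk l hl (Ne.symm a3.1))) p with ⟨c, e1⟩ | e1
  · have e2 := congrArg (C.B (g (e i))) e1
    have e3 := congrArg (C.B (e p)) e1
    rw [LinearEquiv.mul_apply, ap _ _ (Ne.symm a1), ap _ _ (Ne.symm a3.1)] at e2 e3
    simp only [map_add, map_smul, n2, smul_eq_mul, h.bee, herm_symm (g _) (e p), a1, a2, a3,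
      eq_comm (a := i), eq_comm (a := j) (b := k), eq_comm (a := j) (b := l), if_false,
      if_true] at e2 e3
    exact h1 (mul_right_cancel₀ hp (by
      linear_combination e2 - C.B (g (e i)) (e p) * (e3 - 2 * b2 - (σ ω - 1) * b1 - (ω - 1) * b3 -
        (σ ω - 1) * b4)))
  · rw [LinearEquiv.mul_apply, ap _ _ (Ne.symm a1), ap _ _ (Ne.symm a3.1)] at e1
    simp only [map_add, map_smul, n2, smul_eq_mul, h.bee, herm_symm (g _) (e p), a1, a2, a3,
      eq_comm (a := i), eq_comm (a := j) (b := k), eq_comm (a := j) (b := l), if_false] at e1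
    exact one_ne_zero (α := F) (by
      linear_combination -(e1 - 2 * b2 - (σ ω - 1) * b1 - (ω - 1) * b3 - (σ ω - 1) * b4))

/-- The zero bound. -/
theorem zb6 (hg : g ∈ X) {i : κ} {Z : Finset κ} (h4 : 4 ≤ Z.card)
    (h0 : ∀ l ∈ Z, C.B (e l) (g (e i)) = 0) : g ∈ 𝐌 := by
  obtain ⟨ω, a1, -, a2, a3⟩ := exists_nOne' hσ hσ2
  refine inv_mem_iff.1 (h.four6 hσ hN h7 hn (inv_mem hg) a1 a2 a3 h4 fun l hl m hm hlm =>
    h.mon_of_fix6 hσ hN h7 hn (mul_mem (mul_mem (inv_mem hg) (h.ss_mem l m a1))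
      (inv_mem (inv_mem hg))) (o := i) (c := 1) ?_)
  rw [inv_inv, LinearEquiv.mul_apply, LinearEquiv.mul_apply,
    uss_apply (h.one l) (h.one m) (h.orth _ _ hlm) a1]
  simp [h0 l hl, h0 m hm, inv_apply_apply]

variable (two : (2 : F) = 0)
include two

theorem dih6 (hv : C.N v = 2) (hX : uq C v (-1) ∈ X) {i j k l : κ} (n : [i, j, k, l].Nodup)
    {a b : F} (ha : a * σ a = 1) (hb : b * σ b = 1) (h1 : C.B (e i + a • e j) v ≠ 0)
    (h2 : C.B (e k + b • e l) v ≠ 0) : C.B (e i + a • e j) v * σ (C.B (e i + a • e j) v) +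
      C.B (e k + b • e l) v * σ (C.B (e k + b • e l) v) = 0 := by
  classical
  by_contra h3
  obtain ⟨p, hp⟩ := exists_notMem_list [i, j, k, l] (by simp; omega)
  simp only [List.nodup_cons, List.mem_cons, List.not_mem_nil, not_or, or_false] at n hp
  obtain ⟨⟨n1, n2, n3⟩, ⟨n4, n5⟩, n6, -⟩ := n
  have ha0 : a ≠ 0 := left_ne_zero_of_mul_eq_one ha
  have hb0 : b ≠ 0 := left_ne_zero_of_mul_eq_one hb
  have m1 := h.rt_memX two n1 ha
  have m2 := h.rt_memX two n6 hb
  have c1 : ∀ t, C.B (e t) (e i + a • e j) = (if t = i then 1 else 0) + if t = j then a else 0 :=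
    fun t => by simp [h.be]
  have c2 : ∀ t, C.B (e t) (e k + b • e l) = (if t = k then 1 else 0) + if t = l then b else 0 :=
    fun t => by simp [h.be]
  have N1 : C.N (e i + a • e j) = 2 := by rw [h.N_rt n1, ha]; norm_num
  have N2 : C.N (e k + b • e l) = 2 := by rw [h.N_rt n6, hb]; norm_num
  have o1 : C.B (e i + a • e j) (e k + b • e l) = 0 := by simp [h.be, *]
  generalize e i + a • e j = u at *
  generalize e k + b • e l = w at *
  have o2 := C.B_swap_zero o1
  have ap : ∀ x, (uq C u (-1) * uq C w (-1)) x = x - C.B u x • u - C.B w x • w := fun x => by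
    simp only [LinearEquiv.mul_apply, uq_apply (uq_ok2 N1), uq_apply (uq_ok2 N2), map_add,
      map_smul, o1, smul_eq_mul]
    module
  have hi : X ≤ C.isom := fun g hg => (h.le hg).1
  have sq : uq C u (-1) * uq C w (-1) * (uq C u (-1) * uq C w (-1)) = 1 := by
    ext x
    simp only [LinearEquiv.mul_apply (uq C u (-1) * _), ap, map_sub, map_smul, herm_B_self, N1, N2,
      o1, o2, smul_eq_mul, LinearEquiv.coe_one, id]
    module
  haveI : Finite V := Module.finite_of_finite F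
  haveI : Finite (V ≃ₗ[F] V) := DFunLike.finite _
  rcases dihedral_alt (X := subG C X (spanL F [v, u, w])) (z := uq C v (-1))
    (y := uq C u (-1) * uq C w (-1))
    ((mem_subG hi).2 ⟨hX, fun x hx => uq_of_perp (mem_perp_spanL.1 hx v (by simp))⟩)
    ((mem_subG hi).2 ⟨mul_mem m1 m2, fun x hx => by
      simp [ap, mem_perp_spanL.1 hx u (by simp), mem_perp_spanL.1 hx w (by simp)]⟩) (uq_sq hv) sq
    with ⟨s, hs, e1⟩ | ⟨c, hc, e1, e2, e3, s, -, e4⟩
  · have hs' := hi (subG_le _ hs)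
    rw [uq_conj hs'] at e1
    have a1 := fun x => (ap x).symm.trans ((congrArg (· x) e1).trans
      (uq_apply (uq_ok2 ((CForm.isom_N hs' v).trans hv)) x))
    have a2 := congrArg (C.B (e i)) (a1 (e i))
    have a3 := congrArg (C.B (e i)) (a1 (e k))
    have a4 := congrArg (C.B (e k)) (a1 (e k))
    simp [ufr_eb e u, ufr_eb e w, c1, c2, h.be, n1, n2, n3, n6, Ne.symm n2, Ne.symm n4] at a2 a3 a4
    rcases a3 with a3 | a3
    · simp [a3] at a4
    · simp [a3] at a2
  obtain ⟨hc, hc'⟩ := (mem_subG hi).1 hc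
  have hc1 := hi hc
  have cc : ∀ x, c (c x) = x := fun x => congrArg (· x)
    (e4.elim (sq_of_comm e2 (uq_sq hv) (uq_sq hv)) (sq_of_comm e3 sq (uq_sq hv)))
  have cv : c v = v := by
    obtain ⟨x, hx⟩ := h.nd.exists_eq (x := v) (by rintro rfl; simp at h1) 1
    have a1 := congrArg (· x) ((uq_conj (v := v) (c := -1) hc1).symm.trans
      (mul_inv_eq_iff_eq_mul.2 e2.eq))
    simp only [uq_apply (uq_ok2 hv), uq_apply (uq_ok2 ((CForm.isom_N hc1 v).trans hv)), hx,
      add_right_inj, neg_mul, one_mul, neg_smul, neg_inj, one_smul] at a1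
    have a2 := congrArg c a1
    rw [map_smul, cc] at a2
    generalize C.B (c v) x = γ at *
    have a3 := congrArg (C.B u) a1
    rw [← a2, smul_smul, map_smul, smul_eq_mul] at a3
    have a4 : (γ - 1) * (γ - 1) = 0 := mul_right_cancel₀ h1 (by
      linear_combination a3 + (1 - γ) * C.B u v * two)
    rw [← a2, sub_eq_zero.1 (mul_self_eq_zero.1 a4), one_smul]
  have bv : ∀ x, C.B v (c x) = C.B v x := fun x => by rw [← cv, CForm.isom_B hc1, cv]
  have key : ∀ x, ∃ β γ : F, c x = x + β • u + γ • w ∧ β * σ (C.B u v) + γ * σ (C.B w v) = 0 := by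
    intro x
    have a1 : c x - x ∈ spanL F [v, u, w] := by
      rw [← h.nd.perp_perp (spanL F [v, u, w])]
      exact C.mem_perp.2 fun y hy => by
        rw [map_sub, ← hc' y hy, CForm.isom_B hc1, hc' y hy, sub_self]
    rw [spanL, show {x | x ∈ [v, u, w]} = {v, u, w} by ext; simp] at a1
    obtain ⟨α, β, γ, a2⟩ := Submodule.mem_span_triple.1 a1
    have a3 := eq_add_of_sub_eq' a2.symm
    have a4 := bv x
    have a5 := congrArg (C.B v) (congrArg (· x) e3.eq)
    simp only [LinearEquiv.mul_apply (f := c), LinearEquiv.mul_apply (g := c), bv] at a5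
    simp only [ap, a3, map_add, map_sub, map_smul, herm_B_self, hv, N1, N2, o1, o2, smul_eq_mul,
      herm_symm u v, herm_symm w v] at a4 a5
    have a6 : α = 0 := mul_right_cancel₀ h3 (by
      linear_combination a5 - a4 + 2 * α * two)
    exact ⟨β, γ, by rw [a3, a6]; module, by linear_combination a4 - α * two⟩
  have cm : c ∈ 𝐌 := h.mon_of_fix6 hσ hN h7 hn hc (o := p) (c := 1) (h.nd.ext' fun x => by
    obtain ⟨β, γ, a1, -⟩ := key x
    rw [one_smul, ← CForm.isom_B hc1, cc, a1]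
    simp [ufr_eb e u, ufr_eb e w, c1, c2, hp])
  obtain ⟨r, hr⟩ : ∃ r, c (e r) ≠ e r := by
    by_contra H
    push Not at H
    exact e1 (LinearEquiv.ext fun x => by rw [← h.sum x]; simp [H])
  obtain ⟨β, γ, a1, a2⟩ := key (e r)
  have s1 := (map_ne_zero σ).2 h1
  have s2 := (map_ne_zero σ).2 h2
  have a3 : β ≠ 0 := by
    rintro rfl
    exact hr (by simpa [show γ = 0 by simpa [s2] using a2] using a1)
  have a4 : γ ≠ 0 := by
    rintro rfl
    exact a3 (by simpa [s1] using a2)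
  by_cases H : r = i ∨ r = j
  · refine n6 (h.two cm (i := r) ?_ ?_) <;>
      rcases H with rfl | rfl <;>
      simp [a1, c1, c2, h.be, *, Ne.symm n2, Ne.symm n3, Ne.symm n4, Ne.symm n5, Ne.symm n6]
  · push Not at H
    refine n1 (h.two cm (i := r) ?_ ?_) <;>
      simp [a1, c1, c2, h.be, *, H.1.symm, H.2.symm, Ne.symm n1]

theorem tv_mem6 (H : ∃ a, σ a = a ∧ a ≠ 0 ∧ a ≠ 1) (hv : C.N v = 2) (hX : uq C v (-1) ∈ X) : uq C v (-1) ∈ 𝐌 := by
  classical
  have zero : ∀ v, uq C v (-1) ∈ X → ∀ p, C.B (e p) v = 0 → uq C v (-1) ∈ 𝐌 := fun v hv p hp =>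
    h.mon_of_fix6 hσ hN h7 hn hv (o := p) (c := 1) (by rw [uq_of_perp (C.B_swap_zero hp), one_smul])
  by_contra hc
  have h0 : ∀ p, C.B (e p) v ≠ 0 := fun p hp => hc (zero v hX p hp)
  obtain ⟨i, -⟩ := exists_notMem_list (κ := κ) [] (by simp; omega)
  obtain ⟨j, a1⟩ := exists_notMem_list [i] (by simp; omega)
  obtain ⟨k, a2⟩ := exists_notMem_list [j, i] (by simp; omega)
  obtain ⟨l, a3⟩ := exists_notMem_list [k, j, i] (by simp; omega)
  obtain ⟨b, hb, hb1, -⟩ := exists_nOne hσ hσ2 (σ (-C.B (e j) v / C.B (e i) v)) 1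
  have h2 : C.B (e j + b • e i) v ≠ 0 := fun H => hb1 (by
    simp only [map_add, LinearMap.add_apply, herm_B_smul_left] at H
    have := h0 i
    rw [← hσ2 b]; congr 1; field_simp; linear_combination H)
  generalize hβ : C.B (e j + b • e i) v * σ (C.B (e j + b • e i) v) = β
  obtain ⟨a, ha, h3⟩ := exists_mem_notMem_of_card_lt_card (t := nOne σ)
    (s := insert (σ (-C.B (e l) v / C.B (e k) v)) (qrts (C.B (e l) v * σ (C.B (e k) v))
      (C.B (e l) v * σ (C.B (e l) v) + C.B (e k) v * σ (C.B (e k) v) + β)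
      (σ (C.B (e l) v) * C.B (e k) v)))
    ((card_insert_le _ _).trans_lt (Nat.lt_of_succ_le ((Nat.add_le_add_right (card_qrts fun H =>
      mul_ne_zero (h0 l) ((map_ne_zero σ).2 (h0 k)) H.1) 2).trans ((card_nOne hσ hσ2).2.2 H))))
  rw [mem_nOne] at ha
  rw [mem_insert, not_or, mem_qrts] at h3
  have := h.dih6 hσ hN h7 hn two hv hX (i := l) (j := k) (k := j) (l := i) (by grind) ha hb
    (fun H => h3.1 (by
      simp only [map_add, LinearMap.add_apply, herm_B_smul_left] at H
      have := h0 k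
      rw [← hσ2 a]; congr 1; field_simp; linear_combination H)) h2
  rw [hβ] at this
  simp only [map_add, LinearMap.add_apply, herm_B_smul_left, map_mul, hσ2] at this
  exact h3.2 (by
    linear_combination a * this - (σ (C.B (e l) v) * C.B (e k) v +
      a * C.B (e k) v * σ (C.B (e k) v)) * ha)

theorem le_of_even6 (H : ∃ a, σ a = a ∧ a ≠ 0 ∧ a ≠ 1) : X ≤ 𝐌 := by
  classical
  intro g hg
  obtain ⟨ω, a1, -, a2, a3⟩ := exists_nOne' hσ hσ2
  refine h.four6 hσ hN h7 hn hg a1 a2 a3 (Z := univ) (by rw [card_univ]; omega) fun i _ j _ hij => ?_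
  have key : ∀ a, a * σ a = 1 → g * uq C (e i + a • e j) (-1) * g⁻¹ ∈ 𝐌 := fun a ha => by
    have := mul_mem (mul_mem hg (h.rt_memX two hij ha)) (inv_mem hg)
    rw [uq_conj (h.le hg).1] at this ⊢
    exact h.tv_mem6 hσ hN h7 hn two H ((CForm.isom_N (h.le hg).1 _).trans (by
      rw [h.N_rt hij, ha]; norm_num)) this
  convert mul_mem (key 1 (by simp)) (key ω a1) using 1
  rw [conj_mul]
  congr 2
  ext x
  rw [uss_apply (h.one i) (h.one j) (h.orth _ _ hij) a1, LinearEquiv.mul_apply,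
    uq_apply (uq_ok2 (by rw [h.N_rt hij]; norm_num)),
    uq_apply (uq_ok2 (by rw [h.N_rt hij, a1]; norm_num))]
  simp only [map_add, map_smul, LinearMap.add_apply, herm_B_smul_left, h.bee, h.orth _ _ hij,
    h.orth _ _ hij.symm, smul_eq_mul, map_one]
  match_scalars
  · ring
  · linear_combination -C.B (e j) x * a1
  · ring

end UX

end H12
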