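import Cfsg.Agent.H12.UStr
import Cfsg.Agent.H12.ClassifyQuad

/-!
# The unitary group over a quadratic extension is maximal in the orthogonal group
-/

set_option autoImplicit false
set_option maxHeartbeats 400000

namespace H12

open Module H11 QuadraticMap Submodule

variable {F : Type*} [Field F] {V : Type*} [AddCommGroup V] [Module F V] {θ : V →ₗ[F] V}
  {t n : F} {G H X : Subgroup (V ≃ₗ[F] V)} {C : CForm (quadType F) V}

variable (C X) in
/-- The vectors `y` such that `X` contains the Eichler transformations along `v` and `F y`. -/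
def YQ {v : V} (hv : C.N v = 0) : Submodule F V where
  carrier := {y | C.B v y = 0 ∧ ∀ c : F, ∃ a, Rq C X v (c • y) a}
  zero_mem' := ⟨by simp, fun c => ⟨0, by simpa using rho_zero⟩⟩
  add_mem' {y y'} h h' := ⟨by simp [h.1, h'.1], fun c => by
    obtain ⟨a, e⟩ := h.2 c
    obtain ⟨a', e'⟩ := h'.2 c
    exact ⟨_, smul_add c y y' ▸ e.mul e' (C.B_self_of_zero hv) (by simp [h.1]) (by simp [h'.1])⟩⟩
  smul_mem' d y h := ⟨by simp [h.1], fun c => by rw [smul_smul]; exact h.2 _⟩

theorem YQ.conj {v y : V} {hv : C.N v = 0} (h : y ∈ YQ X C hv) {k : V ≃ₗ[F] V} (hk : k ∈ X)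
    (hk' : k ∈ C.isom) (hv' : C.N (k v) = 0) : k y ∈ YQ X C hv' :=
  ⟨by rw [CForm.isom_B hk', h.1], fun c => let ⟨a, e⟩ := h.2 c
    ⟨a, map_smul k c y ▸ e.conj hk hk'⟩⟩

theorem YQ.self {v : V} (hv : C.N v = 0) : v ∈ YQ X C hv :=
  ⟨C.B_self_of_zero hv, fun c => ⟨0, 1, one_mem _, fun x => by
    rw [map_smul, quad_symm C v x]; simp [quadType, smul_smul, mul_comm]⟩⟩

variable (θ t n C X) in
/-- The unitary structure; `X` contains the unitary transvections. -/
structure UQ : Prop extends QExt θ t n where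
  adj : ∀ u v, C.B (θ u) v = t * C.B u v - C.B u (θ v)
  B0 : ∀ v, C.N v = 0 → C.B v (θ v) = 0
  rho : ∀ v (c : F), C.N v = 0 → Rq C X v (c • θ v) 0
  nd : C.Nondeg
  iso : Iso3 C
  le : X ≤ C.isom
  dim : 14 ≤ finrank F V

namespace UQ

variable (h : UQ θ t n X C)
include h

theorem theta {v : V} (hv : C.N v = 0) : θ v ∈ YQ X C hv := ⟨h.B0 v hv, fun c => ⟨0, h.rho v c hv⟩⟩

theorem exists_tv {u : V} (hu : C.N u = 0) :
    ∃ k ∈ X, ∀ x, k x = x + C.B u x • θ u - C.B x (θ u) • u := by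
  obtain ⟨k, hk, e⟩ := h.rho u 1 hu
  exact ⟨k, hk, fun x => by simp [e, quadType]⟩

theorem step {v y u : V} {hv : C.N v = 0} (hy : y ∈ YQ X C hv) (hu : C.N u = 0)
    (h1 : C.B v u = 0) (h2 : C.B (θ v) u = 0) (h3 : C.B y u = 0) (h4 : C.B u (θ y) ≠ 0) :
    u ∈ YQ X C hv := by
  obtain ⟨k, hk, e⟩ := h.exists_tv hu
  have e1 : k v = v := by
    have := h.adj v u
    rw [h1, h2] at this
    simp [e, quad_symm C v u, h1, show C.B v (θ u) = 0 by linear_combination this]
  have h5 := YQ.conj hy hk (h.le hk) (e1.symm ▸ hv)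
  simp only [e1] at h5
  have h6 : k y - y ∈ YQ X C hv := sub_mem h5 hy
  rw [e, quad_symm C y u, h3, quad_symm C (θ u) y, h.adj, quad_symm C y u, h3] at h6
  exact (smul_mem_iff _ h4).1 (by simpa using h6)

variable [FiniteDimensional F V]

theorem perp_le {v y : V} {hv : C.N v = 0} (hv0 : v ≠ 0) (hy : y ∈ YQ X C hv)
    (hn : y ∉ spanL F [v, θ v]) : C.perp (spanL F [v, θ v]) ≤ YQ X C hv := fun x hx => by
  have hd := h.dim
  refine h.iso.perp_le h.nd (U := spanL F [v, θ v]) (Z := spanL F [v, θ v, y, θ y])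
    (YQ X C hv).toAddSubgroup (by have := finrank_span_list_le (F := F) [v, θ v]; simp at this; omega)
    (by have := finrank_span_list_le (F := F) [v, θ v]
        have := finrank_span_list_le (F := F) [v, θ v, y, θ y]; simp at *; omega)
    (fun w w1 w2 w3 => ?_) hx
  rw [mem_perp_spanL] at w1
  obtain ⟨u, u1, u2, u3⟩ := h.iso.exists_perp_one h.nd (l := [w, θ y - θ w, v, θ v, y]) (z := θ y)
    (fun e => by
      obtain ⟨a, _, e, e'⟩ := mem_spanL_cons.1 e
      obtain ⟨b, c, d, f, rfl⟩ := mem_spanL_four.1 e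
      obtain ⟨rfl, hb⟩ := (h.mem_of (h.inv4 v y) (a := a) (b := -b) (w := w)
        (mem_spanL_four.2 ⟨-c, -d, -f, 1 - b, by
          linear_combination (norm := module) (-1 : F) • e'⟩)).resolve_left w2
      simpa using h.ind2 (a := c) (b := d) (c := f) (d := -1) hv0 hn (by
        rw [neg_eq_zero.1 hb] at e'; linear_combination (norm := module) e'))
    (by simp; omega)
  simp only [List.mem_cons, List.not_mem_nil, or_false, forall_eq_or_imp, forall_eq] at u1 w1
  obtain ⟨a1, a2, a3, a4, a5⟩ := u1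
  refine h.step (h.step hy u2 a3 a4 a5 (by simp [u3])) w3 w1.1 w1.2 (C.B_swap_zero a1) ?_
  rw [C.B_sub_left, quad_symm C u, u3, h.adj, a1] at a2
  rw [show C.B w (θ u) = -1 by linear_combination a2]
  simp

theorem le_of_full (hG : RootG C G) (hX : X ≤ G) {v : V} {hv : C.N v = 0} (hv0 : v ≠ 0)
    (hY : ∀ y, C.B v y = 0 → y ∈ YQ X C hv) : G ≤ X := by
  have hd := h.dim
  obtain ⟨p, hp⟩ := h.nd.exists_eq hv0 1
  have h1 : Q1 C G X v := q1_of_rho hG.le hX hv hp (fun y hy => by simpa using (hY y hy).2 1)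
    fun a ha => by
      have := (ha.tvOk hG.le hv hp).2
      rw [show a = 0 by simpa [quadType] using this]; exact rho_zero
  have key : ∀ {x u : V}, C.N u = 0 → C.B x u = 0 → C.B u (θ x) = 1 → ∃ k ∈ X, k x = x + u :=
    fun {x u} a1 a2 a3 => by
      obtain ⟨k, hk, e⟩ := h.exists_tv a1
      refine ⟨k, hk, ?_⟩
      rw [e, quad_symm C x u, a2, quad_symm C (θ u) x, h.adj, quad_symm C x u, a2, a3]; simp
  obtain ⟨u, u1, u2, u3⟩ := h.iso.exists_perp_one h.nd (l := [v]) (z := θ v) (fun e => by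
    obtain ⟨a, e⟩ := mem_span_singleton.1 (by simpa [spanL] using e : θ v ∈ span F {v})
    simpa using h.ind (a := a) (b := -1) hv0 (by linear_combination (norm := module) e))
    (by simp; omega)
  replace u1 := u1 v (by simp)
  obtain ⟨k, hk, e⟩ := key u2 u1 u3
  have hN : C.N (v + u) = 0 := by rw [← e, CForm.isom_N (h.le hk), hv]
  obtain ⟨w, w1, w2, w3⟩ := h.iso.exists_perp_one h.nd (l := [v + u, θ (v + u) - v]) (z := v)
    (fun e' => by
      obtain ⟨a, b, e'⟩ := mem_spanL_pair.1 e'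
      have b1 := congrArg (C.B (θ (v + u))) e'
      have b3 : C.B (θ (v + u)) v = -1 := by
        have := h.adj u v
        rw [map_add, C.B_add_left, quad_symm C v, h.B0 v hv, h.adj, quad_symm C v u, u1,
          quad_symm C (θ v) u, quad_symm C u (θ v), u3]; simp
      have b4 : C.B (θ (v + u)) (θ (v + u)) = 0 := by
        rw [h.adj, h.sq]; simp only [map_sub, map_smul, h.B0 _ hN, C.B_self_of_zero hN]; simp
      rw [map_add, map_smul, map_smul, map_sub, b3, b4, quad_symm C (v + u) (θ _), h.B0 _ hN] at b1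
      have hb : b = -1 := by simpa using b1
      have := h.ind (w := v + u) (a := a) (b := -1) (by rw [← e]; simpa using hv0)
        (by rw [hb] at e'; linear_combination (norm := module) e')
      simp at this) (by simp; omega)
  simp only [List.mem_cons, List.not_mem_nil, or_false, forall_eq_or_imp, forall_eq] at w1
  obtain ⟨k', hk', e'⟩ := key w2 w1.1 (by
    have := w1.2
    rw [C.B_sub_left, quad_symm C w v, w3, quad_symm C w] at this
    linear_combination this)
  refine hG.fin X v _ hv (by rw [CForm.isom_N (h.le (mul_mem hk' hk)), hv]) ?_ h1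
    (h1.conj hG.le (mul_mem hk' hk) (hX (mul_mem hk' hk)))
  rw [LinearEquiv.mul_apply, e, e']
  simp [C.B_self_of_zero hv, u1, quad_symm C w v, w3]

theorem le_or (hG : RootG C G) (hX : X ≤ G) (hH : IsNorm θ H) : G ≤ X ∨ X ≤ H := by
  have hd := h.dim
  by_cases hY : ∃ v, ∃ hv : C.N v = 0, ∃ y ∈ YQ X C hv, C.B (θ v) y ≠ 0
  · obtain ⟨v, hv, y, hy, hB⟩ := hY
    have hv0 : v ≠ 0 := by rintro rfl; simp at hB
    refine Or.inl (h.le_of_full hG hX (hv := hv) hv0 fun x hx => ?_)
    have := h.perp_le hv0 hy (fun e => hB (by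
      obtain ⟨a, b, rfl⟩ := mem_spanL_pair.1 e
      simp [h.adj, h.sq, h.B0 v hv, C.B_self_of_zero hv]))
      (mem_perp_spanL.2 (by simp [hx, hy.1, hB]) : x - (C.B (θ v) x / C.B (θ v) y) • y ∈ _)
    simpa using add_mem this (smul_mem _ (C.B (θ v) x / C.B (θ v) y) hy)
  push Not at hY
  refine Or.inr fun g hg => (hH g).2 ?_
  obtain ⟨a, b, e⟩ := h.exists_eq h.iso h.nd (by omega)
    ((g : V →ₗ[F] V) ∘ₗ θ ∘ₗ (g⁻¹ : V ≃ₗ[F] V)) fun w hw => by
      obtain ⟨v, rfl⟩ := g.surjective w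
      have hv : C.N v = 0 := by rwa [CForm.isom_N (h.le hg)] at hw
      simp only [LinearMap.comp_apply, LinearEquiv.coe_coe, inv_apply_apply]
      by_contra hn
      have h0 : g v ≠ 0 := by rintro e; simp [(LinearEquiv.map_eq_zero_iff g).1 e] at hn
      refine hn (h.nd.perp_perp (spanL F [g v, θ (g v)]) ▸ C.mem_perp.2 fun z hz => ?_)
      obtain ⟨z, rfl⟩ := g.surjective z
      have := YQ.conj (h.perp_le h0 (YQ.conj (h.theta hv) hg (h.le hg) hw) hn hz) (inv_mem hg)
        (inv_mem (h.le hg)) (by rwa [inv_apply_apply])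
      simp only [inv_apply_apply] at this
      rw [CForm.isom_B (h.le hg), quad_symm, hY v hv z this]
  exact ⟨a, b, fun x => by simpa using e (g x)⟩

end UQ

theorem isMaximalIn_uquad [Finite F] [FiniteDimensional F V] {Q : QuadraticForm F V}
    (hQ : QNondeg Q) (hd : 14 ≤ finrank F V) (h : QExt θ t n)
    (adj : ∀ u v, polar Q (θ u) v = t * polar Q u v - polar Q u (θ v))
    (h1 : ∀ v, Q v = 0 → Q (θ v) = 0) (h2 : ∀ v, Q v = 0 → Q (v + θ v) = 0) (hH : IsNorm θ H) :
    Cfsg.Geo.IsMaximalIn (OmegaV Q) (H ⊓ OmegaV Q) := by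
  have hG := rootG_quad hQ (by omega)
  have h3 : ∀ v, Q v = 0 → polar Q v (θ v) = 0 := fun v hv => by simp [polar, h1 v hv, h2 v hv, hv]
  refine isMaximalIn_of _ _ inf_le_right (fun e => h.not_le (spec_quad hQ (Or.inr (by omega)))
    (iso3_quad Q) (by omega) hH (e.trans inf_le_left)) fun M a1 a2 g a3 a4 => ?_
  refine (UQ.le_or ⟨h, adj, h3, fun v c hv => ?_, hQ, iso3_quad Q, a2.trans hG.le, hd⟩ hG a2
    hH).resolve_right fun e => a4 ⟨e a3, a2 a3⟩
  obtain ⟨k, hk, e⟩ := hG.rho v (c • θ v) hv ((CForm.ofQuad Q).N_smul_of_zero (h1 v hv) c)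
    (by rw [map_smul, CForm.ofQuad_B, h3 v hv, smul_zero])
  refine ⟨k, a1 ⟨(hH k).2 ⟨0, 1, fun x => ?_⟩, hk⟩, e⟩
  replace e : ∀ x, k x = x + polar Q x v • c • θ v - (c * polar Q x (θ v)) • v := fun x => by
    rw [e, map_smul, CForm.ofQuad_B, CForm.ofQuad_B, polar_comm Q v]; simp [quadType]
  simp only [e, map_smul, map_add, map_sub, h.sq, adj, polar_sub_right, polar_smul_right,
    smul_eq_mul]
  module

end H12
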