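import Cfsg.Agent.H12.US3b

/-!
# `GUₘ(q).2` in `Sp₂ₘ(q)`, `m ≥ 3`: local analysis
-/

set_option autoImplicit false
set_option maxHeartbeats 400000

namespace H12

open Module H11 H13.KL Submodule

variable {F E V : Type*} [Field F] [Field E] [Algebra F E] [AddCommGroup V] [Module F V]
  [Module E V] [IsScalarTower F E V] {τ : E →+* E} {hτ2 : ∀ a, τ (τ a) = a}
  {C : CForm (altType F) V} {D : CForm (hermType τ hτ2) V} {l : Dual F E} {θ : E}
  {X : Subgroup (V ≃ₗ[F] V)} {u z : V}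

local notation "𝔣" => algebraMap F E

variable (C D l θ X) in
/-- A proper overgroup of the unitary group in the symplectic group. -/
structure US4 : Prop where
  eq : ∀ x y, C.B x y = l (D.B x y)
  lτ : ∀ a, l (τ a) = -l a
  ne : l ≠ 0
  τF : ∀ c, τ (𝔣 c) = 𝔣 c
  τθ : τ θ = -θ
  θ0 : θ ≠ 0
  dec : ∀ a, ∃ s t : F, a = 𝔣 s + 𝔣 t * θ
  two : (2 : F) ≠ 0
  nd : D.Nondeg
  dim : 3 ≤ finrank E V
  le : X ≤ C.isom
  res : ∀ g ∈ D.isom, res F E V g ∈ X
  nle : ¬ C.isom ≤ X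

namespace US4

variable (h : US4 C D l θ X)
include h

theorem fdE : FiniteDimensional E V := FiniteDimensional.of_finrank_pos (by have := h.dim; omega)

theorem two' : (2 : E) ≠ 0 := fun e => h.two ((𝔣).injective (by rw [map_ofNat, e, map_zero]))

theorem hτ : τ ≠ RingHom.id E := fun e => h.θ0 (by
  have := h.τθ
  rw [e, RingHom.id_apply] at this
  exact (mul_eq_zero.1 (by linear_combination this : 2 * θ = 0)).resolve_left h.two')

theorem fix {a : E} (ha : τ a = a) : ∃ c, a = 𝔣 c := by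
  obtain ⟨s, t, rfl⟩ := h.dec a
  rw [map_add, map_mul, h.τF, h.τF, h.τθ] at ha
  exact ⟨s, by
    have := (mul_eq_zero.1 (by linear_combination -ha : 2 * (𝔣 t * θ) = 0)).resolve_left h.two'
    rw [this, add_zero]⟩

theorem l_fix {a : E} (ha : τ a = a) : l a = 0 := by
  have := h.lτ a
  rw [ha] at this
  exact (mul_eq_zero.1 (by linear_combination this : 2 * l a = 0)).resolve_left h.two

theorem l_mul {a : E} (ha : τ a = a) (b : E) : 𝔣 (l (a * b)) = a * 𝔣 (l b) := by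
  obtain ⟨c, rfl⟩ := h.fix ha
  rw [← Algebra.smul_def, map_smul, smul_eq_mul, map_mul]

theorem lθ : l θ ≠ 0 := fun e => h.ne (LinearMap.ext fun a => by
  obtain ⟨s, t, rfl⟩ := h.dec a
  rw [map_add, h.l_fix (h.τF s), ← Algebra.smul_def, map_smul, e]; simp)

theorem l_eq : ∃ κ, τ κ = -κ ∧ κ ≠ 0 ∧ ∀ a, 𝔣 (l a) = κ * (a - τ a) := by
  have := h.two'
  have := h.θ0
  refine ⟨𝔣 (l θ) / (2 * θ), by rw [map_div₀, h.τF, map_mul, map_ofNat, h.τθ]; field_simp,
    by simp [h.lθ, *], fun a => ?_⟩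
  obtain ⟨s, t, rfl⟩ := h.dec a
  rw [map_add, h.l_fix (h.τF s), zero_add, h.l_mul (h.τF t), map_add, map_mul, h.τF, h.τF, h.τθ]
  field_simp; ring

theorem perp_iff {x y : V} : D.B x y = 0 ↔ ∀ k : E, C.B (k • x) y = 0 :=
  ⟨fun e k => by simp [h.eq, e], fun e => eq_zero_of_dual h.ne fun k => by
    simpa [h.eq, herm_sg, hτ2] using e (τ k)⟩

theorem ndC : C.Nondeg := fun x hx => h.nd x fun y => D.B_swap_zero (h.perp_iff.2 fun _ =>
  C.B_swap_zero (hx _))

theorem mem_perp {x : V} : x ∈ C.perp (eL F E u) ↔ D.B u x = 0 :=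
  ⟨fun e => h.perp_iff.2 fun k => C.mem_perp.1 e _ (smul_mem_eL k u), fun e => C.mem_perp.2
    fun y hy => by obtain ⟨k, rfl⟩ := mem_eL.1 hy; exact h.perp_iff.1 e k⟩

theorem mem_of_perp {x : V} (hx : ∀ d, D.B u d = 0 → D.B d x = 0) : x ∈ eL F E u := by
  have := h.fdE
  change x ∈ span E {u}
  rw [← h.nd.perp_perp (span E {u})]
  exact D.mem_perp.2 fun d hd => hx d (D.mem_perp_singleton.1 hd)

theorem rho (hu : D.N u = 0) {y : V} (hy : D.B u y = 0) : ∃ a, ∃ t ∈ X,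
    (∀ (k : E) x, t (k • x) = k • t x) ∧
      ∀ x, t x = x + D.B u x • y - (D.B y x + a * D.B u x) • u := by
  obtain ⟨a, ha⟩ := exists_trace_eq h.hτ hτ2 (herm_σN (C := D) y)
  exact ⟨a, _, h.res _ (H12.rho D hu hy ha).2, fun k x => by simp, rho_apply hu hy ha⟩

theorem tv (hu : D.N u = 0) {a : E} (ha : a + τ a = 0) :
    ∃ t ∈ X, ∀ x, t x = x + (a * D.B u x) • u :=
  ⟨_, h.res _ (H11.tv D hu (tvOk_herm.2 ha)).2, tv_apply hu (tvOk_herm.2 ha)⟩

theorem witt {v : V} (hu : D.N u = 0) (hv : D.N v = 0) (hu0 : u ≠ 0) (hv0 : v ≠ 0) :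
    ∃ k ∈ X, (∀ (a : E) x, k (a • x) = a • k x) ∧ (∀ x y, D.B (k x) (k y) = D.B x y) ∧ k u = v := by
  have := h.fdE
  obtain ⟨k, hk, e⟩ := h.nd.witt_one hu0 hv0 (hv.trans hu.symm)
  exact ⟨_, h.res k hk, fun a x => by simp, hk.1, e⟩

variable [Finite E]

theorem iso3 : Iso3 D := have := h.fdE; iso3_herm (exists_norm_of_finite hτ2 h.hτ) D

theorem exists_iso {Z : Submodule E V} (hZ : Z ≠ ⊤) : ∃ s, D.N s = 0 ∧ s ∉ Z := by
  have := h.fdE
  by_contra! hc
  exact hZ (eq_top_iff.2 fun x _ => h.iso3.mem_of_iso h.nd h.dim Z.toAddSubgroup hc x)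

variable [FiniteDimensional F V]

theorem not_tvAll (hu : D.N u = 0) (hu0 : u ≠ 0) : ¬ TvAll X C u := fun hT => by
  have := h.fdE
  have key : ∀ v, D.N v = 0 → v ≠ 0 → TvAll X C v := fun v hv hv0 => by
    obtain ⟨k, hk, -, -, rfl⟩ := h.witt hu hv hu0 hv0
    exact hT.conj hk h.le
  refine h.nle (le_of_tvAll h.ndC fun x => ?_)
  by_cases hx : x = 0
  · exact hx ▸ fun a => ⟨1, one_mem _, by simp⟩
  obtain ⟨s, hs, a1⟩ := h.exists_iso (Z := LinearMap.ker (D.B x)) fun e =>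
    hx (h.nd x fun y => (e ▸ mem_top : y ∈ LinearMap.ker (D.B x)))
  obtain ⟨s, hs, a2⟩ : ∃ s, D.N s = 0 ∧ D.B x s = D.N x / 2 + θ :=
    ⟨((D.N x / 2 + θ) / D.B x s) • s, D.N_smul_of_zero hs _, by
      rw [D.B_smul_right]; exact div_mul_cancel₀ _ a1⟩
  have a3 : C.B (x - s) s ≠ 0 := by
    rw [C.B_sub_left, alt_B_self, sub_zero, h.eq, a2, map_add, h.l_fix (by
      rw [map_div₀, herm_σN, map_ofNat]), zero_add]
    exact h.lθ
  have := h.two'
  simpa using (key s hs (by rintro rfl; simp at a3)).add (key (x - s) (by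
    rw [D.N_sub, hs, a2]
    change D.N x + 0 - (D.N x / 2 + θ + τ (D.N x / 2 + θ)) = 0
    rw [map_add, map_div₀, herm_σN, map_ofNat, h.τθ]; field_simp; ring)
    (by rintro e; simp [e] at a3)) h.le a3 1

theorem cen_form (hu : D.N u = 0) (hz : D.B u z = 1) {s : V ≃ₗ[F] V} (hs : s ∈ X)
    (hs' : s ∈ cen (eL F E u)) : ∃ α, α + τ α = 0 ∧ ∀ x, s x = x + (α * D.B u x) • u := by
  have hu0 : u ≠ 0 := by rintro rfl; simp at hz
  have uu : D.B u u = 0 := D.B_self_of_zero hu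
  have := h.two'
  have := h.θ0
  obtain ⟨a, ha⟩ := mem_eL.1 (hs' z)
  obtain ⟨b, hb⟩ := mem_eL.1 (hs' (θ • z))
  obtain ⟨α, β, e⟩ : ∃ α β, ∀ x, s x = x + (α * D.B u x + β * τ (D.B u x)) • u := by
    refine ⟨(a + b / θ) / 2, (a - b / θ) / 2, fun x => ?_⟩
    obtain ⟨c, d, e⟩ := h.dec (D.B u x)
    have a1 := h.ndC.cen_fix (h.le hs) hs' (h.mem_perp.2 (show D.B u (x - D.B u x • z) = 0 by
      simp [hz]))
    rw [map_sub, sub_eq_iff_eq_add, e, add_smul, mul_smul, algebraMap_smul, algebraMap_smul,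
      map_add, map_smul, map_smul, eq_add_of_sub_eq' ha.symm, eq_add_of_sub_eq' hb.symm] at a1
    rw [a1, e, map_add, map_mul, h.τF, h.τF, h.τθ]
    simp only [← algebraMap_smul E c, ← algebraMap_smul E d]
    match_scalars <;> field_simp <;> ring
  have hα : α + τ α = 0 := eq_zero_of_dual h.ne fun k => by
    have a1 := CForm.isom_B (h.le hs) z (k • z)
    rw [e, e, h.eq, h.eq] at a1
    simp only [map_add, LinearMap.add_apply, D.B_smul_left, D.B_smul_right, uu, hz, herm_sg,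
      herm_symm u z, map_one, mul_one, mul_zero, map_zero, add_zero, map_mul, hτ2] at a1
    have a2 := h.lτ (β * τ k)
    rw [map_mul, hτ2] at a2
    rw [mul_add, map_add, mul_comm k α, mul_comm k]
    rw [add_mul, map_add, a2] at a1
    linear_combination a1
  refine ⟨α, hα, fun x => ?_⟩
  suffices β = 0 by simpa [this] using e x
  by_contra hβ
  let A : AddSubgroup E :=
    { carrier := {β | ∃ s ∈ X, ∀ x, s x = x + (β * τ (D.B u x)) • u}
      zero_mem' := ⟨1, one_mem _, by simp⟩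
      add_mem' := fun ⟨s, hs, e⟩ ⟨s', hs', e'⟩ => ⟨s * s', mul_mem hs hs', fun x => by
        rw [LinearEquiv.mul_apply, e, e']; simp [uu]; module⟩
      neg_mem' := fun ⟨s, hs, e⟩ => ⟨s⁻¹, inv_mem hs, fun x => s.injective (by
        rw [apply_inv_apply, e]; simp [uu])⟩ }
  have a1 : β ∈ A := by
    obtain ⟨t, ht, e'⟩ := h.tv hu (a := -α) (by rw [map_neg, ← neg_add, hα, neg_zero])
    exact ⟨t * s, mul_mem ht hs, fun x => by rw [LinearEquiv.mul_apply, e', e]; simp [uu]; module⟩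
  have a2 : ∀ c, β * (c * c) ∈ A := fun c => by
    by_cases hc : c = 0
    · simp [hc]
    obtain ⟨k, hk, b1, b2, b3⟩ := h.witt hu (D.N_smul_of_zero hu c) hu0 (smul_ne_zero hc hu0)
    obtain ⟨s, hs, e⟩ := a1
    refine ⟨k * s * k⁻¹, mul_mem (mul_mem hk hs) (inv_mem hk), fun x => ?_⟩
    obtain ⟨x, rfl⟩ := k.surjective x
    rw [LinearEquiv.mul_apply, LinearEquiv.mul_apply, inv_apply_apply, e, map_add, b1, b3, ← b2 u,
      b3, D.B_smul_left, herm_sg, map_mul, hτ2]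
    module
  have a3 : ∀ c, c ∈ A := fun c => by
    convert sub_mem (a2 ((c / β + 1) / 2)) (a2 ((c / β - 1) / 2)) using 1
    field_simp; ring
  obtain ⟨κ, b1, -, b3⟩ := h.l_eq
  refine h.not_tvAll hu hu0 fun c => ?_
  obtain ⟨s, hs, e⟩ := a3 (𝔣 c * κ)
  obtain ⟨t, ht, e'⟩ := h.tv hu (a := -(𝔣 c * κ)) (by simp [h.τF, b1])
  refine ⟨t * s, mul_mem ht hs, fun x => ?_⟩
  rw [LinearEquiv.mul_apply, e', e, h.eq]
  simp only [map_add, D.B_smul_right, uu, map_zero, zero_add, smul_zero, add_zero, mul_zero,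
    ← algebraMap_smul E (c * l _), map_mul, b3]
  module

theorem lin_of_rad (hu : D.N u = 0) (hz : D.B u z = 1) {y : V ≃ₗ[F] V} (hy : y ∈ X)
    (h1 : ∀ k : E, y (k • u) = k • u) (h2 : ∀ x, D.B u x = 0 → y x - x ∈ eL F E u) (k : E) (x : V) :
    y (k • x) = k • y x := by
  have uu : D.B u u = 0 := D.B_self_of_zero hu
  have h3 : ∀ x, D.B u (y x) = D.B u x := fun x => eq_of_dual h.ne fun k => by
    have := CForm.isom_B (h.le hy) (τ k • u) x
    rwa [h1, h.eq, h.eq, D.B_smul_left, D.B_smul_left, herm_sg, hτ2] at this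
  have h4 : y (θ • z) - θ • y z ∈ eL F E u := h.mem_of_perp fun d hd => by
    obtain ⟨a, t, ht, -, e⟩ := h.rho hu hd
    have a1 : ∀ x, ∃ c, y (D.B u x • d) = D.B u x • d + c • u ∧
        y (t x) = t (y x) + (c + D.B d (y x - x)) • u := fun x => by
      obtain ⟨c, hc⟩ := mem_eL.1 (h2 (D.B u x • d) (by simp [hd]))
      refine ⟨c, eq_add_of_sub_eq' hc.symm, ?_⟩
      rw [e, e, map_sub, map_add, h1, eq_add_of_sub_eq' hc.symm, h3, map_sub]
      module
    obtain ⟨α, a2, a3⟩ := h.cen_form hu hz (mul_mem (mul_mem hy ht) (inv_mem (mul_mem ht hy)))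
      fun x => by
        obtain ⟨x, rfl⟩ := (t * y).surjective x
        obtain ⟨c, -, e⟩ := a1 x
        rw [LinearEquiv.mul_apply, inv_apply_apply, LinearEquiv.mul_apply, LinearEquiv.mul_apply, e,
          add_sub_cancel_left]
        exact smul_mem_eL _ _
    have a4 : ∀ x x', l (τ (D.B u x) * D.B d (y x' - x')) + l (τ (D.B u x') * D.B d (y x - x)) =
        l (α * τ (D.B u x) * D.B u x') := fun x x' => by
      obtain ⟨c, b1, b2⟩ := a1 x
      have b3 := a3 ((t * y) x)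
      rw [LinearEquiv.mul_apply, inv_apply_apply, LinearEquiv.mul_apply, LinearEquiv.mul_apply, b2,
        add_right_inj] at b3
      have b4 := smul_left_injective E (by rintro rfl; simp at hz : u ≠ 0) b3
      simp only [e, map_sub, map_add, D.B_smul_right, hd, uu, h3, mul_zero, add_zero, sub_zero] at b4
      have b5 := CForm.isom_B (h.le hy) (D.B u x • d) x'
      rw [b1, h.eq, h.eq, D.B_add_left, D.B_smul_left, D.B_smul_left, D.B_smul_left, h3, herm_sg,
        herm_sg, eq_sub_of_add_eq b4, map_sub, map_mul, eq_neg_of_add_eq_zero_right a2] at b5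
      have b6 := h.lτ (τ (D.B u x') * (D.B d (y x) - D.B d x))
      rw [map_mul, hτ2] at b6
      rw [map_sub, map_sub, mul_sub, map_sub]
      rw [sub_mul, map_add, map_sub, mul_comm (τ (_ - _)), b6, neg_mul, neg_mul, map_neg] at b5
      linear_combination b5
    have b1 := congrArg 𝔣 (a4 z z)
    have b2 := congrArg 𝔣 (a4 (θ • z) (θ • z))
    have b3 := congrArg 𝔣 (a4 z (θ • z))
    obtain ⟨κ, -, c2, c3⟩ := h.l_eq
    simp only [map_add, c3, D.B_smul_right, hz, map_one, mul_one, one_mul, map_mul, hτ2, h.τθ,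
      map_neg, eq_neg_of_add_eq_zero_right a2, map_sub] at b1 b2 b3
    rw [map_sub, D.B_smul_right]
    refine (mul_eq_zero.1 (?_ : (4 * θ * κ) * _ = 0)).resolve_left (mul_ne_zero (mul_ne_zero
      (by simpa [← two_add_two_eq_four, ← two_mul] using h.two') h.θ0) c2)
    linear_combination 2 * θ * b3 - b2 - θ ^ 2 * b1
  obtain ⟨a, t, ht, t1, e⟩ := h.rho hu (y := y z - z) (by simp [h3])
  obtain ⟨α, -, a3⟩ := h.cen_form hu hz (mul_mem hy (inv_mem ht)) fun x => by
    obtain ⟨x, rfl⟩ := t.surjective x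
    obtain ⟨c, d, e'⟩ := h.dec (D.B u x)
    have a1 := h2 (x - D.B u x • z) (by simp [hz])
    rw [LinearEquiv.mul_apply, inv_apply_apply, e]
    convert add_mem (add_mem a1 (smul_mem _ d h4)) (smul_mem_eL (D.B (y z - z) x + a * D.B u x) u)
      using 1
    generalize D.B (y z - z) x + a * D.B u x = r
    simp only [map_sub, e', add_smul, mul_smul, algebraMap_smul, map_add, map_smul]
    simp only [← algebraMap_smul E c, ← algebraMap_smul E d]
    module
  have a4 : ∀ x, y x = t x + (α * D.B u (t x)) • u := fun x => by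
    simpa [LinearEquiv.mul_apply, inv_apply_apply] using a3 (t x)
  rw [a4, a4, t1, D.B_smul_right]
  module

end US4

end H12
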