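import Cfsg.Agent.H12.US4a

/-!
# `GUₘ(q).2` is maximal in `Sp₂ₘ(q)`, `m ≥ 3`
-/

set_option autoImplicit false
set_option maxHeartbeats 400000

namespace H12

open Module H11 H13.KL Submodule

variable {F E V : Type*} [Field F] [Field E] [Algebra F E] [AddCommGroup V] [Module F V]
  [Module E V] [IsScalarTower F E V] {τ : E →+* E} {hτ2 : ∀ a, τ (τ a) = a}
  {C : CForm (altType F) V} {D : CForm (hermType τ hτ2) V} {l : Dual F E} {θ : E}
  {X : Subgroup (V ≃ₗ[F] V)} {u z : V}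

local notation "𝔣" => algebraMap F E

namespace US4

variable (h : US4 C D l θ X)
include h

theorem θsq : ∃ c, θ * θ = 𝔣 c := h.fix (by rw [map_mul, h.τθ, neg_mul_neg])

theorem exists_perp (hz : D.B u z = 1) : ∃ d, D.B u d = 0 ∧ d ∉ eL F E u := by
  have := h.fdE
  have a1 := h.nd.finrank_add_finrank_perp (span E {u})
  have a2 := finrank_span_singleton_le (F := E) u
  have := h.dim
  obtain ⟨d, a3, a4⟩ := exists_mem_not_mem_of_finrank_lt (W := span E {u})
    (W' := D.perp (span E {u})) (by omega)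
  exact ⟨d, D.mem_perp_singleton.1 a3, a4⟩

omit h in
theorem eq_of_sub {d : V} (hd : d ∉ eL F E u) {a b : E} (e : a • d - b • d ∈ eL F E u) : a = b := by
  by_contra hn
  have := eL_smul (a - b)⁻¹ e
  rw [← sub_smul, inv_smul_smul₀ (sub_ne_zero.2 hn)] at this
  exact hd this

variable [Finite E] [FiniteDimensional F V]

theorem stab (hu : D.N u = 0) (hz : D.B u z = 1) {x : V ≃ₗ[F] V} (hx : x ∈ X)
    (hL : x ∈ glStab (eL F E u)) : x ∈ semiStab F E V := by
  have uu : D.B u u = 0 := D.B_self_of_zero hu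
  have hu0 : u ≠ 0 := by rintro rfl; simp at hz
  have : Nontrivial V := ⟨u, 0, hu0⟩
  have P : ∀ {k : V ≃ₗ[F] V}, k ∈ X → k ∈ glStab (eL F E u) → ∀ v, D.B u v = 0 → D.B u (k v) = 0 :=
    fun {k} hk hL v hv => h.mem_perp.1 (C.mem_perp.2 fun y hy => by
      rw [CForm.isom_B_right (h.le hk)]
      exact C.mem_perp.1 (h.mem_perp.2 hv) _ ((inv_mem hL y).1 hy))
  obtain ⟨c, hc⟩ := h.θsq
  obtain ⟨θ', eθ⟩ : ∃ θ' : V →ₗ[F] V, ∀ v, θ' v = x (θ • x⁻¹ v) :=
    ⟨{ toFun := fun v => x (θ • x⁻¹ v), map_add' := by simp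
       map_smul' := fun c v => by simp [smul_comm θ c] }, fun _ => rfl⟩
  have t1 : ∀ v ∈ eL F E u, θ' v ∈ eL F E u := fun v hv =>
    eθ v ▸ (hL _).1 (eL_smul _ ((inv_mem hL v).1 hv))
  have t2 : ∀ v, θ' (θ' v) = (θ * θ) • v := fun v => by
    rw [eθ, eθ, inv_apply_apply, smul_smul, hc, algebraMap_smul, algebraMap_smul, map_smul,
      apply_inv_apply]
  have t3 : ∀ d, D.B u d = 0 → ∀ v, θ' (D.B u v • d) - D.B u (θ' v) • d ∈ eL F E u :=
    fun d hd v => by
      obtain ⟨a, t, ht, -, e⟩ := h.rho hu hd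
      have a1 := h.lin_of_rad hu hz (mul_mem (mul_mem (inv_mem hx) ht) hx) (fun k => by
        obtain ⟨k', e'⟩ := mem_eL.1 ((hL _).1 (smul_mem_eL k u))
        simp only [LinearEquiv.mul_apply]
        rw [show t (x (k • u)) = x (k • u) by rw [← e', e]; simp [uu, D.B_swap_zero hd],
          inv_apply_apply]) (fun v hv => by
        simp only [LinearEquiv.mul_apply]
        rw [e, P hx hL v hv, zero_smul, add_zero, map_sub, inv_apply_apply, sub_sub_cancel_left]
        exact neg_mem ((inv_mem hL _).1 (smul_mem_eL _ u))) θ (x⁻¹ v)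
      have a2 : t (θ' v) = θ' (t v) := by
        simp only [LinearEquiv.mul_apply, apply_inv_apply] at a1
        rw [eθ, eθ, ← a1, apply_inv_apply]
      rw [e, e, map_sub, map_add] at a2
      convert sub_mem (t1 _ (smul_mem_eL (D.B d v + a * D.B u v) u))
        (smul_mem_eL (D.B d (θ' v) + a * D.B u (θ' v)) u) using 1
      linear_combination (norm := module) -a2
  obtain ⟨κ, hκ⟩ : ∃ κ, D.B u (θ' z) = κ := ⟨_, rfl⟩
  have t4 : ∀ d, D.B u d = 0 → θ' d - κ • d ∈ eL F E u := fun d hd => by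
    simpa [hz, hκ] using t3 d hd z
  obtain ⟨d, d1, d2⟩ := h.exists_perp hz
  have t5 : κ * κ = θ * θ := eq_of_sub d2 (by
    convert neg_mem (add_mem (t1 _ (t4 d d1)) (t4 (κ • d) (by simp [d1]))) using 1
    rw [map_sub, t2]; module)
  have t6 : ∀ v, D.B u (θ' v) = κ * D.B u v := fun v => eq_of_sub d2 (by
    convert sub_mem (t4 (D.B u v • d) (by simp [d1])) (t3 d d1 v) using 1
    module)
  have t7 : τ κ = -κ := by
    rcases mul_self_eq_mul_self_iff.1 t5 with rfl | rfl <;> simp [h.τθ]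
  have t8 : ∀ v ∈ eL F E u, θ' v = κ • v := fun v hv => h.ndC.ext fun w => by
    obtain ⟨k, rfl⟩ := mem_eL.1 hv
    have a1 := CForm.isom_B (h.le hx) (θ • x⁻¹ (k • u)) (x⁻¹ w)
    have a2 := CForm.isom_B (h.le hx) (x⁻¹ (k • u)) (θ • x⁻¹ w)
    rw [← eθ, apply_inv_apply] at a1 a2
    rw [a1, h.eq, D.B_smul_left, herm_sg, h.τθ, neg_mul, map_neg, ← D.B_smul_right, ← h.eq, ← a2,
      h.eq, h.eq, D.B_smul_left, D.B_smul_left, D.B_smul_left, t6, herm_sg, herm_sg, t7, ← map_neg]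
    congr 1; ring
  have k0 : κ ≠ 0 := fun e => h.θ0 (by simpa [e] using t5)
  have k1 : ∀ ε : E, τ ε = -ε → 1 - ε ≠ 0 := fun ε e e' => h.two' (by
    rw [← sub_eq_zero.1 e', map_one] at e; linear_combination e)
  have k2 : 1 - θ * θ ≠ 0 := by
    rw [show 1 - θ * θ = (1 - θ) * (1 - -θ) by ring]
    exact mul_ne_zero (k1 _ h.τθ) (k1 _ (by simp [h.τθ]))
  have k3 : 1 - c ≠ 0 := fun e => k2 (by rw [hc, ← map_one 𝔣, ← map_sub, e, map_zero])
  obtain ⟨A, B, b0, hA⟩ : ∃ A B : F, B ≠ 0 ∧ A * A - B * B * c = 1 :=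
    ⟨(1 + c) / (1 - c), 2 / (1 - c), div_ne_zero h.two k3, by field_simp; ring⟩
  have sc : ∀ ε : E, τ ε = -ε → ε * ε = θ * θ → ∃ g ∈ X, ∀ v, g v = A • v + B • ε • v :=
    fun ε e1 e2 => by
    have a1 : (𝔣 A + 𝔣 B * ε) * τ (𝔣 A + 𝔣 B * ε) = 1 := by
      have := congrArg 𝔣 hA
      simp only [map_sub, map_mul, map_one, ← hc, ← e2] at this
      rw [map_add τ, map_mul τ, h.τF, h.τF, e1]
      linear_combination this
    refine ⟨_, h.res (LinearEquiv.smulOfNeZero E V _ (left_ne_zero_of_mul_eq_one a1))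
      (herm_mem_isom fun v w => ?_), fun v => by simp [add_smul, mul_smul]⟩
    rw [LinearEquiv.smulOfNeZero_apply, LinearEquiv.smulOfNeZero_apply, D.B_smul_left,
      D.B_smul_right, herm_sg, ← mul_assoc, mul_comm (τ _), a1, one_mul]
  obtain ⟨g₁, m₁, e₁⟩ := sc θ h.τθ rfl
  obtain ⟨g₂, m₂, e₂⟩ := sc κ t7 t5
  have b1 : ∀ v, (x * g₁ * x⁻¹ * g₂⁻¹) (g₂ v) = g₂ v + B • (θ' v - κ • v) := fun v => by
    simp only [LinearEquiv.mul_apply, inv_apply_apply]
    rw [e₁, map_add, map_smul, map_smul, apply_inv_apply, ← eθ, e₂]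
    module
  have g2 : ∀ (k : E) v, g₂ (k • v) = k • g₂ v := fun k v => by
    simp only [e₂, smul_add, smul_comm k]
  have g3 : g₂ ∈ glStab (eL F E u) := mem_glStab_of_mapsTo fun v hv => by
    rw [e₂]; exact add_mem (smul_mem _ _ hv) (smul_mem _ _ (eL_smul _ hv))
  have b2 := h.lin_of_rad hu hz (mul_mem (mul_mem (mul_mem hx m₁) (inv_mem hx)) (inv_mem m₂))
    (fun k => by
      obtain ⟨v, e⟩ := g₂.surjective (k • u)
      rw [← e, b1, t8 v ((g3 v).2 (e ▸ smul_mem_eL k u))]; simp) fun v hv => by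
      obtain ⟨v, rfl⟩ := g₂.surjective v
      rw [b1, add_sub_cancel_left]
      exact smul_mem _ _ (t4 v (by simpa [inv_apply_apply] using P (inv_mem m₂) (inv_mem g3) _ hv))
  have b3 : ∀ v, θ' (κ • v) = κ • θ' v := fun v => by
    have := b2 κ (g₂ v)
    rw [← g2, b1, b1, g2, smul_add, add_right_inj, smul_comm κ B, smul_right_inj b0] at this
    linear_combination (norm := module) this
  have b4 : ∀ v, θ' v = κ • v := fun v => by
    have a1 := t8 _ (t4 (θ' v - κ • v) (by simp [t6]))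
    simp only [map_sub, t2, b3, ← t5, mul_smul] at a1
    refine smul_right_injective V (mul_ne_zero (mul_ne_zero (mul_ne_zero h.two' h.two') k0) k0) ?_
    linear_combination (norm := module) a1
  refine mem_semiStab fun a => ?_
  obtain ⟨s, t, -, e⟩ := lin_of_theta h.dec (g := x) (κ := κ) (fun v => by
    rw [← b4, eθ, inv_apply_apply]) a
  exact ⟨_, e⟩

theorem mem_of_inv (hu : D.N u = 0) (hz : D.B u z = 1) {k : V ≃ₗ[F] V} (hk : k ∈ X)
    (e : θ • k u ∈ (eL F E u).map (k : V →ₗ[F] V)) : k ∈ semiStab F E V := by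
  have := h.fdE
  have hu0 : u ≠ 0 := by rintro rfl; simp at hz
  obtain ⟨y, hy, e'⟩ := e
  have a1 : D.N (k u) = 0 := by
    have := CForm.isom_B (h.le hk) u y
    rw [show k y = _ from e', C.mem_perp.1 (h.mem_perp.2 (by
      obtain ⟨a, rfl⟩ := mem_eL.1 hy; simp [herm_B_self, hu])) u (self_mem_eL u), h.eq,
      D.B_smul_right, herm_B_self, mul_comm] at this
    have := congrArg 𝔣 this
    rw [h.l_mul (herm_σN _), map_zero] at this
    simpa [h.lθ] using this
  obtain ⟨g, hg, e⟩ := h.nd.witt_one hu0 (k.map_ne_zero_iff.2 hu0) (a1.trans hu.symm)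
  have := h.stab hu hz (mul_mem (inv_mem hk) (h.res g hg)) (mem_glStab_of_mapsTo fun v hv => by
    obtain ⟨a, rfl⟩ := mem_eL.1 hv
    obtain ⟨s, t, rfl⟩ := h.dec a
    rw [LinearEquiv.mul_apply, res_apply, map_smul, e, add_smul, mul_smul, ← e']
    simpa [inv_apply_apply] using add_mem (smul_mem _ s (self_mem_eL u)) (smul_mem _ t hy))
  simpa using (mul_mem_cancel_right (res_mem_semiStab g)).1 this

theorem ti (hu : D.N u = 0) (hz : D.B u z = 1) : TI C X (semiStab F E V) (eL F E u) := by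
  have hu0 : u ≠ 0 := by rintro rfl; simp at hz
  have uu : D.B u u = 0 := D.B_self_of_zero hu
  have hZ : ∀ s ∈ X, s ∈ cen (eL F E u) → s ≠ 1 → ∀ v ∈ eL F E u, ∃ x, s x - x = v :=
    fun s hs hs' h1 v hv => by
      obtain ⟨α, -, e⟩ := h.cen_form hu hz hs hs'
      obtain ⟨k, rfl⟩ := mem_eL.1 hv
      have : α ≠ 0 := by rintro rfl; exact h1 (LinearEquiv.ext (by simpa using e))
      exact ⟨(k / α) • z, by simp [e, hz, mul_div_cancel₀, this]⟩
  refine ⟨h.ndC, h.le, fun v hv => h.mem_perp.2 (by obtain ⟨k, rfl⟩ := mem_eL.1 hv; simp [uu]), hZ,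
    fun s hs hs' => ?_, fun k hk s hs hs' h1 e => ?_, ?_⟩
  · obtain ⟨α, -, e⟩ := h.cen_form hu hz hs hs'
    exact mem_semiStab_of_linear fun a v => by simp only [e, D.B_smul_right]; module
  · refine (inv_mem_iff).1 (h.mem_of_inv hu hz (inv_mem hk) ?_)
    obtain ⟨x, hx⟩ := hZ s hs hs' h1 u (self_mem_eL u)
    obtain ⟨α, -, e'⟩ := h.cen_form hu hz hs hs'
    have := lin_of_sq h.dec h.two h.θsq e (fun y => by
      simp [LinearEquiv.mul_apply, apply_inv_apply, inv_apply_apply, e', uu]) θ (k⁻¹ x)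
    refine ⟨_, hs' (k (θ • k⁻¹ x)), ?_⟩
    simp only [LinearEquiv.mul_apply, apply_inv_apply] at this
    rw [← hx, LinearEquiv.coe_coe, map_sub, map_sub, this, inv_apply_apply, smul_sub]
  · obtain ⟨t, ht, e⟩ := h.tv hu (a := θ) (by simp [h.τθ])
    exact ⟨t, ht, fun x => by simpa [e] using smul_mem_eL _ u, fun e' => by
      simpa [e', hz, h.θ0, hu0] using e z⟩

theorem maxK [Finite V] (hu : D.N u = 0) (hz : D.B u z = 1) {k : V ≃ₗ[F] V}
    (hk : MaxK X (semiStab F E V) (eL F E u) k) : eL F E u ⊓ (eL F E u).map (k : V →ₗ[F] V) = ⊥ ∧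
      θ • k u ∈ eL F E u ⊔ (eL F E u).map (k : V →ₗ[F] V) := by
  have T := h.ti hu hz
  obtain ⟨c, hc⟩ := h.θsq
  have f2 : finrank F (eL F E u) ≤ 2 := (finrank_mono (show eL F E u ≤ span F {u, θ • u} from
    fun v hv => by
      obtain ⟨a, rfl⟩ := mem_eL.1 hv
      obtain ⟨s, t, rfl⟩ := h.dec a
      exact mem_span_pair.2 ⟨s, t, by simp [add_smul, mul_smul]⟩)).trans
    (H12.finrank_span_pair_le _ _)
  obtain ⟨s, a1, a2, a3⟩ := T.ex
  obtain ⟨g, -, g1, -, g2, g3, g4⟩ := T.fr' hk a1 a2 (inv_mem a1) (inv_mem a2) a3 (by simpa)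
    (ne_inv_of_sq h.two (T.sq a1 a2) a3)
  obtain ⟨b, hb⟩ := g1.1 θ
  obtain ⟨d, d1, d2⟩ := h.exists_perp hz
  obtain rfl : θ = b := eq_of_sub d2 (by
    convert sub_mem (eL_smul b (g4 d (h.mem_perp.2 d1)))
      (g4 (θ • d) (h.mem_perp.2 (by simp [d1]))) using 1
    rw [hb]; module)
  obtain ⟨x, hx⟩ := not_forall.1 g3
  have w1 := g2 x
  have w2 : θ • (g x - x) ∈ eL F E u ⊔ (eL F E u).map (k : V →ₗ[F] V) := by
    simpa [hb, smul_sub] using g2 (θ • x)
  generalize g x - x = w at hx w1 w2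
  have w3 : θ • w ∉ eL F E u ⊔ span F {w} := fun e => by
    obtain ⟨s, e⟩ := mem_sup_span_singleton.1 e
    have := congrArg τ (eq_of_sub hx (b := 𝔣 s) (by simpa))
    rw [h.τθ, h.τF, ← eq_of_sub hx (a := θ) (b := 𝔣 s) (by simpa)] at this
    exact h.θ0 ((mul_eq_zero.1 (by linear_combination -this : 2 * θ = 0)).resolve_left h.two')
  have n1 := finrank_lt_finrank_of_lt (lt_sup_of_not_mem (mem_span_singleton_self w) hx)
  have n2 := finrank_lt_finrank_of_lt (lt_sup_of_not_mem (mem_span_singleton_self (θ • w)) w3)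
  have n3 : eL F E u ⊔ span F {w} ⊔ span F {θ • w} ≤ eL F E u ⊔ (eL F E u).map (k : V →ₗ[F] V) :=
    sup_le (sup_le le_sup_left ((span_singleton_le_iff_mem _ _).2 w1))
      ((span_singleton_le_iff_mem _ _).2 w2)
  have n4 := finrank_mono n3
  have n5 := finrank_sup_add_finrank_inf_eq (eL F E u) ((eL F E u).map (k : V →ₗ[F] V))
  rw [finrank_map_equiv] at n5
  refine ⟨finrank_eq_zero.1 (by omega), ?_⟩
  have n6 := eq_of_le_of_finrank_le n3 (by omega)
  have n7 : k u ∈ eL F E u ⊔ span F {w} ⊔ span F {θ • w} := by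
    rw [n6]; exact mem_sup_right (mem_map_of_mem (self_mem_eL u))
  obtain ⟨s₁, n7⟩ := mem_sup_span_singleton.1 n7
  obtain ⟨s₂, n7⟩ := mem_sup_span_singleton.1 n7
  convert add_mem (add_mem (mem_sup_left (eL_smul θ n7)) (smul_mem _ s₂ w2))
    (smul_mem _ (s₁ * c) w1) using 1
  simp only [← algebraMap_smul E s₁, ← algebraMap_smul E s₂, ← algebraMap_smul E (s₁ * c),
    map_mul, ← hc]
  module

theorem le_semi [Finite V] : X ≤ semiStab F E V := by
  have := h.fdE
  obtain ⟨u, hu, hu0⟩ := h.exists_iso (Z := ⊥) (fun e => by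
    have := h.dim; rw [← finrank_top, ← e, finrank_bot] at this; omega)
  replace hu0 : u ≠ 0 := by simpa using hu0
  obtain ⟨z, hz⟩ := h.nd.exists_eq hu0 1
  have key := fun k => h.maxK hu hz (k := k)
  by_contra hn
  obtain ⟨k, hk⟩ := exists_maxK (L := eL F E u) hn
  obtain ⟨v, hv, hv'⟩ := h.exists_iso (Z := span E {k u, k (θ • u)}) (ne_top_of_finrank_lt (by
    have := H12.finrank_span_pair_le (F := E) (k u) (k (θ • u))
    have := h.dim
    omega))
  obtain ⟨g, hg, e⟩ := h.nd.witt_one (u := v) (fun e => hv' (e ▸ zero_mem _)) hu0 (hu.trans hv.symm)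
  have a1 := (key _ (hk.of_eq (mul_mem (h.res g hg) hk.mem) (fun e => hk.nm
    ((mul_mem_cancel_left (res_mem_semiStab g)).1 e)) (key k hk).1).1).2
  obtain ⟨y, hy, y', ⟨y', hy', rfl⟩, e'⟩ := mem_sup.1 a1
  obtain ⟨a, rfl⟩ := mem_eL.1 hy
  simp only [LinearEquiv.coe_coe, LinearEquiv.mul_apply, res_apply, ← map_smul] at e'
  rw [← e, ← map_smul, ← map_add, e, g.injective.eq_iff] at e'
  by_cases ha : a = 0
  · exact hk.nm (h.mem_of_inv hu hz hk.mem ⟨y', hy', by simpa [ha] using e'⟩)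
  refine hv' ((smul_mem_iff _ ha).1 ?_)
  obtain ⟨b, rfl⟩ := mem_eL.1 hy'
  obtain ⟨s, t, rfl⟩ := h.dec b
  refine mem_span_pair.2 ⟨θ - 𝔣 s, -𝔣 t, ?_⟩
  simp only [add_smul, mul_smul, algebraMap_smul, map_add, map_smul] at e'
  rw [eq_sub_of_add_eq e', ← algebraMap_smul E s, ← algebraMap_smul E t]
  module

end US4

theorem isMaximalIn_usp4 [Finite F] [FiniteDimensional F V] (hC : C.Nondeg) (h2 : (2 : F) ≠ 0)
    (hr : finrank F E = 2) (hd : 6 ≤ finrank F V)
    (had : ∀ k : E, ∃ k' : E, ∀ x y, C.B (k • x) y = C.B x (k' • y))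
    (hns : ¬ ∀ (k : E) x y, C.B (k • x) y = C.B x (k • y)) :
    Cfsg.Geo.IsMaximalIn C.isom (semiStab F E V ⊓ C.isom) := by
  have : FiniteDimensional F E := FiniteDimensional.of_finrank_pos (by omega)
  have : Module.Finite E V := Module.Finite.of_restrictScalars_finite F E V
  have : Finite E := Module.finite_of_finite F
  have : Finite V := Module.finite_of_finite F
  have : Nontrivial V := nontrivial_of_finrank_pos (R := F) (by omega)
  obtain ⟨x₁, x0⟩ := exists_ne (0 : V)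
  choose t ht using had
  have un : ∀ k k', (∀ x y, C.B (k • x) y = C.B x (k' • y)) → t k = k' := fun k k' e =>
    smul_left_injective E x0 (hC.ext' fun y => (ht k y x₁).symm.trans (e y x₁))
  let τ : E →+* E :=
    { toFun := t
      map_one' := un _ _ (by simp)
      map_mul' := fun a b => un _ _ fun x y => by rw [mul_smul, ht, ht, smul_smul, mul_comm]
      map_zero' := un _ _ (by simp)
      map_add' := fun a b => un _ _ fun x y => by simp [add_smul, ht] }
  have hτ : ∀ k x y, C.B (k • x) y = C.B x (τ k • y) := ht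
  have hτ2 : ∀ a, τ (τ a) = a := fun a => un _ _ fun x y => by
    rw [alt_symm y, ← hτ, ← alt_symm]
  have τF : ∀ c, τ (𝔣 c) = 𝔣 c := fun c => un _ _ fun x y => by simp [alt_σ]
  clear_value τ
  have τ1 : τ ≠ RingHom.id E := by rintro rfl; exact hns hτ
  obtain ⟨θ, θ0, τθ⟩ := exists_trace_zero' (hσ2 := hτ2) τ1
  replace τθ := eq_neg_of_add_eq_zero_right τθ
  have h2' : (2 : E) ≠ 0 := fun e => h2 ((𝔣).injective (by rw [map_ofNat, e, map_zero]))
  have θF : ∀ c, θ ≠ 𝔣 c := by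
    rintro c rfl
    exact θ0 ((mul_eq_zero.1 (by linear_combination τθ - τF c : 2 * 𝔣 c = 0)).resolve_left h2')
  have dec : ∀ a, ∃ s t : F, a = 𝔣 s + 𝔣 t * θ := fun a => by
    have a1 : span F {1, θ} = ⊤ := eq_top_of_finrank_eq (by
      rw [hr, finrank_span_pair_of_not_mem one_ne_zero fun e => ?_]
      obtain ⟨c, e⟩ := mem_span_singleton.1 e
      exact θF c (by rw [← e, Algebra.algebraMap_eq_smul_one]))
    obtain ⟨s, t, rfl⟩ := mem_span_pair.1 (a1 ▸ mem_top : a ∈ span F {1, θ})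
    exact ⟨s, t, by simp [Algebra.smul_def]⟩
  obtain ⟨x₀, hx₀⟩ : ∃ x, C.B x (θ • x) ≠ 0 := by
    by_contra! hc
    refine smul_ne_zero θ0 x0 (hC.eq_zero' fun y => ?_)
    have := hc (x₁ + y)
    simp only [smul_add, map_add, LinearMap.add_apply, hc, alt_symm (θ • y) x₁, hτ, τθ, neg_smul,
      map_neg] at this
    exact (mul_eq_zero.1 (by linear_combination this : 2 * C.B y (θ • x₁) = 0)).resolve_left h2
  let l : Dual F E := C.B x₀ ∘ₗ (LinearMap.toSpanSingleton E V x₀).restrictScalars F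
  have hl : ∀ a, l a = C.B x₀ (a • x₀) := fun _ => rfl
  have lτ : ∀ a, l (τ a) = -l a := fun a => by rw [hl, hl, ← hτ, alt_symm]
  have l0 : l ≠ 0 := fun e => hx₀ (by rw [← hl, e]; rfl)
  choose ψ hψ using fun x => exists_comp_eq l0 (C.B x)
  have key : ∀ k x y, l (k * ψ x y) = C.B x (k • y) := fun k x y => by
    rw [hψ, map_smul, smul_eq_mul]
  let D : CForm (hermType τ hτ2) V := CForm.ofHerm τ τ1 hτ2
    { toFun := ψ
      map_add' x x' := LinearMap.ext fun y => eq_of_dual l0 fun k => by simp [mul_add, key]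
      map_smul' c x := LinearMap.ext fun y => eq_of_dual l0 fun k => by
        rw [LinearMap.smul_apply, smul_eq_mul, ← mul_assoc, key, key, hτ, smul_smul, mul_comm] }
    ⟨fun x y => eq_of_dual l0 fun k => by
      change l (k * τ (ψ x y)) = l (k * ψ y x)
      rw [key, alt_symm, hτ, ← key, ← lτ, map_mul τ, hτ2]⟩
  have hD : ∀ x y, C.B x y = l (D.B x y) := hψ
  have := finrank_mul_finrank F E V
  refine isMaximalIn_of _ _ inf_le_right (fun e => ?_) fun M a1 a2 g a3 a4 => by_contra fun hM =>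
    a4 ⟨US4.le_semi (D := D) ⟨hD, lτ, l0, τF, τθ, θ0, dec, h2,
      fun x hx => hC x fun y => by rw [hD, hx, map_zero], by rw [hr] at this; omega, a2,
      fun k k1 => a1 ⟨res_mem_semiStab k, fun x y => by
        rw [hD, hD, res_apply, res_apply, CForm.isom_B k1], fun x => by rw [alt_N, alt_N]⟩, hM⟩ a3,
      a2 a3⟩
  obtain ⟨s, hs, e'⟩ := exists_tv_alt hC x₁
  obtain ⟨y, hy⟩ := hC.exists_eq x0 1
  obtain ⟨s', t', e''⟩ := dec (θ * θ)
  have a1 : t' = 0 := by
    have := congrArg τ e''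
    rw [map_mul, map_add, map_mul, τF, τF, τθ, neg_mul_neg, e''] at this
    simpa [h2', θ0] using (by linear_combination this : 2 * (𝔣 t' * θ) = 0)
  have := lin_of_sq dec h2 ⟨s', by simpa [a1] using e''⟩ (e hs).1
    (fun x => by simp [e', alt_B_self]) θ y
  rw [e', e', hy, smul_add, add_right_inj, one_smul, ← algebraMap_smul E] at this
  exact θF _ (smul_left_injective E x0 this).symm

open Cfsg Cfsg.Geo in
theorem spl_uni4 {F : Type*} [Field F] [Fintype F] {m : ℕ} (hm : 3 ≤ m)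
    (hodd : Odd (Fintype.card F))
    {K : Subalgebra F (Matrix (Fin m ⊕ Fin m) (Fin m ⊕ Fin m) F)} (hK : IsFieldSubalgebra 2 K)
    (hac : IsAdjointClosedFor (sympForm m F) K) (hnsa : ¬ IsSelfAdjointFor (sympForm m F) K) :
    IsMaximalIn (spGL m F) (subalgebraNormalizer K ⊓ spGL m F) := by
  have : Nonempty (Fin m ⊕ Fin m) := ⟨.inl ⟨0, by omega⟩⟩
  letI := fieldOf hK; letI := modOf K; letI := towerOf K
  rw [spGL_eq, subalgebraNormalizer_eq hK, ← Subgroup.comap_inf]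
  refine isMaximalIn_comap _ (isMaximalIn_usp4 spForm_nondeg (odd_card_iff.1 hodd) hK.finrank_eq
    (by simp; omega) (fun k => ?_) fun e => hnsa fun k hk x y => ?_)
  · obtain ⟨k', h1, h2⟩ := hac k k.2
    exact ⟨⟨k', h1⟩, fun x y => by rw [spForm_B_eq, spForm_B_eq]; exact h2 x y⟩
  · rw [← spForm_B_eq, ← spForm_B_eq]; exact e ⟨k, hk⟩ x y

end H12
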