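import Cfsg.Agent.H12.USp

/-!
# The unitary group over a quadratic extension is maximal in the symplectic group, dimension ≥ 10
-/

set_option autoImplicit false
set_option maxHeartbeats 400000

namespace H12

open Module H11 QuadraticMap Submodule

variable {F : Type*} [Field F] {V : Type*} [AddCommGroup V] [Module F V] {θ : V →ₗ[F] V}
  {t n : F} {G H X : Subgroup (V ≃ₗ[F] V)} {C : CForm (altType F) V}

variable (θ n C X) in
/-- The unitary structure; `X` contains the unitary transvections and reflections. -/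
structure US2 : Prop extends QExt θ 0 n where
  adj : ∀ u v, C.B (θ u) v = -C.B u (θ v)
  tw : ∀ u (a : F), C.B u (θ u) = 0 →
    ∃ g ∈ X, ∀ x, g x = x + (a * n * C.B u x) • u + (a * C.B (θ u) x) • θ u
  inv : ∀ v, C.B v (θ v) ≠ 0 →
    ∃ g ∈ X, ∀ x, g x = x - (2 / C.B v (θ v)) • (C.B x (θ v) • v - C.B x v • θ v)
  nd : C.Nondeg
  two : (2 : F) ≠ 0
  le : X ≤ C.isom
  dim : 10 ≤ finrank F V

namespace US2

variable (h : US2 θ n X C)
include h

theorem sq' (v : V) : θ (θ v) = -(n • v) := by simp [h.sq]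

theorem n_ne : n ≠ 0 := fun e => by simpa using h.irr 0 1 (by simp [e])

theorem thQ_B (u v : V) : (CForm.ofQuad (thQ θ C)).B u v = 2 * C.B u (θ v) := by
  rw [CForm.ofQuad_B, thQ, LinearMap.BilinMap.polar_toQuadraticMap]
  change C.B u (θ v) + C.B v (θ u) = _
  rw [alt_symm (θ u) v, h.adj]; ring

theorem thQ_nd : (CForm.ofQuad (thQ θ C)).Nondeg := fun x hx => h.nd x fun y => by
  simpa [h.thQ_B, h.sq', h.two, h.n_ne] using hx (θ y)

variable [FiniteDimensional F V] [Finite F]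

theorem ex {l : List V} {z : V} (hz : z ∉ spanL F l) (hd : l.length ≤ 3) :
    ∃ u, (∀ x ∈ l, C.B x u = 0) ∧ C.B u (θ u) = 0 ∧ C.B z u = 1 := by
  have hz' : θ z ∉ (spanL F l).map θ := fun ⟨y, hy, e⟩ => hz (by
    have := congrArg θ e
    rw [h.sq', h.sq', neg_inj, smul_right_inj h.n_ne] at this
    exact this ▸ hy)
  have h1 := finrank_span_list_le (F := F) l
  have h3 := finrank_map_le θ (spanL F l)
  have h4 := h.dim
  have key : ∀ x u, (CForm.ofQuad (thQ θ C)).B (θ x) u = 2 * n * C.B x u := fun x u => by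
    simp [h.thQ_B, h.adj, h.sq', mul_assoc]
  have hn : 2 * n ≠ 0 := mul_ne_zero h.two h.n_ne
  obtain ⟨u, a1, a3, a4⟩ := (iso3_quad (thQ θ C)).exists_perp_eq h.thQ_nd hz' (by omega) (2 * n)
  exact ⟨u, fun x hx => by simpa [key, hn] using a1 _ (mem_map_of_mem (mem_spanL hx)), a3,
    by simpa [key, hn] using a4⟩

theorem ex4 {e f : V} (hB : C.B e f ≠ 0) (hn : θ e ∉ spanL F [e, f]) :
    ∃ u, (∀ x ∈ [e, f], C.B x u = 0) ∧ u ∉ spanL F [e, θ e, f, θ f] ∧ C.B u (θ u) = 0 ∧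
      C.B (θ e) u = 1 := by
  obtain ⟨u, a1, a3, a4⟩ := h.ex hn (by simp)
  by_cases a2 : u ∉ spanL F [e, θ e, f, θ f]
  · exact ⟨u, a1, a2, a3, a4⟩
  have h1 := finrank_span_list_le (F := F) [e, θ e, f, θ f]
  have h4 := h.dim
  obtain ⟨S, hS⟩ : ∃ S, S = spanL F [e, θ e, f, θ f] := ⟨_, rfl⟩
  have hθ : ∀ x ∈ S, θ x ∈ S := hS ▸ h.inv4 e f
  have he : e ∈ S := hS ▸ mem_spanL (by simp)
  have hf : f ∈ S := hS ▸ mem_spanL (by simp)
  rw [← hS] at a2 h1 ⊢
  have key : ∀ y ∈ (CForm.ofQuad (thQ θ C)).perp S, ∀ x ∈ S, C.B x y = 0 := fun y hy x hx => by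
    simpa [h.thQ_B, h.adj, h.sq', h.two, h.n_ne] using (CForm.mem_perp _).1 hy _ (hθ x hx)
  have h5 : finrank F ↥(S ⊓ (CForm.ofQuad (thQ θ C)).perp S) < finrank F S :=
    finrank_lt_finrank_of_lt (SetLike.lt_iff_le_and_exists.2 ⟨inf_le_left, f, hf,
      fun e' => hB (key f e'.2 e he)⟩)
  obtain ⟨y, b1, b2, b3⟩ := (iso3_quad (thQ θ C)).exists_perp h.thQ_nd S
    (S ⊓ (CForm.ofQuad (thQ θ C)).perp S) (by simp at h1; omega)
  rw [thQ_N] at b3
  have a2' := not_not.1 a2
  refine ⟨u + y, fun x hx => ?_, fun e' => b2 ⟨(add_mem_cancel_left a2').1 e', b1⟩, ?_, ?_⟩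
  · rw [map_add, a1 x hx, key y b1 x (by rcases List.mem_pair.1 hx with rfl | rfl <;> assumption),
      add_zero]
  · have b4 := key y b1 _ (hθ u a2')
    have b5 : C.B u (θ y) = 0 := by rw [← neg_eq_zero, ← h.adj, b4]
    simp [a3, b3, b5, C.B_swap_zero b4]
  · rw [map_add, a4, key y b1 _ (hθ e he), add_zero]

theorem rho_of {e f : V} (hB : C.B e f ≠ 0) (hn : θ e ∉ spanL F [e, f]) {z : V ≃ₗ[F] V}
    (hz : z ∈ X) (ez : ∀ x, z x = x - (2 / C.B e f) • (C.B x f • e - C.B x e • f)) :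
    ∃ p w, C.B p w = 0 ∧ p ≠ 0 ∧ w ∉ spanL F [p, θ p] ∧ ∀ c : F, Rq C X p (c • w) 0 := by
  obtain ⟨u, a1, a2, a3, a4⟩ := h.ex4 hB hn
  simp only [List.mem_cons, List.not_mem_nil, or_false, forall_eq_or_imp, forall_eq] at a1
  obtain ⟨p, hp⟩ : ∃ p, p = (C.B e f)⁻¹ • (C.B (θ u) f • e - C.B (θ u) e • f) := ⟨_, rfl⟩
  obtain ⟨w, hw⟩ : ∃ w, θ u = p + w := ⟨θ u - p, by abel⟩
  have b1 : C.B (θ u) e = 1 := by rw [h.adj, ← alt_symm, a4]
  have b2 : C.B e p = C.B e (θ u) := by
    simp [hp, alt_B_self, hB, alt_symm (θ u) e, mul_comm (C.B (θ u) e), ← mul_assoc]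
  have b3 : C.B f p = C.B f (θ u) := by
    simp [hp, alt_B_self, hB, alt_symm (θ u) f, alt_symm e f, mul_comm (C.B (θ u) f), ← mul_assoc]
  have b4 : C.B e w = 0 := by simpa [hw] using b2.symm
  have b5 : C.B f w = 0 := by simpa [hw] using b3.symm
  have b6 : C.B p w = 0 := by simp [hp, b4, b5]
  have b7 : C.B p u = 0 := by simp [hp, a1]
  have b8 : C.B w u = 0 := by
    have := C.B_swap_zero a3
    rwa [hw, C.B_add_left, b7, zero_add] at this
  have b9 : z u = u := by simp [ez, alt_symm f u, alt_symm e u, a1]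
  have b10 : z (θ u) = w - p := by
    rw [ez, div_eq_mul_inv, mul_smul, ← hp, hw]; module
  have hp4 : p ∈ spanL F [e, θ e, f, θ f] :=
    hp ▸ smul_mem _ _ (sub_mem (smul_mem _ _ (mem_spanL (by simp))) (smul_mem _ _ (mem_spanL (by simp))))
  refine ⟨p, w, b6, fun e0 => by simp [e0, alt_symm (θ u) e, b1] at b2, fun hw' => a2 ?_, fun c => ?_⟩
  · obtain ⟨r, s, rfl⟩ := mem_spanL_pair.1 hw'
    simpa using h.mem_of (h.inv4 e f) (a := 0) (b := 1) (w := u) (by
      rw [hw, zero_smul, zero_add, one_smul]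
      exact add_mem hp4 (add_mem (smul_mem _ _ hp4) (smul_mem _ _ (h.inv4 e f _ hp4))))
  obtain ⟨g, hg, eg⟩ := h.tw u (c / 2) a3
  obtain ⟨g', hg', eg'⟩ := h.tw u (-(c / 2)) a3
  refine ⟨g * (z * g' * z⁻¹), mul_mem hg (mul_mem (mul_mem hz hg') (inv_mem hz)), fun x => ?_⟩
  obtain ⟨x, rfl⟩ := z.surjective x
  rw [LinearEquiv.mul_apply, LinearEquiv.mul_apply, LinearEquiv.mul_apply, inv_apply_apply, eg',
    map_add z, map_add z, map_smul z, map_smul z, ← CForm.isom_B (h.le hz) u,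
    ← CForm.isom_B (h.le hz) (θ u), b9, b10, eg, hw]
  generalize z x = y
  have := h.two
  simp [alt_B_self, b6, b7, b8, alt_symm p w, alt_symm p u, alt_symm w u, alt_symm w y, alt_sigma]
  match_scalars <;> field_simp <;> ring

theorem tv_of {p w : V} (hB : C.B p w = 0) (hp : p ≠ 0) (hw : w ∉ spanL F [p, θ p])
    (hr : ∀ c : F, Rq C X p (c • w) 0) : TvAll X C p := fun a => by
  obtain ⟨u, a1, a3, a4⟩ := h.ex (l := [p, θ p, θ w]) (z := w) (fun e => by
    obtain ⟨r, s, t, e⟩ := mem_spanL_three.1 e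
    simpa using h.ind2 (a := r) (b := s) (c := -1) (d := t) hp hw
      (by linear_combination (norm := module) e)) (by simp)
  simp only [List.mem_cons, List.not_mem_nil, or_false, forall_eq_or_imp, forall_eq] at a1
  obtain ⟨k, hk, e⟩ := h.tw u 1 a3
  have e1 : k p = p := by simp [e, h.adj u, alt_symm p u, alt_symm (θ p) u, a1]
  have e2 : k w = w - n • u := by
    simp [e, h.adj u, alt_symm w u, alt_symm (θ w) u, a1, a4, sub_eq_add_neg]
  have h1 := (hr 1).conj hk (h.le hk)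
  have h2 := hr (-(a / (2 * n)))
  rw [e1, one_smul, e2] at h1
  have c1 : C.B p (w - n • u) = 0 := by simp [hB, a1]
  have c2 : C.B p ((-(a / (2 * n))) • w) = 0 := by simp [hB]
  have := h.two
  have := h.n_ne
  convert (h1.mul h2 (alt_B_self p) c1 c2).div (h2.mul h1 (alt_B_self p) c2 c1) (alt_B_self p)
    (by simp [hB, a1]) (by simp [hB, a1]) using 1
  · simp [add_comm]
  · simp [add_comm (w - n • u), alt_B_self, alt_symm w u, a4, alt_sigma]; field_simp; ring

theorem tv_step {p u : V} (hp : TvAll X C p) (hu : C.B u (θ u) = 0) (h1 : C.B p u ≠ 0)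
    (h2 : C.B (θ p) u = 0) : TvAll X C u := by
  obtain ⟨k, hk, e⟩ := h.tw u 1 hu
  have := hp.conj hk h.le
  rw [show k p = p - (n * C.B p u) • u by
    simp [e, h.adj u, alt_symm p u, alt_symm (θ p) u, h2, sub_eq_add_neg]] at this
  have := this.add hp h.le (by simp [alt_B_self, h1, h.n_ne]) (-1)
  exact TvAll.of_smul (c := -(n * C.B p u)) (by convert this using 1; module)
    (by simp [h1, h.n_ne])

theorem tv_sing {p w : V} (hp : TvAll X C p) (hp0 : p ≠ 0) (hw : C.B w (θ w) = 0)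
    (hn : w ∉ spanL F [p, θ p]) : TvAll X C w := by
  obtain ⟨u, a1, a3, a4⟩ := h.ex (l := [θ p, θ w, p + w]) (z := p) (fun e => by
    obtain ⟨r, s, t, e⟩ := mem_spanL_three.1 e
    have := h.ind2 (a := t - 1) (b := r) (c := t) (d := s) hp0 hn
      (by linear_combination (norm := module) e)
    simpa [this.2.2.1] using this.1) (by simp)
  simp only [List.mem_cons, List.not_mem_nil, or_false, forall_eq_or_imp, forall_eq] at a1
  refine h.tv_step (h.tv_step hp a3 (by simp [a4]) a1.1) hw (C.B_swap_ne fun e => ?_)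
    (by rw [h.adj, alt_symm, a1.2.1]; simp)
  simpa [a4, e] using a1.2.2

theorem le_of_tv {p : V} (hp : TvAll X C p) (hp0 : p ≠ 0) : C.isom ≤ X := by
  have hd := h.dim
  have key : ∀ w, C.B w (θ w) = 0 → w ≠ 0 → TvAll X C w := fun w hw h0 => by
    obtain ⟨u, -, a2, a3⟩ := (iso3_quad (thQ θ C)).exists_perpL h.thQ_nd [] [p, θ p, w, θ w]
      (by simp; omega)
    exact h.tv_sing (h.tv_sing hp hp0 a3 fun e => a2 (spanL_mono (by simp) e))
      (ne_zero_of_not_mem a2) hw (h.not_mem_symm h0 fun e => a2 (spanL_mono (by simp) e))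
  refine le_of_tvAll h.nd fun x => ?_
  by_cases hx : x = 0
  · exact hx ▸ fun a => ⟨1, one_mem _, by simp⟩
  obtain ⟨s, a1, a3, a4⟩ := h.ex (l := [C.B x (θ x) • x + (2 : F) • θ x]) (z := x) (fun e => by
    obtain ⟨r, e⟩ := mem_span_singleton.1 (by simpa [spanL] using e : x ∈ span F {_})
    have := h.ind (a := r * C.B x (θ x) - 1) (b := r * 2) hx
      (by linear_combination (norm := module) e)
    simp [show r = 0 by simpa [h.two] using this.2] at this) (by simp)
  replace a1 := a1 _ (List.mem_singleton_self _)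
  have h1 : TvAll X C s := key s a3 (by rintro rfl; simp at a4)
  have h2 : C.B (x - s) s = 1 := by simp [a4, alt_B_self]
  simpa using h1.add (key (x - s) (by
    simp [a4, h.adj, alt_sigma] at a1
    simp [a3, alt_symm (θ x) s, h.adj]
    linear_combination a1) (by rintro e; simp [e] at h2)) h.le (by rw [h2]; simp) 1

theorem le_or (hH : IsNorm θ H) : C.isom ≤ X ∨ X ≤ H := by
  have hd := h.dim
  by_cases hY : ∃ g ∈ X, ∃ v, C.B v (θ v) ≠ 0 ∧ θ (g v) ∉ spanL F [g v, g (θ v)]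
  · obtain ⟨g, hg, v, hv, hn⟩ := hY
    obtain ⟨z, hz, ez⟩ := h.inv v hv
    obtain ⟨p, w, a1, a2, a3, a4⟩ := h.rho_of (by rwa [CForm.isom_B (h.le hg)]) hn
      (mul_mem (mul_mem hg hz) (inv_mem hg)) fun x => by
        obtain ⟨x, rfl⟩ := g.surjective x
        simp only [LinearEquiv.mul_apply, inv_apply_apply, ez, map_sub, map_smul,
          CForm.isom_B (h.le hg)]
    exact Or.inl (h.le_of_tv (h.tv_of a1 a2 a3 a4) a2)
  push Not at hY
  refine Or.inr fun g hg => inv_mem_iff.1 ((hH _).2 ?_)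
  have key : ∀ v, C.B v (θ v) ≠ 0 → ∃ a b : F, a • v + b • θ v = g⁻¹ (θ (g v)) := fun v hv => by
    obtain ⟨a, b, e⟩ := mem_spanL_pair.1 (hY g hg v hv)
    exact ⟨a, b, by simp [← e]⟩
  obtain ⟨a, b, e⟩ := h.exists_eq (iso3_quad (thQ θ C)) h.thQ_nd (by omega)
    (((g⁻¹ : V ≃ₗ[F] V) : V →ₗ[F] V) ∘ₗ θ ∘ₗ g) fun s hs => by
      rw [thQ_N] at hs
      by_cases h0 : s = 0
      · simp [h0]
      obtain ⟨u, u1, u2⟩ : ∃ u, (∀ x ∈ [s, θ s], C.B x u = 0) ∧ C.B u (θ u) ≠ 0 := by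
        by_contra! hc
        obtain ⟨u, u1, u2, u3⟩ := (iso3_alt C).exists_perpL h.nd [s, θ s] [s, θ s] (by simp; omega)
        obtain ⟨w, w1, w2, w3⟩ := h.ex (l := [s, θ s]) (z := θ u) (fun e => u2 <| by
          simpa using h.mem_of (h.inv2 s) (a := 0) (b := 1) (w := u) (by simpa using e))
          (by simp)
        have := hc (u + w) fun x hx => by simp [u1 x hx, w1 x hx]
        simp [hc u u1, w2, alt_symm (θ u) w, w3, show C.B u (θ w) = -1 by
          rw [← w3, h.adj, neg_neg], ← two_mul, h.two, ← neg_add] at this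
      simp only [List.mem_cons, List.not_mem_nil, or_false, forall_eq_or_imp, forall_eq] at u1
      have u3 : C.B s (θ u) = 0 := by simpa [h.adj] using u1.2
      have u4 : u ∉ spanL F [s, θ s] := fun e => by
        obtain ⟨a, b, rfl⟩ := mem_spanL_pair.1 e
        simp [hs, h.sq', alt_B_self, alt_symm s (θ s)] at u2
      obtain ⟨a, b, e⟩ := key u u2
      obtain ⟨a', b', e'⟩ := key (s + u) (by simpa [hs, u3, alt_symm (θ s) u, u1])
      obtain ⟨a'', b'', e''⟩ := key (u - s) (by simpa [hs, u3, alt_symm (θ s) u, u1])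
      simp only [map_add, map_sub, ← e] at e' e''
      obtain ⟨h1, h2, h3, h4⟩ := h.ind2 (a := a' - a'') (b := b' - b'') (c := a' + a'' - 2 * a)
        (d := b' + b'' - 2 * b) h0 u4 (by linear_combination (norm := module) e' + e'')
      refine mem_spanL_pair.2 ⟨a', b', ?_⟩
      have h5 : a' = a := mul_left_cancel₀ h.two (by linear_combination h1 + h3)
      have h6 : b' = b := mul_left_cancel₀ h.two (by linear_combination h2 + h4)
      simp only [LinearMap.comp_apply, LinearEquiv.coe_coe]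
      rw [h5, h6] at e' ⊢
      linear_combination (norm := module) e'
  exact ⟨a, b, fun x => by simpa using e (g⁻¹ x)⟩

end US2

theorem isMaximalIn_uspA [Finite F] [FiniteDimensional F V] (hC : C.Nondeg) (h2 : (2 : F) ≠ 0)
    (hd : 10 ≤ finrank F V) (h : QExt θ 0 n) (adj : ∀ u v, C.B (θ u) v = -C.B u (θ v))
    (hH : IsNorm θ H) : Cfsg.Geo.IsMaximalIn C.isom (H ⊓ C.isom) := by
  have sq : ∀ v, θ (θ v) = -(n • v) := by simp [h.sq]
  refine isMaximalIn_of _ _ inf_le_right (fun e => h.not_le (spec_alt hC)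
    (iso3_alt C) (by omega) hH (e.trans inf_le_left)) fun M a1 a2 g a3 a4 => ?_
  refine (US2.le_or ⟨h, adj, fun u a hu => ?_, fun v hv => ?_, hC, h2, a2, hd⟩ hH).resolve_right
    fun e => a4 ⟨e a3, a2 a3⟩
  · obtain ⟨k, hk, e⟩ := hC.exists_isom (LinearMap.id + (a * n) • (C.B u).smulRight u +
      a • (C.B (θ u)).smulRight (θ u)) ⟨fun x y => by
        simp [alt_B_self, hu, alt_symm u (θ u), alt_symm u x, alt_symm (θ u) x, alt_sigma]; ring,
        fun a => by rw [alt_N, alt_N]⟩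
    replace e : ∀ x, k x = x + (a * n * C.B u x) • u + (a * C.B (θ u) x) • θ u := fun x => by
      simp [e, smul_smul]
    refine ⟨k, a1 ⟨(hH k).2 ⟨0, 1, fun x => ?_⟩, hk⟩, e⟩
    simp [e, adj, sq]; module
  · obtain ⟨k, hk, e⟩ := hC.exists_isom (LinearMap.id + (2 / C.B v (θ v)) •
      ((C.B (θ v)).smulRight v - (C.B v).smulRight (θ v))) ⟨fun x y => by
        simp [alt_B_self, alt_symm v (θ v), alt_symm v x, alt_symm (θ v) x, alt_sigma]
        field_simp; ring, fun a => by rw [alt_N, alt_N]⟩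
    replace e : ∀ x, k x = x - (2 / C.B v (θ v)) • (C.B x (θ v) • v - C.B x v • θ v) := fun x => by
      simp [e, alt_symm x]; module
    refine ⟨k, a1 ⟨(hH k).2 ⟨0, 1, fun x => ?_⟩, hk⟩, e⟩
    simp [e, adj, sq]; module

theorem isMaximalIn_uspB [Finite F] [FiniteDimensional F V] (hC : C.Nondeg) (h2 : (2 : F) ≠ 0)
    (hd : 10 ≤ finrank F V) (h : QExt θ t n) (adj : ∀ u v, C.B (θ u) v = t * C.B u v - C.B u (θ v))
    (hH : IsNorm θ H) : Cfsg.Geo.IsMaximalIn C.isom (H ⊓ C.isom) := by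
  refine isMaximalIn_uspA (θ := θ - (t / 2) • LinearMap.id) (n := n - t * t / 4) hC h2 hd
    ⟨fun v => ?_, fun a b e => h.irr (a - t / 2 * b) b ?_⟩ (fun u v => ?_) fun g => (hH g).trans
    ⟨fun ⟨a, b, e⟩ => ⟨a + (b - 1) * (t / 2), b, fun x => ?_⟩,
      fun ⟨a, b, e⟩ => ⟨a - (b - 1) * (t / 2), b, fun x => ?_⟩⟩
  · have h4 : (4 : F) ≠ 0 := by simpa [← two_add_two_eq_four, ← two_mul] using h2
    simp [h.sq]; match_scalars <;> field_simp <;> ring
  · have h4 : (4 : F) ≠ 0 := by simpa [← two_add_two_eq_four, ← two_mul] using h2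
    rw [← e]; field_simp; ring
  · simp [adj, alt_sigma]; field_simp; ring
  · simp [e]; module
  · have := e x
    simp at this
    linear_combination (norm := module) this

end H12
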