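import Cfsg.Agent.H12.Ten9
import Mathlib.LinearAlgebra.GeneralLinearGroup.AlgEquiv

/-!
# Tensor powers: commuting families of matrix algebras
-/

set_option autoImplicit false
set_option maxHeartbeats 400000

namespace H12

open Module H11 Submodule H13.KL

variable {F : Type*} [Field F] {V W : Type*} [AddCommGroup V] [Module F V] [AddCommGroup W]
  [Module F W] {ι : Type*} {ρ : ι → End F W →ₐ[F] End F V} {τ : End F W →ₐ[F] End F V}
  {R : Subgroup (W ≃ₗ[F] W)} {A B : End F V} {D : End F W} {J : Submodule F (End F V)}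

/-- Commuting copies of `End W` generating `End V`. -/
structure Fam (ρ : ι → End F W →ₐ[F] End F V) : Prop where
  comm : ∀ i j, i ≠ j → ∀ A B, Commute (ρ i A) (ρ j B)
  gen : ∀ S : Subalgebra F (End F V), (∀ i A, ρ i A ∈ S) → ∀ f, f ∈ S

theorem scalar_of_comm (h : ∀ g, Commute A g) : ∃ c : F, A = c • 1 := by
  obtain ⟨c, hc⟩ := exists_scalar_of_eigen (A := A) fun v => by
    by_contra hv
    obtain ⟨φ, h1, h2⟩ := exists_dual_eq_one hv
    have := LinearMap.congr_fun (h (φ.smulRight v)).eq v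
    simp only [End.mul_apply, LinearMap.smulRight_apply, h1 v (mem_span_singleton_self v), h2,
      zero_smul, map_zero, one_smul] at this
    simp [← this] at hv
  exact ⟨c, LinearMap.ext hc⟩

theorem Fam.scalar (h : Fam ρ) (hf : ∀ i D, Commute A (ρ i D)) : ∃ c : F, A = c • 1 :=
  scalar_of_comm fun g => (h.gen (Subalgebra.centralizer F {A})
    (fun i D => by simpa [Subalgebra.mem_centralizer_iff] using (hf i D).eq) g A rfl)

/-- The stabiliser of a subspace in the endomorphism algebra. -/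
def stabAlg (Y : Submodule F V) : Subalgebra F (End F V) where
  carrier := {f | ∀ x ∈ Y, f x ∈ Y}
  mul_mem' a b x hx := a _ (b x hx)
  add_mem' a b x hx := add_mem (a x hx) (b x hx)
  algebraMap_mem' c x hx := by simpa using smul_mem Y c hx

theorem eq_top_of_stabAlg {Y : Submodule F V} (h : ∀ f, f ∈ stabAlg Y) {y : V} (hy : y ∈ Y)
    (hy0 : y ≠ 0) (x : V) : x ∈ Y := by
  obtain ⟨φ, hφ⟩ := exists_dual_one (F := F) hy0
  simpa [hφ] using h (φ.smulRight x) y hy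

theorem sum_rk {κ : Type*} [Fintype κ] (b : Basis κ F W) (D : End F W) :
    ∑ r, (b.coord r ∘ₗ D).smulRight (b r) = D := by
  ext x; simpa using b.sum_repr (D x)

theorem sum_rk' {κ : Type*} [Fintype κ] (b : Basis κ F W) (D : End F W) :
    ∑ r, (b.coord r).smulRight (D (b r)) = D := by
  ext x
  conv_rhs => rw [← b.sum_repr x, map_sum]
  simp

variable [FiniteDimensional F W]

theorem mem_of_rk (Y : Submodule F (End F W)) (h : ∀ (φ : Dual F W) w, φ.smulRight w ∈ Y)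
    (D : End F W) : D ∈ Y := by
  rw [← sum_rk (finBasis F W) D]; exact sum_mem fun _ _ => h _ _

theorem eq_zero_of_mul_eq (hB : ∀ E, Commute B (τ E)) (hD : D ≠ 0) (h : B * τ D = 0) : B = 0 := by
  obtain ⟨w, hw⟩ := DFunLike.ne_iff.1 hD
  obtain ⟨φ, hφ⟩ := exists_dual_one (F := F) (v := D w) hw
  have : ∀ (ψ : Dual F W) y, B * τ (ψ.smulRight y) = 0 := fun ψ y => by
    rw [show (ψ.smulRight y : End F W) = φ.smulRight y * D * ψ.smulRight w by ext; simp [hφ],
      map_mul, map_mul, ← mul_assoc, ← mul_assoc, (hB _).eq, mul_assoc _ B, h]; simp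
  simpa using mem_of_rk (LinearMap.ker (LinearMap.mulLeft F B ∘ₗ τ.toLinearMap)) this 1

theorem comm_of_rk (h : ∀ (φ ψ : Dual F W) w y, φ w = 0 →
    τ (φ.smulRight y) * A * τ (ψ.smulRight w) = 0) (E : End F W) : Commute A (τ E) := by
  have h1 : ∀ (φ : Dual F W) w, φ w = 1 → Commute A (τ (φ.smulRight w)) := fun φ w e => by
    have a1 : τ (1 - φ.smulRight w) * A * τ (φ.smulRight w) = 0 := by
      rw [← sum_rk (finBasis F W) (1 - φ.smulRight w), map_sum, Finset.sum_mul, Finset.sum_mul]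
      exact Finset.sum_eq_zero fun r _ => h _ _ _ _ (by simp [e])
    have a2 : τ (φ.smulRight w) * A * τ (1 - φ.smulRight w) = 0 := by
      rw [← sum_rk' (finBasis F W) (1 - φ.smulRight w), map_sum, Finset.mul_sum]
      exact Finset.sum_eq_zero fun r _ => h _ _ _ _ (by simp [e])
    rw [map_sub, map_one] at a1 a2
    change _ = _
    linear_combination (norm := noncomm_ring) a1 - a2
  refine mem_of_rk (((Subalgebra.centralizer F {A}).toSubmodule).comap τ.toLinearMap)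
    (fun φ w => ?_) E A rfl
  rintro _ rfl
  by_cases hw : w = 0
  · simp [hw]
  obtain ⟨ψ, hψ⟩ := exists_dual_one (F := F) hw
  have := ((h1 (φ + (1 - φ w) • ψ) w (by simp [hψ])).sub_right
    ((h1 ψ w hψ).smul_right (1 - φ w))).eq
  rwa [← map_smul, ← map_sub, show ((φ + (1 - φ w) • ψ).smulRight w : End F W) -
    (1 - φ w) • ψ.smulRight w = φ.smulRight w by ext; simp; module] at this

variable (τ A) in
/-- The components of an endomorphism. -/
noncomputable def cp : W →ₗ[F] Dual F W →ₗ[F] End F V :=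
  LinearMap.mk₂ F (fun w φ => ∑ r, τ (φ.smulRight (finBasis F W r)) * A *
      τ (((finBasis F W).coord r).smulRight w))
    (fun _ _ _ => by simp [← Finset.sum_add_distrib, ← mul_add, ← map_add]; congr! 4; ext; simp)
    (fun _ _ _ => by simp [Finset.smul_sum, ← mul_smul_comm, ← map_smul]; congr! 4; ext; simp; module)
    (fun _ _ _ => by simp [← Finset.sum_add_distrib, ← add_mul, ← map_add]; congr! 5; ext; simp [add_smul])
    (fun _ _ _ => by simp [Finset.smul_sum, ← smul_mul_assoc, ← map_smul]; congr! 5; ext; simp [mul_smul])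

theorem cp_mul (w y : W) (φ ψ : Dual F W) :
    cp τ A w φ * τ (ψ.smulRight y) = τ (φ.smulRight y) * A * τ (ψ.smulRight w) := by
  have : (φ.smulRight y : End F W) = ∑ r, (finBasis F W).coord r y • φ.smulRight (finBasis F W r) := by
    ext x
    rw [LinearMap.smulRight_apply]
    conv_lhs => rw [← (finBasis F W).sum_repr y, Finset.smul_sum]
    simp [smul_smul, mul_comm]
  rw [this, cp, LinearMap.mk₂_apply, map_sum, Finset.sum_mul, Finset.sum_mul, Finset.sum_mul]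
  refine Finset.sum_congr rfl fun r _ => ?_
  rw [mul_assoc, ← map_mul, smulRight_mul]; simp

theorem mul_cp (w y : W) (φ ψ : Dual F W) :
    τ (ψ.smulRight y) * cp τ A w φ = τ (φ.smulRight y) * A * τ (ψ.smulRight w) := by
  have : (ψ.smulRight w : End F W) =
      ∑ r, ψ (finBasis F W r) • ((finBasis F W).coord r).smulRight w := by
    ext x
    rw [LinearMap.smulRight_apply]
    conv_lhs => rw [← (finBasis F W).sum_repr x, map_sum]
    simp [Finset.sum_smul, smul_smul, mul_comm]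
  rw [this, cp, LinearMap.mk₂_apply, map_sum, Finset.mul_sum, Finset.mul_sum]
  refine Finset.sum_congr rfl fun r _ => ?_
  rw [← mul_assoc, ← mul_assoc, ← map_mul, smulRight_mul]; simp

theorem cp_comm (w : W) (φ : Dual F W) (E : End F W) : Commute (cp τ A w φ) (τ E) :=
  mem_of_rk (((Subalgebra.centralizer F {cp τ A w φ}).toSubmodule).comap τ.toLinearMap)
    (by rintro ψ y _ rfl; exact (cp_mul ..).trans (mul_cp ..).symm) E _ rfl

theorem comm_of_cp {P : W → Dual F W → Prop}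
    (hP : ∀ D : End F W, (∀ w φ, P w φ → φ (D w) = 0) → ∀ w, D w ∈ span F {w})
    (h : ∀ w φ, P w φ → cp τ A w φ = 0) (E : End F W) : Commute A (τ E) := by
  refine comm_of_rk (fun φ ψ w y e => ?_) E
  rw [← cp_mul, (forall_dual_apply_eq_zero_iff F (cp τ A w φ)).1 fun ξ => ?_, zero_mul]
  let D : End F W := (evalEquiv F W).symm.toLinearMap ∘ₗ (cp τ A).compr₂ ξ
  have hD : ∀ w (φ : Dual F W), φ (D w) = ξ (cp τ A w φ) := fun w φ => by simp [D]
  obtain ⟨c, hc⟩ := mem_span_singleton.1 (hP D (fun w φ e => by rw [hD, h w φ e, map_zero]) w)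
  rw [← hD, ← hc, map_smul, e, smul_zero]

omit [FiniteDimensional F W]

variable (τ) in
/-- The group homomorphism attached to a factor. -/
def rU : (W ≃ₗ[F] W) →* (V ≃ₗ[F] V) where
  toFun β := LinearEquiv.ofLinear (τ β) (τ (β⁻¹ : W ≃ₗ[F] W))
    (by rw [← End.mul_eq_comp, ← map_mul, ← LinearEquiv.coe_toLinearMap_mul, mul_inv_cancel]
        exact map_one τ)
    (by rw [← End.mul_eq_comp, ← map_mul, ← LinearEquiv.coe_toLinearMap_mul, inv_mul_cancel]
        exact map_one τ)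
  map_one' := LinearEquiv.toLinearMap_injective (map_one τ)
  map_mul' a b := LinearEquiv.toLinearMap_injective (map_mul τ (a : End F W) b)

theorem rU_coe (β : W ≃ₗ[F] W) : (rU τ β : End F V) = τ β := rfl

theorem cj_eq (g : V ≃ₗ[F] V) (A : End F V) : cj g A = (g : End F V) * A * (g⁻¹ : V ≃ₗ[F] V) := rfl

theorem cj_mul' (g : V ≃ₗ[F] V) (A B : End F V) : cj g (A * B) = cj g A * cj g B := by
  ext; simp [inv_apply_apply]

theorem cj_cj (g k : V ≃ₗ[F] V) (A : End F V) : cj (g * k) A = cj g (cj k A) := rfl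

theorem cj_inv_cj (g : V ≃ₗ[F] V) (A : End F V) : cj g⁻¹ (cj g A) = A := by
  ext; simp [inv_apply_apply]

theorem cj_cj_inv (g : V ≃ₗ[F] V) (A : End F V) : cj g (cj g⁻¹ A) = A := by
  ext; simp [apply_inv_apply]

theorem cj_ne_zero (g : V ≃ₗ[F] V) (h : A ≠ 0) : cj g A ≠ 0 := fun e =>
  h (by rw [← cj_inv_cj g A, e]; ext; simp)

theorem cj_of_comm {g : V ≃ₗ[F] V} (h : Commute (g : End F V) A) : cj g A = A := by
  rw [cj_eq, h.eq]; ext; simp [apply_inv_apply]

theorem Commute.cj (h : Commute A B) (g : V ≃ₗ[F] V) : Commute (cj g A) (cj g B) := by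
  change _ = _; rw [← cj_mul', ← cj_mul', h.eq]

theorem cj_rU (β : W ≃ₗ[F] W) (D : End F W) : cj (rU τ β) (τ D) = τ (cj β D) := by
  rw [cj_eq, ← map_inv, rU_coe, rU_coe, ← map_mul, ← map_mul, cj_eq]

variable (ρ R J) in
/-- Invariance under the groups of the factors. -/
def Inv : Prop := ∀ j, ∀ β ∈ R, ∀ A ∈ J, cj (rU (ρ j) β) A ∈ J

variable (τ J D) in
/-- The coefficients of the pure tensors in `J`. -/
def Jd : Submodule F (End F V) where
  carrier := {B | (∀ E, Commute B (τ E)) ∧ B * τ D ∈ J}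
  zero_mem' := ⟨fun _ => Commute.zero_left _, by simp⟩
  add_mem' a b := ⟨fun E => (a.1 E).add_left (b.1 E), by rw [add_mul]; exact add_mem a.2 b.2⟩
  smul_mem' c _ a := ⟨fun E => (a.1 E).smul_left c, by rw [smul_mul_assoc]; exact smul_mem _ _ a.2⟩

theorem Jd_smul (h : B ∈ Jd τ D J) (c : F) : B ∈ Jd τ (c • D) J :=
  ⟨h.1, by rw [map_smul, mul_smul_comm]; exact smul_mem _ _ h.2⟩

theorem Jd_mul {J' J'' : Submodule F (End F V)} (hJ : ∀ A ∈ J, ∀ B ∈ J', A * B ∈ J'')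
    {D' : End F W} (h : A ∈ Jd τ D J) (h' : B ∈ Jd τ D' J') : A * B ∈ Jd τ (D * D') J'' :=
  ⟨fun E => (h.1 E).mul_left (h'.1 E), by
    rw [map_mul, mul_assoc, ← mul_assoc B, (h'.1 D).eq, mul_assoc, ← mul_assoc]
    exact hJ _ h.2 _ h'.2⟩

theorem Inv.Jd_conj (hJ : Inv ρ R J) {j : ι} (h : B ∈ Jd (ρ j) D J) {β : W ≃ₗ[F] W} (hβ : β ∈ R) :
    B ∈ Jd (ρ j) (cj β D) J :=
  ⟨h.1, by
    have := hJ j β hβ _ h.2
    rwa [cj_mul', cj_rU, cj_of_comm (g := rU (ρ j) β) (h.1 β).symm] at this⟩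

theorem Inv.Jd (hJ : Inv ρ R J) (h : Fam ρ) (j : ι) (D : End F W) : Inv ρ R (Jd (ρ j) D J) :=
  fun l β hβ A hA => by
    by_cases e : l = j
    · subst e; rwa [cj_of_comm (g := rU (ρ l) β) (hA.1 β).symm]
    have h1 : ∀ E, cj (rU (ρ l) β) (ρ j E) = ρ j E := fun E => cj_of_comm (h.comm l j e β E)
    exact ⟨fun E => h1 E ▸ Commute.cj (hA.1 E) _, by
      rw [← h1 D, ← cj_mul']; exact hJ l β hβ _ hA.2⟩

variable (R) in
/-- The group `R` spans an irreducible algebra. -/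
def GenR : Prop := ∀ S : Subalgebra F (End F W), (∀ β ∈ R, (β : End F W) ∈ S) → ∀ D, D ∈ S

theorem Fam.irr (h : Fam ρ) (hR : GenR R) {Y : Submodule F V}
    (hY : ∀ j, ∀ β ∈ R, ∀ x ∈ Y, ρ j β x ∈ Y) {y : V} (hy : y ∈ Y) (hy0 : y ≠ 0) (x : V) : x ∈ Y :=
  eq_top_of_stabAlg (h.gen _ fun j => hR ((stabAlg Y).comap (ρ j)) (hY j)) hy hy0 x

theorem Fam.mul_ne (h : Fam ρ) (hR : GenR R) (hJ : Inv ρ R J) (hA : A ≠ 0) (hB : B ∈ J)
    (hB0 : B ≠ 0) : ∃ B ∈ J, A * B ≠ 0 := by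
  by_contra hc
  push Not at hc
  obtain ⟨x, hx⟩ := DFunLike.ne_iff.1 hB0
  refine hA (LinearMap.ext fun z => ?_)
  let S : Set V := {x | ∃ B ∈ J, ∃ y, B y = x}
  have h1 : span F S ≤ LinearMap.ker A := span_le.2 (by
    rintro _ ⟨B, hB, x, rfl⟩; exact LinearMap.congr_fun (hc B hB) x)
  refine h1 (h.irr (Y := span F S) hR (fun j β hβ => ?_)
    (subset_span (show B x ∈ S from ⟨B, hB, x, rfl⟩)) hx z)
  have h2 : span F S ≤ (span F S).comap (ρ j β) := span_le.2 (by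
    rintro _ ⟨B, hB, x, rfl⟩
    exact subset_span ⟨_, hJ j β hβ B hB, rU (ρ j) β x, by rw [cj_apply, inv_apply_apply]; rfl⟩)
  exact h2

variable (R) in
/-- A single class of root nilpotents whose triple products span. -/
structure WD (𝒩 : Set (End F W)) : Prop where
  gen : GenR R
  orb : ∀ N ∈ 𝒩, ∀ N' ∈ 𝒩, ∃ β ∈ R, ∃ c : F, N' = c • cj β N
  span : ∀ Y : Submodule F (End F W), (∀ N ∈ 𝒩, ∀ N' ∈ 𝒩, ∀ N'' ∈ 𝒩, N * N' * N'' ∈ Y) →
    ∀ D, D ∈ Y

variable (ρ R) in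
/-- Extraction of pure tensors from invariant algebras. -/
def Extr (𝒩 : Set (End F W)) : Prop := ∀ j (J : Submodule F (End F V)), Inv ρ R J →
  (∀ A ∈ J, ∀ B ∈ J, A * B ∈ J) → ∀ A ∈ J, (¬ ∀ E, Commute A (ρ j E)) →
    ∃ N ∈ 𝒩, ∃ B ∈ Jd (ρ j) N J, B ≠ 0

variable {𝒩 : Set (End F W)} [FiniteDimensional F W] [Nontrivial W]

theorem Fam.one_mem (h : Fam ρ) (hW : WD R 𝒩) (hE : Extr ρ R 𝒩) (s : Finset ι) :
    ∀ J : Submodule F (End F V), Inv ρ R J → (∀ A ∈ J, ∀ B ∈ J, A * B ∈ J) →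
      (∀ A ∈ J, ∀ l ∉ s, ∀ E, Commute A (ρ l E)) →
        ((∃ A ∈ J, A ≠ 0) → 1 ∈ J) ∧ ∀ j, (¬ ∀ A ∈ J, ∀ E, Commute A (ρ j E)) → ∀ D, ρ j D ∈ J := by
  classical
  induction s using Finset.strongInduction with
  | H s ih =>
  intro J h1 h2 h3
  have key : ∀ j, (¬ ∀ A ∈ J, ∀ E, Commute A (ρ j E)) → ∀ D, ρ j D ∈ J := fun j hj D => by
    have hs : j ∈ s := by_contra fun e => hj fun A hA => h3 A hA j e
    push Not at hj
    obtain ⟨A, a1, a2⟩ := hj
    obtain ⟨N, b1, B, b2, b3⟩ := hE j J h1 h2 A a1 (not_forall.2 a2)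
    obtain ⟨B', b4, b5⟩ := h.mul_ne hW.gen (h1.Jd h j N) b3 b2 b3
    obtain ⟨B'', b6, b7⟩ := h.mul_ne hW.gen (h1.Jd h j N) b5 b2 b3
    have b8 : ∀ B ∈ Jd (ρ j) N J, ∀ N' ∈ 𝒩, B ∈ Jd (ρ j) N' J := fun B hB N' hN' => by
      obtain ⟨β, c1, c, rfl⟩ := hW.orb N b1 N' hN'
      exact Jd_smul (h1.Jd_conj hB c1) c
    have := (ih (s.erase j) (Finset.erase_ssubset hs) (⨅ D, Jd (ρ j) D J)
      (fun l β hβ A hA => (mem_iInf _).2 fun D => h1.Jd h j D l β hβ A ((mem_iInf _).1 hA D))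
      (fun A hA B hB => (mem_iInf _).2 fun D => by
        simpa using Jd_mul h2 ((mem_iInf _).1 hA D) ((mem_iInf _).1 hB 1))
      (fun A hA l hl E => by
        have c1 := (mem_iInf _).1 hA 1
        by_cases e : l = j
        · exact e ▸ c1.1 E
        · simpa using h3 _ c1.2 l (by simpa [e] using hl) E)).1
      ⟨B * B' * B'', (mem_iInf _).2 fun D => ⟨(Jd_mul h2 (Jd_mul h2 b2 b4) b6).1,
        hW.span (J.comap (LinearMap.mulLeft F (B * B' * B'') ∘ₗ (ρ j).toLinearMap))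
          (fun N₁ c1 N₂ c2 N₃ c3 =>
            (Jd_mul h2 (Jd_mul h2 (b8 B b2 _ c1) (b8 B' b4 _ c2)) (b8 B'' b6 _ c3)).2) D⟩, b7⟩
    simpa using ((mem_iInf _).1 this D).2
  refine ⟨fun ⟨A, a1, a2⟩ => ?_, key⟩
  by_cases hc : ∀ j, ∀ A ∈ J, ∀ E, Commute A (ρ j E)
  · obtain ⟨c, rfl⟩ := h.scalar fun j => hc j A a1
    simpa [left_ne_zero_of_smul a2] using smul_mem J c⁻¹ a1
  · obtain ⟨j, hj⟩ := not_forall.1 hc
    simpa using key j hj 1

theorem Fam.all_mem [Finite ι] (h : Fam ρ) (hW : WD R 𝒩) (hE : Extr ρ R 𝒩) (h1 : Inv ρ R J)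
    (h2 : ∀ A ∈ J, ∀ B ∈ J, A * B ∈ J) {j : ι} (hA : A ∈ J) (hj : ¬ ∀ E, Commute A (ρ j E))
    (D : End F W) : ρ j D ∈ J := by
  have := Fintype.ofFinite ι
  exact (h.one_mem hW hE Finset.univ J h1 h2 (by simp)).2 j (fun e => hj (e A hA)) D

end H12
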