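import Cfsg.Agent.H12.WR9

/-!
# Tensor powers of forms: large factors
-/

set_option autoImplicit false
set_option maxHeartbeats 400000

namespace H12

open Module H11 Submodule TensorProduct H13.KL

variable {F : Type*} [Field F] {U W : Type*} [AddCommGroup U] [Module F U] [AddCommGroup W]
  [Module F W] {T T₁ T₂ : FormType F} {C : CForm T (U ⊗[F] W)} {C₁ : CForm T₁ U}
  {X H G : Subgroup ((U ⊗[F] W) ≃ₗ[F] (U ⊗[F] W))} {R : Subgroup (W ≃ₗ[F] W)}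
  {ι : Type*} [DecidableEq ι] {ρ : ι → End F W →ₐ[F] End F (U ⊗[F] W)} {j₀ : ι}
  {g : (U ⊗[F] W) ≃ₗ[F] (U ⊗[F] W)} {w y : W} [FiniteDimensional F U] [FiniteDimensional F W]

section Gen

variable {C₂ : CForm T₂ W}

theorem BP.s2c (h : BP X (PF C₂)) (h2 : (2 : F) = 0) (hc : 1 * T₂.ε + T₂.σ 1 = 0) (l : List W)
    (ho : Odd l.length) {Y : Submodule F W} (hY : ∀ v ∈ Y, ∀ v' ∈ Y, C₂.B v v' = 0)
    (hs : ∀ w, C₂.B w w = 0 → C₂.N w = 0) (h1 : ∀ v ∈ l, v ∈ Y ∧ v ≠ 0)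
    (h4 : ∀ x, (l.map fun v => C₂.B v x • v).sum = 0) : S2 X (PF C₂) := by
  refine h.s2b h2 (l.map fun v => (v, C₂.B v)) (by simpa) (by
    simp only [List.forall_mem_map]
    exact fun v hv => ⟨hs v (hY v (h1 v hv).1 v (h1 v hv).1), (h1 v hv).2, 1, one_ne_zero, hc,
      (one_smul _ _).symm⟩) ?_
  rw [(prod_one_add _ (by
    simp only [List.forall_mem_map]
    exact fun v hv v' hv' => hY v (h1 v hv).1 v' (h1 v' hv').1)).1, add_eq_left]
  refine LinearMap.ext fun x => (map_list_sum (LinearMap.applyₗ x) _).trans ?_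
  simpa [Function.comp_def] using h4 x

theorem TX.gd [Finite F] (h : TX C C₁ C₂ X R) {a₀ : F} (ha₀ : a₀ ≠ 0)
    (e₀ : a₀ * T₂.ε + T₂.σ a₀ = 0) (hQ : QS C₂ X)
    (h2 : (∀ a, a * T₂.ε + T₂.σ a = 0 → a = 0 ∨ a = a₀) → S2 X (PF C₂)) (hg : g ∈ X) : Gd g := by
  by_cases hu : ∀ a, a * T₂.ε + T₂.σ a = 0 → a = 0 ∨ a = a₀
  · exact h.gd_one ha₀ e₀ hQ hu (h2 hu) hg
  push Not at hu
  obtain ⟨a, a1, a2, a3⟩ := hu
  exact (h.tz ha₀ e₀).gd_two (h.bp ha₀ e₀ hQ) (by have := h.dim; omega) a2 ha₀ a3 a1 e₀ hg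

theorem TWr.eq_top [Finite ι] (h : TWr C C₁ C₂ H G R ρ j₀) (hX : H ⊓ G ≤ X) (hE : Extr ρ R (NF C₂))
    (I : Subalgebra F (End F U)) (hI : ∀ α, lH F U W α ∈ X → ∀ A ∈ I, cj α A ∈ I)
    (hn : ¬ ∀ A ∈ I, ∃ c : F, ∀ u, A u = c • u) (D : End F U) : D ∈ I := by
  simp only [not_forall] at hn
  obtain ⟨A, a, b⟩ := hn
  exact h.toWrH.eq_top hX h.hR h.fw.wd hE I hI a b D

end Gen

section Alt

variable {C₂ : CForm (altType F) W}

theorem TZ.tx_alt (h : TZ C C₁ C₂ X C₂.isom) (hd : 4 ≤ finrank F W) : TX C C₁ C₂ X C₂.isom :=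
  (h.toTF.tx_alt h.le hd h.hX).mono inf_le_right h.le

theorem TWr.isMax_alt [Finite F] [Finite ι] (h : TWr C C₁ C₂ H G C₂.isom ρ j₀) (hd : 5 ≤ finrank F W)
    (hZ : ∀ a, a * T.ε + T.σ a = 0 → T.τ (a * T.ε) = 0 → ∃ b, a = T.σ T.ε * b - T.σ b) :
    Cfsg.Geo.IsMaximalIn G (H ⊓ G) := h.isMax fun X a1 a2 hX => by
  have h' := hX.tx_alt (by omega)
  by_cases hs : ∀ A ∈ h'.alg hd, ∃ c : F, ∀ u, A u = c • u
  swap
  · exact .inr (h'.le_of_alg hd (h.eq_top a1 (h.fw.extr (fun _ => h'.tsp) h.toFam) _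
      (fun α hα A hA => h'.conj_mem_alg hd hA hα) hs) h.rg a2 hZ)
  have hQ := h'.qs_of_alg hd hs
  have e₀ : 1 * (altType F).ε + (altType F).σ 1 = 0 := by simp [altType]
  refine .inl fun g => h'.gd one_ne_zero e₀ hQ fun hu => ?_
  have h2 : (2 : F) = 0 := by
    linear_combination -(hu (-1) (by simp [altType])).resolve_left (by simp)
  obtain ⟨w, a3, a4⟩ := h.fw.ex
  obtain ⟨y, e⟩ := h'.tsp a4 a3
  obtain ⟨z, -, b1, b2, -, -, -, b3⟩ := h'.exists_mid hd e 1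
  have b4 : ∀ r s t : F, r • w + s • y + t • z = 0 → r = 0 ∧ s = 0 ∧ t = 0 := fun r s t c => by
    have : t = 0 := by_contra fun c' => b3 ((smul_mem_iff _ c').1 (mem_span_pair.2 ⟨-r, -s, by
      linear_combination (norm := module) -c⟩))
    exact ⟨(e.ind (by simpa [this] using c)).1, (e.ind (by simpa [this] using c)).2, this⟩
  refine (h'.bp one_ne_zero e₀ hQ).s2c h2 e₀ [w, y, z, w + y, w + z, y + z, w + y + z] ⟨3, rfl⟩
    (Y := span F {w, y, z}) (fun v hv v' hv' => ?_) h.sing ?_ fun x => ?_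
  · obtain ⟨r, s, t, rfl⟩ := mem_span_triple.1 hv
    obtain ⟨r', s', t', rfl⟩ := mem_span_triple.1 hv'
    simp [H12.alt_B_self, e.hB, e.symm.hB, b1, b2, C₂.B_swap_zero b1, C₂.B_swap_zero b2]
  · have c1 : ∀ (r s t : F) v, v = r • w + s • y + t • z → r = 1 ∨ s = 1 ∨ t = 1 →
        v ∈ span F {w, y, z} ∧ v ≠ 0 := fun r s t v c d => ⟨mem_span_triple.2 ⟨r, s, t, c.symm⟩,
      fun c' => by simp [b4 r s t (c ▸ c')] at d⟩
    simp only [List.forall_mem_cons, List.not_mem_nil, false_imp_iff, implies_true, and_true]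
    exact ⟨c1 1 0 0 _ (by simp) (by simp), c1 0 1 0 _ (by simp) (by simp),
      c1 0 0 1 _ (by simp) (by simp), c1 1 1 0 _ (by simp) (by simp), c1 1 0 1 _ (by simp) (by simp),
      c1 0 1 1 _ (by simp) (by simp), c1 1 1 1 _ (by simp) (by simp)⟩
  · simp only [List.map_cons, List.map_nil, List.sum_cons, List.sum_nil, map_add, LinearMap.add_apply]
    linear_combination (norm := module) h2 • ((C₂.B w x + C₂.B y x + C₂.B z x) • (w + y + z) +
      C₂.B w x • w + C₂.B y x • y + C₂.B z x • z)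

end Alt

variable {σ : F →+* F} {hσ2 : ∀ a, σ (σ a) = a} {C : CForm (hermType σ hσ2) (U ⊗[F] W)}
  {C₁ : CForm (hermType σ hσ2) U} {C₂ : CForm (hermType σ hσ2) W}

theorem TWr.isMax_herm [Finite F] [Finite ι] (hσ : σ ≠ RingHom.id F)
    (hN : ∀ a, σ a = a → ∃ b, b * σ b = a) (h : TWr C C₁ C₂ H G (C₂.isom ⊓ SLV F W) ρ j₀)
    (hd : 4 ≤ finrank F W) : Cfsg.Geo.IsMaximalIn G (H ⊓ G) := h.isMax fun X a1 a2 hX => by
  have h' : TX C C₁ C₂ X _ := { h.toTF.tx_herm hσ hN hd with le := hX.le, hX := hX.hX }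
  obtain ⟨w, w0, hw⟩ := h.fw.ex
  obtain ⟨θ, hθ⟩ := exists_trace_eq hσ hσ2 (map_one σ)
  by_cases hs : ∀ A ∈ h'.alg4 hσ hw w0, ∃ c : F, ∀ u, A u = c • u
  swap
  · have := h.eq_top a1 (h.fw.extr (fun _ => h'.tsp) h.toFam) _
      (fun α hα A hA => h'.conj_qI hw hA (β := 1) (one_mem _) hα hw) hs
    refine .inr (h'.le_of_rq (fun w' y e => h'.rq_tmul4 hσ h.rg e fun A =>
      h'.trans_qI hw w0 _ e.ne (this A)) h.rg a2 fun a ha _ => ⟨a * θ, ?_⟩)
    change a * 1 + σ a = 0 at ha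
    change a = σ 1 * (a * θ) - σ (a * θ)
    rw [map_mul, map_one, eq_neg_of_add_eq_zero_right ha]
    linear_combination -a * hθ
  have hQ := h'.qs_of_qI4 hσ hw w0 hs
  obtain ⟨a, b1, b2⟩ := h.fw.ex₀
  refine .inl fun g => h'.gd b1 b2 hQ fun hu => ?_
  have b3 : ∀ b, σ b = b → b = 0 ∨ b = 1 := fun b hb => by
    simpa [b1] using hu (a * b) (by
      simp only [hermσ', hermε', map_mul, hb] at b2 ⊢; linear_combination b * b2)
  have h2 : (2 : F) = 0 := by linear_combination -(b3 (-1) (by simp)).resolve_left (by simp)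
  have b4 : θ ≠ 0 := by rintro rfl; simp at hθ
  have b5 : θ * σ θ = 1 := (b3 _ (by simp [hσ2, mul_comm])).resolve_left (by simp [b4])
  obtain ⟨y, e⟩ := h'.tsp hw w0
  refine (h'.bp b1 b2 hQ).s2c h2 (by simp [hermσ', hermε', ← h2]; norm_num)
    [w, y, w + y, w + θ • y, w + σ θ • y] ⟨2, rfl⟩ e.ts.2 h.sing ?_ fun x => ?_
  · have c1 : ∀ t : F, w + t • y ∈ span F {w, y} ∧ w + t • y ≠ 0 := fun t =>
      ⟨mem_span_pair.2 ⟨1, t, by simp⟩, fun c => one_ne_zero (e.ind (s := 1) (by simpa using c)).1⟩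
    simp only [List.forall_mem_cons, List.not_mem_nil, false_imp_iff, implies_true, and_true]
    exact ⟨by simpa using c1 0, ⟨mem_pair_right _ _, e.symm.ne⟩, by simpa using c1 1, c1 _, c1 _⟩
  · simp only [List.map_cons, List.map_nil, List.sum_cons, List.sum_nil, map_add,
      LinearMap.add_apply, herm_B_smul_left, hσ2]
    linear_combination (norm := module) h2 • ((C₂.B w x + C₂.B y x) • (w + y) +
      C₂.B w x • w + C₂.B y x • y) + hθ • (C₂.B w x • y + C₂.B y x • w) + b5 • (2 * C₂.B y x) • y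

end H12
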