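import Cfsg.Agent.H12.WR10

/-!
# Tensor powers of forms: unipotent radicals
-/

set_option autoImplicit false
set_option maxHeartbeats 400000

namespace H12

open Module H11 Submodule TensorProduct H13.KL

variable {F : Type*} [Field F] {U W : Type*} [AddCommGroup U] [Module F U] [AddCommGroup W]
  [Module F W] {T T₁ T₂ : FormType F} {C : CForm T (U ⊗[F] W)} {C₁ : CForm T₁ U}
  {C₂ : CForm T₂ W} {X Y G : Subgroup ((U ⊗[F] W) ≃ₗ[F] (U ⊗[F] W))} {R : Subgroup (W ≃ₗ[F] W)}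
  {g k t : (U ⊗[F] W) ≃ₗ[F] (U ⊗[F] W)} {w w' w₁ y y' : W} {S B : End F (U ⊗[F] W)}
  {A D : End F U} {c : F} {Φ : U ⊗[F] W →ₗ[F] U}

theorem eneg_mul (a b : End F U) : -a * b = -(a * b) := neg_mul a b

theorem emul_neg (a b : End F U) : a * -b = -(a * b) := mul_neg a b

variable (U C₂) in
/-- The endomorphism `1 ⊗ w B(y, ·)`. -/
noncomputable def nW (y w : W) : End F (U ⊗[F] W) := rA U ((C₂.B y).smulRight w)

theorem nW_apply (y w : W) (x : U ⊗[F] W) : nW U C₂ y w x = cB U C₂ y x ⊗ₜ w := rA_rk _ _ _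

theorem nW_mul (a b y w : W) : nW U C₂ a b * nW U C₂ y w = C₂.B a w • nW U C₂ y b := rk_mul ..

theorem nW_mul' (a b y w : W) (B : End F (U ⊗[F] W)) :
    nW U C₂ a b * (nW U C₂ y w * B) = C₂.B a w • (nW U C₂ y b * B) := rk_mul' ..

theorem nW_comm (h : ∀ E, Commute S (rA U E)) (y w : W) (B : End F (U ⊗[F] W)) :
    nW U C₂ y w * (S * B) = S * (nW U C₂ y w * B) := comm_mul' h _ _

theorem nW_smul (a b : F) (y w : W) : nW U C₂ (a • y) (b • w) = (b * T₂.σ a) • nW U C₂ y w :=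
  LinearMap.ext fun x => by simp [nW_apply, cB_smul, mul_smul, smul_tmul']

variable (C₂ X) in
/-- The coefficients of the central elements of the unipotent radicals. -/
def zJ : AddSubgroup (End F (U ⊗[F] W)) where
  carrier := {S | (∀ E, Commute S (rA U E)) ∧ ∀ w, C₂.N w = 0 → Sq X (S * nW U C₂ w w)}
  zero_mem' := ⟨fun _ => Commute.zero_left _, fun _ _ => by simpa using sq_zero⟩
  add_mem' a b := ⟨fun E => (a.1 E).add_left (b.1 E), fun w hw => by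
    rw [add_mul]
    exact (a.2 w hw).add (b.2 w hw) (by
      simp [mul_assoc, nW_comm b.1, nW_mul, C₂.B_self_of_zero hw])⟩
  neg_mem' a := ⟨fun E => (a.1 E).neg_left, fun w hw => by
    rw [eneg_mul]
    exact (a.2 w hw).neg (by simp [mul_assoc, nW_comm a.1, nW_mul, C₂.B_self_of_zero hw])⟩

theorem zJ_smul (h : S ∈ zJ C₂ X) (a : F) : (a * T₂.σ a) • S ∈ zJ C₂ X :=
  ⟨fun E => (h.1 E).smul_left _, fun w hw => by
    simpa [nW_smul] using h.2 _ (C₂.N_smul_of_zero hw a)⟩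

theorem zJ_conj (h : S ∈ zJ C₂ X) (hk : k ∈ X) (e : ∀ E, cj k (rA U E) = rA U E) :
    cj k S ∈ zJ C₂ X :=
  ⟨fun E => e E ▸ Commute.cj (h.1 E) k, fun w hw => by
    simpa only [cj_mul', nW, e] using (h.2 w hw).conj hk⟩

theorem levi (h : S ∈ zJ C₂ X) (h1 : c • (1 : End F _) ∈ zJ C₂ X) (hS : S * S = 0)
    (hc : c * T₂.ε + T₂.σ c = 0) (e : IsHypPair C₂ w w') :
    Sq X (c • (S * (nW U C₂ w' w - T₂.ε • nW U C₂ w w'))) := by
  have := ((h.2 w e.left).conj_sq (h1.2 w' e.right) (by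
    simp [mul_assoc, nW_comm h.1, nW_mul, e.B_ee])).mul
    ((neg_mem (add_mem h1 (neg_mem (zJ_smul h c)))).2 w' e.right)
  have h3 : ∀ B, S * (S * B) = 0 := fun B => by rw [← mul_assoc, hS, zero_mul]
  convert this using 1
  simp only [eq_neg_of_add_eq_zero_right hc, mul_add, add_mul, mul_sub, sub_mul, emul_neg, eneg_mul,
    mul_smul_comm, smul_mul_assoc, mul_assoc, nW_comm h.1, nW_mul, nW_mul', e.B_ee, e.B_ff, e.B_fe,
    e.pair, h3, one_mul, mul_one, zero_smul, smul_zero, mul_zero, neg_add, zero_mul]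
  module

variable (C₂ X Y) in
/-- The elements of `Y` in the unipotent radicals lie in `X`. -/
def QF : Prop := ∀ w, C₂.N w = 0 → w ≠ 0 → ∀ g ∈ Y, (∀ u, g (u ⊗ₜ w) = u ⊗ₜ w) →
  (∀ x, cB U C₂ w x = 0 → g x - x ∈ tl U (F ∙ w)) → g ∈ X

variable [FiniteDimensional F U] [FiniteDimensional F W]

theorem exists_qw' (hw0 : w ≠ 0) (e0 : ∀ u, t (u ⊗ₜ w) = u ⊗ₜ w)
    (e : ∀ x, cB U C₂ w x = 0 → t x - x ∈ tl U (F ∙ w)) : ∃ Φ : U ⊗[F] W →ₗ[F] U,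
      (∀ u, Φ (u ⊗ₜ w) = 0) ∧ ∀ x, cB U C₂ w x = 0 → t x = x + Φ x ⊗ₜ w := by
  obtain ⟨φ, hφ⟩ := exists_dual_one (F := F) hw0
  refine ⟨cR U φ ∘ₗ (t.toLinearMap - 1), fun u => by simp [e0], fun x hx => ?_⟩
  obtain ⟨s, hs⟩ := mem_tl_singleton.1 (e x hx)
  have : cR U φ (t x - x) = s := by simp [hs, hφ]
  exact (by rw [this, ← hs, add_sub_cancel] : t x = x + cR U φ (t x - x) ⊗ₜ w)

theorem qw_of_top (hw : C₂.N w = 0) (hw0 : w ≠ 0) (hn : C₂.Nondeg) (h : ∀ A, A ∈ qI C₂ X hw)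
    (h0 : ∀ u, Φ (u ⊗ₜ w) = 0) : QW C₂ X w Φ := by
  obtain ⟨φ, hφ⟩ := exists_dual_one (F := F) hw0
  let Z : AddSubgroup (End F W) :=
    { carrier := {D | D w = 0 ∧ QW C₂ X w (Φ ∘ₗ rA U D)}
      zero_mem' := ⟨rfl, by simpa using qw_zero⟩
      add_mem' := fun a b => ⟨by simp [a.1, b.1], by
        simpa [LinearMap.comp_add] using a.2.add b.2 (C₂.B_self_of_zero hw) (by simp [a.1])⟩
      neg_mem' := fun a => ⟨by simp [a.1], by
        simpa using a.2.neg (C₂.B_self_of_zero hw) (by simp [a.1])⟩ }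
  have : 1 - φ.smulRight w ∈ Z := by
    rw [← sum_rk (finBasis F W) (1 - φ.smulRight w)]
    refine sum_mem fun r _ => ⟨by simp [hφ], ?_⟩
    obtain ⟨y, hy⟩ := hn.exists_rep ((finBasis F W).coord r ∘ₗ (1 - φ.smulRight w))
    rw [← LinearMap.ext hy]
    exact (h (Φ ∘ₗ (TensorProduct.mk F U W).flip _) y (C₂.B_swap_zero (by simp [hy, hφ]))).congr
      fun x _ => (congrArg Φ (rA_rk _ _ x)).symm
  exact this.2.congr fun x _ => by simp [rA_rk, h0]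

namespace TF

variable (h : TF C C₁ C₂)
include h

theorem of_cen (ht : t ∈ C.isom) (hw : C₂.N w = 0) (hw0 : w ≠ 0) (e : ∀ x, cB U C₂ w x = 0 → t x = x) :
    ∃ A : End F U, (∀ u u', C₁.B (A u) u' + T₂.ε * C₁.B u (A u') = 0) ∧
      ∀ x, t x = x + A (cB U C₂ w x) ⊗ₜ w := by
  have c2 := h.nd.mem_cen_of_fix (L := tl U (F ∙ w)) ht fun x hx => e x (h.mem_perp_point.1 hx)
  obtain ⟨r, hr⟩ := h.nd₂.exists_eq hw0 1
  obtain ⟨φ, hφ⟩ := exists_dual_one (F := F) hw0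
  obtain ⟨A, hA⟩ : ∃ A : End F U, ∀ v, t (v ⊗ₜ r) = v ⊗ₜ r + A v ⊗ₜ w :=
    ⟨cR U φ ∘ₗ (t.toLinearMap - 1) ∘ₗ (TensorProduct.mk F U W).flip r, fun v => by
      obtain ⟨s, hs⟩ := mem_tl_singleton.1 (c2 (v ⊗ₜ r))
      have : cR U φ (t (v ⊗ₜ r) - v ⊗ₜ r) = s := by simp [hs, hφ]
      exact (by rw [this, ← hs, add_sub_cancel] :
        t (v ⊗ₜ r) = v ⊗ₜ r + cR U φ (t (v ⊗ₜ r) - v ⊗ₜ r) ⊗ₜ w)⟩
  have h1 : ∀ x, t x = x + A (cB U C₂ w x) ⊗ₜ w := fun x => by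
    rw [← sub_add_cancel x (cB U C₂ w x ⊗ₜ r), map_add, e _ (by simp [hr]), hA]
    simp [hr]; abel
  refine ⟨A, fun u u' => ?_, h1⟩
  have := CForm.isom_B ht (u ⊗ₜ r) (u' ⊗ₜ r)
  simp [hA, hr, h.hB, C₂.B_self_of_zero hw, C₂.symm w r] at this
  linear_combination this

omit [FiniteDimensional F W] in
theorem comm_q (hX : X ≤ C.isom) (hw : C₂.N w = 0) (a1 : C₂.B w y = 0) (a2 : C₂.B w y' = 0)
    (hA : QW C₂ X w (A ∘ₗ cB U C₂ y)) (hD : QW C₂ X w (D ∘ₗ cB U C₂ y')) :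
    Sq X ((T₂.σ (C₂.B y' y) • (A * h.nd₁.adj D) - T₂.σ (C₂.B y y') • (D * h.nd₁.adj A)).rTensor W *
      nW U C₂ w w) := by
  have b0 := C₂.B_self_of_zero hw
  obtain ⟨q, b1, b2⟩ := hA
  obtain ⟨q', b3, b4⟩ := hD
  have c1 := fun x => QW.inv_apply b2 b0 (by simp [C₂.B_swap_zero a1]) (x := x)
  have c2 := fun x => QW.inv_apply b4 b0 (by simp [C₂.B_swap_zero a2]) (x := x)
  have key : ∀ {q A y}, q ∈ X → (∀ x, cB U C₂ w x = 0 → q x = x + (A ∘ₗ cB U C₂ y) x ⊗ₜ w) →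
      ∀ {t}, C₂.B w t = 0 → ∀ x, cB U C₂ t (q⁻¹ x) =
        cB U C₂ t x + T₂.σ (C₂.B y t) • h.nd₁.adj A (cB U C₂ w x) := fun hq e t ht x =>
    h.nd₁.ext' fun u => by
      rw [← h.B_tmul, ← CForm.isom_B (hX hq), apply_inv_apply, e _ (by simp [ht])]
      simp [h.B_tmul, h.nd₁.B_adj', h.σ₁, h.σ₂]
  have c3 := @key _ _ _ b1 b2
  have c4 := @key _ _ _ b3 b4
  refine ⟨q' * q * q'⁻¹ * q⁻¹, mul_mem (mul_mem (mul_mem b3 b1) (inv_mem b3)) (inv_mem b1),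
    fun x => ?_⟩
  have d1 := c1 (x := q'⁻¹ x - x) (by rw [map_sub, c4 b0]; simp [C₂.B_swap_zero a2])
  have d2 := c2 (x := q⁻¹ x - x) (by rw [map_sub, c3 b0]; simp [C₂.B_swap_zero a1])
  simp only [map_sub, LinearMap.neg_apply, LinearMap.comp_apply, c4 a1, c3 a2,
    add_sub_cancel_left] at d1 d2
  generalize hS : T₂.σ (C₂.B y' y) • (A * h.nd₁.adj D) - T₂.σ (C₂.B y y') • (D * h.nd₁.adj A) = S
  have d3 : q'⁻¹ (q⁻¹ x) = q⁻¹ (q'⁻¹ x) + S (cB U C₂ w x) ⊗ₜ w := by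
    simp only [← hS, sub_tmul, neg_tmul, LinearMap.sub_apply, map_smul, LinearMap.smul_apply,
      End.mul_apply, map_add, add_tmul] at d1 d2 ⊢
    linear_combination (norm := module) d2 - d1
  simp only [LinearEquiv.mul_apply, d3, map_add, apply_inv_apply]
  rw [b2 _ (by simp [b0]), map_add, b4 _ (by simp [b0]), b4 _ (by simp [b0])]
  simp [C₂.B_swap_zero a1, C₂.B_swap_zero a2, nW_apply]

theorem fin (hG : RootG C G) (hX : X ≤ G) (hU : 3 ≤ finrank F U) (hw : ∃ w, w ≠ 0 ∧ C₂.N w = 0)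
    (hQ : QF C₂ X G) : G ≤ X := by
  have h0 : ∀ w u y a, C₂.N w = 0 → w ≠ 0 → cB U C₂ w y = 0 → Rq C G (u ⊗ₜ w) y a →
      Rq C X (u ⊗ₜ w) y a := fun w u y a a1 a2 a3 ⟨g, b1, b2⟩ =>
    ⟨g, hQ w a1 a2 g b1 (fun v => by simp [b2, h.B_tmul, a3, C₂.B_self_of_zero a1]) fun x hx => by
      rw [b2, h.B_tmul, hx, map_zero, zero_smul, add_zero, sub_sub_cancel_left]
      exact neg_mem (smul_mem _ _ (tmul_mem_tl u (mem_span_singleton_self w))), b2⟩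
  have ex : ∀ u u' : U, ∃ v, C₁.B u v = 0 ∧ v ∉ F ∙ u' := fun u u' =>
    let ⟨v, a, b⟩ := exists_mem_not_mem_of_finrank_lt (W := F ∙ u') (W' := C₁.perp (F ∙ u)) (by
      have := h.nd₁.finrank_add_finrank_perp (F ∙ u)
      have := finrank_span_singleton_le (F := F) u
      have := finrank_span_singleton_le (F := F) u'
      omega)
    ⟨v, C₁.mem_perp_singleton.1 a, b⟩
  have key : ∀ u w p, C₂.N w = 0 → C.B (u ⊗ₜ w) p = 1 → Q1 C G X (u ⊗ₜ w) := fun u w p hw hp => by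
    have hw0 : w ≠ 0 := by rintro rfl; simp at hp
    have hu : u ≠ 0 := by rintro rfl; simp at hp
    have hN := h.N_tmul u hw
    have b0 := C₂.B_self_of_zero hw
    obtain ⟨w', e⟩ := exists_hypPair h.nd₂ hw0 hw
    refine q1_of_rho hG.le hX hN hp (fun y hy => ?_) fun a => h0 w u 0 a hw hw0 (map_zero _)
    refine (mem_rqS (hv := hN)).1 ?_ |>.2
    rw [← sub_add_cancel y (cB U C₂ w y ⊗ₜ w')]
    rw [h.B_tmul] at hy
    refine add_mem ?_ ?_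
    · obtain ⟨v, -, a1⟩ := ex u u
      have a2 : cB U C₂ w (y - cB U C₂ w y ⊗ₜ w') = 0 := by simp [e.pair]
      obtain ⟨a3, a, a4⟩ := TSP.perp_add ⟨hN, h.N_tmul v hw, by simp [h.hB, b0], tmul_ne_zero hu hw0,
        fun c => by
          obtain ⟨c, hc⟩ := mem_span_singleton.1 c
          exact a1 (mem_span_singleton.2 ⟨c, tmul_left_inj hw0 hc⟩)⟩ h.nd (rqS G hN)
        (fun y a => ⟨a.hB, 0, hG.rho _ y a.hv a.hc a.hB⟩) (by rw [h.B_tmul, a2, map_zero])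
      exact ⟨a3, a, h0 w u _ a hw hw0 a2 a4⟩
    generalize cB U C₂ w y = u' at hy
    obtain ⟨v, a1, a2⟩ := ex u u'
    obtain ⟨v', a3, a4⟩ := h.nd₁.exists_perp_eq a2 (-(T.σ T₁.ε)⁻¹)
    obtain ⟨k, b1, b2⟩ := h0 w' u' (v ⊗ₜ w') 0 e.right (by rintro rfl; simpa using e.pair)
      (by simp [e.B_ff]) (hG.rho _ _ (h.N_tmul _ e.right) (h.N_tmul _ e.right) (by simp [h.hB, e.B_ff]))
    have b3 := (h0 w u (v' ⊗ₜ w) 0 hw hw0 (by simp [b0]) (hG.rho _ _ hN (h.N_tmul _ hw)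
      (by simp [h.hB, b0]))).comm b1 (hG.le (hX b1)) (by simp [b2, h.hB, a1, C₁.B_swap_zero hy])
      (C.B_self_of_zero hN) (by simp [h.hB, b0])
    rw [show k (v' ⊗ₜ w) - v' ⊗ₜ w = u' ⊗ₜ w' by
      simp [b2, h.hB, C₁.mem_perp_singleton.1 a3, C₁.symm v v', a4, e.pair, h.σ₁, T.σσ,
        T.σ_ne_zero T₁.ε_ne]] at b3
    exact ⟨by simp [h.hB, hy], _, b3⟩
  obtain ⟨w, a1, a2⟩ := hw
  obtain ⟨w', b⟩ := exists_hypPair h.nd₂ a1 a2
  obtain ⟨v, v', c0⟩ := h.ex_one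
  have c1 : C.B (v ⊗ₜ w) (v' ⊗ₜ w') = 1 := by simp [h.hB, c0, b.pair]
  obtain ⟨p, c2⟩ := h.nd.exists_eq (x := v' ⊗ₜ w') (fun e => by simp [e] at c1) 1
  exact hG.fin X _ _ (h.N_tmul v a2) (h.N_tmul v' b.right) (by simp [c1]) (key _ _ _ a2 c1)
    (key _ _ _ b.right c2)

omit [FiniteDimensional F W] in
theorem exists_pt (hw0 : w ≠ 0) (hg : g ∈ C.isom) (hw : C₂.N w = 0) [FiniteDimensional F W]
    (e : ∀ u, g (u ⊗ₜ w) ∈ tl U (F ∙ w₁)) :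
    w₁ ≠ 0 ∧ C₂.N w₁ = 0 ∧ ∀ u, g⁻¹ (u ⊗ₜ w₁) ∈ tl U (F ∙ w) := by
  have h1 : ∀ u, g⁻¹ (u ⊗ₜ w₁) ∈ tl U (F ∙ w) := fun u =>
    inv_mem_of_finrank (fun x hx => by obtain ⟨u, rfl⟩ := mem_tl_singleton.1 hx; exact e u)
      (by rw [finrank_tl, finrank_tl, finrank_span_singleton hw0]
          exact Nat.mul_le_mul_left _ (finrank_span_singleton_le _))
      (tmul_mem_tl u (mem_span_singleton_self _))
  refine ⟨?_, h.sing _ (h.B_eq_zero (h.ts_tl (h.point_ts hw)) (inv_mem hg) h1 h1), h1⟩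
  rintro rfl
  obtain ⟨u, hu⟩ := h.ex
  obtain ⟨v, hv⟩ := mem_tl_singleton.1 (e u)
  exact tmul_ne_zero hu hw0 (by simpa using hv)

theorem cB_stab (hg : g ∈ C.isom) (e : ∀ u, g (u ⊗ₜ w) ∈ tl U (F ∙ w)) {x : U ⊗[F] W}
    (hx : cB U C₂ w x = 0) : cB U C₂ w (g⁻¹ x) = 0 :=
  h.nd₁.eq_zero' fun u => by
    rw [← h.B_tmul, ← CForm.isom_B hg, apply_inv_apply]
    exact C.mem_perp.1 (h.mem_perp_point.2 hx) _ (e u)

end TF

theorem mem_zJ (h : TZ C C₁ C₂ X R) (hw : C₂.N w = 0) (hw0 : w ≠ 0) (h1 : ∀ E, Commute S (rA U E))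
    (h2 : Sq X (S * nW U C₂ w w)) : S ∈ zJ C₂ X := ⟨h1, fun y hy => by
  by_cases h0 : y = 0
  · simpa [h0, nW] using sq_zero
  obtain ⟨β, a, rfl⟩ := h.fw.trans w y hw hw0 hy h0
  have := h2.conj (h.hX β a)
  rwa [cj_mul', ← rU_rA, nW, cj_rU, h.fw.cj_rk a,
    cj_of_comm (g := rU (rA U) β) (h1 β).symm] at this⟩

namespace TZ

variable (h : TZ C C₁ C₂ X R)
include h

theorem one_zJ (hc : c * T₂.ε + T₂.σ c = 0) : c • (1 : End F _) ∈ zJ C₂ X :=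
  ⟨fun _ => (Commute.one_left _).smul_left c, fun w hw =>
    let ⟨β, a, b⟩ := h.fw.tv' hw hc
    ⟨_, h.hX β a, fun x => (congr_one_tr b x).trans (by
      simp [nW_apply, cB, ← smul_tmul', map_smulRight])⟩⟩

theorem qf_of_top (hq : ∀ w (hw : C₂.N w = 0), w ≠ 0 → ∀ A, A ∈ qI C₂ X hw)
    (hz : ∀ A : End F U, (∀ u u', C₁.B (A u) u' + T₂.ε * C₁.B u (A u') = 0) →
      A.rTensor W ∈ zJ C₂ X) : QF C₂ X C.isom := fun w a1 a2 g hg e0 e => by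
  obtain ⟨Φ, b1, b2⟩ := exists_qw' a2 e0 e
  obtain ⟨q, b3, b4⟩ := qw_of_top a1 a2 h.nd₂ (hq w a1 a2) b1
  obtain ⟨A, c1, c2⟩ := h.of_cen (mul_mem (inv_mem (h.le b3)) hg) a1 a2 fun x hx => q.injective (by
    rw [LinearEquiv.mul_apply, apply_inv_apply, b2 x hx, b4 x hx])
  obtain ⟨t, c3, c4⟩ := (hz A c1).2 w a1
  rw [← mul_inv_cancel_left q g, show q⁻¹ * g = t from LinearEquiv.ext fun x => by
    simp [c2, c4, nW_apply]]
  exact mul_mem b3 c3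

omit h in
theorem mem_range_of_scalar (hw : C₂.N w = 0) (e : ∀ x, t x = x + (c • cB U C₂ w x) ⊗ₜ w) :
    t ∈ (rH F U W).range :=
  ⟨LinearEquiv.transvection (f := c • C₂.B w) (v := w) (by simp [C₂.B_self_of_zero hw]),
    LinearEquiv.toLinearMap_injective (TensorProduct.ext' fun u y => by
      simp [e, rH_tmul, LinearMap.transvection.apply, tmul_add, smul_tmul, mul_smul])⟩

variable (hQ : QF C₂ (rH F U W).range X) (hT : ∀ w w', IsHypPair C₂ w w' → ∃ β ∈ R, ∃ a b c : F,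
  c ≠ a ∧ c ≠ b ∧ β w = a • w ∧ β w' = c • w' ∧ ∀ z, C₂.B w z = 0 → C₂.B w' z = 0 → β z = b • z)
include hQ hT

theorem pt_step (e : IsHypPair C₂ w w') (hg : g ∈ X) (h1 : ∀ u, g (u ⊗ₜ w) ∈ tl U (F ∙ w₁)) :
    ∃ D, cj g (nW U C₂ w w') = rA U D := by
  have hw0 : w ≠ 0 := by rintro rfl; simpa using e.pair
  obtain ⟨a1, a2, -⟩ := h.exists_pt hw0 (h.le hg) e.left h1
  obtain ⟨β₀, a3, rfl⟩ := h.fw.trans w w₁ e.left hw0 a2 a1
  suffices ∀ g ∈ X, (∀ u, g (u ⊗ₜ w) ∈ tl U (F ∙ w)) → ∃ D, cj g (nW U C₂ w w') = rA U D by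
    obtain ⟨D, hD⟩ := this _ (mul_mem (inv_mem (h.hX _ a3)) hg) fun u => by
      obtain ⟨v, hv⟩ := mem_tl_singleton.1 (h1 u)
      rw [LinearEquiv.mul_apply, hv, ← rH_tmul, inv_apply_apply]
      exact tmul_mem_tl _ (mem_span_singleton_self w)
    exact ⟨_, by rw [← mul_inv_cancel_left (rH F U W β₀) g, cj_cj, hD, ← rU_rA, cj_rU]⟩
  intro g hg h1
  obtain ⟨-, -, h2⟩ := h.exists_pt hw0 (h.le hg) e.left h1
  obtain ⟨β, b1, a, b, c, b2, b3, b4, b5, b6⟩ := hT w w' e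
  have c1 : ∀ z, C₂.B w z = 0 → ∃ d : F, β z = b • z + d • w := fun z hz => by
    have := b6 (z - (C₂.B w' z / T₂.ε) • w) (by simp [hz, e.B_ee]) (by simp [e.B_fe, T₂.ε_ne])
    rw [map_sub, map_smul, b4, sub_eq_iff_eq_add] at this
    exact ⟨_, by rw [this, smul_sub, smul_smul, smul_smul, sub_add, ← sub_smul, sub_eq_add_neg,
      ← neg_smul]⟩
  have c2 : ∀ x, cB U C₂ w x = 0 → rH F U W β x - b • x ∈ tl U (F ∙ w) := fun x hx =>
    tl_le (Y := C₂.perp (F ∙ w)) (Z := (tl U (F ∙ w)).comap ((rH F U W β).toLinearMap - b • 1))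
      (fun u z hz => by
        obtain ⟨d, hd⟩ := c1 z (C₂.mem_perp_singleton.1 hz)
        simpa [rH_tmul, hd, tmul_add] using smul_mem _ d (tmul_mem_tl u (mem_span_singleton_self w)))
      (by rwa [← h.perp_tl, h.mem_perp_point])
  have c3 : ∀ k : (U ⊗[F] W) ≃ₗ[F] (U ⊗[F] W), (∀ u, k (u ⊗ₜ w) ∈ tl U (F ∙ w)) →
      ∀ x ∈ tl U (F ∙ w), k x ∈ tl U (F ∙ w) := fun k hk x hx => by
    obtain ⟨u, rfl⟩ := mem_tl_singleton.1 hx; exact hk u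
  have c4 : ∀ x ∈ tl U (F ∙ w), rH F U W β x = a • x := fun x hx => by
    obtain ⟨u, rfl⟩ := mem_tl_singleton.1 hx; simp [rH_tmul, b4]
  have c5 := h.hX β b1
  obtain ⟨γ, hγ⟩ := mul_mem (MonoidHom.mem_range.2 ⟨β, rfl⟩) (hQ w e.left hw0 _
    (mul_mem (inv_mem c5) (mul_mem (mul_mem hg c5) (inv_mem hg))) (fun u => (rH F U W β).injective (by
      simp only [LinearEquiv.mul_apply, apply_inv_apply, c4 _ (h2 u), map_smul]
      simp [rH_tmul, b4])) fun x hx => by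
    have := c3 _ (h.exists_pt hw0 (h.le c5) e.left fun u => by
      simpa [rH_tmul, b4] using smul_mem _ a (tmul_mem_tl u (mem_span_singleton_self w))).2.2 _
      (sub_mem (c3 g h1 _ (c2 _ (h.cB_stab (h.le hg) h1 hx))) (c2 x hx))
    simpa [apply_inv_apply, inv_apply_apply] using this)
  rw [mul_inv_cancel_left] at hγ
  have c6 : cj g (rA U β) = rA U γ := congrArg LinearEquiv.toLinearMap hγ.symm
  have c7 : ((β : End F W) - a • 1) * (β - b • 1) = ((c - a) * (c - b)) • (C₂.B w).smulRight w' :=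
    LinearMap.ext fun z => by
      obtain ⟨d, hd⟩ := c1 (z - C₂.B w z • w') (by simp [e.pair])
      rw [map_sub, map_smul, b5, sub_eq_iff_eq_add] at hd
      simp [hd, b4, b5]; module
  refine ⟨((c - a) * (c - b))⁻¹ • ((γ - a • 1) * (γ - b • 1)), ?_⟩
  rw [map_smul, eq_inv_smul_iff₀ (mul_ne_zero (sub_ne_zero.2 b2) (sub_ne_zero.2 b3)), map_mul,
    map_sub, map_sub, ← c6]
  refine LinearMap.ext fun x => ?_
  have := congrArg g (LinearMap.congr_fun (congrArg (rA U) c7) (g⁻¹ x))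
  simpa [nW, apply_inv_apply, inv_apply_apply] using this.symm

theorem pt (hw : C₂.N w = 0) (hw0 : w ≠ 0) (hg : g ∈ X) (h1 : ∀ u, g (u ⊗ₜ w) ∈ tl U (F ∙ w₁)) :
    g ∈ tenStab F U W := by
  have key : ∀ w y, C₂.N w = 0 → C₂.N y = 0 → C₂.B w y ≠ 0 →
      (∃ w₁, ∀ u, g (u ⊗ₜ w) ∈ tl U (F ∙ w₁)) →
      (∃ D, cj g (nW U C₂ w y) = rA U D) ∧ ∃ w₁, ∀ u, g (u ⊗ₜ y) ∈ tl U (F ∙ w₁) :=
    fun w y a1 a2 a3 ⟨w₁, a4⟩ => by
      obtain ⟨D, hD⟩ := h.pt_step hQ hT (w' := (C₂.B w y)⁻¹ • y)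
        ⟨a1, C₂.N_smul_of_zero a2 _, by simp [a3]⟩ hg a4
      have b1 : cj g (nW U C₂ w y) = rA U (C₂.B w y • D) := by
        rw [map_smul, ← hD]; ext; simp [nW_apply, a3]
      refine ⟨⟨_, b1⟩, ?_⟩
      generalize C₂.B w y • D = D at b1
      have b2 := finrank_mono (tl_le (Y := LinearMap.range D) (Z := pM g y) (by
        rintro u _ ⟨z, rfl⟩
        rw [← rA_tmul, ← b1, cj_apply, nW_apply]
        exact ⟨_, tmul_mem_tl _ (mem_span_singleton_self y), rfl⟩))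
      rw [finrank_tl, finrank_pt (by rintro rfl; simp at a3)] at b2
      obtain ⟨z, hz⟩ := finrank_le_one_iff.1 (Nat.le_of_mul_le_mul_left (b2.trans_eq
        (mul_one _).symm) h.pos)
      refine ⟨z, fun u => mem_tl.2 fun ψ => ?_⟩
      have b3 := LinearMap.congr_fun b1 (g (((C₂.B w y)⁻¹ • u) ⊗ₜ y))
      rw [cj_apply, inv_apply_apply, nW_apply, cB_tmul, smul_inv_smul₀ a3] at b3
      rw [b3]
      generalize g _ = x
      induction x with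
      | zero => simp
      | tmul v p =>
        obtain ⟨c, hc⟩ := hz ⟨_, p, rfl⟩
        simpa using smul_mem _ _ (mem_span_singleton.2 ⟨c, congrArg Subtype.val hc⟩)
      | add x y a b => rw [map_add, map_add]; exact add_mem a b
  have k2 : ∀ y, C₂.N y = 0 → y ≠ 0 → ∃ w₁, ∀ u, g (u ⊗ₜ y) ∈ tl U (F ∙ w₁) := fun y a b =>
    let ⟨z, c1, c2, c3⟩ := h.fw.two hw0 b
    (key z y c1 a (C₂.B_swap_ne c3) (key w z hw c1 c2 ⟨_, h1⟩).2).2
  have := nontrivial_of_ne w 0 hw0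
  have : Nontrivial U := nontrivial_of_finrank_pos h.pos
  refine mem_tenStab_of_norm fun D => ?_
  obtain ⟨E, e⟩ := h.fw.gen (((rA U).range.comap (g.conjAlgEquiv F).toAlgHom).comap (rA U)) (by
    rintro _ ⟨y, a1, a2, rfl⟩
    obtain ⟨b, b1, b2⟩ := h.fw.one a2
    obtain ⟨a, b3, b4, b5⟩ := h.fw.two a2 (show b ≠ 0 by rintro rfl; simp at b2)
    obtain ⟨D, d1⟩ := (key a y b3 a1 (C₂.B_swap_ne b4) (k2 a b3 (by rintro rfl; simp at b4))).1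
    obtain ⟨E, d2⟩ := (key y b a1 b1 b2 (k2 y a1 a2)).1
    refine ⟨(C₂.B a b)⁻¹ • (D * E), ?_⟩
    change rA U _ = cj g (nW U C₂ y y)
    rw [map_smul, map_mul, ← d1, ← d2, ← cj_mul', nW_mul, inv_smul_eq_iff₀ (C₂.B_swap_ne b5)]
    ext; simp) D
  exact ⟨E, e.symm⟩

end TZ

end H12
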