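import Cfsg.Agent.H12.WR11

/-!
# Tensor powers of unitary spaces
-/

set_option autoImplicit false
set_option maxHeartbeats 400000

namespace H12

open Module H11 Submodule TensorProduct H13.KL

variable {F : Type*} [Field F] {U W : Type*} [AddCommGroup U] [Module F U] [AddCommGroup W]
  [Module F W] {T T₁ T₂ : FormType F}
  {X H G : Subgroup ((U ⊗[F] W) ≃ₗ[F] (U ⊗[F] W))} {R : Subgroup (W ≃ₗ[F] W)}
  {ι : Type*} [DecidableEq ι] {j₀ : ι} {t : (U ⊗[F] W) ≃ₗ[F] (U ⊗[F] W)} {w w' y : W}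
  {A : End F U} {l : F} [FiniteDimensional F U] [FiniteDimensional F W]

section Gen

variable {C : CForm T (U ⊗[F] W)} {C₁ : CForm T₁ U} {C₂ : CForm T₂ W}
  {ρ : ι → End F W →ₐ[F] End F (U ⊗[F] W)} {S : End F (U ⊗[F] W)}

variable (C₂) in
/-- Endomorphisms moving each singular vector to an orthogonal one are scalar. -/
def HP : Prop := ∀ D : End F W, (∀ v, C₂.N v = 0 → C₂.B v (D v) = 0) → ∀ w, D w ∈ F ∙ w

omit [FiniteDimensional F U] in
theorem HP.ex {V : Type*} [AddCommGroup V] [Module F V] {τ : End F W →ₐ[F] End F V} {A : End F V}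
    (h : HP C₂) (hn : ¬ ∀ E, Commute A (τ E)) : ∃ v, C₂.N v = 0 ∧ v ≠ 0 ∧ cp τ A v (C₂.B v) ≠ 0 := by
  by_contra hc
  push Not at hc
  exact hn (comm_of_cp (P := fun v φ => C₂.N v = 0 ∧ φ = C₂.B v) (fun D hD =>
    h D fun v hv => hD v _ ⟨hv, rfl⟩) (by
      rintro v _ ⟨a, rfl⟩
      exact (eq_or_ne v 0).elim (by rintro rfl; simp) (hc v a)))

omit [FiniteDimensional F U] [DecidableEq ι] in
theorem FW.nan {V : Type*} [AddCommGroup V] [Module F V] {ρ : ι → End F W →ₐ[F] End F V}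
    {J : Submodule F (End F V)} {A : End F V} (h : FW C₂ R) (hl : T₂.σ l = l) (l0 : l ≠ 0)
    (l1 : l ≠ 1) (hJ : Inv ρ R J) (j : ι) (hw : C₂.N w = 0) (hA : A ∈ J) :
    cp (ρ j) A w (C₂.B w) ∈ Jd (ρ j) ((C₂.B w).smulRight w) J := by
  obtain ⟨c, c1, c2⟩ := h.ex₀
  have := sub_mem ((smul_mem_iff _ c1).1 (h.delta hJ j hw c2 hA)) ((smul_mem_iff _
    (mul_ne_zero l0 c1)).1 (h.delta hJ j hw (by rw [map_mul, hl]; linear_combination l * c2) hA))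
  refine ⟨cp_comm _ _, (smul_mem_iff _ (mul_ne_zero (sub_ne_zero.2 l1) c1)).1 ?_⟩
  rw [cp_mul]
  convert this using 1
  module

omit [FiniteDimensional F U] [DecidableEq ι] in
theorem FW.extr' {V : Type*} [AddCommGroup V] [Module F V] {ρ : ι → End F W →ₐ[F] End F V}
    (h : FW C₂ R) (hP : HP C₂) (hl : T₂.σ l = l) (l0 : l ≠ 0) (l1 : l ≠ 1) :
    Extr ρ R (NF C₂) := fun j _ hJ _ _ hA hn =>
  let ⟨v, a1, a2, a3⟩ := hP.ex hn
  ⟨_, ⟨v, a1, a2, rfl⟩, _, h.nan hl l0 l1 hJ j a1 hA, a3⟩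

theorem TWr.conj_zJ (h : TWr C C₁ C₂ H G R ρ j₀) (hX : H ⊓ G ≤ X) (hS : S ∈ zJ C₂ X) (j : ι)
    {β : W ≃ₗ[F] W} (hβ : β ∈ R) : cj (rU (ρ j) β) S ∈ zJ C₂ X := by
  by_cases e : j = j₀
  · rwa [cj_of_comm (g := rU (ρ j) β) (by rw [rU_coe, e, h.base]; exact (hS.1 _).symm)]
  · exact zJ_conj hS (hX ⟨h.toWrH.rU_mem j β, h.hR j β hβ⟩)
      fun E => cj_of_comm (h.base ▸ h.comm j j₀ e β E)

theorem TWr.exists_sq (h : TWr C C₁ C₂ H G R ρ j₀) (hX : H ⊓ G ≤ X) (hP : HP C₂) {b : F}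
    (hl : l = b * T₂.σ b) (l0 : l ≠ 0) (l1 : l ≠ 1) (hS : S ∈ zJ C₂ X) (hn : ¬ ∃ c : F, S = c • 1) :
    ∃ S ∈ zJ C₂ X, S ≠ 0 ∧ S * S = 0 := by
  obtain ⟨j, hj⟩ := not_forall.1 (mt h.scalar hn)
  obtain ⟨v, a1, a2, a3⟩ := hP.ex hj
  obtain ⟨c, c1, c2⟩ := h.fw.ex₀
  have h0 : ρ j ((C₂.B v).smulRight v) * ρ j ((C₂.B v).smulRight v) = 0 := by
    simp [rk_mul, C₂.B_self_of_zero a1]
  have key : ∀ c, c * T₂.ε + T₂.σ c = 0 → (1 + c • ρ j ((C₂.B v).smulRight v)) * S *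
      (1 - c • ρ j ((C₂.B v).smulRight v)) - S ∈ zJ C₂ X := fun c hc => by
    obtain ⟨β, b1, b2⟩ := h.fw.tv' a1 hc
    rw [← cj_tr (α := rU (ρ j) β) (fun x => by
      rw [← LinearEquiv.coe_coe, rU_coe, show (β : End F W) = 1 + c • (C₂.B v).smulRight v from
        LinearMap.ext fun x => by simp [b2, mul_smul]]; simp) (by rw [smul_mul_smul_comm, h0, smul_zero])]
    exact sub_mem (h.conj_zJ hX hS j b1) hS
  have := sub_mem (zJ_smul (key c c2) b) (key (l * c) (by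
    rw [map_mul, show T₂.σ l = l by rw [hl, map_mul, T₂.σσ, mul_comm]]; linear_combination l * c2))
  refine ⟨(l * (l - 1) * (c * c)) • (ρ j ((C₂.B v).smulRight v) * S * ρ j ((C₂.B v).smulRight v)),
    ?_, smul_ne_zero (by simp [l0, c1, sub_ne_zero.2 l1]) fun e => a3 (eq_zero_of_mul_eq
      (cp_comm _ _) (fun e => a2 ?_) ((cp_mul ..).trans e)), by
      simp [mul_assoc, rk_mul', C₂.B_self_of_zero a1]⟩
  · convert this using 1
    simp only [← hl, mul_sub, add_mul, smul_mul_assoc, mul_smul_comm, one_mul, mul_one]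
    module
  · obtain ⟨r, hr⟩ := h.nd₂.exists_eq a2 1
    simpa [hr] using LinearMap.congr_fun e r

omit [FiniteDimensional F U] [FiniteDimensional F W] in
theorem conj_qI' (hw : C₂.N w = 0) (hA : A ∈ qI C₂ X hw) {α : U ≃ₗ[F] U} (hk : lH F U W α ∈ X) :
    cj α A ∈ qI C₂ X hw := fun y hy => by
  obtain ⟨q, h1, h2⟩ := hA y hy
  have e : ∀ y x, cB U C₂ y (lH F U W α x) = α (cB U C₂ y x) := cB_congr (β := 1) (one_mem _)
  refine ⟨_ * q * _⁻¹, mul_mem (mul_mem hk h1) (inv_mem hk), fun x hx => ?_⟩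
  obtain ⟨x, rfl⟩ := (lH F U W α).surjective x
  rw [e, EmbeddingLike.map_eq_zero_iff] at hx
  rw [LinearEquiv.mul_apply, LinearEquiv.mul_apply, inv_apply_apply, h2 x hx]
  simp [e, inv_apply_apply, lH_tmul]

omit [FiniteDimensional F U] [FiniteDimensional F W] in
theorem TZ.one_qI (h : TZ C C₁ C₂ X R) (hw : C₂.N w = 0)
    (hρ : ∀ y, C₂.B w y = 0 → ∃ a, Rq C₂ R w y a) : 1 ∈ qI C₂ X hw := by
  refine (smul_mem_iff _ (neg_ne_zero.2 h.η_ne)).1 fun y hy => ?_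
  obtain ⟨a, β, h1, h2⟩ := hρ y hy
  exact ⟨_, h.hX β h1, fun x hx => by simp [rH_rho h2, hx, sub_eq_add_neg, neg_tmul]⟩

theorem TWr.top_of_mul [Finite ι] (h : TWr C C₁ C₂ H G R ρ j₀) (hX : H ⊓ G ≤ X)
    (hE : Extr ρ R (NF C₂)) (hw : C₂.N w = 0) (h1 : 1 ∈ qI C₂ X hw)
    (hA : (∀ D ∈ qI C₂ X hw, A * D ∈ qI C₂ X hw) ∨ ∀ D ∈ qI C₂ X hw, D * A ∈ qI C₂ X hw)
    (hn : ¬ ∃ c : F, ∀ u, A u = c • u) (D : End F U) : D ∈ qI C₂ X hw := by
  have h2 := fun α (hα : lH F U W α ∈ X) D hD =>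
    conj_qI' (A := D) hw hD (map_inv (lH F U W) α ▸ inv_mem hα)
  rcases hA with hA | hA
  · simpa using h.eq_top hX hE ((stabAlg (qI C₂ X hw)).comap (Algebra.lmul F _))
      (fun α hα B hB D hD => by
        simpa [cj_mul', cj_cj_inv] using conj_qI' hw (hB _ (h2 α hα D hD)) hα)
      (fun e => hn (e A hA)) D 1 h1
  · simpa using h.eq_top hX hE
      { carrier := {B | ∀ D ∈ qI C₂ X hw, D * B ∈ qI C₂ X hw}
        mul_mem' := fun a b D hD => mul_assoc D _ _ ▸ b _ (a D hD)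
        add_mem' := fun a b D hD => mul_add D _ _ ▸ add_mem (a D hD) (b D hD)
        algebraMap_mem' := fun c D hD => by
          simpa [Algebra.algebraMap_eq_smul_one] using smul_mem _ c hD }
      (fun α hα B hB D hD => by
        simpa [cj_mul', cj_cj_inv] using conj_qI' hw (hB _ (h2 α hα D hD)) hα)
      (fun e => hn (e A hA)) D 1 h1

theorem TZ.mul_of_sq (h : TZ C C₁ C₂ X R) (hA : A.rTensor W ∈ zJ C₂ X) (h0 : A * A = 0)
    (hw : C₂.N w = 0) (hw0 : w ≠ 0) : ∀ D ∈ qI C₂ X hw, A * D ∈ qI C₂ X hw := fun D hD => by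
  obtain ⟨w', e⟩ := exists_hypPair h.nd₂ hw0 hw
  obtain ⟨c, c1, c2⟩ := h.fw.ex₀
  obtain ⟨k, a1, a2⟩ := levi hA (h.one_zJ c2) (by rw [← LinearMap.rTensor_mul, h0]; simp) c2 e
  have a3 : ∀ u, k (u ⊗ₜ w) = (u + (c * T₂.ε) • A u) ⊗ₜ w := fun u => by
    simp [a2, nW_apply, e.B_fe, e.B_ee, add_tmul, mul_smul, smul_tmul']
  refine (smul_mem_iff _ (mul_ne_zero c1 T₂.ε_ne)).1 fun y hy => ?_
  obtain ⟨q, b1, b2⟩ := hD y hy
  refine (QW.sub (Φ := (D + (c * T₂.ε) • (A * D)) ∘ₗ cB U C₂ y) ⟨k * q * k⁻¹,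
    mul_mem (mul_mem a1 b1) (inv_mem a1), fun x hx => ?_⟩ (hD y hy) e.B_ee
      (by simp [C₂.B_swap_zero hy]) (by simp [C₂.B_swap_zero hy])).congr fun x _ => by simp
  have b3 := h.cB_stab (h.le a1) (fun u => a3 u ▸ tmul_mem_tl _ (mem_span_singleton_self w)) hx
  obtain ⟨x, rfl⟩ := k.surjective x
  rw [inv_apply_apply] at b3
  rw [LinearEquiv.mul_apply, LinearEquiv.mul_apply, inv_apply_apply, b2 x b3, map_add, a3]
  simp [a2, nW_apply, b3, C₂.B_swap_zero hy]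

theorem TZ.range_of_cen (h : TZ C C₁ C₂ X R) (hs : ∀ S ∈ zJ C₂ X, ∃ c : F, S = c • 1) (ht : t ∈ X)
    (hw : C₂.N w = 0) (hw0 : w ≠ 0) (e : ∀ x, cB U C₂ w x = 0 → t x = x) : t ∈ (rH F U W).range := by
  obtain ⟨A, -, a⟩ := h.of_cen (h.le ht) hw hw0 e
  obtain ⟨c, hc⟩ := hs _ (mem_zJ h hw hw0 (comm_rTensor A) ⟨t, ht, fun x => by simp [a, nW_apply]⟩)
  exact TZ.mem_range_of_scalar (c := c) hw fun x => by
    rw [a, ← LinearMap.rTensor_tmul, hc]; rfl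

end Gen

variable {σ : F →+* F} {hσ2 : ∀ a, σ (σ a) = a} {C : CForm (hermType σ hσ2) (U ⊗[F] W)}
  {C₁ : CForm (hermType σ hσ2) U} {C₂ : CForm (hermType σ hσ2) W}
  {ρ : ι → End F W →ₐ[F] End F (U ⊗[F] W)} (hσ : σ ≠ RingHom.id F)
include hσ

omit [FiniteDimensional F U] in
theorem FW.hp_herm (h : FW C₂ R) : HP C₂ := fun D hD => h.scalar fun v hv => by
  by_cases h0 : v = 0
  · simp [h0]
  obtain ⟨a, a1, a2⟩ := exists_trace_zero' (hσ2 := hσ2) hσ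
  have h1 : ∀ p, C₂.B v p = 1 → C₂.B v (D p) = C₂.B p (D v) := fun p hp => by
    obtain ⟨b, hb⟩ := exists_trace_eq hσ hσ2 (b := -C₂.N p) (by rw [map_neg, herm_σN])
    have : ∀ b, b + σ b = -C₂.N p → C₂.B p (D p) + b * C₂.B p (D v) + σ b * C₂.B v (D p) = 0 :=
      fun b hb => by
        have := hD (p + b • v) (by
          simp [herm_N_add, C₂.N_smul_of_zero hv, herm_symm v p, hp]; linear_combination hb)
        simp [hD v hv, hermσ'] at this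
        linear_combination this
    have h2 := this (b + a) (by rw [map_add]; linear_combination hb + a2)
    rw [map_add, eq_neg_of_add_eq_zero_right a2] at h2
    exact mul_left_cancel₀ a1 (by linear_combination this b hb - h2)
  obtain ⟨z, hz⟩ := h.nd.exists_eq h0 1
  have h2 : ∀ y, C₂.B v y = 0 → C₂.B v (D y) = C₂.B y (D v) := fun y hy => by
    simpa [h1 z hz] using h1 (z + y) (by simp [hz, hy])
  obtain ⟨θ, hθ⟩ := exists_ne_of_ne_id hσ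
  rw [← h.nd.perp_perp (F ∙ v)]
  refine C₂.mem_perp.2 fun y hy => ?_
  have h3 := h2 (θ • y) (by simp [C₂.mem_perp_singleton.1 hy])
  rw [map_smul, map_smul, h2 y (C₂.mem_perp_singleton.1 hy), herm_B_smul_left, smul_eq_mul] at h3
  exact (mul_eq_mul_right_iff.1 h3).resolve_left hθ.symm

omit [FiniteDimensional F U] in
theorem herm_mid (h : C₂.Nondeg) (hd : finrank F W = 3) (e : IsHypPair C₂ w w') :
    ∃ y, C₂.B w y = 0 ∧ C₂.B w' y = 0 ∧ C₂.N y ≠ 0 ∧ C₂.perp (F ∙ w) = span F {w, y} := by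
  obtain ⟨z, a1, a2⟩ := exists_perp_nonsingular hσ h hd.ge w
  have w0 : w ≠ 0 := by rintro rfl; simpa using e.pair
  have a3 : C₂.N (z - C₂.B w' z • w) ≠ 0 := by
    simpa [C₂.N_sub, C₂.N_smul_of_zero e.left, C₂.B_swap_zero a1]
  have a4 : C₂.B w (z - C₂.B w' z • w) = 0 := by simp [a1, e.B_ee]
  refine ⟨_, a4, by simp [e.B_fe, hermε'], a3, (eq_of_le_of_finrank_le (span_le.2 (by
    rintro _ (rfl | rfl)
    exacts [C₂.mem_perp_singleton.2 e.B_ee, C₂.mem_perp_singleton.2 a4])) ?_).symm⟩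
  generalize z - _ = y at a3
  have := h.finrank_add_finrank_perp (F ∙ w)
  have := finrank_lt_finrank_of_lt (SetLike.lt_iff_le_and_exists.2 ⟨span_mono (by simp), y,
    mem_pair_right w y, fun c => by
      obtain ⟨d, rfl⟩ := mem_span_singleton.1 c
      exact a3 (C₂.N_smul_of_zero e.left d)⟩ : F ∙ w < span F {w, y})
  rw [finrank_span_singleton w0] at *
  omega

omit [FiniteDimensional F U] in
theorem rq_herm (hw : C₂.N w = 0) (y : W) (hy : C₂.B w y = 0) :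
    ∃ a, Rq C₂ (C₂.isom ⊓ SLV F W) w y a :=
  let ⟨c, hc⟩ := exists_trace_eq hσ hσ2 (herm_σN (C := C₂) y)
  ⟨c, (rho C₂ hw hy hc).1, ⟨(rho C₂ hw hy hc).2, rho_mem_sisom hw hy hc⟩, fun x => by
    rw [rho_apply, herm_symm x y]; rfl⟩

theorem TZ.comm_herm (h : TZ C C₁ C₂ X (C₂.isom ⊓ SLV F W)) (hw : C₂.N w = 0) (hw0 : w ≠ 0)
    (a1 : C₂.B w y = 0) (a2 : C₂.N y ≠ 0) (hA : QW C₂ X w (A ∘ₗ cB U C₂ y)) (θ : F) :
    (θ • A - σ θ • h.nd₁.adj A).rTensor W ∈ zJ C₂ X := by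
  have a3 : C₂.B w ((θ / C₂.N y) • y) = 0 := by simp [a1]
  have h1 : h.nd₁.adj 1 = 1 := LinearMap.ext fun x => h.nd₁.ext fun y => by simp [h.nd₁.B_adj]
  have := h.comm_q h.le hw a1 a3 hA (h.one_qI hw (rq_herm hσ hw) _ a3)
  rw [h1, herm_symm, C₂.B_smul_right, herm_B_self, div_mul_cancel₀ _ a2, hermσ', hσ2, mul_one,
    one_mul] at this
  exact mem_zJ h hw hw0 (comm_rTensor _) this

theorem TWr.isMax_herm3 [Finite F] [Finite ι] (hN : ∀ a, σ a = a → ∃ b, b * σ b = a)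
    (h : TWr C C₁ C₂ H G (C₂.isom ⊓ SLV F W) ρ j₀) (hd : finrank F W = 3) (hl : σ l = l)
    (l0 : l ≠ 0) (l1 : l ≠ 1) : Cfsg.Geo.IsMaximalIn G (H ⊓ G) := h.isMax fun X a1 a2 hX => by
  obtain ⟨b, hb⟩ := hN l hl
  have := h.toWrH.nW
  by_cases hs : ∀ S ∈ zJ C₂ X, ∃ c : F, S = c • 1
  swap
  · push Not at hs
    obtain ⟨S, b1, b2⟩ := hs
    obtain ⟨S, b3, b4, b5⟩ := h.exists_sq a1 (h.fw.hp_herm hσ) hb.symm l0 l1 b1 (not_exists.2 b2)
    obtain ⟨A, rfl⟩ := exists_rTensor b3.1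
    have b6 : A * A = 0 := rTensor_inj (W := W) (by rw [LinearMap.rTensor_mul, b5]; simp)
    have b7 : ∀ w (hw : C₂.N w = 0), w ≠ 0 → ∀ D, D ∈ qI C₂ X hw := fun w c1 c2 =>
      h.top_of_mul a1 (h.fw.extr' (h.fw.hp_herm hσ) hl l0 l1) c1 (hX.one_qI c1 (rq_herm hσ c1))
        (.inl (hX.mul_of_sq b3 b6 c1 c2)) fun ⟨c, hc⟩ => b4 (by
          obtain rfl : A = c • 1 := LinearMap.ext hc
          have := h.toWrH.nU
          simp [show c = 0 by simpa [smul_smul] using b6])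
    refine .inr (h.fin h.rg a2 h.dimU h.fw.ex fun w c1 c2 g hg => hX.qf_of_top b7 (fun D hD => ?_)
      w c1 c2 g (h.rg.le hg))
    obtain ⟨w', e⟩ := exists_hypPair h.nd₂ c2 c1
    obtain ⟨y, d1, -, d2, -⟩ := herm_mid hσ h.nd₂ hd e
    obtain ⟨θ, hθ⟩ := exists_trace_eq hσ hσ2 (map_one σ)
    have := hX.comm_herm hσ c1 c2 d1 d2 (b7 w c1 c2 D y d1) θ
    rwa [show hX.nd₁.adj D = -D from LinearMap.ext fun u => h.nd₁.ext fun u' => by
      simpa [h.nd₁.B_adj, hermε'] using eq_neg_of_add_eq_zero_right (hD u u'), smul_neg, sub_neg_eq_add, ← add_smul, hθ,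
      one_smul] at this
  obtain ⟨a, b1, b2⟩ := h.fw.ex₀
  refine .inl fun g => hX.gd_two (hX.bp (by omega) (.inl hd.ge) fun w w₁ c1 c2 g =>
    hX.pt (fun w c1 c2 t ht e0 e => ?_) (fun w w' e => ?_) c1 c2) hd.ge b1 (mul_ne_zero b1 l0)
    (by simpa [b1, eq_comm]) b2 (by rw [map_mul, hermσ' l, hl]; linear_combination l * b2)
  · obtain ⟨w', e'⟩ := exists_hypPair h.nd₂ c2 c1
    obtain ⟨y, d1, -, d2, d3⟩ := herm_mid hσ h.nd₂ hd e'
    obtain ⟨Φ, d4, d5⟩ := exists_qw' c2 e0 e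
    obtain ⟨A, hA⟩ : ∃ A : End F U, ∀ x, cB U C₂ w x = 0 → t x = x + (A ∘ₗ cB U C₂ y) x ⊗ₜ w :=
      ⟨Φ ∘ₗ (TensorProduct.mk F U W).flip ((C₂.N y)⁻¹ • y), fun x hx => by
        rw [d5 x hx]
        obtain ⟨u, u', rfl⟩ := mem_tl_pair.1 (d3 ▸ h.perp_tl ▸ h.mem_perp_point.2 hx)
        simp [d4, C₂.B_swap_zero d1, herm_B_self, smul_smul, d2]⟩
    obtain ⟨θ, hθ⟩ := exists_ne_of_ne_id hσ
    obtain ⟨s, f1⟩ := hs _ (hX.comm_herm hσ c1 c2 d1 d2 ⟨t, ht, hA⟩ θ)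
    obtain ⟨s', f2⟩ := hs _ (hX.comm_herm hσ c1 c2 d1 d2 ⟨t, ht, hA⟩ 1)
    have f3 : (θ - σ θ) • A = (s - σ θ * s') • 1 := by
      have f1 := rTensor_inj (B := s • 1) (f1.trans (TensorProduct.ext' fun _ _ => rfl))
      have f2 := rTensor_inj (B := s' • 1) (f2.trans (TensorProduct.ext' fun _ _ => rfl))
      rw [map_one] at f2
      linear_combination (norm := module) f1 - σ θ • f2
    rw [← eq_inv_smul_iff₀ (sub_ne_zero.2 hθ.symm), smul_smul] at f3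
    generalize (θ - σ θ)⁻¹ * (s - σ θ * s') = a at f3
    obtain ⟨a', β, f4, f5⟩ := rq_herm hσ c1 (-σ a • y) (by simp [d1])
    rw [← mul_inv_cancel_left (rH F U W β) t]
    exact mul_mem ⟨β, rfl⟩ (hX.range_of_cen hs (mul_mem (inv_mem (hX.hX β f4)) ht) c1 c2
      fun x hx => (rH F U W β).injective (by
        rw [LinearEquiv.mul_apply, apply_inv_apply, hA x hx, rH_rho f5, f3, cB_smul]
        simp [hx, hermσ', hermε', hσ2, neg_tmul]))
  · have b0 : b ≠ 0 := by rintro rfl; simp [l0.symm] at hb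
    have b0' := (map_ne_zero σ).2 b0
    obtain ⟨y, d1, d2, d3, d4⟩ := herm_mid hσ h.nd₂ hd e
    obtain ⟨k, f1, f2, f3, f4⟩ := e.exists_torus h.nd₂ b0
    obtain ⟨s, f5, f6, f7, f8⟩ := exists_qrefl_det d3 (d := σ b / b) (by
      rw [map_div₀, hσ2]; field_simp)
    refine ⟨k * s, ⟨mul_mem k.2 f5, mem_SLV.2 (by
      rw [LinearEquiv.coe_toLinearMap_mul, map_mul, f8, ← LinearEquiv.coe_det, f4, hermσ']
      field_simp)⟩, b, σ b / b, (σ b)⁻¹, fun c => l1 (by rw [← hb]; field_simp at c; linear_combination -c),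
      fun c => l1 ?_, by rw [LinearEquiv.mul_apply, f6 w (C₂.B_swap_zero d1), f1],
      by rw [LinearEquiv.mul_apply, f6 w' (C₂.B_swap_zero d2), f2]; rfl, fun z c1 c2 => ?_⟩
    · have c1 : b = σ b * σ b := by field_simp at c; linear_combination c
      have c2 := congrArg σ c1
      rw [map_mul, hσ2] at c2
      exact mul_left_cancel₀ b0 (by rw [← hb]; linear_combination -c1 - σ b * c2)
    · obtain ⟨r, p, rfl⟩ := mem_span_pair.1 (d4 ▸ C₂.mem_perp_singleton.2 c1)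
      obtain rfl : r = 0 := by simpa [e.B_fe, d2, hermε'] using c2
      simp [f7, f3 y d1 d2, smul_comm p]

end H12
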