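import Cfsg.Agent.H12.WR12

/-!
# Tensor powers of symplectic spaces in odd characteristic
-/

set_option autoImplicit false
set_option maxHeartbeats 400000

namespace H12

open Module H11 Submodule TensorProduct H13.KL

section Clf

variable {F : Type*} [Field F] {V W : Type*} [AddCommGroup V] [Module F V] [AddCommGroup W]
  [Module F W] {C₂ : CForm (altType F) W} {R : Subgroup (W ≃ₗ[F] W)} {ι : Type*}
  {ρ : ι → End F W →ₐ[F] End F V} {M : Submodule F (End F V)} {A : End F V} {w : W}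
  [FiniteDimensional F W] [FiniteDimensional F V]

theorem rk_ne (h : C₂.Nondeg) {y : W} (hy : y ≠ 0) (hw : w ≠ 0) : (C₂.B y).smulRight w ≠ 0 := fun e =>
  let ⟨r, hr⟩ := h.exists_eq hy 1; hw (by simpa [hr] using LinearMap.congr_fun e r)

theorem alt_eps : (altType F).ε = -1 := rfl

omit [FiniteDimensional F V] in
theorem scal_zero (τ : End F W →ₐ[F] End F V) {D : End F W} {c : F} (hD : D ≠ 0)
    (h : 0 = (c • 1) * τ D) : c • (1 : End F V) = 0 :=
  eq_zero_of_mul_eq (fun E => (Commute.one_left _).smul_left c) hD h.symm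

omit [FiniteDimensional F V] [FiniteDimensional F W] in
theorem cj_sub (g : V ≃ₗ[F] V) (A B : End F V) : cj g (A - B) = cj g A - cj g B := by ext; simp

variable (h : FW C₂ R) (h2 : (2 : F) ≠ 0) (hT : ∀ w ≠ 0, ∃ y, TSP C₂ w y) (hρ : Fam ρ)
  (hM : Inv ρ R M) (hc : ∀ A ∈ M, ∀ D ∈ M, ∃ c : F, A * D + D * A = c • 1)
include h h2 hT hρ hM hc

theorem FW.clf_zero (hA : A ∈ M) (j : ι) (w : W) : cp (ρ j) A w (C₂.B w) = 0 := by
  by_contra h0
  have w0 : w ≠ 0 := by rintro rfl; simp at h0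
  have a1 := h.nan (l := -1) rfl (by simp) (fun e => h2 (by linear_combination -e)) hM j
    (H12.alt_N w) hA
  obtain ⟨y, e⟩ := hT w w0
  obtain ⟨w', -, a2, a3, -⟩ := e.exists_dual h.nd
  obtain ⟨b, b1, b2⟩ := hρ.mul_ne h.wd.gen (hM.Jd hρ j _) h0 a1 h0
  obtain ⟨β, c1, rfl⟩ := h.trans w w' e.hv w0 (H12.alt_N _) (by rintro rfl; simp at a2)
  have b3 := hM.Jd_conj b1 c1
  rw [h.cj_rk c1] at b3
  obtain ⟨c, hc⟩ := hc _ a1.2 _ b3.2
  generalize cp (ρ j) A w (C₂.B w) = a at *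
  rw [scal_zero (ρ j) (rk_ne h.nd e.symm.ne e.symm.ne) (c := c) (by
    simp [← hc, add_mul, mul_assoc, rk_mul, e.hB, C₂.B_swap_zero a3])] at hc
  refine b2 (eq_zero_of_mul_eq (fun E => (a1.1 E).mul_left (b1.1 E)) (rk_ne h.nd w0 w0) ?_)
  simpa [add_mul, mul_assoc, rk_mul, rk_mul', comm_mul' b1.1, H12.alt_B_self, a2,
    H12.alt_symm w (β w)] using congrArg (· * ρ j ((C₂.B w).smulRight w)) hc

theorem FW.clf_ex (hA : A ∈ M) {j : ι} (hn : ¬ ∀ E, Commute A (ρ j E)) :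
    ∃ E Z : End F W, ∃ β ∈ R, E * E = 0 ∧ E * Z = 0 ∧ E * cj β E * Z = Z ∧ Z ≠ 0 ∧
      (∀ x y, C₂.B (E x) y = C₂.B x (E y)) ∧ ∃ b ∈ Jd (ρ j) E M, b ≠ 0 := by
  obtain ⟨w, y, e, a1⟩ := h.ex_pair (fun w _ => hT w) hn
  have a2 := h.pair hM j e hA
  have a3 := h.clf_zero h2 hT hρ hM hc hA j
  have a4 := a3 (w + y)
  simp only [map_add, LinearMap.add_apply, a3, zero_add, add_zero] at a4
  obtain ⟨w', y', b1, b2, b3, b4⟩ := e.exists_dual h.nd
  obtain ⟨β, c1, c2⟩ := h.tv' (c := 1) (H12.alt_N w') (by simp [altType])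
  obtain ⟨β', c3, c4⟩ := h.tv' (c := 1) (H12.alt_N y') (by simp [altType])
  refine ⟨(C₂.B y).smulRight w - (C₂.B w).smulRight y, (C₂.B w).smulRight w, β * β', mul_mem c1 c3,
    by ext; simp [H12.alt_B_self, e.hB, e.symm.hB], by ext; simp [H12.alt_B_self, e.symm.hB],
    ?_, rk_ne h.nd e.ne e.ne, fun x z => ?_, _, ⟨cp_comm _ _, ?_⟩, a1⟩
  · rw [cj_sub, h.cj_rk (mul_mem c1 c3), h.cj_rk (mul_mem c1 c3)]
    ext
    simp [c2, c4, H12.alt_B_self, e.hB, e.symm.hB, b1, b2, b3, b4, H12.alt_symm w w', alt_sigma,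
      H12.alt_symm y y', H12.alt_symm w y', H12.alt_symm y w']
  · simp [alt_sigma, H12.alt_symm w x, H12.alt_symm y x]; ring
  · rwa [eq_neg_of_add_eq_zero_right a4, eneg_mul, ← sub_eq_add_neg, ← mul_sub, ← map_sub] at a2

theorem FW.clf_sq (hA : A ∈ M) {T : FormType F} {C : CForm T V} (hC : C.Nondeg)
    (adj : ∀ j D D', (∀ x y, C₂.B (D x) y = C₂.B x (D' y)) → ∀ x y, C.B (ρ j D x) y = C.B x (ρ j D' y))
    (hs : ∀ A ∈ M, ∀ x y, C.B (A x) y = -C.B x (A y)) : A = 0 := by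
  have key : ∀ {c : F} {A}, c • A ∈ M → (∀ x y, C.B (A x) y = C.B x (A y)) → c • A = 0 :=
    fun {c A} a b => by
      by_cases hc : c = 0
      · simp [hc]
      rw [smul_mem_iff _ hc] at a
      rw [show A = 0 from LinearMap.ext fun y => hC.eq_zero' fun x => mul_left_cancel₀ h2 (by
        linear_combination hs A a x y - b x y), smul_zero]
  by_cases hn : ∀ j E, Commute A (ρ j E)
  · obtain ⟨c, rfl⟩ := hρ.scalar hn
    exact key hA fun _ _ => rfl
  obtain ⟨j, hn⟩ := not_forall.1 hn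
  obtain ⟨E, Z, β, a1, -, a2, a3, a4, a5, b, a6, a7⟩ := h.clf_ex h2 hT hρ hM hc hA hn
  have b1 : ∀ b ∈ Jd (ρ j) E M, ∀ b' ∈ Jd (ρ j) E M, ∃ c : F, b * b' = c • 1 := fun b p b' q => by
    obtain ⟨c, hc⟩ := hc _ p.2 _ (hM.Jd_conj q a1).2
    refine ⟨c, sub_eq_zero.1 (eq_zero_of_mul_eq (fun E => ((p.1 E).mul_left (q.1 E)).sub_left
      ((Commute.one_left _).smul_left c)) a4 ?_)⟩
    rw [sub_mul, ← hc]
    simp [add_mul, mul_assoc, comm_mul' q.1, ← map_mul, a2, ← mul_assoc E, a3]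
  obtain ⟨c, rfl⟩ := hρ.scalar (A := b) fun l => by_contra fun hl => by
    obtain ⟨E', Z', β', c1, c2, -, c3, c4, -, b', c5, c6⟩ := h.clf_ex h2 hT hρ (hM.Jd hρ j E)
      (fun a p b q => let ⟨c, d⟩ := b1 a p b q; let ⟨c', d'⟩ := b1 b q a p
        ⟨c + c', by rw [d, d', add_smul]⟩) a6 hl
    obtain ⟨b'', d1, d2⟩ := hρ.mul_ne h.wd.gen ((hM.Jd hρ j E).Jd hρ l E') c6 c5 c6
    obtain ⟨c, hc⟩ := b1 _ c5.2 _ ((hM.Jd hρ j E).Jd_conj d1 c1).2
    rw [scal_zero (ρ l) (D := E') (c := c) (by rintro rfl; simp [c4.symm] at c3) (by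
      rw [smul_mul_assoc, one_mul, ← mul_one (ρ l E'), ← mul_smul_comm, ← hc]
      simp [mul_assoc, comm_mul' c5.1, comm_mul' d1.1, ← map_mul, ← mul_assoc E', c2])] at hc
    refine d2 (eq_zero_of_mul_eq (fun E => (c5.1 E).mul_left (d1.1 E)) c4 ?_)
    simpa [mul_assoc, comm_mul' d1.1, ← map_mul, ← mul_assoc E', c3] using
      congrArg (· * ρ l Z') hc
  have := key (by simpa using a6.2) (adj j E E a5)
  exact (a7 (scal_zero (ρ j) (D := E) (by rintro rfl; simp [a4.symm] at a3) (by simp [this]))).elim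

end Clf

variable {F : Type*} [Field F] {U W : Type*} [AddCommGroup U] [Module F U] [AddCommGroup W]
  [Module F W] {T T₁ : FormType F} {C : CForm T (U ⊗[F] W)} {C₁ : CForm T₁ U}
  {C₂ : CForm (altType F) W} {X H G : Subgroup ((U ⊗[F] W) ≃ₗ[F] (U ⊗[F] W))}
  {R : Subgroup (W ≃ₗ[F] W)} {ι : Type*} [DecidableEq ι]
  {ρ : ι → End F W →ₐ[F] End F (U ⊗[F] W)} {j₀ : ι} {w y : W} {A D : End F U}

variable (C₂ X) in
/-- The coefficients of the central elements form a subspace. -/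
def zS (h2 : (2 : F) ≠ 0) : Submodule F (End F (U ⊗[F] W)) where
  __ := zJ C₂ X
  smul_mem' x S hS := by
    have := sub_mem (zJ_smul hS ((x + 1) / 2)) (zJ_smul hS ((x - 1) / 2))
    rw [alt_sigma, alt_sigma, show (x + 1) / 2 * ((x + 1) / 2) = x + (x - 1) / 2 * ((x - 1) / 2) by
      field_simp; ring, add_smul, add_sub_cancel_right] at this
    exact this

variable [FiniteDimensional F U] [FiniteDimensional F W]

omit [FiniteDimensional F W] in
theorem TF.B_rT {T₂ : FormType F} {C₂ : CForm T₂ W} (h : TF C C₁ C₂) (A : End F U)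
    (x y : U ⊗[F] W) : C.B (A.rTensor W x) y = C.B x ((h.nd₁.adj A).rTensor W y) := by
  induction x with
  | zero => simp
  | tmul u w =>
    rw [LinearMap.rTensor_tmul, h.B_tmul, h.B_tmul, ← h.nd₁.B_adj']
    exact congrArg _ (cR_rTensor ..).symm
  | add x y a b => simp [a, b]

theorem TX.qs_alt (h : TX C C₁ C₂ X C₂.isom)
    (hs : ∀ w ≠ 0, ∀ A ∈ qI C₂ X (H12.alt_N w), ∃ c : F, ∀ u, A u = c • u) :
    QS C₂ X := fun w y Φ e hq h0 => by
  refine hs w e.ne (Φ ∘ₗ (TensorProduct.mk F U W).flip y) fun y' hy' => ?_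
  by_cases b : y' ∈ span F {w}
  · obtain ⟨c, rfl⟩ := mem_span_singleton.1 b
    exact qw_zero.congr fun x hx => by simp [cB_smul, hx]
  obtain ⟨β, b1, b2, rfl⟩ := h.nd₂.witt_step (span F {w}) e.nm b (fun x hx => by
    obtain ⟨c, rfl⟩ := mem_span_singleton.1 hx
    simp [hy', e.hB]) (by rw [H12.alt_N, H12.alt_N])
  have b3 := b2 w (mem_span_singleton_self w)
  obtain ⟨k, c1, -, c2⟩ := h.exists_tv e.hc (a := -1) (by simp [altType])
  have c3 := (h.comm e.hv hq h0 c1 (by simp [c2, e.symm.hB])).congr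
    (Φ' := (Φ ∘ₗ (TensorProduct.mk F U W).flip y) ∘ₗ cB U C₂ y) fun x _ => by simp [c2]
  refine (h.comp c3 (h.hX _ (inv_mem b1)) fun u => by
    rw [rH_tmul, ← b3, inv_apply_apply, b3]).congr fun x _ => ?_
  have := cB_congr (α := (1 : U ≃ₗ[F] U)) b1 y (rH F U W β⁻¹ x)
  rw [show TensorProduct.congr 1 β = rH F U W β from rfl, map_inv, apply_inv_apply] at this
  simp only [LinearMap.comp_apply, this, map_inv]
  rfl

theorem TX.mul_zJ (h : TX C C₁ C₂ X R) (hA : A ∈ qI C₂ X (H12.alt_N w))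
    (hD : D.rTensor W ∈ zJ C₂ X) : A * D ∈ qI C₂ X (H12.alt_N w) := fun y hy => by
  by_cases b : y ∈ span F {w}
  · obtain ⟨c, rfl⟩ := mem_span_singleton.1 b
    exact qw_zero.congr fun x hx => by simp [cB_smul, hx]
  obtain ⟨z, a1, a2⟩ := h.nd₂.exists_perp_eq b (-1)
  have a3 := C₂.mem_perp_singleton.1 a1
  obtain ⟨k, c1, c2⟩ := hD.2 y (H12.alt_N y)
  exact (h.comm (H12.alt_N w) (hA z a3) (by simp [C₂.B_swap_zero a3]) c1 (by
    simp [c2, nW_apply, C₂.B_swap_zero hy])).congr fun x _ => by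
      simp [c2, nW_apply, H12.alt_symm y z, a2]

theorem TZ.comm_alt (h : TZ C C₁ C₂ X R) (e : TSP C₂ w y) (hA : A ∈ qI C₂ X e.hv)
    (hD : D ∈ qI C₂ X e.hv) : (A * h.nd₁.adj D + D * h.nd₁.adj A).rTensor W ∈ zJ C₂ X := by
  obtain ⟨-, z, -, -, a1, a2⟩ := e.exists_dual h.nd₂
  have := h.comm_q h.le e.hv (show C₂.B w (-y) = 0 by simp [e.hB]) a1 (hA _ (by simp [e.hB]))
    (hD _ a1)
  refine mem_zJ h e.hv e.ne (comm_rTensor _) ?_
  simpa [H12.alt_symm y z, a2, alt_sigma] using this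

theorem TWr.isMax_alt4 [Finite F] [Finite ι] (h : TWr C C₁ C₂ H G C₂.isom ρ j₀)
    (h2 : (2 : F) ≠ 0) (hd : 4 ≤ finrank F W) : Cfsg.Geo.IsMaximalIn G (H ⊓ G) :=
  h.isMax fun X a1 a2 hX => by
  have h' := hX.tx_alt hd
  have := h.toWrH.nW
  have hσ : ∀ a, T.σ a = a := fun a => (h.σ₂ a).symm
  have h1 : h.nd₁.adj 1 = 1 := LinearMap.ext fun x => h.nd₁.ext fun y => by simp [h.nd₁.B_adj]
  have hT : ∀ w ≠ 0, ∃ y, TSP C₂ w y := fun w => h'.tsp (H12.alt_N w)
  by_cases hs : ∀ S ∈ zJ C₂ X, ∃ c : F, S = c • 1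
  · refine .inl fun g => h'.gd one_ne_zero (by simp [altType]) (h'.qs_alt fun w hw A hA => ?_)
      fun hu => (h2 ?_).elim
    swap
    · linear_combination -(hu (-1) (by simp [altType])).resolve_left (by simp)
    obtain ⟨y, e⟩ := hT w hw
    let K : Submodule F (End F (U ⊗[F] W)) :=
      { carrier := {S | ∀ x y, C.B (S x) y = -C.B x (S y)}
        zero_mem' := by simp
        add_mem' := fun a b x y => by simp [a x y, b x y, add_comm]
        smul_mem' := fun c _ a x y => by simp [a x y, hσ] }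
    obtain ⟨c, hc⟩ := hs _ (hX.comm_alt e hA (h'.one_mem_qI _))
    have := h.fw.clf_sq (M := (qI C₂ X e.hv).map (LinearMap.rTensorHom W) ⊓ K)
      (A := (A - (c / 2) • 1).rTensor W) h2 hT h.toFam (fun j β hβ S hS =>
        ⟨h.inv_map a1 h.hR (fun α hα A hA => conj_qI' _ hA hα) j β hβ S hS.1, fun x y => by
          have b := h.rg.le (h.hR j β hβ)
          rw [cj_apply, cj_apply, ← CForm.isom_B (inv_mem b), ← CForm.isom_B (inv_mem b) x,
            inv_apply_apply, inv_apply_apply, hS.2]⟩) (by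
        rintro _ ⟨⟨A, b1, rfl⟩, b2⟩ _ ⟨⟨D, b3, rfl⟩, b4⟩
        have key : ∀ A : End F U, A.rTensor W ∈ K → (h.nd₁.adj A).rTensor W = -A.rTensor W :=
          fun A a => LinearMap.ext fun y => h.nd.ext' fun x => by simp [← h.B_rT, a x y]
        obtain ⟨c, hc⟩ := hs _ (hX.comm_alt e b1 b3)
        rw [LinearMap.rTensor_add, LinearMap.rTensor_mul, LinearMap.rTensor_mul, key A b2, key D b4,
          emul_neg, emul_neg, ← neg_add, neg_eq_iff_eq_neg] at hc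
        exact ⟨-c, hc.trans (by module)⟩) ⟨⟨_, sub_mem hA (smul_mem _ _ (h'.one_mem_qI _)), rfl⟩, fun x y => by
          have := congrArg (C.B x) (LinearMap.congr_fun hc y)
          simp [h1, ← h.B_rT] at this
          simp [hσ, End.one_eq_id]
          linear_combination (exp := 1) this - (c * C.B x y) * (mul_inv_cancel₀ h2)⟩ h.nd h.adj
          fun A a => a.2
    exact ⟨c / 2, LinearMap.congr_fun (sub_eq_zero.1 (rTensor_inj (this.trans (by simp))))⟩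
  push Not at hs
  obtain ⟨S, b1, b2⟩ := hs
  obtain ⟨A, rfl⟩ := exists_rTensor b1.1
  have b3 : ∀ w (hw : C₂.N w = 0), w ≠ 0 → ∀ D, D ∈ qI C₂ X hw := fun w c1 c2 =>
    h.top_of_mul a1 (h.fw.extr (fun _ => h'.tsp) h.toFam) c1 (h'.one_mem_qI c1)
      (.inr fun D hD => h'.mul_zJ hD b1) fun ⟨c, hc⟩ => b2 c (by
        obtain rfl : A = c • 1 := LinearMap.ext hc
        simp [End.one_eq_id])
  refine .inr (h.fin h.rg a2 h.dimU h.fw.ex fun w c1 c2 g hg => hX.qf_of_top b3 (fun D hD => ?_)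
    w c1 c2 g (h.rg.le hg))
  obtain ⟨y, e⟩ := hT w c2
  have := (zS C₂ X h2).smul_mem 2⁻¹ (hX.comm_alt e (b3 w c1 c2 D) (b3 w c1 c2 1))
  rwa [h1, show hX.nd₁.adj D = D from LinearMap.ext fun u => h.nd₁.ext fun u' => by
    rw [h.nd₁.B_adj]; linear_combination -hD u u' + C₁.B u (D u') * alt_eps (F := F),
    mul_one, one_mul,
    ← two_smul F, LinearMap.rTensor_smul, inv_smul_smul₀ h2] at this

end H12
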