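import Cfsg.Agent.H12.WR13

/-!
# Tensor powers of the symplectic plane: Jordan algebras
-/

set_option autoImplicit false
set_option maxHeartbeats 400000

namespace H12

open Module H11 Submodule TensorProduct H13.KL

section Gen

variable {F : Type*} [Field F] {V W : Type*} [AddCommGroup V] [Module F V] [AddCommGroup W]
  [Module F W] {C₂ : CForm (altType F) W} {R : Subgroup (W ≃ₗ[F] W)} {ι : Type*}
  {ρ : ι → End F W →ₐ[F] End F V} {J : Submodule F (End F V)} {A b : End F V} {w w' v : W}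
  {j j₀ : ι} [FiniteDimensional F W]

theorem sum_cp (τ : End F W →ₐ[F] End F V) (A : End F V) :
    ∑ r, ∑ s, cp τ A (finBasis F W s) ((finBasis F W).coord r) *
      τ (((finBasis F W).coord s).smulRight (finBasis F W r)) = A := by
  have := sum_rk' (finBasis F W) 1
  simp only [End.one_apply] at this
  simp only [cp_mul, ← Finset.mul_sum, ← Finset.sum_mul, ← map_sum, this, map_one, mul_one, one_mul]

theorem Fam.Jd_comm (h : Fam ρ) {D : End F W} (hD : D ≠ 0) (hb : b ∈ Jd (ρ j) D J) {l : ι}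
    (e : ∀ A ∈ J, ∀ E, Commute A (ρ l E)) (E : End F W) : Commute b (ρ l E) := by
  by_cases a : l = j
  · exact a ▸ hb.1 E
  refine sub_eq_zero.1 (eq_zero_of_mul_eq (fun E' => ((hb.1 E').mul_left (h.comm l j a E E')).sub_left
    ((h.comm l j a E E').mul_left (hb.1 E'))) hD ?_)
  rw [sub_mul, mul_assoc, (h.comm l j a E D).eq, ← mul_assoc, (e _ hb.2 E).eq, mul_assoc, sub_self]

variable (h : FW C₂ R)
include h

theorem FW.Jd_all (hJ : Inv ρ R J) (hv : v ≠ 0) (hb : b ∈ Jd (ρ j) ((C₂.B v).smulRight v) J) (w : W) :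
    b ∈ Jd (ρ j) ((C₂.B w).smulRight w) J := by
  by_cases h0 : w = 0
  · exact ⟨hb.1, by simp [h0]⟩
  obtain ⟨β, a, rfl⟩ := h.trans v w (H12.alt_N _) hv (H12.alt_N _) h0
  exact h.cj_rk a v v ▸ hJ.Jd_conj hb a

theorem FW.Jd_h (hJ : Inv ρ R J) (hv : v ≠ 0) (hb : b ∈ Jd (ρ j) ((C₂.B v).smulRight v) J) (w y : W) :
    b ∈ Jd (ρ j) ((C₂.B w).smulRight y + (C₂.B y).smulRight w) J := ⟨hb.1, by
  have := sub_mem (sub_mem (h.Jd_all hJ hv hb (w + y)).2 (h.Jd_all hJ hv hb w).2)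
    (h.Jd_all hJ hv hb y).2
  rwa [← mul_sub, ← mul_sub, ← map_sub, ← map_sub, show (C₂.B (w + y)).smulRight (w + y) -
    (C₂.B w).smulRight w - (C₂.B y).smulRight y = (C₂.B w).smulRight y + (C₂.B y).smulRight w by
      ext; simp; module] at this⟩

variable (hd : finrank F W = 2)
include hd

theorem FW.plucker (x y z : W) : C₂.B x y • z + C₂.B y z • x + C₂.B z x • y = 0 := by
  obtain ⟨w, a, b⟩ := h.ex
  obtain ⟨w', e⟩ := exists_hypPair h.nd a b
  have : ∀ x, ∃ r s : F, r • w + s • w' = x := fun x =>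
    mem_span_pair.1 (eq_top_of_finrank_eq (e.finrank_span.trans hd.symm) ▸ mem_top)
  obtain ⟨_, _, rfl⟩ := this x
  obtain ⟨_, _, rfl⟩ := this y
  obtain ⟨_, _, rfl⟩ := this z
  simp [e.pair, e.B_ee, e.B_ff, e.B_fe, alt_sigma, alt_eps]
  module

theorem FW.mem_two (hw : w ≠ 0) (e : C₂.B w v = 0) : v ∈ F ∙ w := by
  obtain ⟨r, hr⟩ := h.nd.exists_eq hw 1
  have := h.plucker hd r w v
  rw [H12.alt_symm w r, hr, e] at this
  exact mem_span_singleton.2 ⟨C₂.B v r, by linear_combination (norm := module) this⟩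

theorem FW.hp_two : HP C₂ := fun D hD w =>
  (eq_or_ne w 0).elim (by rintro rfl; simp) fun hw => h.mem_two hd hw (hD w (H12.alt_N w))

theorem FW.h_sq (e : IsHypPair C₂ w w') : ((C₂.B w).smulRight w' + (C₂.B w').smulRight w) *
    ((C₂.B w).smulRight w' + (C₂.B w').smulRight w) = 1 := LinearMap.ext fun x => by
  have := h.plucker hd w w' x
  simp [e.pair, e.B_ee, e.B_ff, e.B_fe, alt_eps, H12.alt_symm w x] at this ⊢
  linear_combination (norm := module) -this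

variable (h2 : (2 : F) ≠ 0)
include h2

theorem FW.span_two (Y : Submodule F (End F W)) (h1 : 1 ∈ Y) (hY : ∀ w, (C₂.B w).smulRight w ∈ Y) :
    ∀ D, D ∈ Y := h.of_rk Y fun w y _ _ _ _ => (smul_mem_iff _ h2).1 (by
  convert add_mem (sub_mem (sub_mem (hY (w + y)) (hY w)) (hY y)) (smul_mem _ (C₂.B y w) h1) using 1
  ext x
  have := h.plucker hd y w x
  simp [H12.alt_symm y x] at this ⊢
  linear_combination (norm := module) -this)

theorem FW.ex_Jd (hJ : Inv ρ R J) (hA : A ∈ J) (hn : ¬ ∀ E, Commute A (ρ j E)) :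
    ∃ v ≠ 0, ∃ b ∈ Jd (ρ j) ((C₂.B v).smulRight v) J, b ≠ 0 :=
  let ⟨v, a1, a2, a3⟩ := (h.hp_two hd).ex hn
  ⟨v, a2, _, h.nan (l := -1) rfl (by simp) (fun e => h2 (by linear_combination -e)) hJ j a1 hA, a3⟩

variable (hρ : Fam ρ)
include hρ

theorem FW.exists_sq_one (s : Finset ι) : ∀ J : Submodule F (End F V), Inv ρ R J →
    (∀ l ∉ s, ∀ A ∈ J, ∀ E, Commute A (ρ l E)) → ∀ A ∈ J, A ≠ 0 → ∃ b ∈ J, b * b = 1 := by
  classical
  induction s using Finset.induction with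
  | empty =>
    intro J _ a A b c
    obtain ⟨d, rfl⟩ := hρ.scalar fun l => a l (by simp) A b
    exact ⟨1, (smul_mem_iff _ (left_ne_zero_of_smul c)).1 b, mul_one _⟩
  | insert j s _ ih =>
    intro J a1 a2 A a3 a4
    by_cases hc : ∀ A ∈ J, ∀ E, Commute A (ρ j E)
    · exact ih J a1 (fun l hl => (eq_or_ne l j).elim (· ▸ hc) fun e => a2 l (by simp [*])) A a3 a4
    simp only [not_forall] at hc
    obtain ⟨A, b1, b2⟩ := hc
    obtain ⟨v, b3, b, b4, b5⟩ := h.ex_Jd hd h2 a1 b1 (not_forall.2 b2)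
    obtain ⟨b, c1, c2⟩ := ih _ (a1.Jd hρ j _) (fun l hl b hb => (eq_or_ne l j).elim (· ▸ hb.1) fun e =>
      hρ.Jd_comm (rk_ne h.nd b3 b3) hb (a2 l (by simp [*]))) b b4 b5
    obtain ⟨v', e⟩ := exists_hypPair h.nd b3 (H12.alt_N v)
    exact ⟨_, (h.Jd_h a1 b3 c1 v v').2, by
      rw [mul_assoc, comm_mul' c1.1, ← map_mul, h.h_sq hd e, map_one, mul_one, c2]⟩

variable {T : FormType F} {C : CForm T V} (hC : C.Nondeg)
  (adj : ∀ j w x y, C.B (ρ j ((C₂.B w).smulRight w) x) y = -C.B x (ρ j ((C₂.B w).smulRight w) y))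
  (hs : ∀ A ∈ J, ∀ x y, C.B (A x) y = C.B x (A y))
  (hm : ∀ S ∈ J, S * S = 0 → ∀ B ∈ J, S * B + B * S ∈ J)
  (h0 : ∀ A ∈ J, ∀ E, Commute A (ρ j₀ E))
include hC adj hs hm h0

theorem FW.exists_pr [Finite ι] (hJ : Inv ρ R J) (hA : A ∈ J) (hn : ¬ ∃ c : F, A = c • 1) :
    ∃ a a', a ≠ a' ∧ a ≠ j₀ ∧ a' ≠ j₀ ∧ ∀ v v',
      ρ a ((C₂.B v).smulRight v) * ρ a' ((C₂.B v').smulRight v') ∈ J := by
  have := Fintype.ofFinite ι
  obtain ⟨a, a1⟩ := not_forall.1 (mt hρ.scalar hn)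
  obtain ⟨v, a2, b, a3, a4⟩ := h.ex_Jd hd h2 hJ hA a1
  obtain ⟨a', b1⟩ := not_forall.1 (mt (hρ.scalar (A := b)) fun ⟨c, hc⟩ => by
    have c1 := a3.2
    rw [hc, smul_mul_assoc, one_mul, smul_mem_iff _ (left_ne_zero_of_smul (hc ▸ a4))] at c1
    refine a4 (eq_zero_of_mul_eq a3.1 (rk_ne h.nd a2 a2) ?_)
    rw [show ρ a _ = 0 from LinearMap.ext fun y => hC.eq_zero' fun x => mul_left_cancel₀ h2 (by
      linear_combination adj a v x y - hs _ c1 x y), mul_zero])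
  obtain ⟨v', b2, b', b3, b4⟩ := h.ex_Jd hd h2 (hJ.Jd hρ a _) a3 b1
  obtain ⟨b, c1, c2⟩ := h.exists_sq_one hd h2 hρ Finset.univ _ ((hJ.Jd hρ a _).Jd hρ a' _) (by simp)
    b' b3 b4
  have c3 : a' ≠ a := by rintro rfl; exact b1 a3.1
  refine ⟨a', a, c3, by rintro rfl; exact b1 (hρ.Jd_comm (rk_ne h.nd a2 a2) a3 h0),
    by rintro rfl; exact a1 (h0 A hA), fun w' w => ?_⟩
  by_cases e' : w' = 0
  · simp [e']
  by_cases e : w = 0
  · simp [e]
  obtain ⟨y, e⟩ := exists_hypPair h.nd e (H12.alt_N w)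
  obtain ⟨y', e'⟩ := exists_hypPair h.nd e' (H12.alt_N w')
  have c4 := hρ.Jd_comm (rk_ne h.nd b2 b2) c1 fun A a => a.1
  have c5 : ∀ D E B, ρ a D * (ρ a' E * B) = ρ a' E * (ρ a D * B) := fun D E B => by
    rw [← mul_assoc, (hρ.comm a a' c3.symm D E).eq, mul_assoc]
  have c6 : ∀ B, b * (b * B) = B := fun B => by rw [← mul_assoc, c2, one_mul]
  have := hm _ (h.Jd_all hJ a2 (h.Jd_all (hJ.Jd hρ a _) b2 c1 w').2 w).2 (by
    simp [mul_assoc, comm_mul' c4, c5, rk_mul, e.B_ee]) _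
      (h.Jd_h hJ a2 (h.Jd_h (hJ.Jd hρ a _) b2 c1 w' y').2 w y).2
  rw [← smul_mem_iff _ h2]
  convert this using 1
  simp [mul_assoc, comm_mul' c4, comm_mul' c1.1, c5, c6, rk_mul, rk_mul', e.B_ee, e'.B_ee, e.pair,
    e'.pair, e.B_fe, e'.B_fe, alt_eps, mul_add, add_mul, two_smul]

theorem FW.mem_of_pr [Finite ι] (hσ : ∀ a, T.σ a = a) (h1 : 1 ∈ J)
    (hp : ∀ a a', a ≠ a' → a ≠ j₀ → a' ≠ j₀ → ∀ v v',
      ρ a ((C₂.B v).smulRight v) * ρ a' ((C₂.B v').smulRight v') ∈ J)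
    (hA : ∀ E, Commute A (ρ j₀ E)) (hA' : ∀ x y, C.B (A x) y = C.B x (A y)) : A ∈ J := by
  classical
  have := Fintype.ofFinite ι
  let Z : Finset ι → Subalgebra F (End F V) := fun s =>
    Subalgebra.centralizer F {B | ∃ l ∉ s, ∃ E, ρ l E = B}
  have hZ : ∀ s A, A ∈ Z s ↔ ∀ l ∉ s, ∀ E, Commute A (ρ l E) := fun s A =>
    ⟨fun a l hl E => (a _ ⟨l, hl, E, rfl⟩).symm, by rintro a _ ⟨l, hl, E, rfl⟩; exact (a l hl E).symm⟩
  let O : Finset ι → Submodule F (End F V) := fun s =>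
    { carrier := {A | (∀ x y, C.B (A x) y = -C.B x (A y)) ∧ A ∈ Z s ∧
        ∀ a ∉ s, a ≠ j₀ → ∀ v, ρ a ((C₂.B v).smulRight v) * A ∈ J}
      zero_mem' := by simp
      add_mem' := fun a b => ⟨fun x y => by simp [a.1 x y, b.1 x y, add_comm], add_mem a.2.1 b.2.1,
        fun l c d v => mul_add (ρ l _) _ _ ▸ add_mem (a.2.2 l c d v) (b.2.2 l c d v)⟩
      smul_mem' := fun t _ a => ⟨fun x y => by simp [a.1 x y, hσ], (Z s).smul_mem a.2.1 t,
        fun l c d v => mul_smul_comm t (ρ l _) _ ▸ smul_mem _ _ (a.2.2 l c d v)⟩ }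
  have key : ∀ s : Finset ι, j₀ ∉ s → ∀ A ∈ Z s, A ∈ J ⊓ (Z s).toSubmodule ⊔ O s := fun s => by
    induction s using Finset.induction with
    | empty =>
      intro _ A a
      obtain ⟨c, rfl⟩ := hρ.scalar fun l => (hZ _ _).1 a l (by simp)
      exact mem_sup_left ⟨smul_mem _ _ h1, a⟩
    | insert j s hj ih =>
      intro b1 A a
      rw [Finset.mem_insert, not_or] at b1
      have b2 : Z s ≤ Z (insert j s) := fun A a => (hZ _ _).2 fun l hl =>
        (hZ _ _).1 a l fun e => hl (by simp [e])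
      have b3 : ∀ E, ρ j E ∈ Z (insert j s) := fun E => (hZ _ _).2 fun l hl =>
        hρ.comm j l (by rintro rfl; simp at hl) E
      rw [← sum_cp (ρ j) A]
      refine sum_mem fun r _ => sum_mem fun r' _ => ?_
      obtain ⟨p, ⟨c1, c2⟩, m, c3, e⟩ := mem_sup.1 (ih b1.2 (cp (ρ j) A (finBasis F W r')
        ((finBasis F W).coord r)) ((hZ _ _).2 fun l hl => (eq_or_ne l j).elim (· ▸ cp_comm _ _)
          fun e => (hZ _ _).1 (sum_mem fun _ _ => mul_mem (mul_mem (b3 _) a) (b3 _)) l (by simp [*])))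
      rw [← e]
      refine h.span_two hd h2 (comap (LinearMap.mulLeft F (p + m) ∘ₗ (ρ j).toLinearMap)
        (J ⊓ (Z (insert j s)).toSubmodule ⊔ O (insert j s))) ?_ (fun v => ?_) _
      · rw [mem_comap, LinearMap.comp_apply, AlgHom.toLinearMap_apply, map_one,
          LinearMap.mulLeft_apply, mul_one]
        exact add_mem (mem_sup_left ⟨c1, b2 c2⟩) (mem_sup_right ⟨c3.1, b2 c3.2.1, fun a ha =>
          c3.2.2 a fun e => ha (by simp [e])⟩)
      have d1 := (hZ _ _).1 c2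
      rw [mem_comap, LinearMap.comp_apply, AlgHom.toLinearMap_apply, LinearMap.mulLeft_apply, add_mul]
      refine add_mem (mem_sup_right ⟨fun x y => ?_, mul_mem (b2 c2) (b3 _), fun a ha ha' v' => ?_⟩)
        (mem_sup_left ⟨((hZ _ _).1 c3.2.1 j hj _).eq ▸ c3.2.2 j hj (Ne.symm b1.1) v,
          (Z _).mul_mem (b2 c3.2.1) (b3 _)⟩)
      · rw [End.mul_apply, hs p c1, adj, (d1 j hj _).eq, End.mul_apply]
      rw [Finset.mem_insert, not_or] at ha
      have := hm _ (hp a j ha.1 ha' (Ne.symm b1.1) v' v) (by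
        rw [(hρ.comm a j ha.1 _ _).symm.mul_mul_mul_comm, rk_mul, H12.alt_B_self]; simp) p c1
      rwa [mul_assoc, ← (d1 j hj _).eq, ← mul_assoc p, (d1 a ha.2 _).eq, mul_assoc, ← two_smul F,
        smul_mem_iff _ h2] at this
  obtain ⟨p, c1, m, c3, rfl⟩ := mem_sup.1 (key (Finset.univ.erase j₀) (by simp) A
    ((hZ _ _).2 fun l hl => by simpa [show l = j₀ by simpa using hl] using hA))
  rw [show m = 0 from LinearMap.ext fun y => hC.eq_zero' fun x => mul_left_cancel₀ h2 (by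
    have := hA' x y
    simp only [LinearMap.add_apply, map_add] at this
    linear_combination c3.1 x y + hs p c1.1 x y - this), add_zero]
  exact c1.1

end Gen

variable {F : Type*} [Field F] {U W : Type*} [AddCommGroup U] [Module F U] [AddCommGroup W]
  [Module F W] {T T₁ : FormType F} {C : CForm T (U ⊗[F] W)} {C₁ : CForm T₁ U}
  {C₂ : CForm (altType F) W} {X H G : Subgroup ((U ⊗[F] W) ≃ₗ[F] (U ⊗[F] W))}
  {R : Subgroup (W ≃ₗ[F] W)} {ι : Type*} [DecidableEq ι]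
  {ρ : ι → End F W →ₐ[F] End F (U ⊗[F] W)} {j₀ : ι} {w y : W} {S B : End F (U ⊗[F] W)}
  [FiniteDimensional F U] [FiniteDimensional F W]

theorem TF.adj_eq (h : TF C C₁ C₂) {A : End F U}
    (hA : ∀ u u', C₁.B (A u) u' + (altType F).ε * C₁.B u (A u') = 0) (x y : U ⊗[F] W) :
    C.B (A.rTensor W x) y = C.B x (A.rTensor W y) := by
  rw [h.B_rT, show h.nd₁.adj A = A from LinearMap.ext fun u => h.nd₁.ext fun u' => by
    rw [h.nd₁.B_adj]; linear_combination -hA u u' + C₁.B u (A u') * alt_eps (F := F)]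

theorem TZ.zJ_adj (h : TZ C C₁ C₂ X R) (hS : S ∈ zJ C₂ X) (x y : U ⊗[F] W) :
    C.B (S x) y = C.B x (S y) := by
  obtain ⟨w, a1, a2⟩ := h.fw.ex
  have := nontrivial_of_ne w 0 a1
  obtain ⟨A, rfl⟩ := exists_rTensor hS.1
  obtain ⟨t, b1, b2⟩ := hS.2 w a2
  obtain ⟨A', b3, b4⟩ := h.of_cen (h.le b1) a2 a1 fun x hx => by simp [b2, nW_apply, hx]
  obtain ⟨r, hr⟩ := h.nd₂.exists_eq a1 1
  obtain rfl : A = A' := LinearMap.ext fun u => tmul_left_inj a1 (by
    simpa [b2, nW_apply, hr] using b4 (u ⊗ₜ r))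
  exact h.adj_eq b3 x y

theorem TZ.zJ_jordan (h : TZ C C₁ C₂ X R) (h2 : (2 : F) ≠ 0) (hS : S ∈ zJ C₂ X) (h0 : S * S = 0)
    (hB : B ∈ zJ C₂ X) : S * B + B * S ∈ zJ C₂ X := by
  obtain ⟨w, a1, a2⟩ := h.fw.ex
  obtain ⟨w', e⟩ := exists_hypPair h.nd₂ a1 a2
  have h3 : ∀ B, S * (S * B) = 0 := fun B => by rw [← mul_assoc, h0, zero_mul]
  have key : ∀ c : F, (1 - c • S) * B * (1 - c • S) ∈ zJ C₂ X := fun c => by
    have a3 : c * (altType F).ε + (altType F).σ c = 0 := by simp [altType]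
    have a4 := fun E => (Commute.one_left _).sub_left ((hS.1 E).smul_left c)
    refine mem_zJ h a2 a1 (fun E => ((a4 E).mul_left (hB.1 E)).mul_left (a4 E)) ?_
    convert (levi hS (h.one_zJ a3) h0 a3 e).conj_sq (hB.2 w a2) (by
      simp [mul_sub, sub_mul, mul_assoc, nW_comm hS.1, h3]) using 1
    simp only [mul_add, add_mul, mul_sub, sub_mul, mul_smul_comm, smul_mul_assoc, mul_assoc,
      nW_comm hS.1, nW_comm hB.1, nW_mul, nW_mul', e.B_ee, e.B_fe, e.pair, one_mul, mul_one,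
      zero_smul, smul_zero, mul_zero, zero_mul, alt_eps]
    module
  refine ((zS C₂ X h2).smul_mem_iff h2).1 (show _ ∈ zJ C₂ X from ?_)
  convert sub_mem (key (-1)) (key 1) using 1
  simp only [mul_sub, sub_mul, mul_smul_comm, smul_mul_assoc, one_mul, mul_one]
  module

theorem TWr.le_two [Finite ι] (h : TWr C C₁ C₂ H G R ρ j₀) (hd : finrank F W = 2) (h2 : (2 : F) ≠ 0)
    (a1 : H ⊓ G ≤ X) (a2 : X ≤ G) (hX : TZ C C₁ C₂ X R) (hS : S ∈ zJ C₂ X)
    (hn : ¬ ∃ c : F, S = c • 1) : G ≤ X := by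
  have adj : ∀ j w x y, C.B (ρ j ((C₂.B w).smulRight w) x) y =
      -C.B x (ρ j ((C₂.B w).smulRight w) y) := fun j w x y => by
    simpa using h.adj j _ (-(C₂.B w).smulRight w) (fun x y => by
      simp [alt_sigma, H12.alt_symm w x, mul_comm]) x y
  have hs := fun S => hX.zJ_adj (S := S)
  have hm := fun S a b B => hX.zJ_jordan h2 (S := S) (B := B) a b
  have h0 : ∀ A ∈ zJ C₂ X, ∀ E, Commute A (ρ j₀ E) := fun A a => h.base ▸ a.1
  obtain ⟨a, a', b1, b2, b3, b4⟩ := h.fw.exists_pr (J := zS C₂ X h2) hd h2 h.toFam h.nd adj hs hm h0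
    (fun j β hβ A hA => h.conj_zJ a1 hA j hβ) hS hn
  let P : ι → ι → Prop := fun a a' => ∀ v v',
    ρ a ((C₂.B v).smulRight v) * ρ a' ((C₂.B v').smulRight v') ∈ zJ C₂ X
  have key : ∀ j l, j ≠ j₀ → l ≠ j₀ → ∀ a a', P a a' → P (Equiv.swap j l a) (Equiv.swap j l a') :=
    fun j l c1 c2 a a' p v v' => by
      by_cases e : j = l
      · simpa [e] using p v v'
      obtain ⟨c, c3, c4⟩ := h.tr' a1 e c1.symm c2.symm
      rw [← c4, ← c4, ← cj_mul']
      exact zJ_conj (p v v') c3 fun E => by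
        rw [← h.base, c4, Equiv.swap_apply_of_ne_of_ne c1.symm c2.symm]
  refine h.fin h.rg a2 h.dimU h.fw.ex fun w c1 c2 g hg => hX.qf_of_top (fun w _ c A y hy => ?_)
    (fun D hD => h.fw.mem_of_pr (J := zS C₂ X h2) hd h2 h.toFam h.nd adj hs hm h0
      (fun a => (h.σ₂ a).symm) (one_smul F (1 : End F (U ⊗[F] W)) ▸ hX.one_zJ (by simp [altType]))
      (fun j l c1 c2 c3 => ?_) (h.base ▸ comm_rTensor D) (h.adj_eq hD)) w c1 c2 g (h.rg.le hg)
  · obtain ⟨c, rfl⟩ := mem_span_singleton.1 (h.fw.mem_two hd c hy)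
    exact qw_zero.congr fun x hx => by simp [cB_smul, hx]
  have d1 := key a j b2 c2 a a' b4
  have d2 : Equiv.swap a j a' ≠ j₀ := by
    rw [Ne, Equiv.swap_apply_eq_iff, Equiv.swap_apply_of_ne_of_ne b2.symm c2.symm]; exact b3
  have d3 : j ≠ Equiv.swap a j a' := by
    rw [Ne, eq_comm, Equiv.swap_apply_eq_iff, Equiv.swap_apply_right]; exact b1.symm
  have := key _ l d2 c3 _ _ d1
  rwa [Equiv.swap_apply_left, Equiv.swap_apply_left, Equiv.swap_apply_of_ne_of_ne d3 c1] at this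

end H12
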