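import Cfsg.Agent.H12.WR14
import Cfsg.Agent.S0801

/-!
# Groups generated by two quadratic root groups
-/

set_option autoImplicit false
set_option maxHeartbeats 400000

namespace H12

open Module Submodule

theorem dickson_diag {K : Type*} [Field K] [Finite K] (h2 : (2 : K) ≠ 0) {l : K} (h0 : l ≠ 0)
    (h1 : l ^ 2 ≠ -1) (P : K → K → K → K → Prop) (p1 : P 1 0 0 1)
    (pL : ∀ (n : ℤ) a b c d, P a b c d → P a b (c + n * a) (d + n * b))
    (pU : ∀ (n : ℤ) a b c d, P a b c d → P (a + n * l * c) (b + n * l * d) c d) {μ : K}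
    (hμ : μ ∈ Subfield.closure {l}) (μ0 : μ ≠ 0) : P μ 0 0 μ⁻¹ := by
  let E := Subfield.closure {l}
  have := Fintype.ofFinite E
  let l' : E := ⟨l, Subfield.subset_closure rfl⟩
  have h := ((Cfsg.Agent.S0801.result (F := E) (fun e => h2 (congrArg Subtype.val e)) l'
    (fun e => h0 (congrArg Subtype.val e)) (eq_top_iff.2 fun x _ => by
      have : x.1 ∈ (Subfield.closure {l'}).map E.subtype := by
        rw [RingHom.map_field_closure, Set.image_singleton]; exact x.2
      obtain ⟨y, a, b⟩ := this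
      exact Subtype.ext b ▸ a)).resolve_right fun e => h1 (congrArg Subtype.val e.2.1)).1
  have key : ∀ g : Matrix.SpecialLinearGroup (Fin 2) E, P (g 0 0) (g 0 1) (g 1 0) (g 1 1) := fun g => by
    have hg := h.ge (Subgroup.mem_top g)
    induction hg using Subgroup.closure_induction_left with
    | one => simpa using p1
    | mul_left x hx y _ ih =>
      rcases hx with hx | hx
      · simpa [hx, Matrix.mul_apply, add_comm] using pL 1 _ _ _ _ ih
      · simpa [hx, Matrix.mul_apply] using pU 1 _ _ _ _ ih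
    | inv_mul_cancel x hx y _ ih =>
      rcases hx with hx | hx
      · simpa [hx, Matrix.mul_apply, Matrix.SpecialLinearGroup.coe_inv, add_comm] using
          pL (-1) _ _ _ _ ih
      · simpa [hx, Matrix.mul_apply, Matrix.SpecialLinearGroup.coe_inv] using pU (-1) _ _ _ _ ih
  have h3 : (⟨μ, hμ⟩ : E) ≠ 0 := fun e => μ0 (congrArg Subtype.val e)
  simpa using key ⟨!![⟨μ, hμ⟩, 0; 0, ⟨μ, hμ⟩⁻¹], by simp [h3]⟩

variable {F A V : Type*} [Field F] [CommRing A] [Algebra F A] [AddCommGroup V] [Module F V]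
  [Module A V] [IsScalarTower F A V] {X : Subgroup (V ≃ₗ[F] V)} {N N' : End A V} {z : A}
  {α β γ δ : A} {y : V ≃ₗ[F] V} {x : V}

theorem exists_resField [Finite V] (hx : x ≠ 0) :
    ∃ r : A, ∃ I : Ideal A, I.IsMaximal ∧ Finite (A ⧸ I) ∧ ∀ s, s ∈ I ↔ s • r • x = 0 := by
  obtain ⟨S, a, b⟩ := (eq_bot_or_exists_atom_le (A ∙ x)).resolve_left (by simpa)
  have := isSimpleModule_iff_isAtom.2 a
  have := IsSimpleModule.nontrivial A S
  obtain ⟨e, he⟩ := exists_ne (0 : S)
  obtain ⟨r, hr⟩ := mem_span_singleton.1 (b e.2)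
  exact ⟨r, _, IsSimpleModule.ker_toSpanSingleton_isMaximal A he,
    .of_equiv _ (LinearMap.quotKerEquivRange _).symm.toEquiv, fun s => by simp [hr, Subtype.ext_iff]⟩

variable (X N N' z) in
/-- Two quadratic root groups in general position. -/
structure Rk1 : Prop where
  sq : ∀ v, N (N v) = 0
  sq' : ∀ v, N' (N' v) = 0
  hz : ∀ v, N' (N v) = z • v - N (N' v)
  rt : ∀ c : F, ∃ t ∈ X, ∀ v, t v = v + c • N v
  rt' : ∀ c : F, ∃ t ∈ X, ∀ v, t v = v + c • N' v
  ker : ∀ v, N v = 0 → ∃ u, N u = v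
  two : ∀ v, N' v = 0 → N' (N v) = 0 → N v = 0
  two' : ∀ v, N v = 0 → N (N' v) = 0 → N' v = 0
  ne : ∃ v, N' (N v) ≠ 0
  max : ∀ y ∈ X, ∀ x, N x = 0 → N' x ≠ 0 → N (y x) = 0 → (∀ x, N x = 0 → N' x = 0 → N (y x) = 0) →
    (∀ v, N (y (N v)) = 0) ∨ ∀ v, y (N (y⁻¹ (N v))) = N (y (N (y⁻¹ v)))
  cen : ∀ y ∈ X, (∀ v, N (y (N v)) = 0) → ∃ κ : F, ∀ v, y (N v) = κ • N (y v)

variable (X N N' z y α β γ δ) in
/-- The coordinates of an element. -/
def Tp : Prop := y ∈ X ∧ α * (α + δ * z) - β * γ * z = 1 ∧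
  ∀ v, y v = α • v + β • N v + γ • N' v + δ • N (N' v)

theorem tp_one : Tp X N N' z 1 0 0 0 1 := ⟨one_mem _, by simp, by simp⟩

namespace Rk1

variable (h : Rk1 X N N' z)
include h

theorem mul (hy : Tp X N N' z α β γ δ y) (c : F) :
    ∃ y, Tp X N N' z α (β + algebraMap F A c * α) γ (δ + algebraMap F A c * γ) y :=
  let ⟨t, a, b⟩ := h.rt c
  ⟨t * y, mul_mem a hy.1, by linear_combination hy.2.1, fun v => by
    simp only [LinearEquiv.mul_apply, b, hy.2.2, map_add, map_smul, h.sq]; module⟩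

theorem mul' (hy : Tp X N N' z α β γ δ y) (c : F) :
    ∃ y, Tp X N N' z (α + algebraMap F A c * β * z) β (γ + algebraMap F A c * (α + δ * z))
      (δ - algebraMap F A c * β) y :=
  let ⟨t, a, b⟩ := h.rt' c
  ⟨t * y, mul_mem a hy.1, by linear_combination hy.2.1, fun v => by
    simp only [LinearEquiv.mul_apply, b, hy.2.2, map_add, map_smul, h.sq', h.hz, map_zero]; module⟩

theorem nn (hx : N x = 0) : N (N' x) = z • x :=
  (sub_eq_zero.1 (by rw [← h.hz, hx, map_zero])).symm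

theorem inj (hx : N x = 0) (e : z • z • x = 0) : z • x = 0 := by
  rw [← h.nn hx] at e ⊢
  exact h.two _ (h.sq' x) (h.two' _ (h.sq _) ((h.nn (h.sq _)).trans e))

theorem star (h2 : (2 : F) ≠ 0) (hy : Tp X N N' z α β γ δ y) (hx : N x = 0) (e : z • x ≠ 0)
    (e' : γ • z • x = 0) (v : V) : γ • z • N v = 0 := by
  have a1 : ∀ x, N x = 0 → N (y x) = γ • z • x := fun x hx => by simp [hy.2.2, hx, h.nn hx, h.sq]
  rcases h.max y hy.1 x hx (fun c => e (by rw [← h.nn hx, c, map_zero])) (by rw [a1 x hx, e'])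
    (fun x a b => by rw [a1 x a, ← h.nn a, b, map_zero, smul_zero]) with c | c
  · rw [← a1 _ (h.sq v), c]
  have a2 : ∀ v, y⁻¹ v = (α + δ * z) • v - β • N v - γ • N' v - δ • N (N' v) := fun v =>
    y.injective (by
      rw [apply_inv_apply, hy.2.2]
      simp only [map_add, map_sub, map_smul, h.sq, h.sq', h.hz, map_zero]
      linear_combination (norm := module) -hy.2.1 • v)
  have a3 : ∀ v, (γ * z) • ((2 * (α + δ * z)) • N v + γ • N' (N v) - γ • N (N' v)) = 0 := fun v => by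
    have := c v
    simp only [a2, hy.2.2, map_add, map_sub, map_smul, h.sq, h.sq', h.hz, map_zero] at this ⊢
    linear_combination (norm := module) -this
  have a4 : ∀ v, (γ * z * γ * z) • N v = 0 := fun v => by
    have := a3 (N v)
    simp only [h.sq, h.nn (h.sq v), map_zero] at this
    linear_combination (norm := module) -this
  have a5 := congrArg N' (a4 v)
  rw [map_smul, map_zero] at a5
  have a6 : (2 : F) • z • z • γ • N v = 0 := by
    rw [two_smul]
    linear_combination (norm := module) (α * z) • a3 v - α • a5 + α • a4 (N' v) -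
      (2 * β * z) • a4 v - hy.2.1 • (2 * γ * z * z) • N v
  rw [smul_comm, h.inj (by simp [h.sq]) ((smul_eq_zero_iff_right h2).1 a6)]

theorem kappa (hy : Tp X N N' z α β γ δ y) (e : ∀ v, γ • z • N v = 0) : ∃ κ : F,
    (∀ v, (α + δ * z - algebraMap F A κ * α) • z • N v = 0) ∧
      (κ ≠ 1 → ∀ x, N x = 0 → N' x = 0 → x = 0) := by
  obtain ⟨κ, hκ⟩ := h.cen y hy.1 fun v => by simp [hy.2.2, h.nn (h.sq v), h.sq, e]
  simp only [hy.2.2, map_add, map_smul, h.sq, h.nn (h.sq _)] at hκ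
  refine ⟨κ, fun v => ?_, fun a x b c => ?_⟩
  · have := congrArg N' (e v)
    rw [map_smul, map_smul, map_zero] at this
    linear_combination (norm := module) z • hκ v - this + κ • e (N' v)
  obtain ⟨v, rfl⟩ := h.ker x b
  have d1 : z • N v = 0 := by rw [← h.nn b, c, map_zero]
  have d2 : N (algebraMap F A κ • γ • N' v) = (1 - κ) • α • N v := by
    rw [map_smul, map_smul]
    linear_combination (norm := module) δ • d1 + γ • c - hκ v
  have d3 := h.two (algebraMap F A κ • γ • N' v) (by simp [h.sq']) (by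
    rw [d2, ← algebraMap_smul A, map_smul, map_smul, c]; simp)
  rw [d2, smul_eq_zero_iff_right (sub_ne_zero.2 a.symm)] at d3
  exact y.injective (by simp [hy.2.2, b, c, d3])

theorem main [Finite V] (h2 : (2 : F) ≠ 0) {a : F} (a0 : a ≠ 0) (a1 : a * a ≠ 1) :
    ∃ y ∈ X, ∃ ν c r s t : F, c ≠ 0 ∧ (∀ v, y (N v) = ν • N v) ∧
      (∀ v, N' (N v) = r • v + s • N v + t • y v) ∧ ∀ v, N' v = 0 → N' (N v) = c • v := by
  obtain ⟨v, hv⟩ := h.ne
  obtain ⟨r, I, b1, b2, b3⟩ := exists_resField (A := A) (x := z • N v) fun e =>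
    hv (h.two' _ (h.sq v) (by rwa [h.nn (h.sq v)]))
  letI := Ideal.Quotient.field I
  let π := Ideal.Quotient.mkₐ F I
  have b4 : ∀ s, π s = 0 ↔ s • z • N (r • v) = 0 := fun s => by
    rw [map_smul, smul_comm z]; exact Ideal.Quotient.eq_zero_iff_mem.trans (b3 s)
  generalize r • v = v at b4
  have b5 : z • N v ≠ 0 := fun e => by simpa [e] using b4 1
  have b6 : π z ≠ 0 := fun e => b5 (h.inj (h.sq v) ((b4 z).1 e))
  have b7 : ∀ {α β γ δ y}, Tp X N N' z α β γ δ y → π γ = 0 → (∀ v, γ • z • N v = 0) ∧ ∃ κ : F,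
      π (α + δ * z) = algebraMap _ _ κ * π α ∧ (κ ≠ 1 → ∀ x, N x = 0 → N' x = 0 → x = 0) :=
    fun hy e =>
      have c := h.star h2 hy (h.sq v) b5 ((b4 _).1 e)
      let ⟨κ, c1, c2⟩ := h.kappa hy c
      ⟨c, κ, by simpa [sub_eq_zero] using (b4 _).2 (c1 v), c2⟩
  have h2' : (2 : A ⧸ I) ≠ 0 := map_ofNat (algebraMap F (A ⧸ I)) 2 ▸ (map_ne_zero _).2 h2
  obtain ⟨c, hc⟩ : π z ∈ (algebraMap F (A ⧸ I)).fieldRange := by
    obtain ⟨g, g0, hg⟩ : ∃ g : F, g ≠ 0 ∧ (algebraMap _ _ g * π z) ^ 2 ≠ -1 := by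
      by_cases e : π z ^ 2 = -1
      · exact ⟨a, a0, fun e' => a1 ((algebraMap F (A ⧸ I)).injective (by
          rw [map_mul, map_one]; linear_combination algebraMap _ _ a ^ 2 * e - e'))⟩
      · exact ⟨1, one_ne_zero, by simpa⟩
    have g1 := (map_ne_zero (algebraMap F (A ⧸ I))).2 g0
    have key : ∀ μ ∈ Subfield.closure {algebraMap _ _ g * π z},
        μ * μ ∈ (algebraMap F (A ⧸ I)).fieldRange := fun μ hμ => by
      by_cases e : μ = 0
      · simp [e]
      obtain ⟨α, β, γ, δ, y, c1, c2, c3, -, c4⟩ := dickson_diag h2' (mul_ne_zero g1 b6) hg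
        (fun a b c d => ∃ α β γ δ y, Tp X N N' z α β γ δ y ∧ a = π α ∧ b = π γ * π z ∧ c = π β ∧
          d = π (α + δ * z)) ⟨_, _, _, _, _, tp_one, by simp⟩ (by
          rintro n _ _ _ _ ⟨α, β, γ, δ, y, c, rfl, rfl, rfl, rfl⟩
          obtain ⟨y, c⟩ := h.mul c n
          exact ⟨_, _, _, _, _, c, rfl, rfl, by simp, by simp; ring⟩) (by
          rintro n _ _ _ _ ⟨α, β, γ, δ, y, c, rfl, rfl, rfl, rfl⟩
          obtain ⟨y, c⟩ := h.mul' c (n * g)
          exact ⟨_, _, _, _, _, c, by simp; ring, by simp; ring, rfl, by simp; ring⟩) hμ e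
      obtain ⟨-, κ, c5, -⟩ := b7 c1 ((mul_eq_zero.1 c3.symm).resolve_right b6)
      rw [← c4, ← c2] at c5
      refine ⟨κ⁻¹, ?_⟩
      rw [map_inv₀]
      exact inv_eq_of_mul_eq_one_right (by rw [← mul_assoc, ← c5, inv_mul_cancel₀ e])
    have c1 := Subfield.subset_closure (s := {algebraMap _ _ g * π z}) rfl
    convert div_mem (sub_mem (sub_mem (key _ (add_mem c1 (one_mem _))) (key _ c1)) (one_mem _))
      (mul_mem (ofNat_mem _ 2) ⟨g, rfl⟩) using 1
    field_simp; ring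
  have c0 : c ≠ 0 := by rintro rfl; exact b6 (by simpa using hc.symm)
  have a2 : a - 1 ≠ 0 := fun e => a1 (by linear_combination (a + 1) * e)
  have a3 : a + 1 ≠ 0 := fun e => a1 (by linear_combination (a - 1) * e)
  obtain ⟨p, hp⟩ : ∃ p, p * c = a - 1 := ⟨(a - 1) / c, by field_simp⟩
  obtain ⟨q, hq⟩ : ∃ q, q * a = -p := ⟨-p / a, by field_simp⟩
  have p0 : p ≠ 0 := by rintro rfl; exact a2 (by simpa using hp.symm)
  have q0 : q ≠ 0 := by rintro rfl; exact p0 (by simpa using hq)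
  have q1 : q - p ≠ 0 := fun e => mul_ne_zero p0 a3 (by linear_combination hq - a * e)
  have q2 : q + p = -(p * q * c) := by linear_combination hq + q * hp
  obtain ⟨y, d1⟩ := h.mul' tp_one q
  obtain ⟨y, d1⟩ := h.mul d1 1
  obtain ⟨y, d1⟩ := h.mul' d1 p
  simp only [map_one, mul_zero, zero_mul, add_zero, zero_add, mul_one, one_mul, sub_zero] at d1
  rw [show algebraMap F A q + algebraMap F A p * (1 + algebraMap F A q * z) =
    algebraMap F A (p * q) * (z - algebraMap F A c) by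
      have := congrArg (algebraMap F A) q2
      simp only [map_add, map_mul, map_neg] at this ⊢
      linear_combination this] at d1
  obtain ⟨d2, κ, d3, d4⟩ := b7 d1 (by simp [← hc])
  replace d4 := d4 (by
    rintro rfl
    have d5 := congrArg π d1.2.1
    rw [map_sub, map_mul, d3] at d5
    refine a1 ((algebraMap F (A ⧸ I)).injective ?_)
    simpa [← hc, eq_add_of_sub_eq hp.symm, add_comm] using d5)
  have d5 : ∀ v, (z - algebraMap F A c) • N v = 0 := fun v => d4 _ (by simp [h.sq])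
    (h.two' _ (by simp [h.sq]) (by
      rw [h.nn (by simp [h.sq]), ← smul_eq_zero_iff_right (mul_ne_zero p0 q0)]
      linear_combination (norm := module) d2 v))
  have d6 : ∀ v, (z - algebraMap F A c) • N' v = 0 := fun v =>
    d4 _ (by rw [map_smul, d5]) (by simp [h.sq'])
  have d7 : ∀ v : V, z • v = c • v := fun v => by
    simpa [sub_smul, sub_eq_zero] using d4 ((z - algebraMap F A c) • v) (by rw [map_smul, d5])
      (by rw [map_smul, d6])
  have d8 : ∀ v, y v = a • v + N v + (q - p) • N (N' v) := fun v => by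
    rw [d1.2.2]
    linear_combination (norm := module) p • d7 v + hp • v + (p * q) • d6 v
  refine ⟨y, d1.1, a + (q - p) * c, c, c + (q - p)⁻¹ * a, (q - p)⁻¹, -(q - p)⁻¹, c0, fun v => ?_,
    fun v => ?_, fun v e => by rw [h.hz, e, d7]; simp⟩
  · rw [d8, h.sq, h.nn (h.sq v), d7]; module
  · rw [d8, h.hz, d7]
    linear_combination (norm := module) (inv_mul_cancel₀ q1) • N (N' v)

end Rk1

open Polynomial in
theorem rk1_main [Finite V] {N N' : End F V} (h2 : (2 : F) ≠ 0) {a : F} (a0 : a ≠ 0) (a1 : a * a ≠ 1)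
    (sq : ∀ v, N (N v) = 0) (sq' : ∀ v, N' (N' v) = 0)
    (rt : ∀ c : F, ∃ t ∈ X, ∀ v, t v = v + c • N v) (rt' : ∀ c : F, ∃ t ∈ X, ∀ v, t v = v + c • N' v)
    (ker : ∀ v, N v = 0 → ∃ u, N u = v) (two : ∀ v, N' v = 0 → N' (N v) = 0 → N v = 0)
    (two' : ∀ v, N v = 0 → N (N' v) = 0 → N' v = 0) (ne : ∃ v, N' (N v) ≠ 0)
    (max : ∀ y ∈ X, ∀ x, N x = 0 → N' x ≠ 0 → N (y x) = 0 →
      (∀ x, N x = 0 → N' x = 0 → N (y x) = 0) →
        (∀ v, N (y (N v)) = 0) ∨ ∀ v, y (N (y⁻¹ (N v))) = N (y (N (y⁻¹ v))))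
    (cen : ∀ y ∈ X, (∀ v, N (y (N v)) = 0) → ∃ κ : F, ∀ v, y (N v) = κ • N (y v)) :
    ∃ y ∈ X, ∃ ν c r s t : F, c ≠ 0 ∧ (∀ v, y (N v) = ν • N v) ∧
      (∀ v, N' (N v) = r • v + s • N v + t • y v) ∧ ∀ v, N' v = 0 → N' (N v) = c • v := by
  letI : Module F[X] V := Module.compHom V (aeval (N * N' + N' * N)).toRingHom
  have e : ∀ (p : F[X]) (v : V), p • v = aeval (N * N' + N' * N) p v := fun _ _ => rfl
  haveI : IsScalarTower F F[X] V := ⟨fun c p v => by simp [e]⟩
  have hc : ∀ M : End F V, (∀ v, (N * N' + N' * N) (M v) = M ((N * N' + N' * N) v)) →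
      ∀ (p : F[X]) v, M (p • v) = p • M v := fun M a p v => by
    induction p using Polynomial.induction_on' with
    | add p q a b => simp [add_smul, a, b]
    | monomial n c =>
      have : Commute (N * N' + N' * N) M := LinearMap.ext a
      simpa [e] using congrArg (c • ·) (LinearMap.congr_fun (this.pow_left n).eq v).symm
  exact Rk1.main (A := F[X]) (N := ⟨N.toAddHom, hc N (by simp [sq])⟩)
    (N' := ⟨N'.toAddHom, hc N' (by simp [sq'])⟩) (z := Polynomial.X)
    ⟨sq, sq', fun v => by simp [e], rt, rt', ker, two, two', ne, max, cen⟩ h2 a0 a1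

end H12
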