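import Cfsg.Agent.H12.WR15

/-!
# Tensor powers of the symplectic plane
-/

set_option autoImplicit false
set_option maxHeartbeats 400000

namespace H12

open Module H11 Submodule TensorProduct H13.KL

variable {F : Type*} [Field F] {U W : Type*} [AddCommGroup U] [Module F U] [AddCommGroup W]
  [Module F W] {T T₁ : FormType F} {C : CForm T (U ⊗[F] W)} {C₁ : CForm T₁ U}
  {C₂ : CForm (altType F) W} {X H G : Subgroup ((U ⊗[F] W) ≃ₗ[F] (U ⊗[F] W))}
  {ι : Type*} [DecidableEq ι] {ρ : ι → End F W →ₐ[F] End F (U ⊗[F] W)} {j₀ : ι} {w : W}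
  {x : U ⊗[F] W} {g : (U ⊗[F] W) ≃ₗ[F] (U ⊗[F] W)} {a : F}
  [FiniteDimensional F U] [FiniteDimensional F W]

theorem rA_mem_tl (D : End F W) (x : U ⊗[F] W) : rA U D x ∈ tl U (LinearMap.range D) := by
  induction x with
  | zero => simp
  | tmul u w => exact tmul_mem_tl _ ⟨w, rfl⟩
  | add x y a b => rw [map_add]; exact add_mem a b

namespace TZ

variable (h : TZ C C₁ C₂ X C₂.isom) (hd : finrank F W = 2)
include h hd

theorem ker_two (hw : w ≠ 0) : nW U C₂ w w x = 0 ↔ x ∈ tl U (F ∙ w) := by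
  rw [nW_apply]
  refine ⟨fun e => tl_mono (fun v hv => h.fw.mem_two hd hw (C₂.mem_perp_singleton.1 hv))
    (h.perp_tl ▸ h.mem_perp_point.2 (tmul_left_inj hw (e.trans (zero_tmul U w).symm))), fun e => ?_⟩
  obtain ⟨u, rfl⟩ := mem_tl_singleton.1 e
  simp [H12.alt_B_self]

variable (h2 : (2 : F) ≠ 0) (a0 : a ≠ 0) (a1 : a * a ≠ 1) (hs : ∀ S ∈ zJ C₂ X, ∃ c : F, S = c • 1)
include h2 a0 a1 hs

theorem bp_two : BP X (PF C₂) := h.bp hd.ge (.inr h2) fun w w₁ c1 c2 g =>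
  h.pt (fun w c1 c2 t ht e0 _ => h.range_of_cen hs ht c1 c2 fun x hx => by
    obtain ⟨u, rfl⟩ := mem_tl_singleton.1 ((h.ker_two (x := x) hd c2).1 (by simp [nW_apply, hx]))
    exact e0 u) (fun w w' e =>
      let ⟨k, f1, f2, f3, _⟩ := e.exists_torus h.nd₂ a0
      ⟨k, k.2, a, 1, a⁻¹, fun c => a1 (by field_simp at c; linear_combination -c),
        fun c => a1 (by simp [inv_eq_one.1 c]), f1, f2, by simpa using f3⟩) c1 c2

theorem gd_sp [Finite F] (hg : g ∈ X) : Gd g := by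
  have hb := h.bp_two hd h2 a0 a1 hs
  have hS : S2 X (PF C₂) := hb.s2a (by
    rintro w _ ⟨b1, b2, c, b3, -, rfl⟩
    exact ⟨a, fun e => a1 (by simp [e]), b1, b2, a * c, mul_ne_zero a0 b3, by simp [altType],
      smul_smul ..⟩)
  have hP : ∀ w ≠ 0, PF C₂ w (C₂.B w) := fun w hw =>
    ⟨H12.alt_N w, hw, 1, one_ne_zero, by simp [altType], (one_smul ..).symm⟩
  by_contra hg'
  obtain ⟨w, b1, -⟩ := h.fw.ex
  obtain ⟨w, w', k, hk⟩ := exists_maxB (hP w b1) hg hg'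
  obtain ⟨_, -, w0, -⟩ := hk.hw
  obtain ⟨_, -, w0', -⟩ := hk.hw'
  have e1 := fun x => h.ker_two hd w0 (x := x)
  have e2 : ∀ x, cj k (nW U C₂ w' w') x = 0 ↔ x ∈ pM k w' := fun x => by
    rw [mem_map_iff, ← h.ker_two hd w0', cj_apply, EmbeddingLike.map_eq_zero_iff]
  have e3 : ∀ w x, nW U C₂ w w x ∈ tl U (F ∙ w) := fun w x =>
    nW_apply w w x ▸ tmul_mem_tl _ (mem_span_singleton_self w)
  have e4 : ∀ (c : F) w, Sq X (c • nW U C₂ w w) := fun c w => by
    simpa using (h.one_zJ (c := c) (by simp [altType])).2 w (H12.alt_N w)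
  obtain ⟨r, hr⟩ := h.nd₂.exists_eq w0 1
  have := Module.finite_of_finite F (M := U ⊗[F] W)
  obtain ⟨y, c1, ν, c, p, s, t, c2, c3, c4, c5⟩ := rk1_main (X := X) (N := nW U C₂ w w)
    (N' := cj k (nW U C₂ w' w')) h2 a0 a1 (fun v => (e1 _).2 (e3 _ _))
    (fun v => (e2 _).2 ⟨_, e3 _ _, rfl⟩) (e4 · w) (fun c => by
      simpa [Sq] using (e4 c w').conj hk.mem) (fun v hv => by
      obtain ⟨u, rfl⟩ := mem_tl_singleton.1 ((e1 v).1 hv)
      exact ⟨u ⊗ₜ r, by simp [nW_apply, hr]⟩)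
    (fun v a b => (e1 v).2 (hb.caseII hS hk (hP w w0) (H12.alt_B_self w) ((e2 _).1 a)
      (nW_apply w w v ▸ (e2 _).1 b)))
    (fun v a b => (e2 v).2 (mem_map_iff.2 (hb.caseII hS hk.symm (hP w' w0') (H12.alt_B_self w')
      ⟨v, (e1 _).1 a, rfl⟩ (mem_map_iff.2 (by simpa [nW_apply, cB] using (e1 _).1 b)))))
    (by
      by_contra hc
      push Not at hc
      refine TZ.not_le hb hk.symm (y := w') ?_
      rintro _ ⟨x, hx, rfl⟩
      obtain ⟨u, rfl⟩ := mem_tl_singleton.1 hx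
      simpa [nW_apply, hr] using mem_map_iff.1 ((e2 _).1 (hc (u ⊗ₜ r))))
    (fun y hy x a b c d => by
      have : Gd y := by_contra fun e => by
        have f1 := hk.max w w _ _ (hP w w0) (hP w w0) y hy e
        have f2 := finrank_mono (show (tl U (F ∙ w) ⊓ pM k w' ⊔ F ∙ x).map (y : _ →ₗ[F] _) ≤
            tl U (F ∙ w) ⊓ pM y w from le_inf (map_le_iff_le_comap.2 (sup_le
              (fun x hx => (e1 _).1 (d x ((e1 _).2 hx.1) ((e2 _).2 hx.2)))
              ((span_singleton_le_iff_mem _ _).2 ((e1 _).1 c))))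
            (map_mono (sup_le inf_le_left ((span_singleton_le_iff_mem _ _).2 ((e1 _).1 a)))))
        have f3 := finrank_lt_finrank_of_lt (SetLike.lt_iff_le_and_exists.2 ⟨le_sup_left, x,
          mem_sup_right (mem_span_singleton_self x), fun e => b ((e2 _).2 e.2)⟩ :
            tl U (F ∙ w) ⊓ pM k w' < tl U (F ∙ w) ⊓ pM k w' ⊔ F ∙ x)
        rw [finrank_map_equiv] at f2
        omega
      refine this.imp (fun e v => ?_) fun e v => LinearMap.congr_fun (e _ _).eq v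
      obtain ⟨α, β, e⟩ := mem_tenStab.1 e
      obtain ⟨u, rfl⟩ := mem_tl_singleton.1 ((e1 x).1 a)
      rw [nW_apply w w v, e, e1]
      exact tmul_mem_tl _ (mem_of_tmul_mem_tl (u := α u) (by
        rw [EmbeddingLike.map_ne_zero_iff]; rintro rfl; simp at b) (e u w ▸ (e1 _).1 c)))
    (fun y hy e => by
      obtain ⟨t, f1, f2⟩ := (e4 1 w).conj hy
      obtain ⟨A, -, f3⟩ := h.of_cen (h.le f1) (H12.alt_N w) w0 fun x hx => by
        rw [f2, cj_apply, one_smul, nW_apply, h.cB_stab (h.le hy) (fun u => (e1 _).1 (by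
          simpa [nW_apply, hr] using e (u ⊗ₜ r))) hx]; simp
      obtain ⟨κ, f4⟩ := hs _ (mem_zJ h (H12.alt_N w) w0 (comm_rTensor A) ⟨t, f1, fun x => by
        simp [f3, nW_apply]⟩)
      refine ⟨κ, fun v => ?_⟩
      have := f2 (y v)
      rw [f3, ← LinearMap.rTensor_tmul, f4, ← nW_apply] at this
      simpa [inv_apply_apply] using this.symm)
  have d1 : ∀ u, y (u ⊗ₜ w) = ν • u ⊗ₜ w := fun u => by simpa [nW_apply, hr] using c3 (u ⊗ₜ r)
  obtain ⟨α, β, e⟩ := mem_tenStab.1 (hb.pt w _ w (hP w w0) y c1 fun u =>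
    d1 u ▸ smul_mem _ _ (tmul_mem_tl _ (mem_span_singleton_self w)))
  obtain ⟨φ, hφ⟩ := exists_dual_one (F := F) (β.map_ne_zero_iff.2 w0)
  obtain ⟨D, d2⟩ : ∃ D, cj k (nW U C₂ w' w') * nW U C₂ w w = rA U D :=
    ⟨p • 1 + s • (C₂.B w).smulRight w + (t * (ν * φ w)) • (β : End F W),
      TensorProduct.ext' fun u v => by
        have := congrArg (cR U φ) ((e u w).symm.trans (d1 u))
        simp [hφ] at this
        refine (c4 _).trans ?_
        simp [e, this, nW_apply, rA_tmul, mul_smul, smul_tmul']⟩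
  obtain ⟨u, hu⟩ := h.ex
  have d3 : D w = 0 := by_contra fun e => tmul_ne_zero hu e (by
    rw [← rA_tmul, ← d2]; simp [nW_apply, H12.alt_B_self])
  obtain ⟨z, hz⟩ := finrank_le_one_iff.1 (show finrank F (LinearMap.range D) ≤ 1 by
    have := D.finrank_range_add_finrank_ker
    have := finrank_mono ((span_singleton_le_iff_mem w (LinearMap.ker D)).2 d3)
    rw [finrank_span_singleton w0] at this
    omega)
  refine TZ.not_le hb hk (y := z.1) fun x hx => (smul_mem_iff _ c2).1 ?_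
  rw [← c5 x ((e2 x).2 hx), ← End.mul_apply, d2]
  refine tl_mono (fun v hv => ?_) (rA_mem_tl D x)
  obtain ⟨c, hc⟩ := hz ⟨v, hv⟩
  exact mem_span_singleton.2 ⟨c, congrArg Subtype.val hc⟩

end TZ

theorem TWr.isMax_odd [Finite F] [Finite ι] (h : TWr C C₁ C₂ H G C₂.isom ρ j₀) (h2 : (2 : F) ≠ 0)
    (hex : finrank F W = 2 → ∃ a : F, a ≠ 0 ∧ a * a ≠ 1) : Cfsg.Geo.IsMaximalIn G (H ⊓ G) := by
  by_cases hd : finrank F W = 2
  · obtain ⟨a, a0, a1⟩ := hex hd
    refine h.isMax fun X b1 b2 hX => (em (∀ S ∈ zJ C₂ X, ∃ c : F, S = c • 1)).imp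
      (fun hs g => hX.gd_sp hd h2 a0 a1 hs) fun hs => ?_
    simp only [not_forall] at hs
    obtain ⟨S, c1, c2⟩ := hs
    exact h.le_two hd h2 b1 b2 hX c1 c2
  obtain ⟨m, hm⟩ := alt_even h.nd₂
  have := h.dim
  exact h.isMax_alt4 h2 (by omega)

end H12
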