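import Cfsg.Agent.H12.WR9

/-!
# Tensor powers of small symplectic spaces in characteristic two: the spin overgroup
-/

set_option autoImplicit false
set_option maxHeartbeats 400000

namespace H12

open Module H11 Submodule TensorProduct H13.KL Function QuadraticMap

variable {F : Type*} [Field F] {U W : Type*} [AddCommGroup U] [Module F U] [AddCommGroup W]
  [Module F W] {C₂ : CForm (altType F) W} {P : Prop} {D D' E E' a : End F W} {e f d d' : W}

variable (C₂) in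
/-- Adjoint endomorphisms. -/
def AdjE (E E' : End F W) : Prop := ∀ x y, C₂.B (E x) y = C₂.B x (E' y)

variable (C₂ P) in
/-- The Clifford vectors of one factor. -/
def SpS (D : End F W) : Prop :=
  AdjE C₂ D D ∧ (∃ c : F, D * D = c • 1) ∧ (P → ∃ E E', AdjE C₂ E E' ∧ D = E + E')

theorem AdjE.alt (h : AdjE C₂ E E') (x : W) : C₂.B ((E + E') x) x = 0 := by
  simp [h x, H12.alt_symm x (E' x)]

theorem SpS.alt (h : SpS C₂ P D) (hP : P) (x : W) : C₂.B (D x) x = 0 := by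
  obtain ⟨E, E', a, rfl⟩ := h.2.2 hP; exact a.alt x

variable [FiniteDimensional F W]

theorem sps_two (nd : C₂.Nondeg) (hd : finrank F W = 2) (h : SpS C₂ P D) (h' : SpS C₂ P D') :
    ∃ c : F, D * D' + D' * D = c • 1 := by
  obtain ⟨c, hc⟩ := exists_scalar_of_eigen (A := D * D' + D' * D) fun v => by
    by_cases hv : v = 0
    · simp [hv]
    by_contra hn
    have h1 : AdjE C₂ (D * D') (D' * D) := fun x y => (h.1 _ _).trans (h'.1 _ _)
    have h3 := nd.finrank_add_finrank_perp (F ∙ v)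
    rw [finrank_span_singleton hv] at h3
    have h4 : F ∙ v = C₂.perp (F ∙ v) := eq_of_le_of_finrank_eq
      ((span_singleton_le_iff_mem _ _).2 (C₂.mem_perp_singleton.2 (H12.alt_B_self v)))
      (by rw [finrank_span_singleton hv]; omega)
    exact hn (h4 ▸ C₂.mem_perp_singleton.2 (C₂.B_swap_zero (h1.alt v)))
  exact ⟨c, LinearMap.ext hc⟩

theorem exists_hyp4 (nd : C₂.Nondeg) (hd : 4 ≤ finrank F W) (h : C₂.B e f = 1) :
    ∃ d d', C₂.B d d' = 1 ∧ C₂.B e d = 0 ∧ C₂.B f d = 0 ∧ C₂.B e d' = 0 ∧ C₂.B f d' = 0 := by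
  have hp : IsHypPair C₂ e f := ⟨H12.alt_N _, H12.alt_N _, h⟩
  obtain ⟨d, a1, a2⟩ := exists_mem_ne_zero_of_ne_bot (p := C₂.perp (span F {e, f})) fun e => by
    have := hp.finrank_perp nd
    rw [e, finrank_bot] at this; omega
  obtain ⟨d', a3, a4⟩ := (nd.nondegOn_perp hp.nondegOn).exists_eq a1 a2 1
  exact ⟨d, d', a4, (C₂.mem_perp_pair.1 a1).1, (C₂.mem_perp_pair.1 a1).2,
    (C₂.mem_perp_pair.1 a3).1, (C₂.mem_perp_pair.1 a3).2⟩

theorem sps_four (nd : C₂.Nondeg) (hd : finrank F W = 4) (h2 : (2 : F) = 0) (h : SpS C₂ True D)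
    (h' : SpS C₂ True D') : ∃ c : F, D * D' + D' * D = c • 1 := by
  obtain ⟨e, he⟩ := finrank_pos_iff_exists_ne_zero.1 (show 0 < finrank F W by omega)
  obtain ⟨f, a0⟩ := nd.exists_eq he 1
  obtain ⟨d, d', a1, a2, a3, a4, a5⟩ := exists_hyp4 nd hd.ge a0
  have s := H12.alt_symm (C := C₂)
  have z := H12.alt_B_self (C := C₂)
  have li : LinearIndependent F ![e, f, d, d'] := Fintype.linearIndependent_iff.2 fun g hg i => by
    have b1 := congrArg (C₂.B e) hg
    have b2 := congrArg (C₂.B f) hg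
    have b3 := congrArg (C₂.B d) hg
    have b4 := congrArg (C₂.B d') hg
    simp [Fin.sum_univ_succ, a0, a1, a2, a3, a4, a5, z, s e f, s e d, s f d, s e d', s f d',
      s d d'] at b1 b2 b3 b4
    fin_cases i <;> simp [b1, b2, b3, b4]
  have ex : ∀ x, x = C₂.B x f • e - C₂.B x e • f + C₂.B x d' • d - C₂.B x d • d' := fun x => by
    obtain ⟨g, rfl⟩ := (mem_span_range_iff_exists_fun F).1
      ((li.span_eq_top_of_card_eq_finrank' (by simp [hd])).ge (mem_top : x ∈ _))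
    simp [Fin.sum_univ_succ, a0, a1, a2, a3, a4, a5, z, s e f, s e d, s f d, s e d', s f d',
      s d d', alt_sigma]
    abel
  have key : ∀ A : End F W, (∀ x, C₂.B (A x) x = 0) →
      ∃ p : F, A * A = (C₂.B (A e) f + C₂.B (A d) d') • A + p • 1 := fun A hA => by
    have t : ∀ x y, C₂.B (A y) x = -C₂.B (A x) y := fun x y => by
      have := hA (x + y)
      simp only [map_add, LinearMap.add_apply, hA] at this
      linear_combination this
    have k1 := ex (A e)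
    have k2 := ex (A f)
    have k3 := ex (A d)
    have k4 := ex (A d')
    rw [hA] at k1 k2 k3 k4
    rw [t e f] at k2
    rw [t e d, t f d] at k3
    rw [t e d', t f d', t d d'] at k4
    generalize C₂.B (A e) f = α at *
    generalize C₂.B (A d) d' = β at *
    generalize C₂.B (A e) d = r at *
    generalize C₂.B (A e) d' = p at *
    generalize C₂.B (A f) d = u at *
    generalize C₂.B (A f) d' = v at *
    refine ⟨r * v - p * u - α * β, LinearMap.ext fun x => ?_⟩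
    rw [ex x]
    simp only [End.mul_apply, LinearMap.add_apply, LinearMap.smul_apply, End.one_apply, map_add,
      map_sub, map_smul, k1, k2, k3, k4]
    module
  have tz : ∀ A, SpS C₂ True A → C₂.B (A e) f + C₂.B (A d) d' = 0 := fun A hA => by
    obtain ⟨p, hp⟩ := key A (hA.alt trivial)
    obtain ⟨c, hc⟩ := hA.2.1
    by_contra hn
    have : ∀ x y, (C₂.B (A e) f + C₂.B (A d) d') * C₂.B (A x) y + p * C₂.B x y = c * C₂.B x y :=
      fun x y => by simpa [alt_sigma] using congrArg (fun A : End F W => C₂.B (A x) y) (hp.symm.trans hc)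
    exact hn (mul_self_eq_zero.1 (by
      linear_combination this e f + this d d' + (c - p) * (a0 + a1) + (c - p) * h2))
  obtain ⟨p, hp⟩ := key (D + D') fun x => by simp [h.alt trivial, h'.alt trivial]
  obtain ⟨c, hc⟩ := h.2.1
  obtain ⟨c', hc'⟩ := h'.2.1
  rw [show C₂.B ((D + D') e) f + C₂.B ((D + D') d) d' = 0 by
    simp only [LinearMap.add_apply, map_add]; linear_combination tz D h + tz D' h'] at hp
  exact ⟨p - c - c', by linear_combination (norm := (noncomm_ring; module)) hp - hc - hc'⟩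

variable {ι : Type*} [DecidableEq ι] [Fintype ι] {ρ : ι → End F W →ₐ[F] End F (U ⊗[F] W)}
  {j₀ j₁ j l : ι} {π : (ι → W) → U ⊗[F] W} {c : F} {g : (U ⊗[F] W) ≃ₗ[F] (U ⊗[F] W)}
  {H : Subgroup ((U ⊗[F] W) ≃ₗ[F] (U ⊗[F] W))} {Q : QuadraticForm F (U ⊗[F] W)} {x y : ι → W}
  {A : End F (U ⊗[F] W)}

variable (C₂ P ρ) in
/-- The Clifford vectors. -/
def SpW : Submodule F (End F (U ⊗[F] W)) := span F ({1} ∪ {A | ∃ i D, SpS C₂ P D ∧ A = ρ i D})

variable (C₂ P ρ) in
/-- The spin group. -/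
def SpK : Subgroup ((U ⊗[F] W) ≃ₗ[F] (U ⊗[F] W)) where
  carrier := {g | ∀ A ∈ SpW C₂ P ρ, cj g A ∈ SpW C₂ P ρ ∧ cj g⁻¹ A ∈ SpW C₂ P ρ}
  one_mem' A h := ⟨h, h⟩
  mul_mem' {g k} a b A h := ⟨(a _ (b A h).1).1, by rw [mul_inv_rev]; exact (b _ (a A h).2).2⟩
  inv_mem' a A h := ⟨(a A h).2, by rw [inv_inv]; exact (a A h).1⟩

namespace TPF

variable (h : TPF (CForm.ofQuad Q) C₂ H ρ j₀ π c)
include h

omit [FiniteDimensional F W] in
theorem pz (e : C₂.B (x l) (y l) = 0) : polar Q (π x) (π y) = 0 :=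
  (h.hB x y).trans (by rw [Finset.prod_eq_zero (Finset.mem_univ l) e, mul_zero])

theorem adjE [Nontrivial W] (hc : c ≠ 0)
    (e : ∀ x y, polar Q (ρ j E x) y = polar Q x (ρ j E' y)) : AdjE C₂ E E' := fun p r => by
  obtain ⟨a, ha⟩ := exists_ne (0 : W)
  obtain ⟨b, hb⟩ := h.nd₂.exists_eq ha 1
  have := e (π (update (fun _ => a) j p)) (π (update (fun _ => b) j r))
  rw [h.act, h.act, update_idem, update_idem, update_self, update_self, ← CForm.ofQuad_B,
    ← CForm.ofQuad_B, h.B_upd, h.B_upd] at this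
  simpa [hb, hc] using this

theorem inj [Nontrivial W] (hc : c ≠ 0) (e : ρ j E = ρ j E') : E = E' := by
  have := h.adjE (j := j) (E := E - E') (E' := 0) hc fun x y => by simp [e]
  exact LinearMap.ext fun x => sub_eq_zero.1 (h.nd₂ _ fun y => by simpa using this x y)

theorem cj_mem [Nontrivial W] (hc : c ≠ 0) (hg : g ∈ H) (hq : g ∈ orth Q)
    (hA : A ∈ SpW C₂ P ρ) : cj g A ∈ SpW C₂ P ρ := by
  obtain ⟨σ, hσ⟩ := (h.mem g).1 hg
  have ad : ∀ i D D' E E', AdjE C₂ D D' → cj g (ρ i D) = ρ (σ i) E → cj g (ρ i D') = ρ (σ i) E' →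
      AdjE C₂ E E' := fun i D D' E E' a b b' => h.adjE hc fun x y => by
    rw [← b, ← b', cj_apply, cj_apply, ← orth_polar ⟨g⁻¹, inv_mem hq⟩,
      ← orth_polar ⟨g⁻¹, inv_mem hq⟩ x]
    simpa [inv_apply_apply] using h.adj i D D' a (g⁻¹ x) (g⁻¹ y)
  induction hA using span_induction with
  | mem A hA =>
    rcases hA with rfl | ⟨i, D, ⟨a1, ⟨b, a2⟩, a3⟩, rfl⟩
    · exact subset_span (.inl (LinearMap.ext fun x => by simp [apply_inv_apply]))
    obtain ⟨E, hE⟩ := hσ i D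
    refine subset_span (.inr ⟨σ i, E, ⟨ad i D D E E a1 hE hE, ⟨b, h.inj (j := σ i) hc ?_⟩,
      fun hP => ?_⟩, hE⟩)
    · rw [map_mul, ← hE, ← cj_mul', ← map_mul, a2]
      exact LinearMap.ext fun x => by simp [apply_inv_apply]
    obtain ⟨D, D', a4, rfl⟩ := a3 hP
    obtain ⟨E₁, b1⟩ := hσ i D
    obtain ⟨E₂, b2⟩ := hσ i D'
    refine ⟨E₁, E₂, ad i _ _ _ _ a4 b1 b2, h.inj (j := σ i) hc ?_⟩
    rw [map_add, ← hE, ← b1, ← b2]; exact LinearMap.ext fun x => by simp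
  | zero => simp [cj_eq]
  | add A B _ _ a b => simpa only [cj_eq, mul_add, add_mul] using add_mem a b
  | smul c A _ a => simpa only [cj_eq, mul_smul_comm, smul_mul_assoc] using smul_mem _ c a

omit [FiniteDimensional F W] in
theorem star (hl : l ≠ j) (e : C₂.B (x l) (y l) = 0) (e' : C₂.B (x j) (y j) = 0)
    (hA : A ∈ SpW C₂ P ρ) : polar Q (A (π x)) (π y) = 0 := by
  induction hA using span_induction with
  | mem A hA =>
    rcases hA with rfl | ⟨i, D, -, rfl⟩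
    · exact h.pz e
    rw [h.act]
    by_cases hi : l = i
    · exact h.pz (l := j) (by rwa [update_of_ne (hi ▸ hl.symm)])
    · exact h.pz (l := l) (by rwa [update_of_ne hi])
  | zero => simp
  | add A B _ _ a b => simp [a, b]
  | smul c A _ a => simp [a]

omit [FiniteDimensional F W] in
theorem anti (h2 : (2 : F) = 0)
    (add : ∀ D D', SpS C₂ P D → SpS C₂ P D' → ∃ c : F, D * D' + D' * D = c • 1)
    (ha : SpS C₂ P a) (j : ι) (hA : A ∈ SpW C₂ P ρ) : ∃ c : F, A * ρ j a + ρ j a * A = c • 1 := by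
  have t : ∀ B : End F (U ⊗[F] W), B + B = (0 : F) • 1 := fun B => by
    rw [← two_smul F, h2, zero_smul, zero_smul]
  induction hA using span_induction with
  | mem A hA =>
    rcases hA with rfl | ⟨i, D, hD, rfl⟩
    · exact ⟨0, by rw [one_mul, mul_one, t]⟩
    by_cases hi : i = j
    · obtain ⟨b, hb⟩ := add D a hD ha
      exact ⟨b, by rw [hi, ← map_mul, ← map_mul, ← map_add, hb, map_smul, map_one]⟩
    · exact ⟨0, by rw [(h.comm i j hi D a).eq, t]⟩
  | zero => exact ⟨0, by simp⟩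
  | add A B _ _ a b =>
    obtain ⟨c, a⟩ := a
    obtain ⟨c', b⟩ := b
    exact ⟨c + c', by linear_combination (norm := (noncomm_ring; module)) a + b⟩
  | smul b A _ a =>
    obtain ⟨c, a⟩ := a
    exact ⟨b * c, by rw [smul_mul_assoc, mul_smul_comm, ← smul_add, a, smul_smul]⟩

theorem spin [Finite F] [FiniteDimensional F U] (h0 : ∀ x, Q (π x) = 0) (h2 : (2 : F) = 0)
    (hV : 5 ≤ finrank F (U ⊗[F] W)) (hj : j₁ ≠ j₀)
    (add : ∀ D D', SpS C₂ P D → SpS C₂ P D' → ∃ c : F, D * D' + D' * D = c • 1)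
    (t3 : P ∨ ∃ l, l ≠ j₀ ∧ l ≠ j₁) (ha : SpS C₂ P a) (a0 : a ≠ 0) (a2 : a * a = 0)
    (vec : ∀ e f, C₂.B e f = 1 → ∃ v y : ι → W, (∃ l ≠ j₀, C₂.B e (v l) = 0) ∧
      (∃ l ≠ j₀, C₂.B f (v l) = 0) ∧ (∃ l ≠ j₀, C₂.B e (y l) = 0) ∧ ∀ l, C₂.B (v l) (y l) ≠ 0) :
    ∃ K, H ⊓ OmegaV Q < K ∧ K < OmegaV Q := by
  obtain ⟨p, hp⟩ := DFunLike.ne_iff.1 a0
  have hp0 : p ≠ 0 := by rintro rfl; simp at hp
  have := nontrivial_of_ne p 0 hp0
  have z := H12.alt_B_self (C := C₂)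
  have hc : c ≠ 0 := by
    rintro rfl
    obtain ⟨x, hx⟩ := finrank_pos_iff_exists_ne_zero.1 (show 0 < finrank F (U ⊗[F] W) by omega)
    exact hx (h.nd x fun y => (h.B_ext (f := 1) (f' := 1) (k := 0) (k' := 0)
      (fun x y => by simpa using h.hB x y) x y).trans (by simp))
  have t : ∀ B : End F (U ⊗[F] W), B + B = 0 := fun B => by rw [← two_smul F, h2, zero_smul]
  obtain ⟨N, hN⟩ : ∃ N, N = ρ j₀ a + ρ j₁ a := ⟨_, rfl⟩
  have n1 : ∀ j, ρ j a * ρ j a = 0 := fun j => by rw [← map_mul, a2, map_zero]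
  have n2 : N * N = 0 := by
    rw [hN, add_mul, mul_add, mul_add, n1, n1, (h.comm _ _ hj a a).eq, zero_add, add_zero, t]
  have n3 : (1 + N) * (1 + N) = 1 := by
    rw [add_mul, mul_add, mul_add, n2, one_mul, one_mul, mul_one, add_zero, add_assoc, t, add_zero]
  have n4 : ∀ x y, polar Q (N x) y = polar Q x (N y) := fun x y => by
    have := h.adj j₀ a a ha.1 x y
    have := h.adj j₁ a a ha.1 x y
    simp_all
  let w : _ ≃ₗ[F] _ := LinearEquiv.ofLinear (1 + N) (1 + N) n3 n3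
  have w1 : ∀ A, cj w A = (1 + N) * A * (1 + N) := fun _ => rfl
  have w2 : w⁻¹ = w := rfl
  have n5 : ∀ x, Q (N (π x)) = 0 := fun x => by
    rw [hN, LinearMap.add_apply, Q_add, h.act, h.act, h0, h0, zero_add, zero_add]
    rcases t3 with hP | ⟨l, b, b'⟩
    · exact h.pz (l := j₀) (by rw [update_self, update_of_ne hj.symm]; exact ha.alt hP _)
    · exact h.pz (l := l) (by rw [update_of_ne b, update_of_ne b', z])
  have n6 : ∀ x y, polar Q (N x) (N y) = 0 := fun x y => by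
    rw [n4, ← End.mul_apply, n2]; simp
  have n7 : ∀ x, polar Q x (N x) = 0 := fun x => by
    induction (h.span.ge mem_top : x ∈ _) using span_induction with
    | mem x hx =>
      obtain ⟨x, rfl⟩ := hx
      rw [hN, LinearMap.add_apply, polar_add_right, h.act, h.act,
        h.pz (l := j₁) (by rw [update_of_ne hj, z]), h.pz (l := j₀) (by rw [update_of_ne hj.symm, z]),
        add_zero]
    | zero => simp
    | add x y _ _ a b =>
      simp only [map_add, polar_add_left, polar_add_right, a, b, ← n4 y x, polar_comm Q (N y) x]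
      linear_combination polar Q x (N y) * h2
    | smul c x _ a => simp [a]
  have n8 := h.N_zero n5 n6
  have hw : w ∈ OmegaV Q := mem_OmegaV_of_cen h.nd (.inr (by omega)) (L := LinearMap.range N)
    (by rintro _ ⟨x, rfl⟩; exact n8 x)
    (mem_orth.2 fun x => (Q_add Q x (N x)).trans (by rw [n7, show Q (N x) = 0 from n8 x]; simp))
    fun x => ⟨x, by simp [w]⟩
  have m1 : ∀ j, ρ j a ∈ SpW C₂ P ρ := fun j => subset_span (.inr ⟨j, a, ha, rfl⟩)
  have w3 : ∀ A ∈ SpW C₂ P ρ, cj w A ∈ SpW C₂ P ρ := fun A hA => by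
    obtain ⟨b, e⟩ := h.anti h2 add ha j₀ hA
    obtain ⟨b', e'⟩ := h.anti h2 add ha j₁ hA
    have e1 : A * N = (b + b') • 1 - N * A := by
      rw [hN]; linear_combination (norm := (noncomm_ring; module)) e + e'
    rw [w1, show (1 + N) * A * (1 + N) = A + (b + b') • 1 + (b + b') • N by
      rw [add_mul, add_mul, mul_add, mul_add, one_mul, mul_one, mul_one, mul_assoc, e1, mul_sub,
        ← mul_assoc, n2]; simp only [mul_smul_comm, mul_one, zero_mul, one_mul]; abel]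
    exact add_mem (add_mem hA (smul_mem _ _ (subset_span (.inl rfl))))
      (smul_mem _ _ (hN ▸ add_mem (m1 _) (m1 _)))
  have nc : ∀ j, ¬ ∀ E, Commute (ρ j a) (ρ j E) := fun j e => by
    obtain ⟨b, hb⟩ := scalar_of_comm (A := a) fun E => h.inj (j := j) hc (by simpa using (e E).eq)
    rw [hb, smul_mul_smul_comm, one_mul, smul_eq_zero, mul_self_eq_zero] at a2
    exact a0 (by rcases a2 with e | e <;> simp [hb, e])
  refine ⟨SpK C₂ P ρ ⊓ OmegaV Q, lt_of_le_of_ne (fun g hg => ⟨fun A hA =>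
    ⟨h.cj_mem hc hg.1 (OmegaV_le hg.2) hA, h.cj_mem hc (inv_mem hg.1) (OmegaV_le (inv_mem hg.2)) hA⟩,
      hg.2⟩) fun e => ?_, lt_of_le_of_ne inf_le_right fun e => ?_⟩
  · obtain ⟨σ, hσ⟩ := (h.mem w).1 (e.ge ⟨fun A hA => ⟨w3 A hA, w3 A hA⟩, hw⟩).1
    have c1 := h.comm _ _ hj a
    have s0 : σ j₀ = j₀ := by_contra fun s => nc j₀ fun E => by
      obtain ⟨E', b⟩ := hσ j₀ a
      rw [cj_of_comm (show Commute (1 + N) _ from (Commute.one_left _).add_left
        (hN ▸ (Commute.refl _).add_left (c1 a)))] at b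
      exact b ▸ h.comm _ _ s _ _
    refine nc j₀ fun D => by_contra fun s => nc j₁ fun E => ?_
    obtain ⟨E', b⟩ := hσ j₀ D
    have b1 := h.comm _ _ hj.symm E' E
    rw [s0, w1, show (1 + N) * ρ j₀ D * (1 + N) = ρ j₀ ((1 + a) * D * (1 + a)) +
        ρ j₁ a * ρ j₀ (a * D - D * a) by
      simp only [hN, map_mul, map_add, map_sub, map_one, mul_sub]
      linear_combination (norm := noncomm_ring) n1 j₁ * ρ j₀ D - (1 + ρ j₀ a + ρ j₁ a) * (c1 D).eq -
        (c1 a).eq * ρ j₀ D + t (ρ j₁ a * ρ j₀ D) + t (ρ j₁ a * ρ j₀ D * ρ j₀ a)] at b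
    have b2 := (b ▸ b1).sub_left (h.comm _ _ hj.symm ((1 + a) * D * (1 + a)) E)
    rw [add_sub_cancel_left] at b2
    refine sub_eq_zero.1 (eq_zero_of_mul_eq (τ := ρ j₀) (D := a * D - D * a) (fun E' =>
      ((c1 E').mul_left (h.comm _ _ hj E E')).sub_left ((h.comm _ _ hj E E').mul_left (c1 E')))
      (fun e => s (by rw [Commute, SemiconjBy, ← map_mul, ← map_mul, sub_eq_zero.1 e])) ?_)
    rw [sub_mul, mul_assoc, (h.comm _ _ hj E _).eq, ← mul_assoc, b2.eq, mul_assoc, sub_self]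
  obtain ⟨f, hf⟩ := h.nd₂.exists_eq hp0 1
  obtain ⟨r, r1, r2⟩ := h.nd₂.exists_perp_eq (W := F ∙ p) (x := a p) (fun e => by
    obtain ⟨b, hb⟩ := mem_span_singleton.1 e
    have := LinearMap.congr_fun a2 p
    rw [End.mul_apply, ← hb, map_smul, ← hb, smul_smul] at this
    exact hp (by simpa [← hb, hp0] using this)) 1
  replace r1 := C₂.mem_perp_singleton.1 r1
  obtain ⟨v, y, ⟨l₁, c1, d1⟩, ⟨l₂, c2, d2⟩, ⟨l₃, c3, d3⟩, d4⟩ := vec p f hf
  obtain ⟨g, g1, g2⟩ := (rootG_quad h.nd hV).rho (π (update (fun _ => f) j₀ r)) (π (update v j₀ f))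
    (h0 _) (h0 _) (h.pz (l := l₂) (by rwa [update_of_ne c2, update_of_ne c2]))
  have g3 := h.star (x := fun _ => p) (y := update y j₀ p) c3 (by rwa [update_of_ne c3])
    (by rw [update_self, z]) ((e.ge (inv_mem g1)).1 _ (m1 j₀)).1
  simp only [CForm.ofQuad_B] at g2
  rw [← orth_polar ⟨g, OmegaV_le g1⟩, cj_apply, inv_inv, apply_inv_apply, g2, g2,
    h.pz (l := j₀) (by rw [update_self]; exact C₂.B_swap_zero r1),
    h.pz (l := l₁) (by rwa [update_of_ne c1]),
    h.pz (l := j₀) (by rw [update_self, update_self]; exact C₂.B_swap_zero r1)] at g3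
  have g4 := h.star (x := fun _ => p) (y := update y j₀ p) c3 (by rwa [update_of_ne c3])
    (by rw [update_self, z]) (m1 j₀)
  have g5 := h.B_upd (fun _ => p) (fun _ => f) j₀ (a p) r
  have g6 := h.B_upd y v j₀ p f
  rw [CForm.ofQuad_B] at g5 g6
  simp [g4, quadType, g6] at g3
  simp [h.act, g5, hc, hf, r2, Finset.prod_eq_zero_iff] at g3
  obtain ⟨l, -, e⟩ := g3
  exact d4 l (C₂.B_swap_zero e)

theorem spin_two [Finite F] [FiniteDimensional F U] (h0 : ∀ x, Q (π x) = 0) (h2 : (2 : F) = 0)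
    (hV : 5 ≤ finrank F (U ⊗[F] W)) (hd : finrank F W = 2) (hj : j₁ ≠ j₀) (b : l ≠ j₀)
    (b' : l ≠ j₁) : ∃ K, H ⊓ OmegaV Q < K ∧ K < OmegaV Q := by
  obtain ⟨w, hw⟩ := finrank_pos_iff_exists_ne_zero.1 (show 0 < finrank F W by omega)
  obtain ⟨w', hw'⟩ := h.nd₂.exists_eq hw 1
  have z := H12.alt_B_self (C := C₂)
  have a2 : (C₂.B w).smulRight w * (C₂.B w).smulRight w = 0 := by ext; simp [z]
  refine h.spin (P := False) h0 h2 hV hj (fun D D' => sps_two h.nd₂ hd) (.inr ⟨l, b, b'⟩)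
    (a := (C₂.B w).smulRight w) ⟨fun x y => ?_, ⟨0, by simp [a2]⟩, False.elim⟩
    (fun e => hw (by simpa [hw'] using LinearMap.congr_fun e w')) a2 fun e f hf =>
      ⟨update (fun _ => e) j₁ f, update (fun _ => f) j₁ e, ⟨l, b, by simp [b', z]⟩,
        ⟨j₁, hj, by simp [z]⟩, ⟨j₁, hj, by simp [z]⟩, fun i => ?_⟩
  · simp [alt_sigma, H12.alt_symm w x]
    linear_combination C₂.B w x * C₂.B w y * h2
  · by_cases hi : i = j₁ <;> simp [hi, hf, H12.alt_symm e f]

theorem spin_four [Finite F] [FiniteDimensional F U] (h0 : ∀ x, Q (π x) = 0) (h2 : (2 : F) = 0)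
    (hV : 5 ≤ finrank F (U ⊗[F] W)) (hd : finrank F W = 4) (hj : j₁ ≠ j₀) :
    ∃ K, H ⊓ OmegaV Q < K ∧ K < OmegaV Q := by
  obtain ⟨w, hw⟩ := finrank_pos_iff_exists_ne_zero.1 (show 0 < finrank F W by omega)
  obtain ⟨w', hw'⟩ := h.nd₂.exists_eq hw 1
  obtain ⟨d, d', a1, a2, a3, a4, a5⟩ := exists_hyp4 h.nd₂ hd.ge hw'
  have z := H12.alt_B_self (C := C₂)
  have s := H12.alt_symm (C := C₂)
  have a6 : ((C₂.B w).smulRight d + (C₂.B d).smulRight w) *
      ((C₂.B w).smulRight d + (C₂.B d).smulRight w) = 0 := by ext; simp [z, a2, s w d]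
  refine h.spin (P := True) h0 h2 hV hj (fun D D' => sps_four h.nd₂ hd h2) (.inl trivial)
    (a := (C₂.B w).smulRight d + (C₂.B d).smulRight w)
    ⟨fun x y => ?_, ⟨0, by simp [a6]⟩, fun _ => ⟨_, _, fun x y => ?_, rfl⟩⟩
    (fun e => hw (by simpa [a1, a4] using LinearMap.congr_fun e d')) a6 fun e f hf => ?_
  · simp [alt_sigma, s w x, s d x]
    linear_combination (C₂.B w x * C₂.B d y + C₂.B d x * C₂.B w y) * h2
  · simp [alt_sigma, s w x]
    linear_combination C₂.B w x * C₂.B d y * h2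
  obtain ⟨d, d', a1, a2, a3, a4, -⟩ := exists_hyp4 h.nd₂ hd.ge hf
  exact ⟨fun _ => d, fun _ => d', ⟨j₁, hj, a2⟩, ⟨j₁, hj, a3⟩, ⟨j₁, hj, a4⟩, fun _ => by simp [a1]⟩

end TPF

end H12
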