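import Cfsg.Agent.H12.WR1
import Cfsg.Agent.H12.Ten7

/-!
# Tensor powers: elements moving a factor to a non-commuting position
-/

set_option autoImplicit false
set_option maxHeartbeats 400000

namespace H12

open Module H11 Submodule TensorProduct H13.KL

variable {F : Type*} [Field F] {U W : Type*} [AddCommGroup U] [Module F U] [AddCommGroup W]
  [Module F W] {X : Subgroup ((U ⊗[F] W) ≃ₗ[F] (U ⊗[F] W))} {P : W → Dual F W → Prop}
  {w w' y : W} {φ ψ : Dual F W} {x : U ⊗[F] W}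
  {g k s t : (U ⊗[F] W) ≃ₗ[F] (U ⊗[F] W)} {α : U ≃ₗ[F] U} {β : W ≃ₗ[F] W}

variable (U) in
/-- The action of the endomorphisms of the second factor. -/
noncomputable def rA : End F W →ₐ[F] End F (U ⊗[F] W) := Module.End.lTensorAlgHom F W U

@[simp] theorem rA_tmul (D : End F W) (u : U) (w : W) : rA U D (u ⊗ₜ w) = u ⊗ₜ D w := rfl

theorem rA_rk (φ : Dual F W) (w : W) (x : U ⊗[F] W) :
    rA U (φ.smulRight w) x = cR U φ x ⊗ₜ w := map_smulRight 1 φ w x

theorem rU_rA (β : W ≃ₗ[F] W) : rU (rA U) β = rH F U W β := rfl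

theorem cj_congr (D : End F W) :
    cj (TensorProduct.congr α β) (rA U D) = rA U (cj β D) :=
  TensorProduct.ext' fun u w => by simp [congr_inv, apply_inv_apply]

theorem comm_rTensor (A : End F U) (D : End F W) : Commute (A.rTensor W) (rA U D) :=
  TensorProduct.ext' fun _ _ => rfl

theorem exists_rTensor [Nontrivial W] {A : End F (U ⊗[F] W)} (h : ∀ E, Commute A (rA U E)) :
    ∃ A' : End F U, A = A'.rTensor W := by
  obtain ⟨w, hw⟩ := exists_ne (0 : W)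
  obtain ⟨φ, hφ⟩ := exists_dual_one (F := F) hw
  refine ⟨cR U φ ∘ₗ A ∘ₗ (TensorProduct.mk F U W).flip w, TensorProduct.ext' fun u y => ?_⟩
  simpa [rA_rk, hφ] using LinearMap.congr_fun (h (φ.smulRight y)).eq (u ⊗ₜ w)

/-- `k` moves the second factor to a commuting position. -/
def Cm (k : (U ⊗[F] W) ≃ₗ[F] (U ⊗[F] W)) : Prop := ∀ D E, Commute (cj k (rA U D)) (rA U E)

/-- The good elements. -/
def Gd (k : (U ⊗[F] W) ≃ₗ[F] (U ⊗[F] W)) : Prop := k ∈ tenStab F U W ∨ Cm k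

theorem Gd.inv (h : Gd k) : Gd k⁻¹ :=
  h.imp inv_mem fun h D E => by simpa [cj_inv_cj] using (Commute.cj (h E D) k⁻¹).symm

/-- `s = 1 + 1 ⊗ w φ`. -/
def IsRt (s : (U ⊗[F] W) ≃ₗ[F] (U ⊗[F] W)) (w : W) (φ : Dual F W) : Prop :=
  ∀ x, s x = x + cR U φ x ⊗ₜ w

theorem IsRt.coe (h : IsRt s w φ) : (s : End F _) = 1 + rA U (φ.smulRight w) :=
  LinearMap.ext fun x => by simpa [rA_rk] using h x

theorem IsRt.conj (h : IsRt s w φ) (k : (U ⊗[F] W) ≃ₗ[F] (U ⊗[F] W)) :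
    ((k * s * k⁻¹ : _ ≃ₗ[F] _) : End F _) = 1 + cj k (rA U (φ.smulRight w)) :=
  LinearMap.ext fun x => by simp [h _, rA_rk, apply_inv_apply]

theorem IsRt.mem (h : IsRt s w φ) (hs : φ w = 0) : s ∈ tenStab F U W :=
  mem_tenStab.2 ⟨1, LinearEquiv.transvection hs, fun u y => by
    simp [h _, LinearMap.transvection.apply, tmul_add, smul_tmul]⟩

theorem IsRt.range (h : IsRt s w φ) (hφ : φ ≠ 0) (u : U) : ∃ x, s x - x = u ⊗ₜ w := by
  obtain ⟨y, hy⟩ := DFunLike.ne_iff.1 hφ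
  exact ⟨((φ y)⁻¹ • u) ⊗ₜ y, by
    rw [h, add_sub_cancel_left, cR_tmul, smul_inv_smul₀ (by simpa using hy)]⟩

theorem IsRt.sq (h : IsRt s w φ) (h0 : φ w = 0) (x : U ⊗[F] W) : s (s x - x) = s x - x := by
  rw [h x, add_sub_cancel_left, h]; simp [h0]

/-- The image of `U ⊗ w`. -/
noncomputable abbrev pM (k : (U ⊗[F] W) ≃ₗ[F] (U ⊗[F] W)) (w : W) : Submodule F (U ⊗[F] W) :=
  (tl U (F ∙ w)).map (k : U ⊗[F] W →ₗ[F] U ⊗[F] W)

variable [FiniteDimensional F U]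

theorem IsRt.cen (h : IsRt s w φ) : s ∈ cen (tl U (F ∙ w)) := fun x =>
  mem_tl_singleton.2 ⟨_, by rw [h, add_sub_cancel_left]⟩

theorem finrank_pt [FiniteDimensional F W] (hw : w ≠ 0) (k : (U ⊗[F] W) ≃ₗ[F] (U ⊗[F] W)) :
    finrank F (pM k w) = finrank F U := by
  rw [finrank_map_equiv, finrank_tl, finrank_span_singleton hw, mul_one]

omit [FiniteDimensional F U] in
variable (X P) in
/-- A group containing root elements of the second factor, without extra elements in the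
stabilisers of the subspaces `U ⊗ w`. -/
structure BP : Prop where
  zero : ∀ w φ, P w φ → φ w = 0
  ne : ∀ w φ, P w φ → w ≠ 0
  ne' : ∀ w φ, P w φ → φ ≠ 0
  tv : ∀ w φ, P w φ → ∃ s ∈ X, IsRt s w φ
  pt : ∀ w φ w₁, P w φ → ∀ g ∈ X, (∀ u, g (u ⊗ₜ w) ∈ tl U (F ∙ w₁)) → g ∈ tenStab F U W
  all : ∀ w φ w₁, P w φ → ∀ g ∈ X, (∀ u, g (u ⊗ₜ w₁) ∈ tl U (F ∙ w)) → w₁ ≠ 0 →
    ∃ ψ, P w₁ ψ
  gen : ∀ S : Subalgebra F (End F W), (∀ w φ, P w φ → φ.smulRight w ∈ S) → ∀ D, D ∈ S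
  sc : ∀ (α : U ≃ₗ[F] U) (β : W ≃ₗ[F] W) (Z : Submodule F (U ⊗[F] W)),
    finrank F Z ≤ finrank F U → TensorProduct.congr α β ∈ cen Z →
    (∀ x, TensorProduct.congr α β (TensorProduct.congr α β x - x) =
      TensorProduct.congr α β x - x) → (∃ c : F, ∀ u, α u = c • u) ∨ ∃ c : F, ∀ w, β w = c • w
  pos : 0 < finrank F U
  dim : 2 ≤ finrank F W

variable (X P) in
/-- Good conjugates of root elements come from good elements. -/
def S2 : Prop := ∀ k ∈ X, ∀ w φ, P w φ →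
  (∀ c : F, P w (c • φ) → ∀ s ∈ X, IsRt s w (c • φ) → Gd (k⁻¹ * s * k)) → Gd k

variable (X P) in
/-- A bad element moving the subspaces `U ⊗ w` as little as possible. -/
structure MaxB (w w' : W) (k : (U ⊗[F] W) ≃ₗ[F] (U ⊗[F] W)) : Prop where
  hw : ∃ φ, P w φ
  hw' : ∃ φ, P w' φ
  mem : k ∈ X
  bad : ¬ Gd k
  max : ∀ y y' φ φ', P y φ → P y' φ' → ∀ k' ∈ X, ¬ Gd k' →
    finrank F ↥(tl U (F ∙ y) ⊓ pM k' y') ≤
      finrank F ↥(tl U (F ∙ w) ⊓ pM k w')

omit [FiniteDimensional F U] in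
theorem MaxB.symm (h : MaxB X P w w' k) : MaxB X P w' w k⁻¹ :=
  ⟨h.hw', h.hw, inv_mem h.mem, fun e => h.bad (by simpa using e.inv), fun y y' φ φ' a b k' c d =>
    (h.max y y' φ φ' a b k' c d).trans_eq (by
      rw [← finrank_map_equiv _ k⁻¹, show (tl U (F ∙ w) ⊓ pM k w').map ((k⁻¹ : _ ≃ₗ[F] _) : _ →ₗ[F] _) =
        tl U (F ∙ w') ⊓ pM k⁻¹ w from Submodule.ext fun x => by
          simp only [mem_map_iff, mem_inf, inv_inv, inv_apply_apply, and_comm]])⟩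

variable [FiniteDimensional F W]

theorem exists_maxB (hw : P w φ) (hk : k ∈ X) (hk' : ¬ Gd k) : ∃ w w' k, MaxB X P w w' k := by
  have : ∃ n, ∃ w w' φ φ', P w φ ∧ P w' φ' ∧ ∃ k ∈ X, ¬ Gd k ∧ finrank F (U ⊗[F] W) -
      finrank F ↥(tl U (F ∙ w) ⊓ pM k w') = n :=
    ⟨_, w, w, φ, φ, hw, hw, k, hk, hk', rfl⟩
  classical
  obtain ⟨w, w', φ, φ', a1, a2, k, a3, a4, a5⟩ := Nat.find_spec this
  refine ⟨w, w', k, ⟨_, a1⟩, ⟨_, a2⟩, a3, a4, fun y y' ψ ψ' b1 b2 k' b3 b4 => ?_⟩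
  have h3 := Nat.find_min' this ⟨y, y', ψ, ψ', b1, b2, k', b3, b4, rfl⟩
  have h4 := Submodule.finrank_le (tl U (F ∙ y) ⊓ pM k' y')
  have h5 := Submodule.finrank_le (tl U (F ∙ w) ⊓ pM k w')
  omega

theorem MaxB.mem_of_lt (h : MaxB X P w w' k) (ht : t ∈ X) {Z : Submodule F (U ⊗[F] W)}
    (h1 : Z ≤ pM k w')
    (h2 : ∀ z ∈ Z, t z ∈ pM k w')
    (h3 : finrank F ↥(tl U (F ∙ w) ⊓ pM k w') <
      finrank F Z) : Gd (k⁻¹ * t * k) := by
  by_contra hc
  obtain ⟨φ, a⟩ := h.hw'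
  have h4 := h.max _ _ _ _ a a _ (mul_mem (mul_mem (inv_mem h.mem) ht) h.mem) hc
  have h5 := Submodule.finrank_mono (show Z.map ((k⁻¹ * t : _ ≃ₗ[F] _) : _ →ₗ[F] _) ≤
      tl U (F ∙ w') ⊓ pM (k⁻¹ * t * k) w' by
    rintro _ ⟨z, hz, rfl⟩
    obtain ⟨l', hl', e'⟩ := h1 hz
    exact ⟨mem_map_iff.1 (h2 z hz), l', hl', by simp [← e']⟩)
  rw [finrank_map_equiv] at h5
  omega

namespace BP

omit [FiniteDimensional F U]
variable (h : BP X P) [FiniteDimensional F U]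
include h

omit [FiniteDimensional F W] in
theorem ex : ∃ u : U, u ≠ 0 := finrank_pos_iff_exists_ne_zero.1 h.pos

omit [FiniteDimensional F W] in
theorem rt_ne (hw : P w φ) (hs : IsRt s w φ) : s ≠ 1 := fun e => by
  obtain ⟨u, hu⟩ := h.ex
  obtain ⟨x, hx⟩ := hs.range (h.ne' _ _ hw) u
  exact tmul_ne_zero hu (h.ne _ _ hw) (by simpa [e] using hx.symm)

omit [FiniteDimensional F U] [FiniteDimensional F W] in
theorem of_conj (hw : P w φ) (hs : IsRt s w ψ) (hψ : ψ ≠ 0) (hg : g ∈ X)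
    (e : g * s * g⁻¹ ∈ cen (tl U (F ∙ y))) : g ∈ tenStab F U W :=
  h.pt w φ y hw g hg fun u => by
    obtain ⟨x, hx⟩ := hs.range hψ u
    simpa [← hx, inv_apply_apply] using e (g x)

omit [FiniteDimensional F W] in
theorem of_comm (hw : P w φ) (hs : IsRt s w φ) (hg : g ∈ X) (e : g * s = s * g) :
    g ∈ tenStab F U W :=
  h.of_conj hw hs (h.ne' _ _ hw) hg (by rw [e, mul_inv_cancel_right]; exact hs.cen)

theorem aux (hw : P w φ) (hs : IsRt s w φ) (hk : k ∈ X) (e : k⁻¹ * s * k ∈ tenStab F U W) :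
    k ∈ tenStab F U W ∨ ∀ E, Commute (cj k⁻¹ (rA U (φ.smulRight w))) (rA U E) := by
  obtain ⟨α, β, e⟩ := e
  have a2 := conj_mem_cen (k := k⁻¹) hs.cen
  have a3 := conj_sq (k := k) (hs.sq (h.zero _ _ hw))
  have a4 := conj_ne_one (k := k) (h.rt_ne hw hs)
  have a5 := hs.conj k⁻¹
  rw [inv_inv] at a2 a5
  rw [e] at a2 a3 a4 a5
  refine (h.sc α β _ (finrank_pt (h.ne _ _ hw) _).le a2 a3).imp (fun a => ?_) fun ⟨c, hc⟩ E => ?_
  · obtain ⟨r, b1, b2⟩ := (isR_of_scalar a).exists_ne a4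
    have b3 : ∀ u, k (u ⊗ₜ r) ∈ tl U (F ∙ w) := fun u => by
      obtain ⟨x, hx⟩ := b2 u
      rw [← hx, ← e, conj_sub']
      exact hs.cen _
    obtain ⟨ψ, b4⟩ := h.all w φ r hw k hk b3 b1
    exact h.pt r ψ w b4 k hk b3
  · rw [eq_sub_of_add_eq' a5.symm]
    exact Commute.sub_left (TensorProduct.ext' fun u y => by simp [hc]) (Commute.one_left _)

theorem s1 (hw : P w φ) (hs : IsRt s w φ) (hk : k ∈ X) (e : k⁻¹ * s * k ∈ tenStab F U W) :
    Gd k := by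
  refine or_iff_not_imp_left.2 fun hn D E => ?_
  have h1 := (h.aux hw hs hk e).resolve_left hn
  refine h.gen (((Subalgebra.centralizer F {rA U E}).comap (k.conjAlgEquiv F).toAlgHom).comap (rA U))
    (fun y ψ a => ?_) D _ rfl |>.symm
  obtain ⟨t, b1, b2⟩ := h.tv y ψ a
  have b3 := (h.aux a b2 (inv_mem hk) (h.of_comm hw hs (mul_mem (mul_mem (by simpa) b1)
    (inv_mem hk)) (LinearEquiv.toLinearMap_injective (by
      have := Commute.cj (h1 (ψ.smulRight y)) k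
      rw [cj_cj_inv] at this
      rw [inv_inv, LinearEquiv.coe_toLinearMap_mul, b2.conj, LinearEquiv.coe_toLinearMap_mul,
        b2.conj, hs.coe]
      exact ((Commute.one_left _).add_left ((Commute.one_right _).add_right this.symm)).eq)))
    ).resolve_left fun e => hn (inv_mem_iff.1 e)
  rintro _ rfl
  exact (b3 E).eq.symm

theorem s2a (h2 : ∀ w φ, P w φ → ∃ c : F, c ≠ 1 ∧ P w (c • φ)) : S2 X P := fun k hk w φ hw e => by
  obtain ⟨c, c1, c2⟩ := h2 w φ hw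
  have c0 : c ≠ 0 := fun e => h.ne' _ _ c2 (by simp [e])
  have key : ∀ c : F, P w (c • φ) → Gd k ∨ ∀ D E, Commute ((1 + c • cj k⁻¹ (rA U (φ.smulRight w))) *
      rA U D * (1 - c • cj k⁻¹ (rA U (φ.smulRight w)))) (rA U E) := fun c hc => by
    obtain ⟨s, a1, a2⟩ := h.tv _ _ hc
    refine (e c hc s a1 a2).imp (h.s1 hc a2 hk) fun a D E => ?_
    rw [← cj_tr (α := k⁻¹ * s * k) (fun x => by simp [a2 _, rA_rk, inv_apply_apply, ← smul_tmul'])
      (by rw [smul_mul_smul_comm, ← cj_mul', ← map_mul, smulRight_mul, h.zero _ _ hw]; ext; simp)]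
    exact a D E
  refine (key 1 (by simpa)).elim id fun a1 => (key c c2).elim id fun a2 => ?_
  obtain ⟨y, hy⟩ := DFunLike.ne_iff.1 (h.ne' _ _ hw)
  obtain ⟨ψ, hψ⟩ := exists_dual_one (F := F) (h.ne _ _ hw)
  obtain ⟨u, hu⟩ := h.ex
  have e0 : rA U (ψ.smulRight w) * rA U (ψ.smulRight w) = rA U (ψ.smulRight w) := by
    rw [← map_mul, smulRight_mul, hψ, one_smul]
  have b1 := (a1 (ψ.smulRight w) (ψ.smulRight w)).eq
  have b2 := (a2 (ψ.smulRight w) (ψ.smulRight w)).eq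
  have b3 := (a1 (ψ.smulRight w) (φ.smulRight w)).eq
  have b4 := LinearMap.congr_fun (show rA U (ψ.smulRight w) * rA U (φ.smulRight w) =
      rA U (φ.smulRight w) * rA U (ψ.smulRight w) by
    have b5 : (1 + (1 : F) • cj k⁻¹ (rA U (φ.smulRight w))) * (1 - (1 : F) • cj k⁻¹
        (rA U (φ.smulRight w))) = 1 := by
      rw [one_smul, mul_sub, add_mul, add_mul, ← cj_mul', ← map_mul, smulRight_mul, h.zero _ _ hw]
      ext; simp
    generalize cj k⁻¹ (rA U (φ.smulRight w)) = N at *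
    generalize rA U (ψ.smulRight w) = p at *
    have e1 : ∀ x, p * (p * x) = p * x := fun x => by rw [← mul_assoc, e0]
    have b6 : (c * (c - 1)) • (p * (N * p) + p * (N * p) - p * N - N * p) = 0 := by
      simp only [mul_add, add_mul, mul_sub, sub_mul, smul_mul_assoc, mul_smul_comm, one_mul,
        mul_one, mul_assoc, e0, e1] at b1 b2
      linear_combination (norm := module) b2 - (c * c) • b1
    have b7 := (smul_eq_zero.1 b6).resolve_left (mul_ne_zero c0 (sub_ne_zero.2 c1))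
    have b8 : p * N = N * p := by
      have d1 := congrArg (p * ·) b7
      have d2 := congrArg (· * p) b7
      simp only [mul_add, add_mul, mul_sub, sub_mul, mul_assoc, e0, e1, mul_zero, zero_mul] at d1 d2
      linear_combination (norm := module) d2 - d1
    rwa [mul_assoc _ p, show p * (1 - (1 : F) • N) = (1 - (1 : F) • N) * p by
      simp [mul_sub, sub_mul, b8], ← mul_assoc, b5, one_mul] at b3) (u ⊗ₜ y)
  simp [h.zero _ _ hw, hψ, tmul_ne_zero hu (h.ne _ _ hw)] at b4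
  exact absurd b4 hy

theorem s2b (h2 : (2 : F) = 0) (l : List (W × Dual F W)) (hl : Odd l.length)
    (h1 : ∀ p ∈ l, P p.1 p.2) (h3 : (l.map fun p => 1 + p.2.smulRight p.1).prod = (1 : End F W)) :
    S2 X P := fun k hk w φ hw e => by
  obtain ⟨s, a1, a2⟩ := h.tv _ _ hw
  refine (e 1 (by simpa) s a1 (by simpa)).elim (h.s1 hw a2 hk) fun a => by_contra fun hn => ?_
  have a3 := sq_of_sub h2 (a2.sq (h.zero _ _ hw))
  have a4 : ∀ D E, Commute (cj s (cj k (rA U D))) (cj k (rA U E)) := fun D E => by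
    simpa [cj_cj, cj_cj_inv] using Commute.cj (a D E) k
  have a5 : ∀ A, cj s (cj s A) = A := fun A => by rw [← cj_cj, a3]; rfl
  have key : ∀ l : List (W × Dual F W), (∀ p ∈ l, P p.1 p.2) → ∃ A, (∀ E, Commute A (rA U E)) ∧
      cj k (rA U (l.map fun p => 1 + p.2.smulRight p.1).prod) *
        cj s (cj k (rA U (l.map fun p => 1 + p.2.smulRight p.1).prod)) =
          A * (s : End F (U ⊗[F] W)) ^ l.length := fun l hl => by
    induction l with
    | nil => exact ⟨1, fun _ => Commute.one_left _, by ext; simp [apply_inv_apply]⟩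
    | cons p l ih =>
      obtain ⟨A, b1, b2⟩ := ih fun q hq => hl q (List.mem_cons_of_mem _ hq)
      have b3 := hl p List.mem_cons_self
      obtain ⟨t, b4, b5⟩ := h.tv _ _ b3
      have b6 : ((k * t * k⁻¹ : _ ≃ₗ[F] _) : End F _) = cj k (rA U (1 + p.2.smulRight p.1)) := by
        rw [b5.conj]; ext; simp [apply_inv_apply]
      have b7 := mul_mem (mul_mem hk b4) (inv_mem hk)
      have b8 : k * t * k⁻¹ * (k * t * k⁻¹) = 1 := by
        rw [show k * t * k⁻¹ * (k * t * k⁻¹) = k * (t * t) * k⁻¹ by group,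
          sq_of_sub h2 (b5.sq (h.zero _ _ b3))]; simp
      have b9 : k * t * k⁻¹ ∉ tenStab F U W := fun c =>
        hn (by simpa using (h.s1 b3 b5 (inv_mem hk) (by simpa)).inv)
      generalize k * t * k⁻¹ = b at *
      have c1 : b * (s * b * s⁻¹) = s * b * s⁻¹ * b := LinearEquiv.toLinearMap_injective (by
        have := (a4 (1 + p.2.smulRight p.1) (1 + p.2.smulRight p.1)).eq
        rw [← b6] at this
        exact this.symm)
      have c2 := (h.aux hw a2 b7 (by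
        simpa [inv_eq_of_mul_eq_one_right b8, mul_assoc] using mul_mem (h.of_comm hw a2
          (mul_mem b7 (mul_mem (mul_mem a1 b7) (inv_mem a1))) (by
            nth_rw 2 [c1]
            rw [inv_eq_of_mul_eq_one_right a3]
            simp [← mul_assoc, a3]; simp [mul_assoc, a3])) (a2.mem (h.zero _ _ hw)))).resolve_left b9
      refine ⟨(1 + cj b⁻¹ (rA U (φ.smulRight w))) * A, fun E =>
        ((Commute.one_left _).add_left (c2 E)).mul_left (b1 E), ?_⟩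
      rw [List.map_cons, List.prod_cons, map_mul, cj_mul', cj_mul', mul_assoc, ← mul_assoc _ (cj s _),
        ← (a4 _ _).eq, mul_assoc, b2, ← b6, ← a2.conj, List.length_cons, pow_succ', ← mul_assoc,
        mul_assoc _ A, ← mul_assoc A, show A * s = s * A by rw [a2.coe]; exact
          ((Commute.one_right _).add_right (b1 _)).eq,
        inv_inv, inv_eq_of_mul_eq_one_right b8, cj_eq, inv_eq_of_mul_eq_one_right a3]
      simp only [LinearEquiv.coe_toLinearMap_mul, mul_assoc]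
  obtain ⟨A, b1, b2⟩ := key l h1
  obtain ⟨j, hj⟩ := hl
  rw [h3, hj, pow_succ, pow_mul, pow_two, ← LinearEquiv.coe_toLinearMap_mul, a3, map_one] at b2
  have b3 : A = s := by
    have := congrArg (· * (s : End F (U ⊗[F] W))) b2
    rw [mul_assoc, mul_assoc, mul_assoc, ← LinearEquiv.coe_toLinearMap_mul, a3] at this
    exact LinearMap.ext fun x => by simpa [apply_inv_apply] using (LinearMap.congr_fun this x).symm
  obtain ⟨y, hy⟩ := DFunLike.ne_iff.1 (h.ne' _ _ hw)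
  obtain ⟨ψ, hψ⟩ := exists_dual_one (F := F) (h.ne _ _ hw)
  obtain ⟨u, hu⟩ := h.ex
  have b4 := LinearMap.congr_fun (b1 (ψ.smulRight w)).eq (u ⊗ₜ y)
  simp [b3, a2 _, h.zero _ _ hw, hψ, tmul_add] at b4
  exact tmul_ne_zero (smul_ne_zero hy hu) (h.ne _ _ hw) b4

theorem cen_rt (hw : P w φ) (hs : s ∈ X) (hs' : s ∈ cen (tl U (F ∙ w))) : ∃ ψ, IsRt s w ψ := by
  obtain ⟨z, -, hz⟩ := exists_mem_not_mem_of_finrank_lt (W := F ∙ w) (W' := ⊤) (by
    have := h.dim; have := finrank_span_singleton_le (F := F) w; rw [finrank_top]; omega)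
  obtain ⟨B, hB⟩ := isR_of_perp (h.pt w φ w hw s hs fun u => (cen_le_glStab hs' _).1
    (tmul_mem_tl u (mem_span_singleton_self w))) hz fun u => hs' _
  obtain ⟨χ, hχ⟩ := exists_dual_one (F := F) (h.ne _ _ hw)
  obtain ⟨u, hu⟩ := h.ex
  refine ⟨χ ∘ₗ (B - 1), fun x => ?_⟩
  induction x with
  | zero => simp
  | tmul v y =>
    obtain ⟨c, hc⟩ := mem_span_singleton.1 (mem_of_tmul_mem_tl hu (by
      simpa [hB, tmul_sub] using hs' (u ⊗ₜ y) : u ⊗ₜ (B y - y) ∈ _))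
    rw [hB, cR_tmul, show (χ ∘ₗ (B - 1)) y = χ (B y - y) from rfl, ← hc, smul_tmul, ← tmul_add,
      map_smul, hχ, smul_eq_mul, mul_one, hc, add_sub_cancel]
  | add x y a b => simp only [map_add, a, b, add_tmul]; abel

/-- The Frobenius argument. -/
theorem fr [Finite F] {Y : Subgroup ((U ⊗[F] W) ≃ₗ[F] (U ⊗[F] W))} (hY : Y ≤ X) (hw : P w φ)
    (hw' : P w ψ) (hne : φ ≠ ψ) {s₁ s₂ : (U ⊗[F] W) ≃ₗ[F] (U ⊗[F] W)} (h1 : s₁ ∈ Y)
    (h1' : IsRt s₁ w φ) (h2 : s₂ ∈ Y) (h2' : IsRt s₂ w ψ) (ht : t ∈ Y)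
    (ht' : t ∉ cen (tl U (F ∙ w))) :
    ∃ g ∈ Y, g ∈ glStab (tl U (F ∙ w)) ∧ g ∉ cen (tl U (F ∙ w)) := by
  by_contra hc
  push Not at hc
  have : Finite (U ⊗[F] W) := Module.finite_of_finite F
  have : Finite ((U ⊗[F] W) ≃ₗ[F] (U ⊗[F] W)) := DFunLike.finite _
  obtain ⟨N, hN0, hN, hN'⟩ := H5.frobenius_kernel ((cen (tl U (F ∙ w))).subgroupOf Y)
    fun x hx s hs e => by
      by_contra h0
      obtain ⟨χ, a⟩ := h.cen_rt hw (hY s.2) hs
      refine hx (hc x x.2 (mem_glStab_of_mapsTo fun l hl => ?_))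
      obtain ⟨u, rfl⟩ := mem_tl_singleton.1 hl
      obtain ⟨y, hy⟩ := a.range (fun e => h0 (Subtype.ext (LinearEquiv.ext fun x => by
        simp [a x, e]))) u
      simpa [← hy, inv_apply_apply] using e (x.1 y)
  obtain ⟨p, hp⟩ := CharP.exists F
  obtain ⟨u₀, hu₀⟩ := h.ex
  have pw : ∀ s (χ : Dual F W), IsRt s w χ → ∀ n : ℕ,
      (s ^ n) (u₀ ⊗ₜ w) = (1 + χ w) ^ n • u₀ ⊗ₜ[F] w ∧
      (χ w = 0 → IsRt (s ^ n) w ((n : F) • χ)) := fun s χ a n => by
    induction n with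
    | zero => simp [IsRt]
    | succ n ih =>
      refine ⟨by rw [pow_succ', LinearEquiv.mul_apply, ih.1, map_smul, a]; simp [pow_succ, mul_smul,
        add_smul, ← smul_tmul'], fun e x => ?_⟩
      rw [pow_succ', LinearEquiv.mul_apply, ih.2 e, a]
      simp [e, add_smul, add_tmul, add_assoc]
  have key : ∀ n ∈ N, ∀ (s : Y) χ, P w χ → IsRt s.1 w χ → ∀ y,
      n.1 (s.1 y) + s.1⁻¹ (n.1⁻¹ y) = (2 : F) • y := fun n hn s χ b hs y => by
    have : n * s ∉ N := fun e => by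
      rcases (hN s).1 ((mul_mem_cancel_left hn).1 e) with e | e
      exacts [h.rt_ne b hs (congrArg Subtype.val e),
        e 1 (by simpa [Subgroup.mem_subgroupOf] using hs.cen)]
    rw [hN, not_or, not_forall] at this
    obtain ⟨-, x, hx⟩ := this
    rw [not_not] at hx
    obtain ⟨χ', a⟩ := h.cen_rt hw (hY (x * (n * s) * x⁻¹).2) hx
    have a1 : s ^ p = 1 := Subtype.ext (LinearEquiv.ext fun x => by
      simpa using (pw _ _ hs p).2 (h.zero _ _ b) x)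
    have a2 : (x * (n * s) * x⁻¹) ^ p ∈ N := by
      rw [conj_pow]
      refine hN0.conj_mem _ ((QuotientGroup.eq_one_iff _).1 ?_) _
      rw [QuotientGroup.mk_pow, QuotientGroup.mk_mul, (QuotientGroup.eq_one_iff n).2 hn, one_mul,
        ← QuotientGroup.mk_pow, a1, QuotientGroup.mk_one]
    have a3 := (pw _ _ a p).1
    rw [← Subgroup.coe_pow, ((hN _).1 a2).resolve_right fun e => e 1 (by
      simpa using pow_mem hx p), Subgroup.coe_one, LinearEquiv.coe_one, id] at a3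
    have := (CharP.char_is_prime F p |> Fact.mk)
    rw [add_pow_char, one_pow, add_smul, one_smul, left_eq_add, smul_eq_zero] at a3
    have h3 := a.sq (pow_eq_zero_iff this.out.ne_zero |>.1
      (a3.resolve_right (tmul_ne_zero hu₀ (h.ne _ _ hw)))) (x.1 (s.1⁻¹ (n.1⁻¹ y)))
    simp only [Subgroup.coe_mul, Subgroup.coe_inv, LinearEquiv.mul_apply, inv_apply_apply,
      apply_inv_apply, ← map_sub, EmbeddingLike.apply_eq_iff_eq] at h3
    simp only [map_sub, apply_inv_apply] at h3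
    linear_combination (norm := module) h3
  have hN1 : ∀ n ∈ N, n = 1 := fun n hn => by
    have h3 : n.1 ∈ glStab (tl U (F ∙ w)) := mem_glStab_of_mapsTo fun l hl => by
      obtain ⟨u, rfl⟩ := mem_tl_singleton.1 hl
      obtain ⟨χ, a⟩ := h.cen_rt hw (hY (mul_mem h1 (inv_mem h2))) (mul_mem h1'.cen (inv_mem h2'.cen))
      obtain ⟨y, hy⟩ := a.range (fun e => hne (LinearMap.ext fun z => by
        have := a (s₂ (u₀ ⊗ₜ z))
        rw [LinearEquiv.mul_apply, inv_apply_apply, e, h1', h2'] at this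
        exact smul_left_injective F hu₀ (tmul_left_inj (h.ne _ _ hw) (by simpa using this)))) u
      have a1 := key n hn ⟨s₁, h1⟩ φ hw h1' (s₂⁻¹ y)
      have a2 := key n hn ⟨s₂, h2⟩ ψ hw' h2' (s₂⁻¹ y)
      simp only [apply_inv_apply] at a1 a2
      convert sub_mem (inv_mem h2'.cen (n.1⁻¹ (s₂⁻¹ y))) (inv_mem h1'.cen (n.1⁻¹ (s₂⁻¹ y))) using 1
      rw [← hy, map_sub, LinearEquiv.mul_apply]
      linear_combination (norm := module) a1 - a2
    rcases (hN n).1 hn with e | e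
    exacts [e, absurd (by simpa [Subgroup.mem_subgroupOf] using hc n n.2 h3) (e 1)]
  obtain ⟨⟨n, s⟩, e⟩ := hN'.2 ⟨t, ht⟩
  have : s.1 = ⟨t, ht⟩ := by simpa [hN1 n n.2] using e
  exact ht' (by simpa [this, Subgroup.mem_subgroupOf] using s.2)

variable (h2 : S2 X P) (hk : MaxB X P w w' k)
include h2 hk

omit h in
theorem of_stab (hy : P y φ) {Z : Submodule F (U ⊗[F] W)} (a1 : Z ≤ pM k w')
    (a2 : ∀ z ∈ Z, cR U φ z ⊗ₜ y ∈ pM k w') : finrank F Z ≤ finrank F ↥(tl U (F ∙ w) ⊓ pM k w') :=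
  not_lt.1 fun a3 => hk.bad (h2 k hk.mem y φ hy fun c _ s hs e => hk.mem_of_lt hs a1 (fun z hz => by
    rw [e, map_smul, LinearMap.smul_apply, ← smul_tmul']
    exact add_mem (a1 hz) (smul_mem _ _ (a2 z hz))) a3)

theorem caseII (hy : P y φ) (h0 : φ w = 0) (hx : x ∈ pM k w') (hx' : cR U φ x ⊗ₜ y ∈ pM k w') :
    x ∈ tl U (F ∙ w) := by
  by_contra hc
  refine (of_stab h2 hk hy (Z := (tl U (F ∙ w) ⊓ pM k w') ⊔ F ∙ x)
    (sup_le inf_le_right ((span_singleton_le_iff_mem _ _).2 hx)) fun z hz => ?_).not_gt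
    (finrank_lt_finrank_of_lt (SetLike.lt_iff_le_and_exists.2 ⟨le_sup_left, x,
      mem_sup_right (mem_span_singleton_self x), fun e => hc e.1⟩))
  obtain ⟨c, hc⟩ := mem_sup_span_singleton.1 hz
  obtain ⟨u, hu⟩ := mem_tl_singleton.1 hc.1
  rw [eq_add_of_sub_eq hu]
  simpa [h0, ← smul_tmul'] using smul_mem _ c hx'

theorem fr' [Finite F] (hw : P w φ) (hw' : P w ψ) (hne : φ ≠ ψ) : ∃ g ∈ X, g ∈ tenStab F U W ∧
    g ∈ glStab (tl U (F ∙ w)) ∧ g ∈ cen (tl U (F ∙ w) ⊔ pM k w') ∧ g ∉ cen (tl U (F ∙ w)) := by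
  obtain ⟨s₁, a1, a2⟩ := h.tv _ _ hw
  obtain ⟨s₂, a3, a4⟩ := h.tv _ _ hw'
  obtain ⟨χ, b⟩ := hk.hw'
  obtain ⟨s, a5, a6⟩ := h.tv _ _ b
  obtain ⟨g, c1, c2, c3⟩ := h.fr (Y := X ⊓ cen (tl U (F ∙ w) ⊔ pM k w')) (t := k * s * k⁻¹)
    inf_le_left hw hw' hne ⟨a1, cen_mono le_sup_left a2.cen⟩ a2 ⟨a3, cen_mono le_sup_left a4.cen⟩ a4
    ⟨X.mul_mem (X.mul_mem hk.mem a5) (X.inv_mem hk.mem), cen_mono le_sup_right (conj_mem_cen a6.cen)⟩
    fun e => hk.bad (.inl (h.of_conj b a6 (h.ne' _ _ b) hk.mem e))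
  exact ⟨g, c1.1, h.pt w φ w hw g c1.1 fun u => (c2 _).1 (tmul_mem_tl u (mem_span_singleton_self w)),
    c2, c1.2, c3⟩

end BP

end H12
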