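import Cfsg.Agent.H12.WR2

/-!
# Tensor powers: the wreath stabiliser
-/

set_option autoImplicit false
set_option maxHeartbeats 400000

namespace H12

open Module H11 Submodule TensorProduct H13.KL

section Gen

variable {F : Type*} [Field F] {V W : Type*} [AddCommGroup V] [Module F V] [AddCommGroup W]
  [Module F W] {ι : Type*} {ρ : ι → End F W →ₐ[F] End F V} {τ τ' : End F W →ₐ[F] End F V}
  {A : End F V} {g : V ≃ₗ[F] V} [FiniteDimensional F W]

theorem tau_inj [Nontrivial V] (τ : End F W →ₐ[F] End F V) : Function.Injective τ :=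
  (injective_iff_map_eq_zero τ).2 fun D e => by_contra fun hD =>
    one_ne_zero (eq_zero_of_mul_eq (τ := τ) (fun _ => Commute.one_left _) hD (by simp [e]))

theorem not_comm [Nontrivial V] (hd : 2 ≤ finrank F W) :
    ¬ ∀ D E, Commute (τ D) (τ E) := fun h => by
  obtain ⟨w, hw⟩ := finrank_pos_iff_exists_ne_zero.1 (show 0 < finrank F W by omega)
  obtain ⟨z, -, hz⟩ := exists_mem_not_mem_of_finrank_lt (W := F ∙ w) (W' := ⊤) (by
    have := finrank_span_singleton_le (F := F) w; rw [finrank_top]; omega)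
  obtain ⟨φ, h1, h2⟩ := exists_dual_eq_one hz
  have := (h (φ.smulRight w) (φ.smulRight z)).eq
  rw [← map_mul, ← map_mul, smulRight_mul, smulRight_mul] at this
  simpa [h1 w (mem_span_singleton_self w), h2, hw] using LinearMap.congr_fun (tau_inj τ this) z

theorem exists_inner [Nontrivial V] (h : ∀ D, ∃ E, cj g (τ D) = τ' E) :
    ∃ β : W ≃ₗ[F] W, ∀ D, cj g (τ D) = τ' (cj β D) := by
  let f := (AlgEquiv.ofInjective τ' (tau_inj τ')).symm.toAlgHom.comp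
    (((g.conjAlgEquiv F).toAlgHom.comp τ).codRestrict τ'.range fun D =>
      let ⟨E, e⟩ := h D; ⟨E, e.symm⟩)
  have hf : ∀ D, τ' (f D) = cj g (τ D) := fun D =>
    congrArg Subtype.val ((AlgEquiv.ofInjective τ' (tau_inj τ')).apply_symm_apply _)
  have h1 : Function.Injective f := fun D E e => tau_inj τ (by
    rw [← cj_inv_cj g (τ D), ← hf, e, hf, cj_inv_cj])
  obtain ⟨β, hβ⟩ := (AlgEquiv.ofBijective f
    ⟨h1, LinearMap.surjective_of_injective (f := f.toLinearMap) h1⟩).eq_linearEquivConjAlgEquiv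
  exact ⟨β, fun D => (hf D).symm.trans (congrArg τ' (AlgEquiv.congr_fun hβ D))⟩

theorem Fam.mem_of_comm [Nontrivial W] (h : Fam ρ) (j : ι) (J : Subalgebra F (End F V))
    (hl : ∀ l ≠ j, ∀ D, ρ l D ∈ J) (hf : ∀ E, Commute A (ρ j E)) : A ∈ J := by
  have h1 : ∀ A g w φ, (∀ E, Commute A (ρ j E)) → cp (ρ j) (A * g) w φ = A * cp (ρ j) g w φ :=
    fun A g w φ e => by simp [cp, Finset.mul_sum, ← mul_assoc, (e _).eq]
  have h2 : ∀ w φ, cp (ρ j) 1 w φ = φ w • 1 := fun w φ => by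
    conv_rhs => rw [← map_one (ρ j), ← sum_rk' (finBasis F W) 1]
    simp [cp, ← map_mul, smulRight_mul, Finset.smul_sum]
  let Y : Submodule F (End F V) :=
    { carrier := {g | ∀ w φ, cp (ρ j) g w φ ∈ J}
      zero_mem' := fun w φ => by simp [cp]
      add_mem' := fun a b w φ => by
        simpa [cp, mul_add, add_mul, Finset.sum_add_distrib] using add_mem (a w φ) (b w φ)
      smul_mem' := fun c _ a w φ => by simpa [cp, Finset.smul_sum] using J.smul_mem (a w φ) c }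
  obtain ⟨w, hw⟩ := exists_ne (0 : W)
  obtain ⟨φ, hφ⟩ := exists_dual_one (F := F) hw
  have := h.gen ((stabAlg Y).comap (Algebra.lmul F _)) (fun l D g hg w φ => ?_) A 1
    (fun w φ => h2 w φ ▸ J.smul_mem J.one_mem _) w φ
  · change cp (ρ j) (A * 1) w φ ∈ J at this
    rwa [h1 _ _ _ _ hf, h2, hφ, one_smul, mul_one] at this
  change cp (ρ j) (ρ l D * g) w φ ∈ J
  by_cases e : l = j
  · convert hg w (φ ∘ₗ D) using 1
    simp only [cp, LinearMap.mk₂_apply, ← mul_assoc, e, ← map_mul]; rfl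
  · rw [h1 _ _ _ _ (h.comm l j e D)]; exact mul_mem (hl l e D) (hg w φ)

end Gen

variable {F : Type*} [Field F] {U W : Type*} [AddCommGroup U] [Module F U] [AddCommGroup W]
  [Module F W] {X H G : Subgroup ((U ⊗[F] W) ≃ₗ[F] (U ⊗[F] W))} {ι : Type*} [DecidableEq ι]
  {ρ : ι → End F W →ₐ[F] End F (U ⊗[F] W)} {j₀ : ι} {R : Subgroup (W ≃ₗ[F] W)}
  {g k t : (U ⊗[F] W) ≃ₗ[F] (U ⊗[F] W)} {A : End F U} {𝒩 : Set (End F W)}

theorem exists_lH [Nontrivial W] (h : ∀ E, cj k (rA U E) = rA U E) : ∃ α, k = lH F U W α := by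
  have h1 : ∀ E, Commute (k : End F (U ⊗[F] W)) (rA U E) := fun E => LinearMap.ext fun x => by
    simpa [inv_apply_apply] using LinearMap.congr_fun (h E) (k x)
  obtain ⟨A, hA⟩ := exists_rTensor h1
  obtain ⟨B, hB⟩ := exists_rTensor (A := (k⁻¹ : U ⊗[F] W ≃ₗ[F] U ⊗[F] W).toLinearMap) fun E => LinearMap.ext fun x => by
    simpa [inv_apply_apply, apply_inv_apply] using
      congrArg (k⁻¹ : _ ≃ₗ[F] _) (LinearMap.congr_fun (h1 E).eq.symm (k⁻¹ x))
  obtain ⟨w, hw⟩ := exists_ne (0 : W)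
  have a1 : ∀ u, k (u ⊗ₜ w) = A u ⊗ₜ w := fun u => LinearMap.congr_fun hA _
  have a2 : ∀ u, k⁻¹ (u ⊗ₜ w) = B u ⊗ₜ w := fun u => LinearMap.congr_fun hB _
  exact ⟨LinearEquiv.ofLinear A B (LinearMap.ext fun u => tmul_left_inj hw (by
    rw [LinearMap.comp_apply, ← a1, ← a2, apply_inv_apply]; rfl)) (LinearMap.ext fun u =>
      tmul_left_inj hw (by rw [LinearMap.comp_apply, ← a2, ← a1, inv_apply_apply]; rfl)),
    LinearEquiv.toLinearMap_injective (hA.trans (TensorProduct.ext' fun _ _ => rfl))⟩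

theorem cj_lH (α : U ≃ₗ[F] U) (A : End F U) :
    cj (lH F U W α) (A.rTensor W) = (cj α A).rTensor W :=
  TensorProduct.ext' fun u w => by simp [← map_inv, lH_tmul]

theorem rTensor_inj [Nontrivial W] {A B : End F U} (h : A.rTensor W = B.rTensor W) : A = B :=
  let ⟨w, hw⟩ := exists_ne (0 : W)
  LinearMap.ext fun u => tmul_left_inj hw (LinearMap.congr_fun h (u ⊗ₜ w))

theorem nontrivial_ten [Nontrivial U] [Nontrivial W] : Nontrivial (U ⊗[F] W) :=
  let ⟨_, hu⟩ := exists_ne (0 : U); let ⟨_, hw⟩ := exists_ne (0 : W)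
  nontrivial_of_ne _ _ (tmul_ne_zero hu hw)

theorem not_gd {w : W} {φ : Dual F W} {u : U} (hw : w ≠ 0) (hφ : φ ≠ 0) (h0 : φ w = 0) (hu : u ≠ 0)
    (h1 : ∀ v, t (v ⊗ₜ w) = v ⊗ₜ w) (h2 : ∀ x, cR U φ (t x) = cR U φ x)
    (h3 : ∀ y, t (u ⊗ₜ y) = u ⊗ₜ y) (h4 : t ≠ 1) : ¬ Gd t := by
  rintro (h | h)
  · obtain ⟨B, hB⟩ := isR_of_perp (Y := ⊥) h hw fun v => by simp [h1]
    exact h4 (LinearEquiv.toLinearMap_injective (TensorProduct.ext' fun v y => by
      simp [hB, tmul_right_inj hu ((hB u y).symm.trans (h3 y))]))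
  · obtain ⟨y, hy⟩ := DFunLike.ne_iff.1 hφ
    obtain ⟨ψ, hψ⟩ := exists_dual_one (F := F) hw
    have := LinearMap.congr_fun (h (φ.smulRight w) (ψ.smulRight w)).eq (u ⊗ₜ y)
    simp [rA_rk, h1, ← h2 (t.symm _), h0, hψ] at this
    exact tmul_ne_zero (smul_ne_zero hy hu) hw this.symm

variable [FiniteDimensional F W]

theorem mem_tenStab_of_norm [Nontrivial U] [Nontrivial W] (h : ∀ D, ∃ E, cj g (rA U D) = rA U E) :
    g ∈ tenStab F U W := by
  have := nontrivial_ten (F := F) (U := U) (W := W)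
  obtain ⟨β, hβ⟩ := exists_inner h
  obtain ⟨α, hα⟩ := exists_lH (k := (rH F U W β)⁻¹ * g) fun E => by
    rw [cj_cj, hβ, ← cj_rU, rU_rA, cj_inv_cj]
  rw [← mul_inv_cancel_left (rH F U W β) g, hα]
  exact mul_mem (rH_mem β) (congr_mem _ _)

variable (ρ j₀ H G) in
/-- `H` is the stabiliser of a tensor power decomposition. -/
structure WrH : Prop extends Fam ρ where
  base : ρ j₀ = rA U
  mem : ∀ g, g ∈ H ↔ ∃ σ : Equiv.Perm ι, ∀ i D, ∃ E, cj g (ρ i D) = ρ (σ i) E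
  tr : ∀ j l m, j ≠ l → m ≠ j → m ≠ l → ∃ c ∈ G, ∀ i D, cj c (ρ i D) = ρ (Equiv.swap j l i) D
  pos : 0 < finrank F U
  dim : 2 ≤ finrank F W

namespace WrH

variable (h : WrH H G ρ j₀)
include h

theorem nU : Nontrivial U := nontrivial_of_finrank_pos h.pos

theorem nW : Nontrivial W := nontrivial_of_finrank_pos (R := F) (by have := h.dim; omega)

theorem nV : Nontrivial (U ⊗[F] W) := have := h.nU; have := h.nW; nontrivial_ten

theorem rU_mem (j : ι) (β : W ≃ₗ[F] W) : rU (ρ j) β ∈ H :=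
  (h.mem _).2 ⟨1, fun i D => by
    by_cases e : j = i
    · exact ⟨_, by subst e; exact cj_rU β D⟩
    · exact ⟨_, cj_of_comm (h.comm j i e β D)⟩⟩

theorem gd (hg : g ∈ H) : Gd g := by
  obtain ⟨σ, hσ⟩ := (h.mem g).1 hg
  have := h.nU; have := h.nW
  by_cases e : σ j₀ = j₀
  · exact .inl (mem_tenStab_of_norm (by simpa [e, h.base] using hσ j₀))
  · refine .inr fun D E => ?_
    obtain ⟨D', e'⟩ := hσ j₀ D
    rw [← h.base, e']; exact h.comm _ _ e _ _

variable (hX : H ⊓ G ≤ X)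
include hX

theorem tr' {j l m : ι} (a : j ≠ l) (b : m ≠ j) (c : m ≠ l) :
    ∃ c ∈ X, ∀ i D, cj c (ρ i D) = ρ (Equiv.swap j l i) D :=
  let ⟨c, h1, h2⟩ := h.tr j l m a b c; ⟨c, hX ⟨(h.mem c).2 ⟨_, fun i D => ⟨D, h2 i D⟩⟩, h1⟩, h2⟩

theorem mem_of_gd [Finite ι] (hG : ∀ g ∈ X, Gd g) (hg : g ∈ X) : g ∈ H := by
  have := h.nV; have := h.nW
  suffices ∀ j, ∃ l, ∀ D, ∃ E, cj g (ρ j D) = ρ l E by
    choose f hf using this
    refine (h.mem g).2 ⟨Equiv.ofBijective f (Finite.injective_iff_bijective.1 fun i j e =>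
      by_contra fun hij => not_comm (τ := ρ (f i)) h.dim fun D E => ?_), hf⟩
    obtain ⟨β, a⟩ := exists_inner (hf i)
    obtain ⟨γ, b⟩ := exists_inner (hf j)
    rw [← cj_cj_inv β D, ← cj_cj_inv γ E, ← a, e, ← b]
    exact Commute.cj (h.comm i j hij _ _) g
  by_cases h3 : ∀ j, ∃ c ∈ X, ∀ D, cj c (rA U D) = ρ j D
  · choose c c1 c2 using h3
    intro j
    by_contra hc
    push Not at hc
    refine not_comm (τ := ρ j) h.dim fun D E => ?_
    obtain ⟨a, ha⟩ := h.scalar (A := cj g (ρ j D)) fun l E => by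
      rcases hG _ (mul_mem (mul_mem (inv_mem (c1 l)) hg) (c1 j)) with ⟨α, β, e⟩ | e
      · obtain ⟨D, a⟩ := hc l
        refine absurd ?_ (a (cj β D))
        rw [← c2, ← c2, ← cj_congr (α := α), ← cj_cj, ← cj_cj, ← e]; simp [mul_assoc]
      · simpa [cj_cj, cj_cj_inv, c2] using Commute.cj (e D E) (c l)
    have := Commute.cj (show Commute (cj g (ρ j D)) (cj g (ρ j E)) by
      rw [ha]; exact (Commute.one_left _).smul_left a) g⁻¹
    rwa [cj_inv_cj, cj_inv_cj] at this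
  push Not at h3
  obtain ⟨j₁, h3⟩ := h3
  have a1 : j₁ ≠ j₀ := by
    rintro rfl
    obtain ⟨D, e⟩ := h3 1 (one_mem _)
    exact e (h.base ▸ rfl)
  have a2 : ∀ m, m ≠ j₀ → m = j₁ := fun m hm => by_contra fun hm' => by
    obtain ⟨c, b1, b2⟩ := h.tr' hX a1.symm hm hm'
    obtain ⟨D, e⟩ := h3 c b1
    exact e (by simpa [h.base] using b2 j₀ D)
  have a3 : ∀ A, (∀ E, Commute A (rA U E)) → ∃ D, A = ρ j₁ D := fun A hA =>
    let ⟨D, e⟩ := h.mem_of_comm j₀ (ρ j₁).range (fun l hl D => ⟨D, by rw [a2 l hl]; rfl⟩)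
      (h.base ▸ hA); ⟨D, e.symm⟩
  have a4 : ∀ A, (∀ E, Commute A (ρ j₁ E)) → ∃ D, A = ρ j₀ D := fun A hA =>
    let ⟨D, e⟩ := h.mem_of_comm j₁ (ρ j₀).range (fun l hl D =>
      ⟨D, by rw [show l = j₀ from by_contra fun e => hl (a2 l e)]; rfl⟩) hA; ⟨D, e.symm⟩
  intro j
  rcases hG g hg with ⟨α, β, rfl⟩ | e
  · by_cases hj : j = j₀
    · exact ⟨j, fun D => ⟨_, by rw [hj, h.base, cj_congr]⟩⟩
    · refine ⟨j₁, fun D => a3 _ fun E => ?_⟩
      rw [← cj_cj_inv β E, ← cj_congr (α := α), ← h.base]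
      exact Commute.cj (h.comm _ _ hj _ _) _
  · have b1 := fun D => a3 _ (e D)
    by_cases hj : j = j₀
    · exact ⟨j₁, by rwa [hj, h.base]⟩
    · obtain ⟨β, b2⟩ := exists_inner b1
      refine ⟨j₀, fun D => a4 _ fun E => ?_⟩
      rw [← cj_cj_inv β E, ← b2, ← h.base]
      exact Commute.cj (h.comm _ _ hj _ _) _

omit hX in
theorem isMax [Finite ι] (ht : t ∈ G) (ht' : ¬ Gd t)
    (hd : ∀ X, H ⊓ G ≤ X → X ≤ G → (∀ g ∈ X, Gd g) ∨ G ≤ X) :
    Cfsg.Geo.IsMaximalIn G (H ⊓ G) :=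
  isMaximalIn_of _ _ inf_le_right (fun e => ht' (h.gd (e ht).1)) fun X a b _ c d =>
    (hd X a b).resolve_left fun e => d ⟨h.mem_of_gd a e c, b c⟩

variable (hR : ∀ j, ∀ β ∈ R, rU (ρ j) β ∈ G) {I : Submodule F (End F U)}
  (hI : ∀ α, lH F U W α ∈ X → ∀ A ∈ I, cj α A ∈ I)
include hI

omit hX in
theorem conj_map (hk : k ∈ X) (e : ∀ E, cj k (rA U E) = rA U E) {B : End F (U ⊗[F] W)}
    (hB : B ∈ I.map (LinearMap.rTensorHom W)) : cj k B ∈ I.map (LinearMap.rTensorHom W) := by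
  have := h.nW
  obtain ⟨α, rfl⟩ := exists_lH e
  obtain ⟨A, a, rfl⟩ := hB
  exact ⟨_, hI α hk A a, (cj_lH α A).symm⟩

include hR in
theorem inv_map : Inv ρ R (I.map (LinearMap.rTensorHom W)) := fun j β hβ B hB => by
  by_cases e : j = j₀
  · obtain ⟨A, a, rfl⟩ := hB
    rw [cj_of_comm (g := rU (ρ j) β) (by rw [rU_coe, e, h.base]; exact (comm_rTensor A _).symm)]
    exact ⟨A, a, rfl⟩
  · exact h.conj_map hI (hX ⟨h.rU_mem j β, hR j β hβ⟩)
      (fun E => cj_of_comm (h.base ▸ h.comm j j₀ e β E)) hB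

omit hX hI in
theorem ex_not_comm (hn : ¬ ∃ c : F, ∀ u, A u = c • u) :
    ∃ j ≠ j₀, ¬ ∀ E, Commute (A.rTensor W) (ρ j E) := by
  have := h.nW
  by_contra hc
  push Not at hc
  obtain ⟨c, e⟩ := h.scalar (A := A.rTensor W) fun j E => by
    by_cases e : j = j₀
    · rw [e, h.base]; exact comm_rTensor A E
    · exact hc j e E
  exact hn ⟨c, fun u => by
    rw [rTensor_inj (B := c • 1) (e.trans (TensorProduct.ext' fun _ _ => rfl))]; rfl⟩

omit hI in
include hR in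
theorem eq_top [Finite ι] (hW : WD R 𝒩) (hE : Extr ρ R 𝒩) (I : Subalgebra F (End F U))
    (hI : ∀ α, lH F U W α ∈ X → ∀ A ∈ I, cj α A ∈ I) (hA : A ∈ I)
    (hn : ¬ ∃ c : F, ∀ u, A u = c • u) (D : End F U) : D ∈ I := by
  have := h.nW
  obtain ⟨j, a1, a2⟩ := h.ex_not_comm hn
  have a3 := h.all_mem hW hE (h.inv_map hX hR (I := I.toSubmodule) hI) (by
    rintro _ ⟨A, a, rfl⟩ _ ⟨B, b, rfl⟩
    exact ⟨A * B, I.mul_mem a b, LinearMap.rTensor_mul W A B⟩) ⟨A, hA, rfl⟩ a2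
  obtain ⟨D', b1, b2⟩ := h.mem_of_comm j₀ (I.map (Module.End.rTensorAlgHom F U W)) (fun l hl E => by
    by_cases e : j = l
    · exact e ▸ a3 E
    obtain ⟨c, c1, c2⟩ := h.tr' hX e a1.symm hl.symm
    have := h.conj_map (I := I.toSubmodule) hI c1 (fun E => by
      simpa [Equiv.swap_apply_of_ne_of_ne a1.symm hl.symm, h.base] using c2 j₀ E) (a3 E)
    rwa [c2, Equiv.swap_apply_left] at this) (h.base ▸ comm_rTensor D)
  exact rTensor_inj b2 ▸ b1

end WrH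

end H12
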