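import Cfsg.Agent.H12.WR3
import Cfsg.Agent.H12.FieldExt

/-!
# Tensor powers: the linear case
-/

set_option autoImplicit false
set_option maxHeartbeats 400000

namespace H12

open Module H11 Submodule TensorProduct H13.KL

universe u

theorem even_of_quad {F : Type*} [Field F] {a b : F} (h : ∀ c, a * c * c + b * c ≠ 1) (n : ℕ) :
    ∀ (U : Type u) [AddCommGroup U] [Module F U] [FiniteDimensional F U] (A : End F U),
      finrank F U = n → (∀ u, a • A (A u) + b • A u = u) → Even n := by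
  induction n using Nat.strong_induction_on with | _ n ih => ?_
  intro U _ _ _ A hn e
  rcases n.eq_zero_or_pos with rfl | h0
  · simp
  obtain ⟨x, hx⟩ := finrank_pos_iff_exists_ne_zero.1 (hn ▸ h0)
  have h1 : A x ∉ F ∙ x := fun c => by
    obtain ⟨c, hc⟩ := mem_span_singleton.1 c
    have := e x
    rw [← hc, map_smul, ← hc, smul_smul, smul_smul, smul_smul, ← add_smul] at this
    exact h c (smul_left_injective F hx (by simpa using this))
  have ha : a ≠ 0 := fun c => h1 (by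
    have := e x
    rw [c, zero_smul, zero_add] at this
    exact mem_span_singleton.2 ⟨b⁻¹, by
      rw [inv_smul_eq_iff₀ (fun c => hx (by rw [← this, c, zero_smul])), this]⟩)
  have h2 : span F {x, A x} ≤ (span F {x, A x}).comap A := span_le.2 (by
    rintro _ (rfl | rfl)
    · exact mem_pair_right _ _
    · exact mem_comap.2 ((smul_mem_iff _ ha).1 (mem_span_pair.2 ⟨1, -b, by
        linear_combination (norm := module) -e x⟩)))
  have h3 := (span F {x, A x}).finrank_quotient_add_finrank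
  have h4 := finrank_lt_finrank_of_lt (SetLike.lt_iff_le_and_exists.2
    ⟨span_mono (by simp), A x, mem_pair_right x _, h1⟩ : F ∙ x < span F {x, A x})
  have h5 := finrank_span_pair_le (F := F) x (A x)
  rw [finrank_span_singleton hx] at h4
  obtain ⟨m, hm⟩ := ih _ (by omega) _ (mapQ _ _ A h2) rfl fun y => by
    obtain ⟨y, rfl⟩ := mkQ_surjective _ y
    simpa using congrArg (span F {x, A x}).mkQ (e y)
  exact ⟨m + 1, by omega⟩

variable {F : Type*} [Field F] {U W : Type*} [AddCommGroup U] [Module F U] [AddCommGroup W]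
  [Module F W] {X H G : Subgroup ((U ⊗[F] W) ≃ₗ[F] (U ⊗[F] W))} {w w' : W} {φ φ' : Dual F W}
  {g : (U ⊗[F] W) ≃ₗ[F] (U ⊗[F] W)} {A B : End F U} {α : U ≃ₗ[F] U} {β : W ≃ₗ[F] W}
  [FiniteDimensional F U] [FiniteDimensional F W]

omit [FiniteDimensional F U] [FiniteDimensional F W] in
theorem IsR.scalar [Nontrivial W] (h : IsR (TensorProduct.congr α β)) : ∃ c : F, ∀ u, α u = c • u := by
  obtain ⟨B, hB⟩ := h
  obtain ⟨y, hy⟩ := _root_.exists_ne (0 : W)
  obtain ⟨φ, hφ⟩ := exists_dual_one (F := F) (v := β y) (by simpa)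
  exact ⟨φ (B y), fun u => by simpa [hφ] using congrArg (cR U φ) (hB u y)⟩

theorem sc_three (hd : 3 ≤ finrank F W) (Z : Submodule F (U ⊗[F] W))
    (hZ : finrank F Z ≤ finrank F U) (h : TensorProduct.congr α β ∈ cen Z) :
    (∃ c : F, ∀ u, α u = c • u) ∨ ∃ c : F, ∀ w, β w = c • w := by
  refine or_iff_not_imp_right.2 fun hn => ?_
  obtain ⟨y, hy⟩ := not_forall.1 (mt (exists_scalar_of_eigen (A := β.toLinearMap)) hn)
  have y0 : y ≠ 0 := by rintro rfl; simp at hy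
  have := nontrivial_of_ne y 0 y0
  obtain ⟨φ, a1, a2⟩ := exists_dual_eq_one hy
  obtain ⟨z, -, hz⟩ := exists_mem_not_mem_of_finrank_lt (W := span F {y, β y}) (W' := ⊤) (by
    have := finrank_span_pair_le (F := F) y (β y); rw [finrank_top]; omega)
  let f : U →ₗ[F] Z := LinearMap.codRestrict Z (((TensorProduct.congr α β).toLinearMap - 1) ∘ₗ
    (TensorProduct.mk F U W).flip y) fun u => h (u ⊗ₜ y)
  have h1 : Function.Injective f := (injective_iff_map_eq_zero _).2 fun u e => by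
    simpa [f, a1 y (mem_span_singleton_self y), show φ (β y) = 1 from a2] using
      congrArg (fun z : Z => cR U φ z) e
  refine (isR_of_perp (congr_mem α β) hz fun u => ?_).scalar
  obtain ⟨v, hv⟩ := (LinearMap.injective_iff_surjective_of_finrank_eq_finrank (le_antisymm
    (LinearMap.finrank_le_finrank_of_injective h1) hZ)).1 h1 ⟨_, h (u ⊗ₜ z)⟩
  rw [← show _ = TensorProduct.congr α β (u ⊗ₜ z) - u ⊗ₜ z from congrArg Subtype.val hv]
  exact sub_mem (tmul_mem_tl _ (mem_pair_right _ _)) (tmul_mem_tl _ (mem_pair_left _ _))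

/-- The root pairs in the linear case. -/
def PL (w : W) (φ : Dual F W) : Prop := w ≠ 0 ∧ φ ≠ 0 ∧ φ w = 0

theorem exists_PL (hd : 3 ≤ finrank F W) (hw : w ≠ 0) : ∃ φ ψ : Dual F W, PL w φ ∧ PL w ψ ∧
    PL w (φ + ψ) ∧ φ ≠ ψ := by
  obtain ⟨φ, a1, a2, -⟩ := exists_dual_ker_two hd w w
  obtain ⟨y, hy⟩ := DFunLike.ne_iff.1 a1
  obtain ⟨ψ, b1, b2, b3⟩ := exists_dual_ker_two hd w y
  exact ⟨φ, ψ, ⟨hw, a1, a2⟩, ⟨hw, b1, b2⟩, ⟨hw, fun e => hy (by
    simpa [b3] using LinearMap.congr_fun e y), by simp [a2, b2]⟩, fun e => hy (e ▸ b3)⟩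

theorem gen_PL (hd : 3 ≤ finrank F W) (S : Subalgebra F (End F W))
    (h : ∀ w φ, PL w φ → φ.smulRight w ∈ S) : ∀ D, D ∈ S := mem_of_rk S.toSubmodule fun φ w => by
  have key : ∀ (φ : Dual F W) w, φ w = 0 → φ.smulRight w ∈ S := fun φ w e => by
    by_cases a : w = 0 ∨ φ = 0
    · rcases a with rfl | rfl <;> simp
    · push Not at a; exact h w φ ⟨a.1, a.2, e⟩
  by_cases hw : φ w = 0
  · exact key φ w hw
  obtain ⟨y, b1, b2⟩ := exists_ker_ne_zero φ (by simp; omega)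
  obtain ⟨χ, b3, b4⟩ := exists_dual_eq_one (H := F ∙ w) (u := y) fun h => by
    obtain ⟨c, rfl⟩ := mem_span_singleton.1 h
    simp [hw, left_ne_zero_of_smul b1] at b2
  simpa [smulRight_mul, b4] using S.mul_mem (key χ w (b3 w (mem_span_singleton_self w)))
    (key φ y b2)

theorem BP.s2_lin (h : BP X PL) (hd : 3 ≤ finrank F W) : S2 X PL := by
  by_cases hc : ∃ c : F, c ≠ 0 ∧ c ≠ 1
  · obtain ⟨c, c0, c1⟩ := hc
    exact h.s2a fun w φ a => ⟨c, c1, a.1, smul_ne_zero c0 a.2.1, by simp [a.2.2]⟩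
  push Not at hc
  have h2 : (2 : F) = 0 := by_contra fun e => one_ne_zero (α := F) (by linear_combination hc 2 e)
  obtain ⟨w, hw⟩ := finrank_pos_iff_exists_ne_zero.1 (show 0 < finrank F W by omega)
  obtain ⟨φ, ψ, a1, a2, a3, -⟩ := exists_PL hd hw
  refine h.s2b h2 [(w, φ), (w, ψ), (w, φ + ψ)] ⟨1, rfl⟩ (by simp [a1, a2, a3])
    (LinearMap.ext fun x => ?_)
  have e : ((φ x + ψ x) * 2) • w = 0 := by simp [h2]
  simp [a1.2.2, a2.2.2]
  linear_combination (norm := module) e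

theorem BP.gd_lin [Finite F] (h : BP X PL) (hd : 3 ≤ finrank F W)
    (ho : 4 ≤ finrank F W ∨ Odd (finrank F U)) (hg : g ∈ X) : Gd g := by
  by_contra hg'
  obtain ⟨w, hw⟩ := finrank_pos_iff_exists_ne_zero.1 (show 0 < finrank F W by omega)
  obtain ⟨φ, -, a, -⟩ := exists_PL hd hw
  obtain ⟨w, w', k, hk⟩ := exists_maxB a hg hg'
  obtain ⟨_, hw, -⟩ := hk.hw
  obtain ⟨φ, ψ, a1, a2, -, a3⟩ := exists_PL hd hw
  obtain ⟨g, -, ⟨α, β, rfl⟩, b1, b2, b3⟩ := h.fr' (h.s2_lin hd) hk a1 a2 a3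
  have key : ∀ (φ : Dual F W) x, φ ≠ 0 → φ w = 0 → cR U φ (TensorProduct.congr α β x - x) = 0 →
      TensorProduct.congr α β x - x ∈ tl U (F ∙ w) := fun φ x c1 c2 c3 => by
    obtain ⟨l, hl, m, hm, e⟩ := mem_sup.1 (b2 x)
    obtain ⟨u, rfl⟩ := mem_tl_singleton.1 hl
    rw [← e] at c3 ⊢
    exact add_mem hl (h.caseII (h.s2_lin hd) hk ⟨hw, c1, c2⟩ c2 hm (by
      simp [show cR U φ m = 0 by simpa [c2] using c3]))
  obtain ⟨u₀, hu₀⟩ := h.ex
  obtain ⟨y, -, hy⟩ := exists_mem_not_mem_of_finrank_lt (W := F ∙ w) (W' := ⊤) (by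
    have := finrank_span_singleton_le (F := F) w; rw [finrank_top]; omega)
  suffices IsR (TensorProduct.congr α β) by
    obtain ⟨r, c1, c2⟩ := this.exists_not_mem b3
    obtain ⟨φ, c3, c4, c5⟩ := exists_dual_ker_two hd w r
    obtain ⟨x, hx⟩ := c2 u₀
    exact c1 (mem_of_tmul_mem_tl hu₀ (hx ▸ key φ x c3 c4 (by simp [hx, c5])))
  by_cases hc : ∃ φ : Dual F W, φ ≠ 0 ∧ φ w = 0 ∧ φ y = 0 ∧ φ (β y) = 0
  · obtain ⟨φ, c1, c2, c3, c4⟩ := hc
    exact isR_of_perp (congr_mem α β) hy fun u => key φ _ c1 c2 (by simp [c3, c4])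
  exfalso
  rcases ho with ho | ho
  · obtain ⟨φ, c1, c2⟩ := exists_ker_ne_zero ((Dual.eval F W w).prod
      ((Dual.eval F W y).prod (Dual.eval F W (β y)))) (by simp; omega)
    exact hc ⟨φ, c1, congrArg (·.1) c2, congrArg (·.2.1) c2, congrArg (·.2.2) c2⟩
  obtain ⟨φ₂, c1, c2, c3⟩ : ∃ φ : Dual F W, φ w = 0 ∧ φ y = 0 ∧ φ (β y) = 1 := by
    obtain ⟨φ, c1, c2, c3⟩ := exists_dual_ker_two hd w y
    have : φ (β y) ≠ 0 := fun e => hc ⟨φ, c1, c2, c3, e⟩
    exact ⟨(φ (β y))⁻¹ • φ, by simp [c2], by simp [c3], by simp [this]⟩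
  obtain ⟨φ₁, c4, c5, c6⟩ : ∃ φ : Dual F W, φ w = 0 ∧ φ y = 1 ∧ φ (β y) = 0 := by
    obtain ⟨φ, c4, c5⟩ := exists_dual_eq_one hy
    exact ⟨φ - φ (β y) • φ₂, by simp [c4 w (mem_span_singleton_self w), c1], by simp [c5, c2],
      by simp [c3]⟩
  have d0 : ∀ φ : Dual F W, φ w = 0 → ∀ x ∈ tl U (F ∙ w), cR U φ x = 0 := fun φ e x hx => by
    obtain ⟨u, rfl⟩ := mem_tl_singleton.1 hx; simp [e]
  have d1 : ∀ u, φ₁ (β (β y)) • α (α u) + φ₂ (β (β y)) • α u = u := fun u => by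
    have := d0 φ₂ c1 _ (key φ₁ (u ⊗ₜ β y + (φ₁ (β (β y)) • α u) ⊗ₜ y)
      (fun e => by simp [e] at c5) c4 (by simp [c5, c6]))
    simp [c2, c3] at this
    linear_combination (norm := module) this
  refine Nat.not_even_iff_odd.2 ho (even_of_quad (fun c e => ?_) _ U α rfl d1)
  have d2 : Function.Injective (α.toLinearMap - c • 1 : End F U) :=
    (injective_iff_map_eq_zero _).2 fun u e => by
    simpa [c5, c6] using d0 φ₁ c4 _ (key (φ₂ + c • φ₁) (u ⊗ₜ y) (fun e => by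
      simpa [c3, c6] using LinearMap.congr_fun e (β y)) (by simp [c1, c4])
      (by simpa [c2, c3, c5, c6, sub_eq_add_neg] using e))
  have d3 : ∀ u, φ₁ (β (β y)) • α u = -(φ₁ (β (β y)) * c + φ₂ (β (β y))) • u := fun u => by
    obtain ⟨v, rfl⟩ := LinearMap.surjective_of_injective d2 u
    simp only [LinearMap.sub_apply, LinearMap.smul_apply, End.one_apply, LinearEquiv.coe_coe,
      map_sub, map_smul]
    linear_combination (norm := module) d1 v - e • v
  have d4 : φ₁ (β (β y)) ≠ 0 := fun e' => by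
    have := d3 u₀
    rw [e'] at this e
    simp [show φ₂ (β (β y)) = 0 by simpa [hu₀] using this] at e
  have := key (φ₁ (β (β y)) • φ₂ - (φ₁ (β (β y)) * c + φ₂ (β (β y))) • φ₁) (u₀ ⊗ₜ y) (fun e => by
    simpa [c3, c6, d4] using LinearMap.congr_fun e (β y)) (by simp [c1, c4])
    (by simp [c2, c3, c5, c6, d3]; module)
  simpa [c5, c6, hu₀] using d0 φ₁ c4 _ this

section Alg

variable (hX : ∀ β ∈ SLV F W, rH F U W β ∈ X)
include hX

omit [FiniteDimensional F U] in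
theorem ra_one' (h : φ w = 0) : RA X 1 w φ :=
  let ⟨_, h1, h2⟩ := tr_SLV h; ⟨_, hX _ h1, congr_one_tr (B := φ.smulRight w) h2⟩

omit [FiniteDimensional F U] in
theorem ra_all (hd : 3 ≤ finrank F W) (h : RA X A w φ) (hw : PL w φ) (h0' : φ' w' = 0) :
    RA X A w' φ' := by
  by_cases h1 : w' = 0
  · simpa [RA, h1] using sq_zero
  by_cases h2 : φ' = 0
  · simpa [RA, h2] using sq_zero
  obtain ⟨y, a1, -⟩ := exists_ne_ne hw.2.1 hw.2.1
  obtain ⟨χ, a2, a3, a4⟩ := exists_dual_ker_two hd w y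
  obtain ⟨β, b1, c, b2, b3, b4⟩ := exists_SLV_pair hw.1 h1 a2 h2 a3 h0'
  have := h.comm (ra_one' hX (w := c⁻¹ • y) (φ := χ) (by simp [a4])) hw.2.2 (by simp [a4]) a3
  rw [mul_one] at this
  exact Sq.conj' this (hX β b1) fun x => by
    induction x with
    | zero => simp
    | tmul u y => simp [rH_tmul, a1, b3, smul_smul, b2, b4]
    | add x y a b => simp only [map_add, a, b]

/-- The algebra attached to an overgroup. -/
def algL (hd : 3 ≤ finrank F W) : Subalgebra F (End F U) where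
  carrier := {A | ∀ w φ, φ w = 0 → RA X A w φ}
  add_mem' {A B} ha hb w φ e := by
    have := Sq.add (ha w φ e) (hb w φ e) (by rw [← TensorProduct.map_mul, smulRight_mul, e]; simp)
    rwa [← TensorProduct.map_add_left] at this
  mul_mem' {A B} ha hb w φ e := by
    by_cases hw : w = 0
    · simpa [RA, hw] using sq_zero
    obtain ⟨χ, hχ⟩ := exists_dual_one (F := F) hw
    obtain ⟨y, a1, a2⟩ := exists_ker_ne_zero (φ.prod χ) (by simp; omega)
    have a3 : φ y = 0 := congrArg Prod.fst a2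
    have a4 : χ y = 0 := congrArg Prod.snd a2
    obtain ⟨ψ, b1, b2⟩ := exists_dual_eq_one (H := Submodule.span F {w}) (u := y) (fun h => by
      obtain ⟨c, rfl⟩ := Submodule.mem_span_singleton.1 h
      simp [hχ, left_ne_zero_of_smul a1] at a4)
    have b3 := b1 w (Submodule.mem_span_singleton_self w)
    simpa [b2] using (ha w ψ b3).comm (hb y φ a3) b3 a3 e
  algebraMap_mem' c w φ e := by
    have := ra_one' hX (w := c • w) (φ := φ) (by simp [e])
    refine Sq.congr this fun x => ?_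
    simp [map_smulRight, smul_tmul]

theorem le_of_algL (hd : 3 ≤ finrank F W) (h1 : ∀ A, A ∈ algL hX hd) : SLV F (U ⊗[F] W) ≤ X := by
  have h2 : ∀ u w (χ : Dual F (U ⊗[F] W)), (∀ u', χ (u' ⊗ₜ w) = 0) → Tr X (u ⊗ₜ w) χ := by
    intro u w χ hχ
    let b := Module.finBasis F U
    have : ∑ i, TensorProduct.map ((b.coord i).smulRight u)
        ((χ ∘ₗ TensorProduct.mk F U W (b i)).smulRight w) ∈ MQ X (line F U w) :=
      sum_mem fun i _ => ⟨fun x => by rw [map_smulRight]; exact tmul_mem_line _ _, by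
        rintro _ ⟨u', rfl⟩; simp [hχ], h1 _ w _ (hχ _)⟩
    refine tr_iff_sq.2 (this.2.2.congr fun x => ?_)
    conv_rhs => rw [← sum_tmul_cL b x]
    simp [map_smulRight', Finset.sum_smul]
  refine SLV_le_of_ctr (TensorProduct.span_tmul_eq_top F U W) ?_
  rintro _ ⟨u, w, rfl⟩ χ hχ
  by_cases hu : u = 0
  · simpa [hu] using tr_zero_left
  by_cases hw : w = 0
  · simpa [hw] using tr_zero_left
  obtain ⟨φ₀, a0⟩ := exists_dual_one (F := F) hw
  obtain ⟨w', a1, a2⟩ := exists_ker_ne_zero φ₀ (by simp; omega)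
  obtain ⟨φ, b1, b2⟩ := exists_dual_eq_one (H := F ∙ w) (u := w') fun e => by
    obtain ⟨c, rfl⟩ := mem_span_singleton.1 e
    simp [a0, left_ne_zero_of_smul a1] at a2
  have b3 := b1 w (Submodule.mem_span_singleton_self w)
  obtain ⟨ψ, b4⟩ := exists_dual_one (F := F) hu
  let χ' := χ ∘ₗ (TensorProduct.mk F U W).flip w ∘ₗ cR U φ₀
  have := (h2 u w (ψ ∘ₗ cR U φ) (fun u' => by simp [b3])).comm (h2 u w' χ' (by simp [χ', a2]))
    (by simp [b3]) (by simp [χ', a2]) (by simp [χ', a0, hχ])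
  have e1 : ∀ v, (χ - χ') (v ⊗ₜ w) = 0 := fun v => by simp [χ', a0]
  have e2 : (ψ ∘ₗ cR U φ) (u ⊗ₜ w') = 1 := by simp [b2, b4]
  rw [e2, one_smul] at this
  have e3 := (h2 u w _ e1).add_right this (e1 u)
  rwa [sub_add_cancel] at e3

variable (hd : 3 ≤ finrank F W) (hU : 0 < finrank F U)
  (hs : ∀ A ∈ algL hX hd, ∃ c : F, ∀ u, A u = c • u)
include hU hs

theorem mq_eq' (hw : w ≠ 0) {c : End F (U ⊗[F] W)} (hc : c ∈ MQ X (line F U w)) :
    ∃ φ : Dual F W, φ w = 0 ∧ ∀ x, c x = cR U φ x ⊗ₜ w := by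
  obtain ⟨φ₀, h0⟩ := exists_dual_one (F := F) hw
  let A : W →ₗ[F] End F U := LinearMap.llcomp F U _ U (cR U φ₀ ∘ₗ c) ∘ₗ (TensorProduct.mk F U W).flip
  have hA : ∀ u y, c (u ⊗ₜ y) = A y u ⊗ₜ w := fun u y => eq_cR_tmul h0 (hc.1 _)
  have h1 : ∀ y, ∃ s : F, ∀ v, A y v = s • v := fun y => by
    obtain ⟨χ, a1, a2, a3⟩ := exists_dual_ker_two hd w y
    have : RA X (A y) w χ := (hc.2.2.comm (ra_one' hX a3)
      (LinearMap.ext fun x => hc.2.1 _ (hc.1 x))
      (by rw [← TensorProduct.map_mul, smulRight_mul, a3]; simp)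
      (LinearMap.ext fun x => by
        rw [End.mul_apply, eq_cR_tmul h0 (hc.1 x)]; simp [a2])).congr fun x => by
          simp [map_smulRight, hA]
    exact hs _ fun w' φ' e => ra_all hX hd this ⟨hw, a1, a2⟩ e
  obtain ⟨u₀, hu₀⟩ := finrank_pos_iff_exists_ne_zero.1 hU
  obtain ⟨ψ₀, h2⟩ := exists_dual_one (F := F) hu₀
  let φ : Dual F W := ψ₀ ∘ₗ LinearMap.applyₗ u₀ ∘ₗ A
  have h3 : ∀ y u, A y u = φ y • u := fun y u => by
    obtain ⟨s, hs⟩ := h1 y
    simp [φ, hs, h2]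
  refine ⟨φ, ?_, fun x => ?_⟩
  · have := hc.2.1 _ (tmul_mem_line u₀ w)
    rw [hA, h3, ← smul_tmul'] at this
    exact (smul_eq_zero.1 this).resolve_right (tmul_ne_zero hu₀ hw)
  · induction x with
    | zero => simp
    | tmul u y => simp [hA, h3]
    | add x y a b => simp [a, b, add_tmul]

theorem stab_le' (hw : w ≠ 0) (hg : g ∈ X) (hL : g ∈ glStab (line F U w)) :
    g ∈ tenStab F U W := by
  obtain ⟨φ₀, h0⟩ := exists_dual_one (F := F) hw
  have key : ∀ g ∈ X, g ∈ glStab (line F U w) → ∀ φ : Dual F W, φ w = 0 → ∃ φ' : Dual F W,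
      φ' w = 0 ∧ ∀ x, g (cR U φ (g⁻¹ x) ⊗ₜ w) = cR U φ' x ⊗ₜ w := fun g hg hL φ e => by
    have hm : TensorProduct.map 1 (φ.smulRight w) ∈ MQ X (line F U w) :=
      ⟨fun x => by rw [map_smulRight]; exact tmul_mem_line _ _, by
        rintro _ ⟨u', rfl⟩; simp [e], ra_one' hX e⟩
    obtain ⟨φ', h1, h2⟩ := mq_eq' hX hd hU hs hw (MQ_conj hm hg hL)
    exact ⟨φ', h1, fun x => by simpa [map_smulRight] using h2 x⟩
  let A : End F U := cR U φ₀ ∘ₗ g.toLinearMap ∘ₗ (TensorProduct.mk F U W).flip w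
  have hA : ∀ u, g (u ⊗ₜ w) = A u ⊗ₜ w := fun u => eq_cR_tmul h0 ((hL _).1 (tmul_mem_line _ _))
  let α : U ≃ₗ[F] U := LinearEquiv.ofInjectiveEndo A fun u u' e =>
    tmul_left_inj hw (g.injective (by rw [hA, hA, e]))
  have hα : ∀ u, g (u ⊗ₜ w) = α u ⊗ₜ w := hA
  obtain ⟨u₀, hu₀⟩ := finrank_pos_iff_exists_ne_zero.1 hU
  obtain ⟨ψ₀, h2⟩ := exists_dual_one (F := F) (v := α u₀) (by simpa using hu₀)
  let B : End F W := cL W ψ₀ ∘ₗ g.toLinearMap ∘ₗ TensorProduct.mk F U W u₀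
  have h3 : ∀ φ' : Dual F W, φ' w = 0 → ∀ u y, cR U φ' (g (u ⊗ₜ y)) = φ' (B y) • α u :=
    fun φ' e u y => by
      obtain ⟨φ, -, a2⟩ := key g⁻¹ (inv_mem hg) (inv_mem hL) φ' e
      have a3 : ∀ x, cR U φ' (g x) = α (cR U φ x) := fun x => tmul_left_inj hw (by
        rw [← hα, ← a2, inv_inv, apply_inv_apply])
      simp [B, ← cR_cL, a3, h2]
  have h4 : ∀ y, ∃ y', ∀ u, g (u ⊗ₜ y) = α u ⊗ₜ y' := fun y => by
    obtain ⟨χ, a1, a2, a3⟩ := exists_dual_ker_two hd w y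
    obtain ⟨z, hz⟩ := DFunLike.ne_iff.1 a1
    obtain ⟨χ', -, b2⟩ := key g hg hL χ a2
    have b3 : ∀ x, cR U χ' (g x) = α (cR U χ x) := fun x => tmul_left_inj hw (by
      rw [← hα, ← b2, inv_apply_apply])
    have b4 : χ' w = 0 := by simpa [hα, a2, hu₀] using b3 (u₀ ⊗ₜ w)
    have b5 : χ' (B y) = 0 := by simpa [b3, a3, hu₀] using (h3 χ' b4 u₀ y).symm
    have b6 := (((ra_one' hX a3).conj hg).add ((ra_one' hX b5).neg (by
      rw [← TensorProduct.map_mul, smulRight_mul, b5]; simp)) (LinearMap.ext fun x => by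
        obtain ⟨v, hv⟩ := α.surjective (cR U χ' x)
        have c1 : g (v ⊗ₜ y) - α v ⊗ₜ B y ∈ line F U w := mem_line_of_cR fun φ' e => by
          simp [h3 φ' e]
        obtain ⟨s, hs⟩ := mem_line.1 c1
        obtain ⟨s, rfl⟩ := α.surjective s
        rw [← hα, eq_sub_iff_add_eq, ← eq_sub_iff_add_eq', ← map_sub] at hs
        simp [map_smulRight, ← hv, hs, a2, a3]))
    obtain ⟨φ, c0, c2⟩ := mq_eq' hX hd hU hs hw ⟨fun x => mem_line_of_cR fun φ' e => by
      simp [map_smulRight, h3 φ' e, ← b3, apply_inv_apply], by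
        rintro _ ⟨u, rfl⟩
        obtain ⟨u, rfl⟩ := α.surjective u
        simp [map_smulRight, ← hα, inv_apply_apply, a2, b3], b6⟩
    obtain ⟨c, hc⟩ : ∃ c : F, ∀ u, cR U φ (g (u ⊗ₜ z)) = c • α u :=
      ⟨_, fun u => h3 φ c0 u z⟩
    refine ⟨B y + (c / χ z) • w, fun u => smul_right_injective _ hz ?_⟩
    have := c2 (g (u ⊗ₜ z))
    simp only [LinearMap.add_apply, LinearMap.neg_apply, cj_apply, inv_apply_apply, map_smulRight,
      b3, hc, cR_tmul, End.one_apply, map_smul, ← smul_tmul'] at this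
    simp only [tmul_add, tmul_smul, smul_add, smul_smul, mul_div_cancel₀ _ hz]
    linear_combination (norm := module) this
  choose f hf using h4
  have h5 : ∀ y, B y = f y := fun y => by simp [B, hf, h2]
  exact mem_tenStab.2 ⟨α, LinearEquiv.ofInjectiveEndo B fun y y' e =>
    tmul_right_inj hu₀ (g.injective (by rw [hf, hf, ← h5, ← h5, e])), fun u y => by
      rw [hf, ← h5]; rfl⟩

theorem bp_lin : BP X PL where
  zero _ _ a := a.2.2
  ne _ _ a := a.1
  ne' _ _ a := a.2.1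
  tv w φ a := let ⟨s, b, c⟩ := ra_one' hX a.2.2; ⟨s, b, fun x => by rw [c, map_smulRight]; rfl⟩
  pt w φ w₁ a g hg e := by
    obtain ⟨u, hu⟩ := finrank_pos_iff_exists_ne_zero.1 hU
    obtain ⟨β, b1, b2⟩ := exists_SLV_apply (F := F) (u := w₁) (by omega) (by
      rintro rfl
      obtain ⟨v, hv⟩ := mem_tl_singleton.1 (e u)
      exact tmul_ne_zero hu a.1 (by simpa using hv)) a.1
    simpa using mul_mem (inv_mem (rH_mem β)) (stab_le' hX hd hU hs a.1 (mul_mem (hX β b1) hg)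
      (mem_glStab_of_mapsTo (by
        rintro _ ⟨u, rfl⟩
        obtain ⟨v, hv⟩ := mem_tl_singleton.1 (e u)
        exact ⟨v, by simp [hv, rH_tmul, b2]⟩)))
  all _ _ _ _ _ _ _ a := let ⟨φ, _, b, _⟩ := exists_PL hd a; ⟨φ, b⟩
  gen := gen_PL hd
  sc _ _ Z a b _ := sc_three hd Z a b
  pos := hU
  dim := by omega

end Alg

theorem wd_lin (hd : 3 ≤ finrank F W) :
    WD (SLV F W) {N | ∃ w φ, PL w φ ∧ N = φ.smulRight w} where
  gen S h := gen_PL hd S fun w φ a => by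
    obtain ⟨β, b1, b2⟩ := tr_SLV a.2.2
    convert sub_mem (h β b1) S.one_mem using 1
    ext x; simp [b2]
  orb := by
    rintro _ ⟨w, φ, a, rfl⟩ _ ⟨w', φ', b, rfl⟩
    obtain ⟨β, c1, c, c2, c3, c4⟩ := exists_SLV_pair a.1 b.1 a.2.1 b.2.1 a.2.2 b.2.2
    exact ⟨β, c1, c⁻¹, LinearMap.ext fun x => by
      simp [c3, ← c4, apply_inv_apply, smul_smul, mul_left_comm c⁻¹, c2]⟩
  span Y h := mem_of_rk Y fun φ w => by
    by_cases a : w = 0 ∨ φ = 0
    · rcases a with rfl | rfl <;> simp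
    push Not at a
    obtain ⟨φ₁, a1, a2, -⟩ := exists_dual_ker_two hd w w
    obtain ⟨z, a3, a4⟩ := exists_ker_ne_zero φ (by simp; omega)
    obtain ⟨χ, a5, a6, -⟩ := exists_dual_ker_two hd z z
    obtain ⟨y, a7, a8⟩ := H13.KL.exists_ne_ne a1 a5
    obtain ⟨φ₂, b1, b2⟩ := exists_dual_eq_one (H := F ∙ y) (u := z) fun h => by
      obtain ⟨c, rfl⟩ := mem_span_singleton.1 h
      simp [a8, left_ne_zero_of_smul a3] at a6
    simpa [smulRight_mul, a7, b2] using h _ ⟨w, φ₁, ⟨a.1, a1, a2⟩, rfl⟩ _ ⟨y, φ₂,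
      ⟨fun e => by simp [e] at a7, fun e => by simp [e] at b2, b1 y (mem_span_singleton_self y)⟩,
        rfl⟩ _ ⟨z, φ, ⟨a3, a.2, a4⟩, rfl⟩

theorem Inv.delta {V : Type*} [AddCommGroup V] [Module F V] {ι : Type*}
    {ρ : ι → End F W →ₐ[F] End F V} {R : Subgroup (W ≃ₗ[F] W)} {J : Submodule F (End F V)}
    (hJ : Inv ρ R J) (j : ι) (hβ : β ∈ R) {N : End F W} (e : ∀ x, β x = x + N x) (h : N * N = 0)
    {A : End F V} (hA : A ∈ J) : ρ j N * A - A * ρ j N - ρ j N * A * ρ j N ∈ J := by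
  have := sub_mem (hJ j β hβ A hA) hA
  rw [cj_tr (N := ρ j N) (fun x => by
    rw [← LinearEquiv.coe_coe, rU_coe, show (β : End F W) = 1 + N from LinearMap.ext e]; simp)
    (by rw [← map_mul, h, map_zero])] at this
  convert this using 1; noncomm_ring

theorem extr_lin {V : Type*} [AddCommGroup V] [Module F V] {ι : Type*}
    {ρ : ι → End F W →ₐ[F] End F V} (hd : 3 ≤ finrank F W) :
    Extr ρ (SLV F W) {N | ∃ w φ, PL w φ ∧ N = φ.smulRight w} := fun j J hJ _ A hA hn => by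
  obtain ⟨w, φ, a1, a2⟩ : ∃ w φ, φ w = 0 ∧ cp (ρ j) A w φ ≠ 0 := by
    by_contra hc
    push Not at hc
    exact hn (comm_of_cp (P := fun w φ => φ w = 0) (fun D h w => by_contra fun e => by
      obtain ⟨φ, b1, b2⟩ := exists_dual_eq_one e
      simp [h w φ (b1 w (mem_span_singleton_self w))] at b2) hc)
  have hw : w ≠ 0 := fun e => a2 (by simp [e])
  refine ⟨_, ⟨w, φ, ⟨hw, fun e => a2 (by simp [e]), a1⟩, rfl⟩, _, ⟨cp_comm w φ, ?_⟩, a2⟩
  obtain ⟨χ, hχ⟩ := exists_dual_one (F := F) hw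
  obtain ⟨y, b1, b2⟩ := exists_ker_ne_zero (φ.prod χ) (by simp; omega)
  have b3 : φ y = 0 := congrArg Prod.fst b2
  obtain ⟨ψ, b4, b5⟩ := exists_dual_eq_one (H := F ∙ w) (u := y) fun h => by
    obtain ⟨c, rfl⟩ := mem_span_singleton.1 h
    simpa [hχ, left_ne_zero_of_smul b1] using congrArg Prod.snd b2
  have b6 := b4 w (mem_span_singleton_self w)
  have d : ∀ (φ : Dual F W) w, φ w = 0 → ∀ A ∈ J, ρ j (φ.smulRight w) * A - A * ρ j (φ.smulRight w) -
      ρ j (φ.smulRight w) * A * ρ j (φ.smulRight w) ∈ J := fun φ w e A hA =>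
    let ⟨_, c1, c2⟩ := tr_SLV e; hJ.delta j c1 c2 (by simp [smulRight_mul, e]) hA
  have m : ∀ (φ ψ : Dual F W) v w, ρ j (φ.smulRight v) * ρ j (ψ.smulRight w) =
      φ w • ρ j (ψ.smulRight v) := fun φ ψ v w => by rw [← map_mul, smulRight_mul, map_smul]
  have m' : ∀ (φ ψ : Dual F W) v w B, ρ j (φ.smulRight v) * (ρ j (ψ.smulRight w) * B) =
      φ w • (ρ j (ψ.smulRight v) * B) := fun φ ψ v w B => by rw [← mul_assoc, m, smul_mul_assoc]
  have := d φ y b3 _ (sub_mem (d (φ + ψ) w (by simp [a1, b6]) A hA)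
    (add_mem (d φ w a1 A hA) (d ψ w b6 A hA)))
  rw [show (φ + ψ).smulRight w = φ.smulRight w + ψ.smulRight w by ext; simp [add_smul],
    map_add] at this
  rw [cp_mul]
  convert this using 1
  simp only [mul_add, add_mul, mul_sub, sub_mul, mul_assoc, m, m', a1, b3, b5, b6, zero_smul,
    mul_zero, zero_mul, one_smul]
  abel

theorem rU_SLV [Finite F] {V : Type*} [AddCommGroup V] [Module F V] [FiniteDimensional F V]
    (τ : End F W →ₐ[F] End F V) (hβ : β ∈ SLV F W) : rU τ β ∈ SLV F V :=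
  SLV_le_of_tr (X := (SLV F V).comap (rU τ)) (fun w φ e => by
    obtain ⟨β, -, b⟩ := tr_SLV e
    have : ∀ x, rU τ β x = x + τ (φ.smulRight w) x := fun x => by
      rw [← LinearEquiv.coe_coe, rU_coe, show (β : End F W) = 1 + φ.smulRight w from
        LinearMap.ext b]; simp
    exact ⟨β, mem_SLV_of_sq_zero fun x => by
      rw [this x, add_sub_cancel_left, this, ← End.mul_apply, ← map_mul, smulRight_mul, e]; simp,
      b⟩) hβ

theorem WrH.isMax_lin [Finite F] {ι : Type*} [DecidableEq ι] [Finite ι]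
    {ρ : ι → End F W →ₐ[F] End F (U ⊗[F] W)} {j₀ : ι} (h : WrH H (SLV F (U ⊗[F] W)) ρ j₀)
    (hd : 3 ≤ finrank F W) (hU : 2 ≤ finrank F U) (ho : 4 ≤ finrank F W ∨ Odd (finrank F U)) :
    Cfsg.Geo.IsMaximalIn (SLV F (U ⊗[F] W)) (H ⊓ SLV F (U ⊗[F] W)) := by
  obtain ⟨w, hw⟩ := finrank_pos_iff_exists_ne_zero.1 (show 0 < finrank F W by omega)
  obtain ⟨φ, -, ⟨-, a1, a2⟩, -⟩ := exists_PL hd hw
  obtain ⟨v, hv⟩ := finrank_pos_iff_exists_ne_zero.1 h.pos
  obtain ⟨ψ, hψ⟩ := exists_dual_one (F := F) hv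
  obtain ⟨u, b1, b2⟩ := exists_ker_ne_zero ψ (by simp; omega)
  obtain ⟨t, c1, c2⟩ := tr_SLV (φ := ψ ∘ₗ cR U φ) (v := u ⊗ₜ w) (by simp [a2])
  obtain ⟨y, hy⟩ := DFunLike.ne_iff.1 a1
  refine h.isMax c1 (not_gd hw a1 a2 b1 (fun v => by simp [c2, a2]) (fun x => by simp [c2, a2])
    (fun y => by simp [c2, b2]) fun e => ?_) fun X d1 d2 => ?_
  · have := c2 (v ⊗ₜ y)
    simp [e, hψ, tmul_ne_zero b1 hw] at this
    exact hy this
  have hX : ∀ β ∈ SLV F W, rH F U W β ∈ X := fun β hβ => d1 ⟨by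
    simpa [h.base, rU_rA] using h.rU_mem j₀ β, rU_SLV (rA U) hβ⟩
  by_cases hs : ∀ A ∈ algL hX hd, ∃ c : F, ∀ u, A u = c • u
  · exact .inl fun g hg => (bp_lin hX hd h.pos hs).gd_lin hd ho hg
  push Not at hs
  obtain ⟨A, e1, e2⟩ := hs
  exact .inr (le_of_algL hX hd (h.eq_top d1 (fun j β hβ => rU_SLV _ hβ) (wd_lin hd) (extr_lin hd) _
    (fun α hα A hA w φ e => Sq.conj' (hA w φ e) hα fun x => by
      induction x with
      | zero => simp
      | tmul u y => simp [lH_tmul, inv_apply_apply]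
      | add x y a b => simp only [map_add, a, b]) e1 (by push Not; exact e2)))

end H12
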