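import Cfsg.Agent.H12.WR4

/-!
# Tensor powers: the bridge to the matrix groups
-/

set_option autoImplicit false
set_option maxHeartbeats 400000

namespace H12

open Module H11 Submodule TensorProduct H13.KL Function

section Half

variable {F : Type*} [Field F] {V W : Type*} [AddCommGroup V] [Module F V] [AddCommGroup W]
  [Module F W] {τ : End F W →ₐ[F] End F V} {p : End F V}

/-- The action of `W` on the image of a commuting projection. -/
noncomputable def hfM (hp : p * p = p) (hc : ∀ E, Commute p (τ E)) :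
    (W ≃ₗ[F] W) →* (V ≃ₗ[F] V) :=
  (LinearMap.GeneralLinearGroup.generalLinearEquiv F V).toMonoidHom.comp ((Units.map
    ({ toFun := fun D => 1 - p + p * τ D
       map_one' := by simp
       map_mul' := fun D E => by
        simp only [map_mul, mul_add, add_mul, mul_sub, sub_mul, mul_one, one_mul, ← mul_assoc, hp,
          mul_assoc _ (τ D) p, ← (hc D).eq]
        abel } : End F W →* End F V)).comp
    (LinearMap.GeneralLinearGroup.generalLinearEquiv F W).symm.toMonoidHom)

theorem hfM_apply (hp : p * p = p) (hc : ∀ E, Commute p (τ E)) {β : W ≃ₗ[F] W} {N : End F W}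
    (e : ∀ x, β x = x + N x) (x : V) : hfM hp hc β x = x + p (τ N x) := by
  change (1 - p + p * τ β) x = _
  rw [show (β : End F W) = 1 + N from LinearMap.ext e]; simp; abel

theorem exists_half {c : V ≃ₗ[F] V} (h2 : (2 : F) ≠ 0) (h : c * c = 1)
    (hc : ∀ E, Commute (c : End F V) (τ E)) : ∃ p : End F V, ∃ (hp : p * p = p)
      (hc : ∀ E, Commute p (τ E)), hfM hp hc (LinearEquiv.neg F) = c ∧
        ∀ x, p x = (2 : F)⁻¹ • (x - c x) := by
  have h1 : ∀ x, c (c x) = x := fun x => LinearEquiv.congr_fun h x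
  refine ⟨(2 : F)⁻¹ • (1 - c), LinearMap.ext fun x => ?_, fun E =>
    ((Commute.one_left _).sub_left (hc E)).smul_left _, LinearEquiv.ext fun x => ?_, fun _ => rfl⟩
  · simp only [End.mul_apply, LinearMap.smul_apply, LinearMap.sub_apply, End.one_apply,
      LinearEquiv.coe_coe, map_smul, map_sub, h1]
    match_scalars <;> field_simp <;> ring
  · rw [hfM_apply (N := (-2 : F) • 1) _ _ (fun x => by simp; module)]
    simp only [map_smul, map_one, LinearMap.smul_apply, LinearMap.sub_apply, End.one_apply,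
      LinearEquiv.coe_coe]
    match_scalars <;> field_simp <;> ring

theorem neg_mem_SLV [FiniteDimensional F V] (h : Even (finrank F V)) :
    LinearEquiv.neg F ∈ SLV F V := mem_SLV.2 (by
  rw [show ((LinearEquiv.neg F : V ≃ₗ[F] V) : V →ₗ[F] V) = (-1 : F) • LinearMap.id by ext; simp,
    LinearMap.det_smul, h.neg_one_pow]; simp)

theorem inv_mem_SLV [Finite F] [FiniteDimensional F V] [FiniteDimensional F W] {c : V ≃ₗ[F] V}
    (h : c * c = 1) (hc : ∀ E, Commute (c : End F V) (τ E))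
    (ho : Even (finrank F W) ∨ Odd (finrank F V)) :
    c ∈ SLV F V ∨ LinearEquiv.neg F * c ∈ SLV F V := by
  have h1 : ∀ x, c (c x) = x := fun x => LinearEquiv.congr_fun h x
  by_cases h2 : (2 : F) = 0
  · exact .inl (mem_SLV_of_sq_zero fun x => by
      have : (2 : F) • (x - c x) = 0 := by simp [h2]
      rw [map_sub, h1]; linear_combination (norm := module) this)
  rcases ho with ho | ho
  · obtain ⟨p, a1, a2, a3, -⟩ := exists_half h2 h hc
    refine .inl (a3 ▸ SLV_le_of_tr (X := (SLV F V).comap (hfM a1 a2)) (fun w φ e => ?_)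
      (neg_mem_SLV ho))
    obtain ⟨β, -, b⟩ := tr_SLV e
    refine ⟨β, mem_SLV_of_sq_zero fun x => ?_, b⟩
    rw [hfM_apply (N := φ.smulRight w) _ _ b x, add_sub_cancel_left,
      hfM_apply (N := φ.smulRight w) _ _ b, ← End.mul_apply (τ _) p, ← (a2 _).eq, End.mul_apply,
      ← End.mul_apply (τ _), ← map_mul, smulRight_mul, e]; simp
  · have := congrArg LinearEquiv.det h
    rw [map_mul, map_one, ← Units.val_inj, Units.val_mul, Units.val_one,
      mul_self_eq_one_iff, LinearEquiv.coe_det] at this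
    refine this.imp mem_SLV.2 fun e => mem_SLV.2 ?_
    rw [show ((LinearEquiv.neg F * c : V ≃ₗ[F] V) : V →ₗ[F] V) = (-1 : F) • (c : V →ₗ[F] V) by
      ext; simp, LinearMap.det_smul, ho.neg_one_pow, e]; simp

end Half

variable {F : Type*} [Field F]

section Abs

variable {U W : Type*} [AddCommGroup U] [Module F U] [AddCommGroup W]
  [Module F W] {H G : Subgroup ((U ⊗[F] W) ≃ₗ[F] (U ⊗[F] W))} {ι : Type*} [DecidableEq ι]
  {ρ : ι → End F W →ₐ[F] End F (U ⊗[F] W)} {j₀ : ι} {π : (ι → W) → U ⊗[F] W}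
  {c : (U ⊗[F] W) ≃ₗ[F] (U ⊗[F] W)} {σ : Equiv.Perm ι}

variable (π H ρ j₀) in
/-- A tensor power with its pure tensors. -/
structure TPw : Prop extends Fam ρ where
  base : ρ j₀ = rA U
  mem : ∀ g, g ∈ H ↔ ∃ σ : Equiv.Perm ι, ∀ i D, ∃ E, cj g (ρ i D) = ρ (σ i) E
  span : span F (Set.range π) = ⊤
  act : ∀ j D x, ρ j D (π x) = π (update x j (D (x j)))
  perm : ∀ σ : Equiv.Perm ι, ∃ c : (U ⊗[F] W) ≃ₗ[F] (U ⊗[F] W), ∀ x, c (π x) = π (x ∘ σ.symm)

namespace TPw

variable (h : TPw H ρ j₀ π)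
include h

theorem cj_perm (hc : ∀ x, c (π x) = π (x ∘ σ.symm)) (i : ι) (D : End F W) :
    cj c (ρ i D) = ρ (σ i) D := LinearMap.ext_on_range h.span fun x => by
  have : c (π (x ∘ σ)) = π x := by rw [hc]; congr 1; ext; simp
  rw [cj_apply, ← this, inv_apply_apply, h.act, hc, this, h.act, update_comp_equiv]
  congr 2; ext; simp

theorem swap {j l m : ι} (b : m ≠ j) (b' : m ≠ l) : ∃ c : (U ⊗[F] W) ≃ₗ[F] (U ⊗[F] W),
    (∀ x, c (π x) = π (x ∘ Equiv.swap j l)) ∧ c * c = 1 ∧ (∀ E, Commute (c : End F _) (ρ m E)) ∧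
      ∀ i D, cj c (ρ i D) = ρ (Equiv.swap j l i) D := by
  obtain ⟨c, hc⟩ := h.perm (Equiv.swap j l)
  refine ⟨c, hc, LinearEquiv.toLinearMap_injective (LinearMap.ext_on_range h.span fun x => ?_),
    fun E => LinearMap.ext fun x => ?_, h.cj_perm hc⟩
  · simp [hc, comp_def]
  · simpa [Equiv.swap_apply_of_ne_of_ne b b', inv_apply_apply] using
      LinearMap.congr_fun (h.cj_perm hc m E) (c x)

theorem fst [Nontrivial W] (x : ι → W) : ∃ u, ∀ w, π (update x j₀ w) = u ⊗ₜ w := by
  obtain ⟨w₀, hw⟩ := _root_.exists_ne (0 : W)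
  obtain ⟨φ, hφ⟩ := exists_dual_one (F := F) hw
  exact ⟨_, fun w => by simpa [h.base, rA_rk, hφ] using (h.act j₀ (φ.smulRight w) (update x j₀ w₀)).symm⟩

variable [FiniteDimensional F U] [FiniteDimensional F W]

theorem isMax_lin [Finite F] [Finite ι] (hd : 3 ≤ finrank F W) (hU : 2 ≤ finrank F U)
    (ho : Even (finrank F W) ∨ Odd (finrank F U)) :
    Cfsg.Geo.IsMaximalIn (SLV F (U ⊗[F] W)) (H ⊓ SLV F (U ⊗[F] W)) := by
  refine WrH.isMax_lin { h with
    tr := fun j l m _ b b' => ?_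
    pos := by omega
    dim := by omega } hd hU (ho.imp_left fun ⟨r, hr⟩ => by omega)
  obtain ⟨c, -, a1, a2, a3⟩ := h.swap b b'
  rcases inv_mem_SLV a1 a2 ((Nat.even_or_odd _).imp_right fun e => by
    rw [finrank_tensorProduct]; exact (ho.resolve_left (Nat.not_even_iff_odd.2 e)).mul e) with e | e
  exacts [⟨c, e, a3⟩, ⟨_, e, fun i D => by rw [cj_cj, a3]; ext; simp⟩]

end TPw

end Abs

open Matrix Cfsg.Geo H27.Asch

variable {ι κ : Type} [Fintype ι] [DecidableEq ι] [Fintype κ] [DecidableEq κ] {s t k : ℕ}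

/-- Coordinates of pure tensors. -/
def puT (x : Fin t → κ → F) : (Fin t → κ) → F := fun a => ∏ i, x i (a i)

theorem pt_mulVec (a : Fin t → Matrix κ κ F) (x : Fin t → κ → F) :
    pt a *ᵥ puT x = puT fun i => a i *ᵥ x i := by
  ext b
  simp only [pt, puT, mulVec, dotProduct, Finset.prod_univ_sum, Fintype.piFinset_univ,
    Finset.prod_mul_distrib]

theorem span_puT : span F (Set.range (puT : (Fin t → κ → F) → _)) = ⊤ :=
  eq_top_iff.2 ((Pi.basisFun F _).span_eq.ge.trans (span_mono (by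
    rintro _ ⟨a, rfl⟩
    refine ⟨fun i => Pi.single (a i) 1, funext fun b => ?_⟩
    simp [puT, Pi.single_apply, Finset.prod_ite_zero, funext_iff])))

theorem kI_gen (S : Subalgebra F (Matrix (Fin t → κ) (Fin t → κ) F)) (h : ∀ i a, kI i a ∈ S)
    (M : Matrix (Fin t → κ) (Fin t → κ) F) : M ∈ S := by
  have h1 : ∀ a, pt a ∈ S := fun a => by
    rw [← Finset.noncommProd_mulSingle a]
    exact Finset.noncommProd_induction _ _ _ (fun a => pt a ∈ S)
      (fun a b x y => pt_mul a b ▸ mul_mem x y) (by rw [pt_one]; exact one_mem _) fun i _ => h i _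
  rw [matrix_eq_sum_single M]
  refine sum_mem fun x _ => sum_mem fun y _ => ?_
  convert S.smul_mem (h1 fun i => single (x i) (y i) 1) (M x y) using 1
  ext a b
  simp [pt, single, Finset.prod_ite_zero, funext_iff, forall_and]

variable (F κ s) in
/-- Splitting off the first factor. -/
noncomputable def tpC : (((Fin s → κ) → F) ⊗[F] (κ → F)) ≃ₗ[F] ((Fin (s + 1) → κ) → F) :=
  (((Pi.basisFun F (Fin s → κ)).tensorProduct (Pi.basisFun F κ)).reindex
    ((Equiv.prodComm _ _).trans (Fin.consEquiv fun _ => κ))).equivFun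

theorem tpC_tmul (u : (Fin s → κ) → F) (w : κ → F) (a : Fin (s + 1) → κ) :
    tpC F κ s (u ⊗ₜ w) a = u (Fin.tail a) * w (a 0) := by
  rw [tpC, Basis.equivFun_apply, Basis.repr_reindex_apply]
  simp [Basis.tensorProduct_repr_tmul_apply, mul_comm]

theorem exists_tpw [NeZero k] (e : ι ≃ (Fin (s + 1) → Fin k)) (P : GL ι F) :
    ∃ (θ : (((Fin s → Fin k) → F) ⊗[F] (Fin k → F)) ≃ₗ[F] (ι → F)) (π : _) (H : _) (ρ : _),
      TPw H ρ (0 : Fin (s + 1)) π ∧ tensorWreathSubgroup k (s + 1) e P =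
        H.comap (trE θ : GL ι F →* _) ∧ ∀ x, θ (π x) = (P : Matrix ι ι F) *ᵥ (puT x ∘ e) := by
  let θ := (tpC F (Fin k) s).trans ((LinearEquiv.funCongrLeft F F e).trans (glEquiv ι F P))
  have hθ : ∀ y, θ ((tpC F (Fin k) s).symm y) = (P : Matrix ι ι F) *ᵥ (y ∘ e) := fun y => by
    simp [θ, glEquiv_apply]; rfl
  let A : Matrix ι ι F ≃ₐ[F] End F _ := toLinAlgEquiv'.trans (θ.symm.conjAlgEquiv F)
  have hA : ∀ a x, θ (A a x) = a *ᵥ θ x := fun a x => by simp [A, LinearEquiv.conjAlgEquiv_apply]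
  have h1 : ∀ g a, cj (trE θ g) (A a) = A (cA g a) := fun g a => LinearMap.ext fun x =>
    θ.injective (by simp [← map_inv, trE_apply, hA, cA_apply])
  have h2 : ∀ a y, A (tr e P a) ((tpC F (Fin k) s).symm y) = (tpC F (Fin k) s).symm (a *ᵥ y) :=
    fun a y => θ.injective (by
      rw [hA, hθ, hθ, tr_apply, cA_mulVec]; simp [submatrix_mulVec_equiv, comp_assoc])
  let φ : Fin (s + 1) → _ := fun i => (tr e P).toAlgHom.comp (kI i)
  let ρ := fun i => (A.toAlgHom.comp (φ i)).comp LinearMap.toMatrixAlgEquiv'.toAlgHom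
  have h3 : ∀ j D x, ρ j D ((tpC F (Fin k) s).symm (puT x)) =
      (tpC F (Fin k) s).symm (puT (update x j (D (x j)))) := fun j D x => by
    refine (h2 (pt (Pi.mulSingle j (LinearMap.toMatrixAlgEquiv' D))) _).trans ?_
    rw [pt_mulVec]
    congr 2; funext i
    by_cases hi : i = j
    · subst hi; simp; exact LinearMap.toMatrix'_mulVec D (x i)
    · simp [hi]
  have h4 : span F (Set.range fun x => (tpC F (Fin k) s).symm (puT x)) = ⊤ := by
    rw [show (fun x => (tpC F (Fin k) s).symm (puT x)) = (tpC F (Fin k) s).symm.toLinearMap ∘ puT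
      from rfl, Set.range_comp, span_image, span_puT]; simp
  have h5 : ⨆ i, (φ i).range = ⊤ := eq_top_iff.2 fun M _ => by
    obtain ⟨M, rfl⟩ := (tr e P).surjective M
    exact kI_gen ((⨆ i, (φ i).range).comap (tr e P).toAlgHom)
      (fun i a => le_iSup (fun i => (φ i).range) i ⟨a, rfl⟩) M
  have : Nonempty ι := e.nonempty
  refine ⟨θ, fun x => (tpC F (Fin k) s).symm (puT x), (tensorWreathSubgroup k (s + 1) e P).map
    (trE θ : GL ι F →* _), ρ, ⟨⟨fun i j hij D E => LinearMap.ext_on_range h4 fun x => ?_,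
      fun S hS f => ?_⟩, ?_, fun g => ?_, h4, h3, fun σ => ?_⟩,
    (Subgroup.comap_map_eq_self_of_injective (trE θ).injective _).symm, fun x => hθ _⟩
  · simp [h3, hij, hij.symm, update_comm hij]
  · obtain ⟨M, rfl⟩ := A.surjective f
    exact (iSup_le (by
      rintro i _ ⟨a, rfl⟩
      obtain ⟨D, rfl⟩ := LinearMap.toMatrixAlgEquiv'.surjective a
      exact hS i D) : ⨆ i, (φ i).range ≤ S.comap A.toAlgHom) (h5.ge Algebra.mem_top)
  · refine AlgHom.ext fun D => LinearMap.ext_on_range h4 fun x => ?_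
    have : ∀ x : Fin (s + 1) → Fin k → F, (tpC F (Fin k) s).symm (puT x) =
        puT (Fin.tail x) ⊗ₜ x 0 := fun x => (LinearEquiv.symm_apply_eq _).2 (funext fun a => by
      simp [tpC_tmul, puT, Fin.prod_univ_succ, Fin.tail, mul_comm])
    rw [h3, this, this]; simp
  · obtain ⟨g, rfl⟩ := (trE θ).surjective g
    refine (Subgroup.mem_map_iff_mem (trE θ).injective).trans ⟨fun hg => ?_, fun ⟨σ, hσ⟩ => ?_⟩
    · obtain ⟨a, σ, rfl⟩ := exists_of_mem_wreath hg
      refine ⟨σ, fun i D => ⟨LinearMap.toMatrixAlgEquiv'.symm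
        (cA (a (σ i)) (LinearMap.toMatrixAlgEquiv' D)), (h1 _ _).trans (congrArg A ?_)⟩⟩
      refine (cA_um (tr e P).toAlgHom _ (pt (Pi.mulSingle i (LinearMap.toMatrixAlgEquiv' D)))).trans ?_
      rw [cA_mul, cA_pmU, cA_ptU]
      refine congrArg (fun a => tr e P (pt a)) (funext fun j => ?_)
      obtain ⟨j, rfl⟩ := σ.surjective j
      by_cases hj : j = i
      · subst hj; simp
      · simp [hj]
    · obtain ⟨a, rfl⟩ := exists_eq_wreath 0 h5 (fun _ _ => rfl) (h := g) (σ := σ) fun i a => by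
        obtain ⟨D, rfl⟩ := LinearMap.toMatrixAlgEquiv'.surjective a
        obtain ⟨E, hE⟩ := hσ i D
        exact ⟨_, A.injective (hE.symm.trans (h1 _ _))⟩
      exact mem_wreath e P a σ
  · refine ⟨trE θ (um (tr e P).toAlgHom (pmU _ F σ)), fun x => θ.injective ?_⟩
    rw [trE_apply, ← hA, um_val]
    refine congrArg θ ((h2 _ _).trans (congrArg _ (funext fun a => ?_)))
    simp [pmU, pm, mulVec, dotProduct, puT, ← Equiv.prod_comp σ (fun i => x (σ.symm i) (a i))]

end H12
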