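import Cfsg.Agent.H12.WR5
import Cfsg.Agent.H12.Ten10

/-!
# Tensor powers of forms: good elements
-/

set_option autoImplicit false
set_option maxHeartbeats 400000

namespace H12

open Module H11 Submodule TensorProduct H13.KL

variable {F : Type*} [Field F] {U W : Type*} [AddCommGroup U] [Module F U] [AddCommGroup W]
  [Module F W] {T T₁ T₂ : FormType F} {C : CForm T (U ⊗[F] W)} {C₁ : CForm T₁ U}
  {C₂ : CForm T₂ W} {X G : Subgroup ((U ⊗[F] W) ≃ₗ[F] (U ⊗[F] W))} {R : Subgroup (W ≃ₗ[F] W)}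
  {w w' y : W} {g k s t e : (U ⊗[F] W) ≃ₗ[F] (U ⊗[F] W)} {φ : Dual F W} {x : U ⊗[F] W}

variable (C₂ R) in
/-- A group of isometries containing the transvections. -/
structure FW : Prop where
  nd : C₂.Nondeg
  le : R ≤ C₂.isom
  tv : ∀ v a, C₂.N v = 0 → a * T₂.ε + T₂.σ a = 0 → Rq C₂ R v 0 a
  trans : ∀ w y, C₂.N w = 0 → w ≠ 0 → C₂.N y = 0 → y ≠ 0 → ∃ β ∈ R, β w = y
  ex : ∃ w, w ≠ 0 ∧ C₂.N w = 0
  ex₀ : ∃ a, a ≠ 0 ∧ a * T₂.ε + T₂.σ a = 0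

variable (C₂) in
/-- The root pairs of a form. -/
def PF (w : W) (φ : Dual F W) : Prop :=
  C₂.N w = 0 ∧ w ≠ 0 ∧ ∃ c : F, c ≠ 0 ∧ c * T₂.ε + T₂.σ c = 0 ∧ φ = c • C₂.B w

variable (C₂) in
/-- The root endomorphisms of a form. -/
def NF : Set (End F W) := {N | ∃ w, C₂.N w = 0 ∧ w ≠ 0 ∧ N = (C₂.B w).smulRight w}

namespace FW

variable (h : FW C₂ R)
include h

theorem tv' (hw : C₂.N w = 0) {c : F} (hc : c * T₂.ε + T₂.σ c = 0) :
    ∃ β ∈ R, ∀ x, β x = x + (c • C₂.B w).smulRight w x :=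
  let ⟨β, a, b⟩ := h.tv w (-c) hw (by rw [map_neg]; linear_combination -hc)
  ⟨β, a, fun x => by simp [b, smul_smul]⟩

theorem pf (hw : C₂.N w = 0) (hw0 : w ≠ 0) : ∃ φ, PF C₂ w φ :=
  let ⟨a, a1, a2⟩ := h.ex₀; ⟨_, hw, hw0, a, a1, a2, rfl⟩

theorem mem (S : AddSubgroup W) (hS : ∀ x, C₂.N x = 0 → x ≠ 0 → x ∈ S) (x : W) : x ∈ S :=
  let ⟨_, a, b⟩ := h.ex
  mem_of_singular h.nd a b S (fun x e => (eq_or_ne x 0).elim (· ▸ zero_mem S) (hS x e)) x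

theorem two' {z₁ z₂ : W} (a1 : C₂.N z₁ = 0) (a2 : C₂.B w z₁ ≠ 0) (b1 : C₂.N z₂ = 0)
    (b2 : C₂.B y z₂ ≠ 0) : ∃ z ∈ span F {z₁, z₂}, C₂.N z = 0 ∧ C₂.B w z ≠ 0 ∧ C₂.B y z ≠ 0 := by
  by_cases c1 : C₂.B y z₁ = 0
  swap
  · exact ⟨z₁, mem_pair_left _ _, a1, a2, c1⟩
  by_cases c2 : C₂.B w z₂ = 0
  swap
  · exact ⟨z₂, mem_pair_right _ _, b1, c2, b2⟩
  by_cases c3 : C₂.B z₂ z₁ = 0
  · exact ⟨z₂ + z₁, add_mem (mem_pair_right _ _) (mem_pair_left _ _), by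
      rw [C₂.N_add_of_orth c3, a1, b1, add_zero], by simpa [c2], by simpa [c1]⟩
  obtain ⟨a, d1, d2⟩ := h.ex₀
  obtain ⟨β, d3, d4⟩ := h.tv' b1 d2
  exact ⟨β z₁, d4 _ ▸ add_mem (mem_pair_left _ _) (smul_mem _ _ (mem_pair_right _ _)),
    (CForm.isom_N (h.le d3) _).trans a1, by simpa [d4, c2], by simp [d4, c1, d1, c3, b2]⟩

theorem one (hw : w ≠ 0) : ∃ z, C₂.N z = 0 ∧ C₂.B w z ≠ 0 := by
  by_contra hc
  push Not at hc
  exact hw (h.nd _ (h.mem (LinearMap.ker (C₂.B w)).toAddSubgroup fun x e _ => hc x e))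

theorem two (hw : w ≠ 0) (hy : y ≠ 0) : ∃ z, C₂.N z = 0 ∧ C₂.B w z ≠ 0 ∧ C₂.B y z ≠ 0 :=
  let ⟨_, a1, a2⟩ := h.one hw; let ⟨_, b1, b2⟩ := h.one hy
  let ⟨z, _, c⟩ := h.two' a1 a2 b1 b2; ⟨z, c⟩

theorem scalar {D : End F W} (hD : ∀ y, C₂.N y = 0 → D y ∈ F ∙ y) (x : W) : D x ∈ F ∙ x := by
  have key : ∀ y z (a b : F), C₂.N y = 0 → C₂.N z = 0 → C₂.B y z ≠ 0 → D y = a • y → D z = b • z →
      a = b := fun y z a b c1 c2 c3 c4 c5 => by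
    obtain ⟨t, d1, d2⟩ := h.ex₀
    obtain ⟨β, d3, d4⟩ := h.tv' c1 d2
    obtain ⟨c, hc⟩ := mem_span_singleton.1 (hD _ ((CForm.isom_N (h.le d3) z).trans c2))
    have e1 := congrArg (C₂.B y) hc
    have e2 := congrArg (C₂.B z) hc
    simp [d4, c3, c4, c5, C₂.B_self_of_zero c1, C₂.B_self_of_zero c2] at e1 e2
    have := C₂.B_swap_ne c3
    exact mul_left_cancel₀ (mul_ne_zero (mul_ne_zero d1 c3) this) (by
      rw [← e1]; linear_combination -e2)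
  obtain ⟨w, a1, a2⟩ := h.ex
  obtain ⟨c, hc⟩ := mem_span_singleton.1 (hD w a2)
  exact mem_span_singleton.2 ⟨c, h.mem (LinearMap.eqLocus (c • 1) D).toAddSubgroup (fun y b1 b2 => by
    obtain ⟨z, c1, c2, c3⟩ := h.two a1 b2
    obtain ⟨d, hd⟩ := mem_span_singleton.1 (hD y b1)
    obtain ⟨e, he⟩ := mem_span_singleton.1 (hD z c1)
    rw [key _ _ _ _ a2 c1 c2 hc.symm he.symm, ← key _ _ _ _ b1 c1 c3 hd.symm he.symm]
    exact hd) x⟩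

variable [FiniteDimensional F W]

theorem of_rk (Y : Submodule F (End F W)) (hY : ∀ w y, C₂.N w = 0 → w ≠ 0 → C₂.N y = 0 → y ≠ 0 →
    (C₂.B y).smulRight w ∈ Y) : ∀ D, D ∈ Y := mem_of_rk Y fun φ w => by
  obtain ⟨y, hy⟩ := h.nd.exists_rep φ
  obtain rfl : C₂.B y = φ := LinearMap.ext hy
  exact h.mem (Y.comap (LinearMap.smulRightₗ (C₂.B y))).toAddSubgroup (fun w a b =>
    h.mem (Y.toAddSubgroup.comap ((LinearMap.smulRightₗ.flip w).toAddMonoidHom.comp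
      C₂.B.toAddMonoidHom)) (fun y c d => hY w y a b c d) y) w

theorem span (Y : Submodule F (End F W)) (hY : ∀ N ∈ NF C₂, ∀ N' ∈ NF C₂, ∀ N'' ∈ NF C₂,
    N * N' * N'' ∈ Y) : ∀ D, D ∈ Y := h.of_rk Y fun w y a b c d => by
  obtain ⟨z, e1, e2, e3⟩ := h.two b d
  have := hY _ ⟨w, a, b, rfl⟩ _ ⟨z, e1, by rintro rfl; simp at e2, rfl⟩ _ ⟨y, c, d, rfl⟩
  rwa [smulRight_mul, smul_mul_assoc, smulRight_mul, smul_smul, smul_mem_iff _
    (mul_ne_zero e2 (C₂.B_swap_ne e3))] at this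

theorem gen (S : Subalgebra F (End F W)) (hS : ∀ N ∈ NF C₂, N ∈ S) : ∀ D, D ∈ S :=
  h.span S.toSubmodule fun _ a _ b _ c => S.mul_mem (S.mul_mem (hS _ a) (hS _ b)) (hS _ c)

omit [FiniteDimensional F W] in
theorem cj_rk {β : W ≃ₗ[F] W} (hβ : β ∈ R) (w y : W) :
    cj β ((C₂.B y).smulRight w) = (C₂.B (β y)).smulRight (β w) := LinearMap.ext fun x => by
  simp [← CForm.isom_B (h.le hβ) y, apply_inv_apply]

theorem wd : WD R (NF C₂) where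
  gen S hS := h.gen S (by
    rintro _ ⟨w, a, -, rfl⟩
    obtain ⟨c, c1, c2⟩ := h.ex₀
    obtain ⟨β, b1, b2⟩ := h.tv' a c2
    convert S.smul_mem (sub_mem (hS β b1) S.one_mem) c⁻¹ using 1
    ext x; simp [b2, smul_smul, c1])
  orb := by
    rintro _ ⟨w, a1, a2, rfl⟩ _ ⟨y, b1, b2, rfl⟩
    obtain ⟨β, c1, rfl⟩ := h.trans w y a1 a2 b1 b2
    exact ⟨β, c1, 1, by rw [h.cj_rk c1, one_smul]⟩
  span := h.span

theorem exists_not_mem {Y : Submodule F W} (hY : finrank F Y < finrank F W) :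
    ∃ z, C₂.N z = 0 ∧ z ∉ Y := by
  by_contra hc
  push Not at hc
  exact hY.ne (by rw [show Y = ⊤ from eq_top_iff.2 fun x _ =>
    h.mem Y.toAddSubgroup (fun x e _ => hc x e) x, finrank_top])

end FW

variable (C C₁ C₂ X R) in
/-- An overgroup of the group of the second factor. -/
structure TZ : Prop extends TF C C₁ C₂ where
  fw : FW C₂ R
  le : X ≤ C.isom
  hX : ∀ β ∈ R, rH F U W β ∈ X

variable [FiniteDimensional F U] [FiniteDimensional F W]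

theorem TZ.bp (h : TZ C C₁ C₂ X R) (hd : 2 ≤ finrank F W) (hs : 3 ≤ finrank F W ∨ (2 : F) ≠ 0)
    (hp : ∀ w w₁, C₂.N w = 0 → w ≠ 0 → ∀ g ∈ X, (∀ u, g (u ⊗ₜ w) ∈ tl U (F ∙ w₁)) →
      g ∈ tenStab F U W) : BP X (PF C₂) where
  zero _ _ := fun ⟨a, _, _, _, _, e⟩ => by simp [e, C₂.B_self_of_zero a]
  ne _ _ a := a.2.1
  ne' _ _ := fun ⟨_, a, _, b, _, e⟩ e' => a (h.nd₂ _ fun x => by
    simpa [e, b] using LinearMap.congr_fun e' x)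
  tv w _ := by
    rintro ⟨a, -, c, -, b, rfl⟩
    obtain ⟨β, c1, c2⟩ := h.fw.tv' a b
    exact ⟨_, h.hX β c1, fun x => (congr_one_tr c2 x).trans (by rw [← rA_rk]; rfl)⟩
  pt w _ w₁ a := hp w w₁ a.1 a.2.1
  all _ _ _ a _ hg e := h.fw.pf (h.sing _ (h.B_eq_zero (h.ts_tl (h.point_ts a.1)) (h.le hg) e e))
  gen S hS := h.fw.gen S (by
    rintro _ ⟨w, a, b, rfl⟩
    obtain ⟨c, c1, c2⟩ := h.fw.ex₀
    convert S.smul_mem (hS w _ ⟨a, b, c, c1, c2, rfl⟩) c⁻¹ using 1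
    ext x; simp [smul_smul, c1])
  sc _ _ Z a b c := hs.elim (fun hd => sc_three hd Z a b) fun h2 => quad_scalar h2 c
  pos := h.pos
  dim := hd

omit [FiniteDimensional F U] in
theorem MaxB.of_bot {P : W → Dual F W → Prop} (hk : MaxB X P w w' k)
    (h0 : tl U (F ∙ w) ⊓ pM k w' = ⊥) {y y' : W} (hy : ∃ φ, P y φ) (hy' : ∃ φ, P y' φ)
    (hg : g ∈ X) (hg' : ¬ Gd g) : MaxB X P y y' g :=
  ⟨hy, hy', hg, hg', fun a b c d e f k' p q =>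
    (hk.max a b c d e f k' p q).trans (by rw [h0, finrank_bot]; exact Nat.zero_le _)⟩

namespace TZ

variable (h : TZ C C₁ C₂ X R) (hb : BP X (PF C₂)) (h2 : S2 X (PF C₂))
  (hk : MaxB X (PF C₂) w w' k)
include h hb h2 hk

omit h in
theorem mem_of_perp (hx : x ∈ pM k w') (e : cB U C₂ w x = 0) : x ∈ tl U (F ∙ w) := by
  obtain ⟨_, a⟩ := hk.hw
  refine hb.caseII h2 hk a (hb.zero _ _ a) hx ?_
  obtain ⟨-, -, c, -, -, rfl⟩ := a
  simp [show cR U (C₂.B w) x = 0 from e]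

theorem of_fr (hd : 3 ≤ finrank F W) (hg : g ∈ X) (hg' : g ∈ tenStab F U W)
    (h0 : g ∈ glStab (tl U (F ∙ w))) (h1 : g ∈ cen (tl U (F ∙ w) ⊔ pM k w'))
    (h3 : g ∉ cen (tl U (F ∙ w))) :
    tl U (F ∙ w) ⊓ pM k w' = ⊥ ∧ ∃ r, pM k w' ≤ tl U (span F {w, r}) := by
  obtain ⟨_, hw, hw0, -⟩ := hk.hw
  obtain ⟨_, -, hw', -⟩ := hk.hw'
  obtain ⟨z, a1, a2⟩ := exists_mem_not_mem_of_finrank_lt (W := F ∙ w) (W' := C₂.perp (F ∙ w)) (by
    have := h.nd₂.finrank_add_finrank_perp (F ∙ w)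
    rw [finrank_span_singleton hw0] at *; omega)
  obtain ⟨r, b1, b2⟩ := (isR_of_perp hg' a2 fun u => by
    obtain ⟨l, hl, m, hm, e⟩ := mem_sup.1 (h1 (u ⊗ₜ z))
    refine e ▸ add_mem hl (mem_of_perp hb h2 hk hm (h.mem_perp_point.1 ?_))
    rw [eq_sub_of_add_eq' e]
    refine sub_mem (sub_mem (C.mem_perp.2 fun l hl => ?_) (h.tmul_mem_perp u a1))
      (h.ts_tl (h.point_ts hw) hl)
    rw [CForm.isom_B_right (h.le hg)]
    exact C.mem_perp.1 (h.tmul_mem_perp u a1) _ ((inv_mem h0 _).1 hl)).exists_not_mem h3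
  have c1 : tl U (span F {w, r}) ≤ tl U (F ∙ w) ⊔ pM k w' := fun x hx => by
    obtain ⟨u, v, rfl⟩ := mem_tl_pair.1 hx
    obtain ⟨y, hy⟩ := b2 v
    exact add_mem (mem_sup_left (tmul_mem_tl u (mem_span_singleton_self w))) (hy ▸ h1 y)
  have c2 := finrank_sup_add_finrank_inf_eq (tl U (F ∙ w)) (pM k w')
  have c3 := finrank_mono c1
  have c4 := finrank_lt_finrank_of_lt (SetLike.lt_iff_le_and_exists.2
    ⟨span_mono (by simp), r, mem_pair_right w r, b1⟩ : F ∙ w < span F {w, r})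
  have c5 := Nat.mul_le_mul_left (finrank F U) (show 2 ≤ finrank F (span F {w, r}) by
    rwa [finrank_span_singleton hw0] at c4)
  rw [finrank_pt hw', finrank_tl, finrank_span_singleton hw0] at c2
  rw [← finrank_tl] at c5
  exact ⟨finrank_eq_zero.1 (by omega), r,
    le_sup_right.trans (eq_of_le_of_finrank_le c1 (by omega)).ge⟩

omit h h2 in
theorem not_le (e : pM k w' ≤ tl U (F ∙ y)) : False :=
  let ⟨_, a⟩ := hk.hw'
  hk.bad (.inl (hb.pt _ _ y a k hk.mem fun u => e ⟨_, tmul_mem_tl u (mem_span_singleton_self _), rfl⟩))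

omit h2 hk in
theorem gd_two [Finite F] (hd : 3 ≤ finrank F W) {a b : F} (ha : a ≠ 0) (hb' : b ≠ 0) (hab : a ≠ b)
    (ea : a * T₂.ε + T₂.σ a = 0) (eb : b * T₂.ε + T₂.σ b = 0) (hg : g ∈ X) : Gd g := by
  have h2 : S2 X (PF C₂) := hb.s2a (by
    rintro w _ ⟨a1, a2, c, a3, a4, rfl⟩
    by_cases e : c = a
    · exact ⟨b / c, by rw [Ne, div_eq_one_iff_eq a3, e]; exact hab.symm, a1, a2, b, hb', eb, by
        simp [smul_smul, a3]⟩
    · exact ⟨a / c, by rw [Ne, div_eq_one_iff_eq a3, eq_comm]; exact e, a1, a2, a, ha, ea, by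
        simp [smul_smul, a3]⟩)
  have key : ∀ {w w' k}, MaxB X (PF C₂) w w' k → tl U (F ∙ w) ⊓ pM k w' = ⊥ ∧
      ∃ r, pM k w' ≤ tl U (span F {w, r}) := fun {w w' k} hk => by
    obtain ⟨_, hw, hw0, -⟩ := hk.hw
    obtain ⟨g, c1, c2, c3, c4, c5⟩ := hb.fr' h2 hk ⟨hw, hw0, a, ha, ea, rfl⟩
      ⟨hw, hw0, b, hb', eb, rfl⟩ fun e => hab (smul_left_injective F
        (fun e => hw0 (h.nd₂ _ (LinearMap.congr_fun e))) e)
    exact h.of_fr hb h2 hk hd c1 c2 c3 c4 c5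
  by_contra hg'
  obtain ⟨w, a1, a2⟩ := h.fw.ex
  obtain ⟨φ, a3⟩ := h.fw.pf a2 a1
  obtain ⟨w, w', k, hk⟩ := exists_maxB a3 hg hg'
  obtain ⟨b1, r, b2⟩ := key hk
  obtain ⟨z, c1, c2⟩ := h.fw.exists_not_mem ((finrank_span_pair_le w r).trans_lt hd)
  obtain ⟨-, r', b3⟩ := key (hk.of_bot b1 (h.fw.pf c1 (by rintro rfl; simp at c2)) hk.hw'
    hk.mem hk.bad)
  obtain ⟨y, hy⟩ := finrank_le_one_iff.1 (show finrank F ↥(span F {w, r} ⊓ span F {z, r'}) ≤ 1 by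
    have := finrank_lt_finrank_of_lt (SetLike.lt_iff_le_and_exists.2 ⟨inf_le_right, z,
      mem_pair_left z r', fun e => c2 e.1⟩ : span F {w, r} ⊓ span F {z, r'} < _)
    have := finrank_span_pair_le (F := F) z r'
    omega)
  refine not_le hb hk (y := y.1) fun x hx => mem_tl.2 fun ψ => ?_
  obtain ⟨c, hc⟩ := hy ⟨_, mem_tl.1 (b2 hx) ψ, mem_tl.1 (b3 hx) ψ⟩
  exact mem_span_singleton.2 ⟨c, congrArg Subtype.val hc⟩

end TZ

end H12
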