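import Cfsg.Agent.H12.WR6

/-!
# Tensor powers of forms: the smallest fields
-/

set_option autoImplicit false
set_option maxHeartbeats 400000

namespace H12

open Module H11 Submodule TensorProduct H13.KL

theorem conj_invol {G : Type*} [Group G] {y : G} (h : y * y = 1) (g : G) :
    g * y * g⁻¹ * (g * y * g⁻¹) = 1 := by
  rw [conj_mul, h]; simp

theorem finrank_le_of_map {F V V' : Type*} [Field F] [AddCommGroup V] [Module F V]
    [AddCommGroup V'] [Module F V'] [FiniteDimensional F V] [FiniteDimensional F V']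
    {Y K : Submodule F V} {Z : Submodule F V'} (f : V →ₗ[F] V') (h1 : ∀ y ∈ Y, f y ∈ Z)
    (h2 : ∀ y ∈ Y, f y = 0 → y ∈ K) : finrank F Y ≤ finrank F Z + finrank F K := by
  rw [← (f.domRestrict Y).finrank_range_add_finrank_ker,
    ← finrank_map_subtype_eq Y (LinearMap.ker _)]
  exact add_le_add (finrank_mono (by rintro _ ⟨y, rfl⟩; exact h1 _ y.2))
    (finrank_mono (by rintro _ ⟨y, a, rfl⟩; exact h2 _ y.2 a))

variable {F : Type*} [Field F] {U W : Type*} [AddCommGroup U] [Module F U] [AddCommGroup W]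
  [Module F W] {T T₁ T₂ : FormType F} {C : CForm T (U ⊗[F] W)} {C₁ : CForm T₁ U}
  {C₂ : CForm T₂ W} {X G : Subgroup ((U ⊗[F] W) ≃ₗ[F] (U ⊗[F] W))} {R : Subgroup (W ≃ₗ[F] W)}
  {w w' y : W} {g k s s' t e : (U ⊗[F] W) ≃ₗ[F] (U ⊗[F] W)} {φ : Dual F W} {x : U ⊗[F] W}
  [FiniteDimensional F U] [FiniteDimensional F W]

omit [FiniteDimensional F U] [FiniteDimensional F W] in
theorem cR_rTensor (φ : Dual F W) (A : End F U) (x : U ⊗[F] W) :
    cR U φ (A.rTensor W x) = A (cR U φ x) := by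
  induction x with
  | zero => simp
  | tmul u w => simp
  | add x y a b => simp only [map_add, a, b]

omit [FiniteDimensional F W] in
theorem IsRt.range' (h : IsRt s w φ) (hφ : φ ≠ 0) (hx : x ∈ pM k w) :
    ∃ v, (k * s * k⁻¹) v - v = x := by
  obtain ⟨l, hl, rfl⟩ := hx
  obtain ⟨u, rfl⟩ := mem_tl_singleton.1 hl
  obtain ⟨v, hv⟩ := h.range hφ u
  exact ⟨k v, by rw [conj_sub, inv_apply_apply, hv]; rfl⟩

omit [FiniteDimensional F W] in
theorem IsRt.maps (h : IsRt s w φ) (hφ : φ ≠ 0) (e : g * (k * s * k⁻¹) = k * s * k⁻¹ * g)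
    (hx : x ∈ pM k w) : g x ∈ pM k w := by
  obtain ⟨v, rfl⟩ := h.range' hφ hx
  rw [map_sub, ← LinearEquiv.mul_apply, e]
  exact conj_mem_cen h.cen _

namespace TX

variable (h : TX C C₁ C₂ X R) {a₀ : F} (ha₀ : a₀ ≠ 0) (e₀ : a₀ * T₂.ε + T₂.σ a₀ = 0)
include h ha₀ e₀

omit [FiniteDimensional F U] in
theorem tz : TZ C C₁ C₂ X R :=
  { h with
    fw := ⟨h.nd₂, h.spec.le, h.tv, fun _ _ a b c d => h.spec.witt_one h.dim b d (c.trans a.symm),
      let ⟨w, a, b, _⟩ := h.conn 0 0; ⟨w, a, b⟩, a₀, ha₀, e₀⟩ }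

theorem bp (hQ : QS C₂ X) : BP X (PF C₂) :=
  have := h.dim
  (h.tz ha₀ e₀).bp (by omega) (.inl (by omega)) fun _ _ a b _ hg =>
    h.mem_of_point hQ (.inr ⟨a₀, ha₀, e₀⟩) hg a b

omit [FiniteDimensional F W] in
theorem T_ex' (hw : C₂.N w = 0) (hw0 : w ≠ 0) : ∃ s, IsT C₂ X w s :=
  let ⟨t, a1, a2, a3⟩ := h.exists_tv hw e₀
  ⟨t, hw, hw0, a1, a2, fun e => ha₀ (neg_eq_zero.1 (h.tv_inj hw0 a3 (b := 0) (by simp [e])))⟩

omit h [FiniteDimensional F U] [FiniteDimensional F W] in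
theorem T_pf (hs : IsT C₂ X w s) : PF C₂ w (-a₀ • C₂.B w) :=
  ⟨hs.hw, hs.ne, _, neg_ne_zero.2 ha₀, by rw [map_neg]; linear_combination -e₀, rfl⟩

variable (hQ : QS C₂ X) (hu : ∀ a, a * T₂.ε + T₂.σ a = 0 → a = 0 ∨ a = a₀) (h2 : S2 X (PF C₂))
include hQ hu

omit ha₀ e₀ in
theorem T_rt (hs : IsT C₂ X w s) : IsRt s w (-a₀ • C₂.B w) := fun x => by
  rw [h.T_apply hQ hu hs, map_smul]; rfl

theorem T_comm' (hs : IsT C₂ X w s) (hg : g ∈ X) (e : g * s = s * g) : g ∈ tenStab F U W :=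
  (h.bp ha₀ e₀ hQ).of_comm (T_pf ha₀ e₀ hs) (h.T_rt hQ hu hs) hg e

theorem T_gd (hs : IsT C₂ X w s) (hg : g ∈ X) (e : g * s * g⁻¹ ∈ tenStab F U W) : Gd g := by
  simpa using ((h.bp ha₀ e₀ hQ).s1 (T_pf ha₀ e₀ hs) (h.T_rt hQ hu hs) (inv_mem hg) (by simpa)).inv

variable [Finite F]
include h2

theorem bot_of_even (hk : MaxB X (PF C₂) w w' k) (hs : IsT C₂ X w s) (hs' : IsT C₂ X w' s')
    (hc : Even (orderOf (s * (k * s' * k⁻¹)))) : tl U (F ∙ w) ⊓ pM k w' = ⊥ := by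
  have : Finite (U ⊗[F] W) := Module.finite_of_finite F
  have : Finite ((U ⊗[F] W) ≃ₗ[F] (U ⊗[F] W)) := DFunLike.finite _
  have a0 := mul_mem (mul_mem hk.mem hs'.mem) (inv_mem hk.mem)
  obtain ⟨b1, b2, b3⟩ := H10.exists_central_invol_of_even (h.T_sq hQ hu hs)
    (conj_invol (h.T_sq hQ hu hs') k) (orderOf_pos _).ne' hc
  have b4 := pow_mem (mul_mem hs.mem a0) (orderOf (s * (k * s' * k⁻¹)) / 2)
  have b5 := pow_mem (mul_mem (cen_mono le_sup_left hs.cen) (cen_mono le_sup_right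
    (conj_mem_cen (k := k) hs'.cen))) (orderOf (s * (k * s' * k⁻¹)) / 2)
  generalize (s * (k * s' * k⁻¹)) ^ (orderOf (s * (k * s' * k⁻¹)) / 2) = z at *
  have hb := h.bp ha₀ e₀ hQ
  refine ((h.tz ha₀ e₀).of_fr hb h2 hk (by have := h.dim; omega) b4
    (h.T_comm' ha₀ e₀ hQ hu hs b4 b2) (mem_glStab_of_mapsTo fun l hl => ?_) b5 fun c => ?_).1
  · exact mem_map_iff.1 ((h.T_rt hQ hu hs).maps (k := 1) (x := l) (hb.ne' _ _ (T_pf ha₀ e₀ hs))
      (by simpa using b2.eq) ⟨l, hl, rfl⟩)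
  · obtain rfl := h.T_uniq hQ hu hs ⟨hs.hw, hs.ne, b4, c, H10.ne_one_of_orderOf_two b1⟩
    exact hk.bad (h.T_gd ha₀ e₀ hQ hu hs' hk.mem (h.T_comm' ha₀ e₀ hQ hu hs a0 b3.symm))

theorem eq_bot (hk : MaxB X (PF C₂) w w' k) : tl U (F ∙ w) ⊓ pM k w' = ⊥ := by
  have hb := h.bp ha₀ e₀ hQ
  obtain ⟨_, hw, hw0, -⟩ := hk.hw
  obtain ⟨_, hw', hw0', -⟩ := hk.hw'
  obtain ⟨y, b⟩ := h.tsp hw hw0
  obtain ⟨s, hs⟩ := h.T_ex' ha₀ e₀ hw hw0
  obtain ⟨s', hs'⟩ := h.T_ex' ha₀ e₀ hw' hw0'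
  obtain ⟨e, he⟩ := h.T_ex' ha₀ e₀ b.hc b.symm.ne
  have b1 : ∀ l ∈ tl U (F ∙ w), e l = l := fun l hl => by
    obtain ⟨u, rfl⟩ := mem_tl_singleton.1 hl
    simp [h.T_apply hQ hu he, b.symm.hB]
  have b2 : finrank F ↥(tl U (F ∙ w) ⊓ pM k w') ≤
      finrank F ↥(tl U (F ∙ w') ⊓ pM (k⁻¹ * e * k) w') := by
    rw [← finrank_map_equiv _ k⁻¹]
    refine finrank_mono ?_
    rintro _ ⟨_, ⟨c, l, hl, rfl⟩, rfl⟩
    exact ⟨by simpa [inv_apply_apply] using hl, l, hl, congrArg (k⁻¹ ·) (b1 _ c)⟩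
  have b3 := h.bot_of_even ha₀ e₀ hQ hu h2 (k := k⁻¹ * e * k) ⟨hk.hw', hk.hw',
    mul_mem (mul_mem (inv_mem hk.mem) he.mem) hk.mem, fun c => hk.bad (h2 k hk.mem y _
      (T_pf ha₀ e₀ he) fun _ c1 _ c2 c3 => h.T_uniq hQ hu he
        ⟨he.hw, he.ne, c2, c3.cen, hb.rt_ne c1 c3⟩ ▸ c),
    fun a b c d e f k' p q => (hk.max a b c d e f k' p q).trans b2⟩ hs' hs'
  by_contra a3
  replace b3 := Nat.not_even_iff_odd.1 fun c => a3 (finrank_eq_zero.1 (by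
    rw [b3 c, finrank_bot] at b2; omega))
  rw [← orderOf_injective (MulAut.conj k).toMonoidHom (MulAut.conj k).injective,
    show (MulAut.conj k).toMonoidHom (s' * (k⁻¹ * e * k * s' * (k⁻¹ * e * k)⁻¹)) =
      k * s' * k⁻¹ * (e * (k * s' * k⁻¹) * e⁻¹) by simp [mul_assoc]] at b3
  have a0 := mul_mem (mul_mem hk.mem hs'.mem) (inv_mem hk.mem)
  obtain ⟨c, c1, c2, c3⟩ := exists_central_of_odd (conj_invol (h.T_sq hQ hu hs') k)
    (h.T_sq hQ hu he) b3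
  have c4 : c ∈ X := Subgroup.zpowers_le.2 (mul_mem a0 he.mem) c1
  have c5 : ∀ x ∈ tl U (F ∙ w) ⊓ pM k w', x ∈ pM (c * k) w' := by
    rintro _ ⟨a1, l, a2, rfl⟩
    exact ⟨l, a2, Subgroup.zpowers_le.2 (show _ ∈ MulAction.stabilizer _ (k l) from
      show k (s' (k⁻¹ (e (k l)))) = k l by
        rw [b1 (k l) a1, inv_apply_apply,
          h.nd.cen_fix (h.le hs'.mem) hs'.cen (h.ts_tl (h.point_ts hw') a2)]) c1⟩
  rw [show c * (k * s' * k⁻¹) * c⁻¹ = c * k * s' * (c * k)⁻¹ by group] at c2 c3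
  have c6 := mul_mem c4 hk.mem
  have c7 := hb.ne' _ _ (T_pf ha₀ e₀ hs')
  have c8 := h.T_rt hQ hu hs'
  generalize c * k = κ at *
  rcases h.T_gd ha₀ e₀ hQ hu hs' c6 (h.T_comm' ha₀ e₀ hQ hu he
    (mul_mem (mul_mem c6 hs'.mem) (inv_mem c6)) c2) with ⟨α, β, d1⟩ | d1
  · have d2 : ∀ u, κ (u ⊗ₜ w') ∈ tl U (F ∙ β w') := fun u => by
      rw [d1]; exact tmul_mem_tl _ (mem_span_singleton_self _)
    have d3 := h.T_conj hs' c6 d2
    obtain ⟨x, a1, a2⟩ := exists_mem_ne_zero_of_ne_bot a3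
    obtain ⟨l, a4, e1⟩ := c5 x a1
    obtain ⟨u, rfl⟩ := mem_tl_singleton.1 a4
    obtain ⟨v, rfl⟩ := mem_tl_singleton.1 a1.1
    have d5 := h.T_uniq hQ hu d3 ⟨d3.hw, d3.ne, hs.mem, cen_mono (tl_mono
      ((span_singleton_le_iff_mem _ _).2 (mem_of_tmul_mem_tl (by rintro rfl; simp at a2)
        (e1 ▸ d2 u)))) hs.cen, hs.ne'⟩
    rw [d5] at c2 c3
    refine hk.bad (h.T_gd ha₀ e₀ hQ hu hs' hk.mem (h.T_two hQ ha₀ e₀ hu hs he c2 ?_ a0 c3))
    rintro rfl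
    obtain ⟨r, r1, r2⟩ := h.nd₂.exists_perp_eq (not_mem_span_symm b.nm hw0) 1
    have := (h.T_apply hQ hu hs (v ⊗ₜ r)).symm.trans (h.T_apply hQ hu he _)
    simp [C₂.mem_perp_singleton.1 r1, r2] at this
    exact tmul_ne_zero (by simpa [ha₀] using fun e : v = 0 => by simp [e] at a2) hw0 this
  have := nontrivial_of_ne w 0 hw0
  obtain ⟨A, hA⟩ := exists_rTensor (d1 ((-a₀ • C₂.B w').smulRight w'))
  have d2 : ∀ x, (κ * s' * κ⁻¹) x = x + A.rTensor W x := fun x => by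
    rw [← hA]; exact LinearMap.congr_fun (c8.conj κ) x
  have d3 := LinearMap.finrank_le_finrank_of_injective (f := LinearMap.codRestrict (pM κ w')
    ((LinearMap.range A).subtype.rTensor W) fun x => by
      induction x with
      | zero => simp
      | tmul u p =>
        obtain ⟨_, u, rfl⟩ := u
        simpa [d2] using conj_mem_cen (k := κ) c8.cen (u ⊗ₜ p)
      | add x y a b => rw [map_add]; exact add_mem a b) fun x y e =>
    Module.Flat.rTensor_preserves_injective_linearMap _ (injective_subtype _)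
      (congrArg Subtype.val e)
  obtain ⟨φ, d4⟩ := exists_dual_one (F := F) hw0
  obtain ⟨ψ, d5, d6⟩ := exists_dual_eq_one b.nm
  have d7 := finrank_le_of_map (Y := tl U (F ∙ w) ⊓ pM k w') (K := ⊥) (Z := LinearMap.range A)
    (cR U φ) (fun x hx => by
      obtain ⟨v, rfl⟩ := c8.range' c7 (c5 x hx)
      exact ⟨_, by rw [d2, add_sub_cancel_left, cR_rTensor]⟩) fun x hx e => by
      obtain ⟨u, rfl⟩ := mem_tl_singleton.1 hx.1
      simp [show u = 0 by simpa [d4] using e]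
  have d8 := finrank_le_of_map (Y := pM k w' ⊓ LinearMap.ker (A ∘ₗ cB U C₂ w))
    (K := tl U (F ∙ w) ⊓ pM k w') (Z := LinearMap.range A) (cB U C₂ y) (fun x hx => by
      have f1 := TZ.mem_of_perp hb h2 hk (sub_mem (c8.maps c7 c3.symm hx.1) hx.1) (by
        simpa [d2, cB, cR_rTensor, h.T_apply hQ hu he, b.hB] using hx.2)
      have f2 := cR_eq_zero_of_mem_tl f1 d5
      rw [LinearEquiv.mul_apply, d2, add_sub_right_comm, map_add, cR_rTensor,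
        h.T_apply hQ hu he x, add_sub_cancel_left, cR_tmul, d6, one_smul] at f2
      exact (smul_mem_iff _ (neg_ne_zero.2 ha₀)).1 (eq_neg_of_add_eq_zero_left f2 ▸
        neg_mem ⟨_, rfl⟩)) fun x hx f => ⟨hb.caseII h2 hk (T_pf ha₀ e₀ he) (by simp [b.symm.hB])
          hx.1 (by simp [show cR U (C₂.B y) x = 0 from f]), hx.1⟩
  have d9 := finrank_le_of_map (Y := pM k w') (Z := LinearMap.range A) (A ∘ₗ cB U C₂ w)
    (K := pM k w' ⊓ LinearMap.ker (A ∘ₗ cB U C₂ w)) (fun _ _ => ⟨_, rfl⟩) fun x hx f => ⟨hx, f⟩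
  rw [finrank_tensorProduct, finrank_pt hw0'] at d3
  rw [finrank_pt hw0'] at d9
  have := Nat.mul_le_mul_left (finrank F (LinearMap.range A)) h.dim
  have := h.pos
  rw [finrank_bot] at d7
  omega

theorem gd_one (hg : g ∈ X) : Gd g := by
  have : Finite (U ⊗[F] W) := Module.finite_of_finite F
  have : Finite ((U ⊗[F] W) ≃ₗ[F] (U ⊗[F] W)) := DFunLike.finite _
  have hb := h.bp ha₀ e₀ hQ
  have c2 : (2 : F) = 0 := by
    have := (hu (-a₀) (by rw [map_neg]; linear_combination -e₀)).resolve_left (neg_ne_zero.2 ha₀)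
    exact (mul_eq_zero.1 (show a₀ * 2 = 0 by linear_combination -this)).resolve_left ha₀
  by_contra hg'
  obtain ⟨w, hw0, hw, -⟩ := h.conn 0 0
  obtain ⟨y, b⟩ := h.tsp hw hw0
  obtain ⟨s, hs⟩ := h.T_ex' ha₀ e₀ hw hw0
  obtain ⟨e, he⟩ := h.T_ex' ha₀ e₀ b.hc b.symm.ne
  obtain ⟨w₀, w', k, hk₀⟩ := exists_maxB (T_pf ha₀ e₀ hs) hg hg'
  have hk : ∀ v, C₂.N v = 0 → v ≠ 0 → MaxB X (PF C₂) v w' k := fun v a b => hk₀.of_bot
    (h.eq_bot ha₀ e₀ hQ hu h2 hk₀) ((h.tz ha₀ e₀).fw.pf a b) hk₀.hw' hk₀.mem hk₀.bad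
  obtain ⟨_, hw', hw0', -⟩ := hk₀.hw'
  obtain ⟨s', hs'⟩ := h.T_ex' ha₀ e₀ hw' hw0'
  have a1 := h.T_apply hQ hu hs
  have a2 := h.T_apply hQ hu he
  have a3 : s * e = e * s := LinearEquiv.ext fun x => by
    simp [a1, a2, b.hB, b.symm.hB]; abel
  obtain ⟨r, r', b1, b2, b3, b4⟩ := b.exists_dual h.nd₂
  obtain ⟨u₀, hu₀⟩ := h.ex
  have a4 : ∀ x ∈ tl U (span F {w, y}), ∃ v, (s * e) v - v = x := fun x hx => by
    obtain ⟨v, v', rfl⟩ := mem_tl_pair.1 hx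
    exact ⟨(-a₀⁻¹ • v) ⊗ₜ r + (-a₀⁻¹ • v') ⊗ₜ r', by
      simp [a1, a2, b1, b2, b3, b4, b.hB, smul_smul, ha₀]; abel⟩
  have a5 : s * e ∈ cen (tl U (span F {w, y})) := mul_mem
    (cen_mono (tl_mono (span_mono (by simp))) hs.cen)
    (cen_mono (tl_mono (span_mono (by simp))) he.cen)
  have c7 := hb.ne' _ _ (T_pf ha₀ e₀ hs')
  have c8 := h.T_rt hQ hu hs'
  obtain ⟨z, ⟨z1, z2⟩, z3, z4, z5, z6⟩ := exists_dihedral
    (Y := X ⊓ cen (pM k w' ⊔ tl U (span F {w, y}))) (t := k * s' * k⁻¹) (e := s * e)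
    ⟨X.mul_mem (X.mul_mem hk₀.mem hs'.mem) (X.inv_mem hk₀.mem),
      cen_mono le_sup_left (conj_mem_cen hs'.cen)⟩
    ⟨X.mul_mem hs.mem he.mem, cen_mono le_sup_right a5⟩ (conj_invol (h.T_sq hQ hu hs') k)
    (by rw [mul_assoc, ← mul_assoc e, ← a3, mul_assoc, h.T_sq hQ hu he, mul_one, h.T_sq hQ hu hs])
    fun x _ c => by
      have := finrank_mono (show tl U (span F {w, y}) ≤ pM (x * k) w' from fun p hp => by
        obtain ⟨v, rfl⟩ := a4 p hp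
        rw [← c, show x * (k * s' * k⁻¹) * x⁻¹ = x * k * s' * (x * k)⁻¹ by group]
        exact conj_mem_cen hs'.cen v)
      rw [finrank_pt hw0', finrank_tl, b.finrank_eq] at this
      have := h.pos
      omega
  have z7 := h.T_two hQ ha₀ e₀ hu hs he a3 (by
    rintro rfl
    have := (a1 (u₀ ⊗ₜ r)).symm.trans (a2 _)
    simp [b1, b2] at this
    exact tmul_ne_zero (by simp [ha₀, hu₀]) hw0 this) z1 z6
  have z8 : ∀ x, z (z x - x) = z x - x := fun x => by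
    have : (2 : F) • (x - z x) = 0 := by simp [c2]
    rw [map_sub, show z (z x) = x from LinearEquiv.congr_fun z4 x]
    linear_combination (norm := module) this
  obtain ⟨v, v1, v2, v3⟩ : ∃ v ∈ span F {w, y}, v ≠ 0 ∧ ∀ u, z (u ⊗ₜ v) ∈ tl U (F ∙ v) := by
    obtain ⟨α, β, rfl⟩ := z7
    obtain ⟨ψ, hψ⟩ := exists_dual_one (F := F) (v := α (α u₀)) (by simpa)
    obtain ⟨μ, hμ⟩ := FiniteField.isSquare_of_char_two
      (CharP.ringChar_of_prime_eq_zero Nat.prime_two c2) (ψ u₀)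
    have d1 : β (β w) = (μ * μ) • w := by
      simpa [hψ, hμ] using congrArg (cL W ψ) (LinearEquiv.congr_fun z4 (u₀ ⊗ₜ w))
    have d2 : β w ∈ span F {w, y} := by
      obtain ⟨x, hx⟩ := a4 _ (tmul_mem_tl u₀ (mem_pair_left w y))
      refine mem_of_tmul_mem_tl (u := α u₀) (by simpa) ?_
      rw [← congr_tmul, ← hx, map_sub, ← LinearEquiv.mul_apply, z6]
      exact a5 _
    by_cases d3 : β w - μ • w = 0
    · exact ⟨w, mem_pair_left w y, hw0, fun u => tmul_mem_tl _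
        (mem_span_singleton.2 ⟨μ, (sub_eq_zero.1 d3).symm⟩)⟩
    · exact ⟨_, sub_mem d2 (smul_mem _ _ (mem_pair_left w y)), d3, fun u => tmul_mem_tl _
        (mem_span_singleton.2 ⟨-μ, by simp [d1]; module⟩)⟩
  have v4 := hk v (h.sing v (b.ts.2 v v1 v v1)) v2
  obtain ⟨p, p1, p2⟩ := exists_mem_not_mem_of_finrank_lt (W := F ∙ v) (W' := span F {w, y})
    (by rw [b.finrank_eq, finrank_span_singleton v2]; omega)
  have v5 := LinearMap.surjective_of_injective (f := cB U C₂ w' ∘ₗ (k⁻¹ : _ ≃ₗ[F] _).toLinearMap ∘ₗ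
    (TensorProduct.mk F U W).flip v) ((injective_iff_map_eq_zero _).2 fun u e => by_contra fun c =>
      tmul_ne_zero c v2 ((h.eq_bot ha₀ e₀ hQ hu h2 v4).le ⟨tmul_mem_tl u (mem_span_singleton_self v),
        _, TZ.mem_of_perp hb h2 v4.symm ⟨_, tmul_mem_tl u (mem_span_singleton_self v), rfl⟩ e,
        apply_inv_apply _ _⟩))
  obtain ⟨r, r1, r2⟩ := (isR_of_perp z7 p2 fun u => by
    obtain ⟨u', hu'⟩ := v5 (cB U C₂ w' (k⁻¹ (u ⊗ₜ p)))
    have := h.nd.cen_fix (h.le z1) z2 (x := u ⊗ₜ p - u' ⊗ₜ v) (C.mem_perp.2 fun l hl => by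
      obtain ⟨_, ⟨l, hl', rfl⟩, m, hm, rfl⟩ := mem_sup.1 hl
      rw [map_add, LinearMap.add_apply, C.mem_perp.1 (h.ts_tl (fun x hx => C₂.mem_perp.2
        fun l hl => b.ts.2 l hl x hx) (sub_mem (tmul_mem_tl u p1) (tmul_mem_tl u' v1))) m hm,
        add_zero, LinearEquiv.coe_coe, ← CForm.isom_B (h.le (inv_mem hk₀.mem)), inv_apply_apply]
      exact C.mem_perp.1 (h.mem_perp_point.2 (by rw [map_sub, map_sub, ← hu']; simp)) l hl')
    rw [map_sub, sub_eq_sub_iff_sub_eq_sub] at this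
    exact this ▸ sub_mem (v3 u') (tmul_mem_tl u' (mem_span_singleton_self v))).exists_ne z3
  have r3 : ∀ u m, z m = m → C.B (u ⊗ₜ r) m = 0 := fun u m e => by
    obtain ⟨x, hx⟩ := r2 u
    rw [← hx, C.B_sub_left, ← CForm.isom_B (h.le z1) x, e, sub_self]
  obtain ⟨u, u', r4⟩ := h.ex_one
  have r5 := hk r (h.sing r (by
    obtain ⟨x, hx⟩ := r2 u'
    simpa [h.hB, r4] using r3 u (u' ⊗ₜ r) (hx ▸ z8 x))) r1
  have r6 : ∀ m ∈ pM k w', z m = m → m = 0 := fun m a b =>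
    (h.eq_bot ha₀ e₀ hQ hu h2 r5).le ⟨TZ.mem_of_perp hb h2 r5 a (h.nd₁.eq_zero' fun u => by
      rw [← h.B_tmul, r3 u m b]), a⟩
  have r7 : k (u₀ ⊗ₜ w') ∈ pM k w' := ⟨_, tmul_mem_tl u₀ (mem_span_singleton_self w'), rfl⟩
  simpa [tmul_ne_zero hu₀ hw0'] using r6 _ r7 (sub_eq_zero.1 (r6 _
    (sub_mem (c8.maps c7 z5 r7) r7) (z8 _)))

end TX

end H12
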