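import Cfsg.Agent.H12.WR7

/-!
# Tensor powers of forms: extraction of pure tensors
-/

set_option autoImplicit false
set_option maxHeartbeats 400000

namespace H12

open Module H11 Submodule TensorProduct H13.KL

variable {F : Type*} [Field F] {V W : Type*} [AddCommGroup V] [Module F V] [AddCommGroup W]
  [Module F W] {T₂ : FormType F} {C₂ : CForm T₂ W} {R : Subgroup (W ≃ₗ[F] W)} {ι : Type*}
  {ρ : ι → End F W →ₐ[F] End F V} {τ : End F W →ₐ[F] End F V} {J : Submodule F (End F V)}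
  {w y : W} {A b : End F V} {D D' : End F W} {β : W ≃ₗ[F] W}

theorem rk_mul (τ : End F W →ₐ[F] End F V) (φ ψ : Dual F W) (v w : W) :
    τ (φ.smulRight v) * τ (ψ.smulRight w) = φ w • τ (ψ.smulRight v) := by
  rw [← map_mul, smulRight_mul, map_smul]

theorem rk_mul' (τ : End F W →ₐ[F] End F V) (φ ψ : Dual F W) (v w : W) (B : End F V) :
    τ (φ.smulRight v) * (τ (ψ.smulRight w) * B) = φ w • (τ (ψ.smulRight v) * B) := by
  rw [← mul_assoc, rk_mul, smul_mul_assoc]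

theorem comm_mul' (h : ∀ E, Commute b (τ E)) (E : End F W) (B : End F V) :
    τ E * (b * B) = b * (τ E * B) := by rw [← mul_assoc, ← (h E).eq, mul_assoc]

theorem TSP.map (e : TSP C₂ w y) (hβ : β ∈ C₂.isom) : TSP C₂ (β w) (β y) :=
  ⟨(CForm.isom_N hβ w).trans e.hv, (CForm.isom_N hβ y).trans e.hc, (CForm.isom_B hβ w y).trans e.hB,
    by simpa using e.ne, fun a => by
      obtain ⟨c, hc⟩ := mem_span_singleton.1 a
      exact e.nm (mem_span_singleton.2 ⟨c, β.injective (by simpa using hc)⟩)⟩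

variable (τ D D' J) in
/-- The coefficients of the sums of two pure tensors in `J`. -/
def PS : Submodule F (End F V) where
  carrier := {b | (∀ E, Commute b (τ E)) ∧ ∃ b', (∀ E, Commute b' (τ E)) ∧ b * τ D + b' * τ D' ∈ J}
  zero_mem' := ⟨fun _ => Commute.zero_left _, 0, fun _ => Commute.zero_left _, by simp⟩
  add_mem' := fun ⟨a, _, b, c⟩ ⟨d, _, e, f⟩ => ⟨fun E => (a E).add_left (d E), _,
    fun E => (b E).add_left (e E), by
      rw [add_mul, add_mul, add_add_add_comm]; exact add_mem c f⟩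
  smul_mem' c _ := fun ⟨a, _, b, d⟩ => ⟨fun E => (a E).smul_left c, _, fun E => (b E).smul_left c,
    by simpa using smul_mem _ c d⟩

theorem cj_add (g : V ≃ₗ[F] V) (A B : End F V) : cj g (A + B) = cj g A + cj g B := by ext; simp

theorem Inv.PS_conj (hJ : Inv ρ R J) {j : ι} (h : b ∈ PS (ρ j) J D D') (hβ : β ∈ R) :
    b ∈ PS (ρ j) J (cj β D) (cj β D') :=
  let ⟨a, b', c, d⟩ := h
  ⟨a, b', c, by
    have := hJ j β hβ _ d
    rwa [cj_add, cj_mul', cj_mul', cj_rU, cj_rU, cj_of_comm (g := rU (ρ j) β) (a β).symm,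
      cj_of_comm (g := rU (ρ j) β) (c β).symm] at this⟩

theorem Inv.PS (hJ : Inv ρ R J) (h : Fam ρ) (j : ι) (D D' : End F W) :
    Inv ρ R (PS (ρ j) J D D') := fun l β hβ A hA => by
  by_cases e : l = j
  · subst e; rwa [cj_of_comm (g := rU (ρ l) β) (hA.1 β).symm]
  have h1 : ∀ E, cj (rU (ρ l) β) (ρ j E) = ρ j E := fun E => cj_of_comm (h.comm l j e β E)
  obtain ⟨a, b', c, d⟩ := hA
  exact ⟨fun E => h1 E ▸ Commute.cj (a E) _, _, fun E => h1 E ▸ Commute.cj (c E) _, by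
    rw [← h1 D, ← h1 D', ← cj_mul', ← cj_mul', ← cj_add]; exact hJ l β hβ _ d⟩

variable [FiniteDimensional F W]

namespace FW

variable (h : FW C₂ R)
include h

theorem delta (hJ : Inv ρ R J) (j : ι) (hw : C₂.N w = 0) {c : F} (hc : c * T₂.ε + T₂.σ c = 0)
    (hA : A ∈ J) : c • (ρ j ((C₂.B w).smulRight w) * A - A * ρ j ((C₂.B w).smulRight w) -
      c • (ρ j ((C₂.B w).smulRight w) * A * ρ j ((C₂.B w).smulRight w))) ∈ J := by
  obtain ⟨β, a1, a2⟩ := h.tv' hw hc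
  have := hJ.delta j a1 a2 (by simp [smulRight_mul, C₂.B_self_of_zero hw]) hA
  rw [show (c • C₂.B w).smulRight w = c • (C₂.B w).smulRight w by ext; simp [mul_smul],
    map_smul] at this
  simpa [smul_sub] using this

theorem pair (hJ : Inv ρ R J) (j : ι) (e : TSP C₂ w y) (hA : A ∈ J) :
    cp (ρ j) A y (C₂.B w) * ρ j ((C₂.B y).smulRight w) +
      cp (ρ j) A w (C₂.B y) * ρ j ((C₂.B w).smulRight y) ∈ J := by
  obtain ⟨c, c1, c2⟩ := h.ex₀
  have := (smul_mem_iff _ c1).1 (h.delta hJ j e.hc c2 ((smul_mem_iff _ c1).1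
    (h.delta hJ j e.hv c2 hA)))
  rw [cp_mul, cp_mul, ← neg_mem_iff]
  convert this using 1
  simp only [mul_sub, sub_mul, mul_smul_comm, smul_mul_assoc, mul_assoc, rk_mul, rk_mul', e.hB,
    e.symm.hB, zero_smul, mul_zero, smul_zero, zero_mul]
  module

theorem ex_pair (hT : ∀ w, C₂.N w = 0 → w ≠ 0 → ∃ y, TSP C₂ w y) (hn : ¬ ∀ E, Commute A (τ E)) :
    ∃ w y, TSP C₂ w y ∧ cp τ A y (C₂.B w) ≠ 0 := by
  by_contra hc
  push Not at hc
  refine hn (comm_of_cp (P := fun y φ => ∃ w, TSP C₂ w y ∧ φ = C₂.B w) (fun D hD =>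
    h.scalar fun y hy => ?_) (by rintro y _ ⟨w, e, rfl⟩; exact hc w y e))
  by_cases h0 : y = 0
  · simp [h0]
  obtain ⟨z, e⟩ := hT y hy h0
  rw [← h.nd.perp_perp (F ∙ y)]
  exact C₂.mem_perp.2 fun w hw => C₂.B_swap_zero (e.perp_add h.nd
    (LinearMap.ker (C₂.B (D y))).toAddSubgroup (fun w a => C₂.B_swap_zero
      (hD y _ ⟨w, a.symm, rfl⟩)) (C₂.mem_perp_singleton.1 hw))

theorem extr [FiniteDimensional F V] (hT : ∀ w, C₂.N w = 0 → w ≠ 0 → ∃ y, TSP C₂ w y)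
    (hρ : Fam ρ) : Extr ρ R (NF C₂) := fun j J hJ hm A hA hn => by
  obtain ⟨w, y, e, a1⟩ := h.ex_pair hT hn
  have a2 := h.pair hJ j e hA
  obtain ⟨β, b1, rfl⟩ := h.trans y w e.hc e.symm.ne e.hv e.ne
  have a3 := hJ.PS_conj (j := j) ⟨cp_comm _ _, _, cp_comm _ _, a2⟩ b1
  have a4 := e.symm.map (h.le b1)
  rw [h.cj_rk b1, h.cj_rk b1] at a3
  generalize β (β y) = y₂ at *
  generalize β y = w at *
  obtain ⟨b, ⟨c1, b', c2, c3⟩, c4⟩ := hρ.mul_ne h.wd.gen (hJ.PS hρ j _ _) a1 a3 a1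
  obtain ⟨z₁, d1, d2⟩ := e.exists_ne h.nd
  obtain ⟨z₂, d3, d4⟩ := a4.exists_ne h.nd
  obtain ⟨z, d5, d6, d7, d8⟩ := h.two' d1.hc d2 d3.hc d4
  have d9 : C₂.B w z = 0 := by
    obtain ⟨s, t, rfl⟩ := mem_span_pair.1 d5
    simp [d1.hB, d3.hB]
  obtain ⟨c, e1, e2⟩ := h.ex₀
  have := hm _ a2 _ ((smul_mem_iff _ e1).1 (h.delta hJ j d6 e2 c3))
  refine ⟨_, ⟨w, e.hv, e.ne, rfl⟩, _, ⟨fun E => (cp_comm _ _ E).mul_left (c1 E), (smul_mem_iff _
    (mul_ne_zero (C₂.B_swap_ne d8) d7)).1 ?_⟩, c4⟩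
  convert this using 1
  simp only [mul_add, add_mul, mul_sub, mul_smul_comm, mul_assoc, comm_mul' c1, comm_mul' c2,
    rk_mul, rk_mul', d9, C₂.B_swap_zero d9, e.symm.hB, C₂.B_self_of_zero e.hv,
    zero_smul, mul_zero, smul_zero, add_zero, sub_zero, smul_smul, smul_mul_assoc]

end FW

theorem prod_one_add (l : List (W × Dual F W)) (h : ∀ p ∈ l, ∀ q ∈ l, p.2 q.1 = 0) :
    (l.map fun p => 1 + p.2.smulRight p.1).prod = 1 + (l.map fun p => p.2.smulRight p.1).sum ∧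
      ∀ φ : Dual F W, (∀ q ∈ l, φ q.1 = 0) → ∀ x, φ ((l.map fun p => p.2.smulRight p.1).sum x) = 0 := by
  induction l with
  | nil => simp
  | cons p l ih =>
    obtain ⟨a, b⟩ := ih fun p hp q hq => h p (by simp [hp]) q (by simp [hq])
    refine ⟨?_, fun φ e x => by simp [e p, b φ fun q hq => e q (by simp [hq])]⟩
    rw [List.map_cons, List.prod_cons, a]
    ext x
    simp [h p _ p, b p.2 fun q hq => h p (by simp) q (by simp [hq])]; abel

end H12
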