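import Cfsg.Agent.H12.WR8
import Cfsg.Agent.H12.Ten8

/-!
# Tensor powers of forms: the form layer
-/

set_option autoImplicit false
set_option maxHeartbeats 400000

namespace H12

open Module H11 Submodule TensorProduct H13.KL Function QuadraticMap

variable {F : Type*} [Field F] {U W : Type*} [AddCommGroup U] [Module F U] [AddCommGroup W]
  [Module F W] {T T₁ T₂ : FormType F} {C : CForm T (U ⊗[F] W)} {C₁ : CForm T₁ U}
  {C₂ : CForm T₂ W} {X H G : Subgroup ((U ⊗[F] W) ≃ₗ[F] (U ⊗[F] W))} {R : Subgroup (W ≃ₗ[F] W)}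
  {ι : Type*} [DecidableEq ι] {ρ : ι → End F W →ₐ[F] End F (U ⊗[F] W)} {j₀ : ι}
  {π : (ι → W) → U ⊗[F] W} {c : F} {g : (U ⊗[F] W) ≃ₗ[F] (U ⊗[F] W)} {β : W ≃ₗ[F] W}
  {a b w : W} [FiniteDimensional F U] [FiniteDimensional F W]

variable (H G ρ j₀ C C₁ C₂ R) in
/-- The stabiliser of a tensor power of a form. -/
structure TWr : Prop extends WrH H G ρ j₀, TF C C₁ C₂ where
  fw : FW C₂ R
  hR : ∀ j, ∀ β ∈ R, rU (ρ j) β ∈ G
  rg : RootG C G
  adj : ∀ j D D', (∀ x y, C₂.B (D x) y = C₂.B x (D' y)) →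
    ∀ x y, C.B (ρ j D x) y = C.B x (ρ j D' y)
  dimU : 3 ≤ finrank F U

theorem TF.exists_perp (h : TF C C₁ C₂) (hd : 3 ≤ finrank F U) (e f : U) :
    ∃ u, u ≠ 0 ∧ C₁.B e u = 0 ∧ C₁.B f u = 0 := by
  obtain ⟨u, a1, a2⟩ := exists_mem_not_mem_of_finrank_lt (W := ⊥) (W' := C₁.perp (span F {e, f})) (by
    have := h.nd₁.finrank_add_finrank_perp (span F {e, f})
    have := finrank_span_pair_le (F := F) e f
    rw [finrank_bot]; omega)
  exact ⟨u, a2, C₁.mem_perp_pair.1 a1⟩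

theorem TWr.isMax [Finite ι] (h : TWr C C₁ C₂ H G R ρ j₀)
    (hd : ∀ X, H ⊓ G ≤ X → X ≤ G → TZ C C₁ C₂ X R → (∀ g ∈ X, Gd g) ∨ G ≤ X) :
    Cfsg.Geo.IsMaximalIn G (H ⊓ G) := by
  obtain ⟨w, a1, a2⟩ := h.fw.ex
  obtain ⟨r, hr⟩ := h.nd₂.exists_eq a1 1
  obtain ⟨f, hf⟩ := h.toTF.ex
  obtain ⟨e, -, he⟩ := exists_mem_not_mem_of_finrank_lt (W := F ∙ f) (W' := ⊤) (by
    have := h.dimU; have := finrank_span_singleton_le (F := F) f; rw [finrank_top]; omega)
  obtain ⟨u, b1, b2, b3⟩ := h.toTF.exists_perp h.dimU e f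
  obtain ⟨v, b4, b5⟩ := h.nd₁.exists_perp_eq he 1
  have b0 := C₂.B_self_of_zero a2
  obtain ⟨t, c1, c2⟩ := h.rg.rho (e ⊗ₜ w) (f ⊗ₜ w) (h.toTF.N_tmul e a2) (h.toTF.N_tmul f a2)
    (by simp [h.hB, b0])
  refine h.toWrH.isMax c1 (not_gd (φ := C₂.B w) a1 (fun e => by simp [e] at hr) b0 b1
    (fun v => by simp [c2, h.hB, b0]) (fun x => by simp [c2, b0])
    (fun y => by simp [c2, h.hB, b2, C₁.B_swap_zero b3]) fun c => ?_) fun X c3 c4 => hd X c3 c4
      { h with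
        le := c4.trans h.rg.le
        hX := fun β hβ => c3 ⟨by simpa [h.base, rU_rA] using h.toWrH.rU_mem j₀ β,
          by simpa [h.base, rU_rA] using h.hR j₀ β hβ⟩ }
  have := c2 (v ⊗ₜ r)
  simp [c, h.hB, b5, hr, C₁.B_swap_zero (C₁.mem_perp_singleton.1 b4)] at this
  exact tmul_ne_zero hf a1 this

variable [Fintype ι]

variable (H ρ j₀ π C C₂ c) in
/-- A tensor power of a form. -/
structure TPF : Prop extends TPw H ρ j₀ π where
  nd : C.Nondeg
  nd₂ : C₂.Nondeg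
  σ₂ : ∀ a, T₂.σ a = T.σ a
  hB : ∀ x y, C.B (π x) (π y) = c * ∏ i, C₂.B (x i) (y i)
  hN : ∀ x y, C.B (π x) (π x) = C.B (π y) (π y) → C.N (π x) = C.N (π y)

namespace TPF

variable (h : TPF C C₂ H ρ j₀ π c)
include h

omit [FiniteDimensional F U] [FiniteDimensional F W] in
theorem B_ext {f f' k k' : End F (U ⊗[F] W)}
    (e : ∀ x y, C.B (f (π x)) (f' (π y)) = C.B (k (π x)) (k' (π y))) (x y : U ⊗[F] W) :
    C.B (f x) (f' y) = C.B (k x) (k' y) :=
  LinearMap.congr_fun₂ (LinearMap.ext_on_range h.span fun x => LinearMap.ext_on_range h.span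
    fun y => e x y : (C.B ∘ₛₗ f).compl₂ f' = (C.B ∘ₛₗ k).compl₂ k') x y

omit [FiniteDimensional F U] [FiniteDimensional F W] in
theorem B_upd (x y : ι → W) (j : ι) (a b : W) : C.B (π (update x j a)) (π (update y j b)) =
    c * (C₂.B a b * ∏ i ∈ Finset.univ.erase j, C₂.B (x i) (y i)) := by
  rw [h.hB, ← Finset.mul_prod_erase _ _ (Finset.mem_univ j), update_self, update_self]
  congr 2
  exact Finset.prod_congr rfl fun i hi => by
    rw [update_of_ne (Finset.ne_of_mem_erase hi), update_of_ne (Finset.ne_of_mem_erase hi)]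

omit [FiniteDimensional F U] [FiniteDimensional F W] in
theorem adj (j : ι) (D D' : End F W) (e : ∀ x y, C₂.B (D x) y = C₂.B x (D' y)) (x y : U ⊗[F] W) :
    C.B (ρ j D x) y = C.B x (ρ j D' y) :=
  h.B_ext (f' := 1) (k := 1) (fun x y => by
    have h1 := h.B_upd x y j (D (x j)) (y j)
    have h2 := h.B_upd x y j (x j) (D' (y j))
    rw [update_eq_self] at h1 h2
    rw [h.act, h.act, End.one_apply, End.one_apply, h1, h2, e]) x y

omit [FiniteDimensional F U] [FiniteDimensional F W] in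
theorem N_zero {A : End F (U ⊗[F] W)} (h1 : ∀ x, C.N (A (π x)) = 0)
    (h2 : ∀ x y, C.B (A x) (A y) = 0) (x : U ⊗[F] W) : C.N (A x) = 0 := by
  induction (h.span.ge mem_top : x ∈ _) using span_induction with
  | mem x hx => obtain ⟨x, rfl⟩ := hx; exact h1 x
  | zero => simp
  | add x y _ _ a b => rw [map_add, C.N_add_of_orth (h2 _ _), a, b, add_zero]
  | smul c x _ a => rw [map_smul, C.N_smul_of_zero a]

omit [FiniteDimensional F U] [FiniteDimensional F W] in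
theorem isom (h1 : ∀ x, ∃ y, g (π x) = π y)
    (h2 : ∀ x y, C.B (g (π x)) (g (π y)) = C.B (π x) (π y)) : g ∈ C.isom := by
  have h3 := h.B_ext (f := g) (f' := g) (k := 1) (k' := 1) h2
  refine C.mem_isom.2 ⟨h3, fun x => ?_⟩
  induction (h.span.ge mem_top : x ∈ _) using span_induction with
  | mem x hx =>
    obtain ⟨x, rfl⟩ := hx
    obtain ⟨y, e⟩ := h1 x
    rw [e]; exact h.hN _ _ (e ▸ h2 x x)
  | zero => simp
  | add x y _ _ a b => rw [map_add, C.N_add, C.N_add, a, b]; exact congrArg _ (congrArg _ (h3 x y))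
  | smul c x _ a => rw [map_smul, C.N_smul, C.N_smul, a]

omit [FiniteDimensional F U] [FiniteDimensional F W] in
theorem rU_isom (j : ι) (hβ : β ∈ C₂.isom) : rU (ρ j) β ∈ C.isom :=
  h.isom (fun x => ⟨_, h.act j β x⟩) fun x y => by
    have := h.B_upd x y j (x j) (y j)
    rw [update_eq_self, update_eq_self] at this
    exact (congrArg₂ (C.B · ·) (h.act j β x) (h.act j β y)).trans (by
      rw [h.B_upd, this, LinearEquiv.coe_coe, CForm.isom_B hβ])

omit [FiniteDimensional F U] [FiniteDimensional F W] in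
theorem perm_isom {s : Equiv.Perm ι} (hg : ∀ x, g (π x) = π (x ∘ s)) : g ∈ C.isom :=
  h.isom (fun x => ⟨_, hg x⟩) fun x y => by
    rw [hg, hg, h.hB, h.hB, ← Equiv.prod_comp s fun i => C₂.B (x i) (y i)]; rfl

omit [FiniteDimensional F U] in
theorem B_tmul (e : C₂.B a b = 1) (u : U) (w : W) (u' : U) (w' : W) :
    C.B (u ⊗ₜ w) (u' ⊗ₜ w') = C.B (u ⊗ₜ a) (u' ⊗ₜ b) * C₂.B w w' := by
  have := h.adj j₀ _ ((C₂.B a).smulRight w') (h.nd₂.B_adj _) (u ⊗ₜ w) (u' ⊗ₜ b)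
  rw [h.base, rA_tmul, rA_tmul, show h.nd₂.adj ((C₂.B a).smulRight w') w = T₂.σ (C₂.B w w') • a from
    h.nd₂.ext fun y => by simp [h.nd₂.B_adj, T₂.σσ, mul_comm]] at this
  simpa [e, h.σ₂, T.σσ, mul_comm] using this.symm

omit h [Fintype ι] [DecidableEq ι] [FiniteDimensional F U] [FiniteDimensional F W] in
variable (C a b) in
/-- The form on the first factor. -/
noncomputable def fB : U →ₛₗ[T.σ] U →ₗ[F] F :=
  (C.B ∘ₛₗ (TensorProduct.mk F U W).flip a).compl₂ ((TensorProduct.mk F U W).flip b)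

omit [FiniteDimensional F U] in
theorem fB_symm (e : C₂.B a b = 1) (u u' : U) :
    fB C a b u' u = T.ε * T.σ T₂.ε * T.σ (fB C a b u u') := by
  change C.B (u' ⊗ₜ a) (u ⊗ₜ b) = _ * T.σ (C.B (u ⊗ₜ a) (u' ⊗ₜ b))
  rw [C.symm, h.B_tmul e, C₂.symm a b, e]; simp; ring

omit [FiniteDimensional F U] in
theorem nd₁ (e : C₂.B a b = 1) (hC : ∀ u u', C₁.B u u' = fB C a b u u') : C₁.Nondeg :=
  fun u hu => tmul_left_inj (w := a) (by rintro rfl; simp at e) ((h.nd _ fun x => by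
    induction x with
    | zero => simp
    | tmul u' w => rw [h.B_tmul e]; exact mul_eq_zero_of_left ((hC _ _).symm.trans (hu u')) _
    | add x y a b => rw [map_add, a, b, add_zero]).trans (zero_tmul _ _).symm)

theorem tw (e : C₂.B a b = 1) (hC : ∀ u u', C₁.B u u' = fB C a b u u') (σ₁ : ∀ a, T₁.σ a = T.σ a)
    (hε : T.ε = T₁.ε * T₂.ε) (ε₂ : T₂.ε * T₂.σ T₂.ε = 1) (hs : ∀ w, C₂.B w w = 0 → C₂.N w = 0)
    (hN : ∀ u w u' w', C₁.N u = C₁.N u' → C₂.N w = C₂.N w' → C.N (u ⊗ₜ w) = C.N (u' ⊗ₜ w'))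
    (fw : FW C₂ R) (hR : ∀ j, ∀ β ∈ R, rU (ρ j) β ∈ G) (rg : RootG C G) (hd : 2 ≤ finrank F W)
    (hU : 3 ≤ finrank F U) (tr : ∀ g ∈ C.isom, ∀ j l m, m ≠ j → m ≠ l →
      (∀ x, g (π x) = π (x ∘ Equiv.swap j l)) → g * g = 1 → (∀ E, Commute (g : End F _) (ρ m E)) →
        g ∈ G ∨ LinearEquiv.neg F * g ∈ G) : TWr C C₁ C₂ H G R ρ j₀ :=
  { h with
    tr := fun j l m _ b b' => by
      obtain ⟨c, a0, a1, a2, a3⟩ := h.swap b b'
      rcases tr c (h.perm_isom a0) j l m b b' a0 a1 a2 with e | e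
      exacts [⟨c, e, a3⟩, ⟨_, e, fun i D => by rw [cj_cj, a3]; ext; simp⟩]
    pos := by omega
    dim := hd
    nd₁ := h.nd₁ e hC
    σ₁ := σ₁
    hε := hε
    ε₂ := ε₂
    hB := fun u w u' w' => by rw [h.B_tmul e, hC]; rfl
    hN := hN
    sing := hs
    fw := fw
    hR := hR
    rg := rg
    adj := h.adj
    dimU := hU }

end TPF

omit [FiniteDimensional F U] in
theorem fw_alt {C₂ : CForm (altType F) W} (h : C₂.Nondeg) (hd : 0 < finrank F W) :
    FW C₂ C₂.isom :=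
  ⟨h, le_rfl, fun _ _ hv _ => (rq_tv hv (tvOk_alt _)).mono inf_le_left,
    fun _ _ _ a _ b => h.witt_one a b (by rw [H12.alt_N, H12.alt_N]),
    let ⟨w, a⟩ := finrank_pos_iff_exists_ne_zero.1 hd; ⟨w, a, H12.alt_N w⟩,
    1, one_ne_zero, by simp [altType]⟩

section Herm

variable {σ : F →+* F} {hσ2 : ∀ a, σ (σ a) = a} {C : CForm (hermType σ hσ2) (U ⊗[F] W)}
  {C₂ : CForm (hermType σ hσ2) W} (hσ : σ ≠ RingHom.id F) (hN : ∀ a, σ a = a → ∃ b, b * σ b = a)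
include hσ hN

omit [FiniteDimensional F U] in
theorem fw_herm (h : C₂.Nondeg) (hd : 3 ≤ finrank F W) : FW C₂ (C₂.isom ⊓ SLV F W) :=
  ⟨h, inf_le_left, fun _ _ hv ha => rq_tv_herm hv (by simpa [hermType] using ha),
    fun w y a b c d => by
      obtain ⟨g, a1, rfl⟩ := h.witt_one b d (c.trans a.symm)
      obtain ⟨v, a2, a3⟩ := exists_perp_nonsingular hσ h hd w
      have h1 := h.σ_det_mul_det a1
      obtain ⟨s, a4, a5, -, a6⟩ := exists_qrefl_det a3
        (d := σ (LinearMap.det (g : W →ₗ[F] W))) (by rw [hσ2]; exact h1)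
      exact ⟨g * s, ⟨mul_mem a1 a4, mem_SLV.2 (by
        rw [LinearEquiv.coe_toLinearMap_mul, map_mul, a6, mul_comm]; exact h1)⟩,
        congrArg g (a5 w (C₂.B_swap_zero a2))⟩,
    let ⟨w, _, a⟩ := herm_exists_iso hN C₂ (W := ⊤) (by simp; omega); ⟨w, a⟩,
    let ⟨a, a1, a2⟩ := exists_trace_zero' (hσ2 := hσ2) hσ; ⟨a, a1, by simpa [hermType] using a2⟩⟩

theorem TPF.tw_herm [Finite F] (h : TPF C C₂ H ρ j₀ π c) (hd : 3 ≤ finrank F W)
    (hU : 3 ≤ finrank F U) (ho : Even (finrank F W) ∨ Odd (finrank F (U ⊗[F] W))) :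
    ∃ C₁ : CForm (hermType σ hσ2) U,
      TWr C C₁ C₂ H (C.isom ⊓ SLV F _) (C₂.isom ⊓ SLV F W) ρ j₀ := by
  obtain ⟨a, ha⟩ := finrank_pos_iff_exists_ne_zero.1 (show 0 < finrank F W by omega)
  obtain ⟨b, e⟩ := h.nd₂.exists_eq ha 1
  refine ⟨CForm.ofHerm σ hσ hσ2 (TPF.fB C a b) ⟨fun u u' => ((h.fB_symm e u u').trans
      (by change 1 * σ 1 * σ _ = σ _; rw [map_one, one_mul, one_mul]; rfl)).symm⟩,
    h.tw e (fun _ _ => rfl) (fun _ => rfl) (by simp [hermType]) (by simp [hermType])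
      (fun w e => (herm_B_self w).symm.trans e) (fun u w u' w' a b => ?_) (fw_herm hσ hN h.nd₂ hd)
      (fun j β hβ => ⟨h.rU_isom j hβ.1, rU_SLV _ hβ.2⟩) (rootG_herm hσ hN h.nd (by
        rw [finrank_tensorProduct]; have := Nat.mul_le_mul hU hd; omega)) (by omega) hU
      fun g a _ _ _ _ _ _ b c => (inv_mem_SLV b c ho).imp (⟨a, ·⟩) (⟨mul_mem ?_ a, ·⟩)⟩
  · rw [← herm_B_self, ← herm_B_self, h.B_tmul e, h.B_tmul e u', herm_B_self w, herm_B_self w', b]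
    exact congrArg (· * _) a
  · exact herm_mem_isom fun x y => by simp

end Herm

theorem TPF.tw_sp {C : CForm (altType F) (U ⊗[F] W)} {C₂ : CForm (altType F) W}
    (h : TPF C C₂ H ρ j₀ π c) (h2 : (2 : F) ≠ 0) (hd : 2 ≤ finrank F W) (hU : 3 ≤ finrank F U) :
    ∃ Q₁ : QuadraticForm F U, TWr C (CForm.ofQuad Q₁) C₂ H C.isom C₂.isom ρ j₀ := by
  obtain ⟨a, ha⟩ := finrank_pos_iff_exists_ne_zero.1 (show 0 < finrank F W by omega)
  obtain ⟨b, e⟩ := h.nd₂.exists_eq ha 1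
  refine ⟨(2 : F)⁻¹ • LinearMap.BilinMap.toQuadraticMap (TPF.fB C a b),
    h.tw e (fun u u' => ?_) (fun _ => rfl) (by simp [altType, quadType]) (by simp [altType])
      (fun w _ => H12.alt_N w) (fun _ _ _ _ _ _ => by rw [H12.alt_N, H12.alt_N])
      (fw_alt h.nd₂ (by omega)) (fun j β => h.rU_isom j) (rootG_alt h.nd) hd hU
      fun g a _ _ _ _ _ _ _ _ => .inl a⟩
  rw [CForm.ofQuad_B, QuadraticMap.coeFn_smul, polar_smul]
  refine (congrArg _ (LinearMap.BilinMap.polar_toQuadraticMap _ _)).trans ?_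
  change 2⁻¹ * (TPF.fB C a b u u' + TPF.fB C a b u' u) = _
  rw [h.fB_symm e u u']
  change 2⁻¹ * (_ + -1 * -1 * TPF.fB C a b u u') = _
  field_simp; ring

theorem TPF.tw_om [Finite F] {Q : QuadraticForm F (U ⊗[F] W)} {C₂ : CForm (altType F) W}
    (h : TPF (CForm.ofQuad Q) C₂ H ρ j₀ π c) (h0 : ∀ x, Q (π x) = 0) (hd : 2 ≤ finrank F W)
    (hU : 3 ≤ finrank F U) : ∃ C₁ : CForm (altType F) U,
      TWr (CForm.ofQuad Q) C₁ C₂ H (OmegaV Q) C₂.isom ρ j₀ := by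
  obtain ⟨a, ha⟩ := finrank_pos_iff_exists_ne_zero.1 (show 0 < finrank F W by omega)
  obtain ⟨b, e⟩ := h.nd₂.exists_eq ha 1
  have hV : 5 ≤ finrank F (U ⊗[F] W) := by
    rw [finrank_tensorProduct]; have := Nat.mul_le_mul hU hd; omega
  have hne : NotExc F (U ⊗[F] W) := .inr (by omega)
  have h1 : ∀ j D, (∀ x y, C₂.B (D x) (D y) = 0) → ∀ x, Q (ρ j D x) = 0 := fun j D hD =>
    h.N_zero (fun x => h.act j D x ▸ h0 _) fun x y => (h.B_ext (k := 0) (k' := 0) (fun x y => by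
      rw [h.act, h.act, h.B_upd, hD]; simp) x y).trans (by simp)
  have h3 : ∀ u w, Q (u ⊗ₜ w) = 0 := fun u w => by
    simpa [h.base, e] using h1 j₀ ((C₂.B a).smulRight w) (by simp [H12.alt_B_self]) (u ⊗ₜ b)
  have h4 : ∀ w c, ∀ x, (stv C₂ w c).1 x = x + (c • (C₂.B w).smulRight w) x := fun w c x => by
    simp [stv_apply, mul_smul]
  refine ⟨CForm.ofAlt (TPF.fB (CForm.ofQuad Q) a b) fun u => ?_,
    h.tw e (fun _ _ => rfl) (fun _ => rfl) (by simp [altType, quadType]) (by simp [altType])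
      (fun w _ => H12.alt_N w) (fun _ _ _ _ _ _ => (h3 _ _).trans (h3 _ _).symm)
      (fw_alt h.nd₂ (by omega)) (fun j => le_of_stv h.nd₂ (K := (OmegaV Q).comap (rU (ρ j)))
        fun w c => mem_OmegaV_of_cen h.nd hne (L := LinearMap.range (ρ j (c • (C₂.B w).smulRight w)))
          (by rintro _ ⟨x, rfl⟩; exact h1 j _ (by simp [H12.alt_B_self]) x)
          (h.rU_isom j (stv C₂ w c).2) fun x => ⟨x, by
            rw [← LinearEquiv.coe_coe, rU_coe, show ((stv C₂ w c).1 : End F W) = 1 + _ from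
              LinearMap.ext (h4 w c)]; simp⟩) (rootG_quad h.nd hV) hd hU
      fun g a j l m b1 b2 b3 b4 b5 => .inl ?_⟩
  · change polar Q (u ⊗ₜ a) (u ⊗ₜ b) = 0
    rw [polar, ← tmul_add, h3, h3, h3]; simp
  have h5 : ∀ x, g (g x) = x := fun x => LinearEquiv.congr_fun b4 x
  have h6 : ∀ x y, polar Q (g x) y = polar Q x (g y) := fun x y => by
    rw [← h5 y, h5 (g y)]; exact CForm.isom_B a x (g y)
  by_cases h2 : (2 : F) = 0
  · refine mem_OmegaV_of_cen h.nd hne (L := LinearMap.range (g.toLinearMap - 1)) ?_ a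
      fun x => ⟨x, rfl⟩
    rintro _ ⟨x, rfl⟩
    refine h.N_zero (fun x => ?_) (fun x y => ?_) x
    · have := h.hB (x ∘ Equiv.swap j l) x
      rw [Finset.prod_eq_zero (Finset.mem_univ m) (by
        simp [Equiv.swap_apply_of_ne_of_ne b1 b2, H12.alt_B_self])] at this
      rw [LinearMap.sub_apply, LinearEquiv.coe_coe, b3, End.one_apply, CForm.N_sub, this]
      simp [h0]
    · simp [h6, h5]
      linear_combination (polar Q x y - polar Q x (g y)) * h2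
  obtain ⟨p, a1, a2, a3, a4⟩ := exists_half h2 b4 b5
  refine a3 ▸ le_of_stv h.nd₂ (K := (OmegaV Q).comap (hfM a1 a2)) (fun w c => ?_)
    (C₂.mem_isom.2 ⟨fun x y => by simp, fun x => by rw [H12.alt_N, H12.alt_N]⟩)
  have b6 := hfM_apply a1 a2 (h4 w c)
  have b7 : ∀ x y, polar Q (p (ρ m (c • (C₂.B w).smulRight w) x)) y =
      -polar Q x (p (ρ m (c • (C₂.B w).smulRight w) y)) := fun x y => by
    have := h.adj m (c • (C₂.B w).smulRight w) (-(c • (C₂.B w).smulRight w))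
      (fun x y => by simp [H12.alt_symm w x, alt_sigma, mul_assoc, mul_comm (C₂.B w x)]) x (p y)
    rw [← End.mul_apply p _ y, (a2 _).eq, End.mul_apply, ← polar_neg_right, ← LinearMap.neg_apply,
      ← map_neg, ← CForm.ofQuad_B Q x, ← this, CForm.ofQuad_B]
    generalize ρ m _ x = z
    simp [a4, h6]
  have b8 : ∀ x, p (ρ m (c • (C₂.B w).smulRight w) (p (ρ m (c • (C₂.B w).smulRight w) x))) = 0 :=
    fun x => by
      rw [← End.mul_apply (ρ m _) p, ← (a2 _).eq, End.mul_apply, ← End.mul_apply (ρ m _), ← map_mul,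
        smul_mul_smul_comm, smulRight_mul]
      simp [H12.alt_B_self]
  generalize ρ m (c • (C₂.B w).smulRight w) = N at b6 b7 b8
  have b9 : ∀ x, Q (p (N x)) = 0 := fun x => mul_left_cancel₀ h2 (by
    rw [← polar_self', b7, b8]; simp)
  exact mem_OmegaV_of_cen h.nd hne (L := LinearMap.range (p * N)) (by rintro _ ⟨x, rfl⟩; exact b9 x)
    (mem_orth.2 fun x => by
      have := b7 x x
      rw [polar_comm] at this
      rw [b6, Q_add, b9, show polar Q x (p (N x)) = 0 from mul_left_cancel₀ h2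
        (by linear_combination this)]; simp) fun x => ⟨x, by simp [b6]⟩

open Matrix Cfsg.Geo in
theorem tp_bridge {F : Type*} [Field F] {ι : Type} [Fintype ι] [DecidableEq ι] {k t : ℕ}
    {σ : F → F} (hσ : ∀ x : Fin t → F, σ (∏ i, x i) = ∏ i, σ (x i))
    {f : (ι → F) → (ι → F) → F} {f₁ : (Fin k → F) → (Fin k → F) → F}
    (h₁ : ∀ x y, formOfGram σ (gramMatrix f₁) x y = f₁ x y) {e : ι ≃ (Fin t → Fin k)} {P : GL ι F}
    (h : IsTensorPowerFormStructure σ f f₁ e P) : ∃ c : F, ∀ x y,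
      f ((P : Matrix ι ι F) *ᵥ (puT x ∘ e)) ((P : Matrix ι ι F) *ᵥ (puT y ∘ e)) =
        c * ∏ i, f₁ (x i) (y i) :=
  let ⟨c, _, h⟩ := h
  ⟨c, fun x y => by
    simp only [h, ← h₁ (x _), formOfGram, puT, Finset.prod_univ_sum, Fintype.piFinset_univ,
      Finset.prod_mul_distrib, hσ]⟩

end H12
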