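import Cfsg.Agent.H12.ExO2

/-!
# Averaging over cosets, polynomial maps and quadratic maps on finite fields
-/

set_option autoImplicit false
set_option maxHeartbeats 400000

namespace H12.X3

open Module Finset

theorem sum_free {A S M : Type*} [Group A] [Fintype A] [MulAction A S] [AddCommMonoid M] (T : Finset S)
    (hT : ∀ a : A, ∀ s ∈ T, a • s ∈ T) (hf : ∀ a : A, ∀ s ∈ T, a • s = s → a = 1)
    (ω : S → M) (hω : ∀ s, ∑ a : A, ω (a • s) = 0) : ∑ s ∈ T, ω s = 0 := by
  classical
  rw [← sum_fiberwise_of_maps_to (g := Quotient.mk (MulAction.orbitRel A S))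
    fun s a => mem_image_of_mem _ a]
  refine sum_eq_zero fun c hc => ?_
  obtain ⟨s, hs, rfl⟩ := mem_image.1 hc
  rw [← hω s]
  refine (sum_bij (fun a _ => a • s) (fun a _ => mem_filter.2 ⟨hT a s hs, Quotient.sound
    (MulAction.mem_orbit s a)⟩) (fun a _ b _ e => ?_) (fun t ht => ?_) fun _ _ => rfl).symm
  · exact (inv_mul_eq_one.1 (hf (b⁻¹ * a) s hs (by rw [mul_smul, e, inv_smul_smul]))).symm
  · obtain ⟨a, rfl⟩ := Quotient.exact (mem_filter.1 ht).2
    exact ⟨a, mem_univ _, rfl⟩

section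
variable {F E W W₁ W₂ : Type*} [Field F] [AddCommGroup E] [Module F E] [FiniteDimensional F E]
  [AddCommGroup W] [Module F W] [AddCommGroup W₁] [Module F W₁] [AddCommGroup W₂] [Module F W₂]
  {d d' : ℕ} {a b : E → W}

variable (F) in
/-- Polynomial maps of degree at most `d`. -/
def VP (d : ℕ) (a : E → W) : Prop := ∀ ψ : Dual F W, ∃ P : MvPolynomial (Fin (finrank F E)) F,
  P.totalDegree ≤ d ∧ ∀ k, ψ (a k) = MvPolynomial.eval ((finBasis F E).equivFun k) P

theorem VP.mono (h : VP F d a) (e : d ≤ d') : VP F d' a := fun ψ =>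
  let ⟨P, h1, h2⟩ := h ψ; ⟨P, h1.trans e, h2⟩

theorem vp_const (w : W) : VP F 0 fun _ : E => w := fun ψ => ⟨.C (ψ w), by simp, by simp⟩

theorem VP.add (h : VP F d a) (h' : VP F d b) : VP F d fun k => a k + b k := fun ψ =>
  let ⟨P, h1, h2⟩ := h ψ
  let ⟨P', h3, h4⟩ := h' ψ
  ⟨P + P', (P.totalDegree_add P').trans (max_le h1 h3), by simp [h2, h4]⟩

theorem vp_lin (f : E →ₗ[F] W) : VP F 1 f := fun ψ =>
  ⟨∑ i, .C (ψ (f (finBasis F E i))) * .X i, MvPolynomial.totalDegree_finsetSum_le fun i _ =>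
    (MvPolynomial.totalDegree_mul _ _).trans (by simp), fun k => by
      conv_lhs => rw [← (finBasis F E).sum_repr k]
      simp [-Basis.sum_repr, mul_comm]⟩

theorem VP.bil [FiniteDimensional F W₁] {a : E → W₁} {b : E → W₂} (h : VP F d a) (h' : VP F d' b)
    (B : W₁ →ₗ[F] W₂ →ₗ[F] W) : VP F (d + d') fun k => B (a k) (b k) := fun ψ => by
  choose P h1 h2 using h
  choose P' h3 h4 using h'
  refine ⟨∑ i, P ((finBasis F W₁).coord i) * P' (ψ ∘ₗ B (finBasis F W₁ i)),
    MvPolynomial.totalDegree_finsetSum_le fun i _ => (MvPolynomial.totalDegree_mul _ _).trans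
      (add_le_add (h1 _) (h3 _)), fun k => ?_⟩
  beta_reduce
  conv_lhs => rw [← (finBasis F W₁).sum_repr (a k)]
  simp [-Basis.sum_repr, -Basis.equivFun_apply, ← h2, ← h4]

theorem VP.sum [Fintype F] [Fintype E] {a : E → F} (h : VP F d a)
    (hd : d < (Fintype.card F - 1) * finrank F E) : ∑ k, a k = 0 := by
  classical
  obtain ⟨P, h1, h2⟩ := h .id
  rw [← P.sum_eval_eq_zero (by simpa using h1.trans_lt hd)]
  exact Fintype.sum_equiv (finBasis F E).equivFun.toEquiv _ _ h2

end

theorem top_of_pow_four {E : Type*} [Field E] [Finite E] (h9 : 16 < Nat.card E) (G : AddSubgroup E)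
    (h : ∀ e : E, e ^ 4 ∈ G) (x : E) : x ∈ G := by
  classical
  have := Fintype.ofFinite E
  let S := Subfield.closure (Set.range fun e : E => e ^ 4)
  have a1 : ∀ s ∈ S, s ∈ G := fun s hs => by
    obtain ⟨y, hy, z, hz, rfl⟩ := Subfield.mem_closure_iff.1 hs
    have : y / z ∈ Subring.closure (Set.range fun e : E => e ^ 4) := by
      by_cases e : z = 0
      · simp [e]
      have := FiniteField.pow_card_sub_one_eq_one z e
      rw [← Nat.card_eq_fintype_card, show Nat.card E - 1 = Nat.card E - 2 + 1 by omega, pow_succ] at this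
      rw [div_eq_mul_inv, ← eq_inv_of_mul_eq_one_left this]
      exact mul_mem hy (pow_mem hz _)
    refine (AddSubgroup.closure_le G).2 (fun t ht => ?_) (Subring.mem_closure_iff.1 this)
    obtain ⟨e, rfl⟩ := (Submonoid.closure_le (S := MonoidHom.mrange (powMonoidHom 4))).2 (fun _ e => e) ht
    exact h e
  by_contra hx
  have a2 : Nat.card E = Nat.card S ^ finrank S E := Module.natCard_eq_pow_finrank
  have a3 : finrank S E ≠ 1 := fun e => hx (a1 x (by
    obtain ⟨c, hc⟩ := (finrank_eq_one_iff_of_nonzero' (1 : E) one_ne_zero).1 e x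
    simpa [← hc, Subfield.smul_def] using c.2))
  have a4 : 0 < finrank S E := finrank_pos
  have a5 : Nat.card E ≤ 4 * Nat.card S := by
    rw [Nat.card_eq_fintype_card, Nat.card_eq_fintype_card]
    refine card_le_mul_card_image_of_maps_to (t := univ) (f := fun e : E => (⟨e ^ 4,
      Subfield.subset_closure ⟨e, rfl⟩⟩ : S)) (by simp) 4 fun b _ => ?_
    refine (card_le_card fun e he => ?_).trans ((Multiset.toFinset_card_le _).trans
      (Polynomial.card_nthRoots 4 b.1))
    simpa [Subtype.ext_iff] using he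
  have a6 := Nat.pow_le_pow_right (Nat.card_pos (α := S)) (show 2 ≤ finrank S E by omega)
  nlinarith

theorem mem_of_sq {E A : Type*} [Field E] [Finite E] [AddCommGroup A] (h9 : 16 < Nat.card E)
    (h2 : (2 : E) ≠ 0) (β : E →+ E →+ A) (hs : ∀ x y, β x y = β y x) (G : AddSubgroup A)
    (hG : ∀ a, a + a ∈ G → a ∈ G) (h : ∀ e, β (e * e) (e * e) ∈ G) (x y : E) : β x y ∈ G := by
  have a1 : ∀ e f, β (e * e) (f * f) + (β (e * f) (e * f) + β (e * f) (e * f)) ∈ G := fun e f => by
    refine hG _ (hG _ ?_)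
    convert sub_mem (sub_mem (add_mem (h (e + f)) (h (e - f))) (add_mem (h e) (h e))) (add_mem (h f) (h f))
      using 1
    rw [show (e + f) * (e + f) = e * e + f * f + (e * f + e * f) by ring,
      show (e - f) * (e - f) = e * e + f * f - (e * f + e * f) by ring]
    simp only [map_add, map_sub, AddMonoidHom.add_apply, AddMonoidHom.sub_apply, hs (f * f) (e * e)]
    abel
  have a2 : ∀ x y, β x y - β (x * y) 1 ∈ G := fun x y => by
    have b : ∀ e f, β (e * e) (f * f) - β (e * e * (f * f)) 1 ∈ G := fun e f => by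
      convert sub_mem (a1 e f) (a1 (e * f) 1) using 1
      rw [mul_one, mul_one, mul_mul_mul_comm e f]; abel
    obtain ⟨a, b', rfl⟩ := exists_sq_add_sq h2 one_ne_zero one_ne_zero x
    obtain ⟨c, d, rfl⟩ := exists_sq_add_sq h2 one_ne_zero one_ne_zero y
    convert add_mem (add_mem (b a c) (b a d)) (add_mem (b b' c) (b b' d)) using 1
    simp only [mul_one, mul_add, add_mul, map_add, AddMonoidHom.add_apply]
    abel
  have := top_of_pow_four h9 (G.comap (β.flip 1)) (fun e => by
    simpa [show e * e * (e * e) = e ^ 4 by ring] using sub_mem (h e) (a2 (e * e) (e * e))) (x * y)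
  simpa using add_mem (a2 x y) this

end H12.X3
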