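import Cfsg.Agent.H12.X3a

/-!
# Overgroups of the three-dimensional orthogonal group over an extension field: basics
-/

set_option autoImplicit false
set_option maxHeartbeats 400000

namespace H12.X3

open Module H11 H13.KL QuadraticMap

variable {F E V : Type*} [Field F] [Field E] [Algebra F E] [AddCommGroup V] [Module F V]
  [Module E V] [IsScalarTower F E V] {Q : QuadraticForm F V} {R : QuadraticForm E V}
  {X : Subgroup (V ≃ₗ[F] V)} {g β : V ≃ₗ[F] V} {z n f x y : V}

local notation "𝓒" => CForm.ofQuad Q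
local notation "𝓓" => CForm.ofQuad R
local notation "tr" => Algebra.trace F E

variable (R z n f) in
/-- A standard basis of a three-dimensional orthogonal space. -/
structure Fr : Prop where
  z0 : R z = 0
  f0 : R f = 0
  zf : polar R z f = 1
  zn : polar R z n = 0
  fn : polar R f n = 0
  n0 : R n ≠ 0
  sp : ∀ x, ∃ a b c : E, x = a • z + b • n + c • f

namespace Fr

variable (fr : Fr R z n f)
include fr

theorem s : R z = 0 ∧ R f = 0 ∧ polar R z f = 1 ∧ polar R z n = 0 ∧ polar R f n = 0 ∧ polar R z z = 0 ∧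
    polar R f f = 0 ∧ polar R f z = 1 ∧ polar R n z = 0 ∧ polar R n f = 0 ∧ polar R n n = 2 * R n := by
  simp [fr.z0, fr.f0, fr.zf, fr.zn, fr.fn, polar_self', polar_comm R f z, polar_comm R n z,
    polar_comm R n f]

theorem symm : Fr R f n z := ⟨fr.f0, fr.z0, by simp [fr.s], fr.fn, fr.zn, fr.n0, fun x =>
  let ⟨a, b, c, e⟩ := fr.sp x; ⟨c, b, a, by rw [e]; abel⟩⟩

theorem ne : z ≠ 0 := by rintro rfl; simpa using fr.zf

theorem perp (hx : polar R z x = 0) : ∃ a b : E, x = a • z + b • n := by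
  obtain ⟨a, b, c, rfl⟩ := fr.sp x
  exact ⟨a, b, by simpa [fr.s, fr.symm.ne] using hx⟩

theorem mem (hx : polar R z x = 0) (h0 : R x = 0) : x ∈ eL F E z := by
  obtain ⟨a, b, rfl⟩ := fr.perp hx
  simp [Q_add, Q_smul, fr.s, fr.n0] at h0
  simp [h0, smul_mem_eL]

theorem of_mem (hx : x ∈ eL F E z) : x = polar R f x • z := by
  obtain ⟨a, rfl⟩ := mem_eL.1 hx
  simp [fr.s]

variable (F) in
/-- The unipotent radical of the stabiliser of the singular line. -/
noncomputable def u : Multiplicative E →* (V ≃ₗ[F] V) :=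
  MonoidHom.mk' (fun k => H13.KL.res F E V (eich R z (k.toAdd • n)).1) fun a b => by
    rw [toAdd_mul, add_smul, eich_add fr.z0 (by simp [fr.zn]) (by simp [fr.zn])]; rfl

theorem u_apply (k : Multiplicative E) (x : V) : fr.u F k x = x + (k.toAdd * polar R n x) • z -
    (polar R z x * k.toAdd) • n - (k.toAdd * k.toAdd * R n * polar R z x) • z := by
  simp [u, eich_apply fr.z0 (show polar R z (k.toAdd • n) = 0 by simp [fr.zn]), Q_smul, smul_smul]

theorem u_smul (k : Multiplicative E) (a : E) (x : V) : fr.u F k (a • x) = a • fr.u F k x := by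
  simp [u]

theorem u_fix (k : Multiplicative E) (hx : x ∈ eL F E z) : fr.u F k x = x := by
  rw [fr.of_mem hx]; simp [u_apply, fr.s]

end Fr

variable (Q R X) in
/-- An overgroup of the orthogonal group of dimension three over an extension field. -/
structure E3 : Prop where
  eq : ∀ x, Q x = tr (R x)
  nd : QNondeg R
  two : (2 : F) ≠ 0
  le : X ≤ orth Q
  res : ∀ g ∈ OmegaV R, res F E V g ∈ X
  dim : finrank E V = 3
  pr : (finrank F E).Prime
  three : 3 ≤ finrank F E

namespace E3

variable (h : E3 Q R X)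
include h

theorem pol (x y : V) : polar Q x y = tr (polar R x y) := by simp [polar, h.eq]

theorem twoE : (2 : E) ≠ 0 := by
  rw [← map_ofNat (algebraMap F E) 2]; exact (map_ne_zero _).2 h.two

theorem fd : FiniteDimensional E V := FiniteDimensional.of_finrank_pos (by have := h.dim; omega)

theorem fdE : FiniteDimensional F E := FiniteDimensional.of_finrank_pos (by have := h.three; omega)

theorem ne' : NotExc E V := have := h.fd; notExc_of_two_ne_zero h.twoE

theorem ts (hz : R z = 0) (hx : x ∈ eL F E z) (hy : y ∈ eL F E z) : polar Q x y = 0 := by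
  obtain ⟨a, rfl⟩ := mem_eL.1 hx
  obtain ⟨b, rfl⟩ := mem_eL.1 hy
  simp [h.pol, polar_self', hz]

theorem pol_map (hg : g ∈ X) (x y : V) : polar Q (g x) (g y) = polar Q x y :=
  orth_polar ⟨g, h.le hg⟩ x y

theorem u_mem (fr : Fr R z n f) (k : Multiplicative E) : fr.u F k ∈ X :=
  have := h.fd; h.res _ (eich_mem_OmegaV h.nd h.ne' fr.z0 (by simp [fr.zn]))

theorem rr {a b : V} (ha : R a ≠ 0) (hb : R b ≠ 0) (e : IsSquare (R a * R b)) :
    H13.KL.res F E V (refl R a * refl R b).1 ∈ X :=
  have := h.fd; h.res _ (mem_OmegaV.2 (refl_mul_refl_mem_commutator h.nd ha hb e))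

theorem tt (fr : Fr R z n f) {a : E} (ha : a ≠ 0) : ∃ t ∈ X, ∀ x,
    t x = x + ((a * a - 1) * polar R f x) • z + (((a * a)⁻¹ - 1) * polar R z x) • f :=
  ⟨_, h.rr (a := z + (1 : E) • f) (b := z + (a * a) • f) (by simp [Q_add, fr.s])
    (by simp [Q_add, Q_smul, fr.s, ha]) (by simp [Q_add, Q_smul, fr.s]), fun x => by
      rw [res_apply, refl_hyp_mul fr.z0 fr.f0 fr.zf one_ne_zero (mul_ne_zero ha ha)]; simp⟩

theorem fr_of (hz : R z = 0) (hf : R f = 0) (e : polar R z f = 1) : ∃ n, Fr R z n f := by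
  have := h.fd
  have hP := nondegOn_pair hz hf e
  have a1 := h.nd.finrank_add_finrank_perp (Submodule.span E {z, f})
  have a2 := finrank_span_pair_le (F := E) z f
  have := h.dim
  obtain ⟨n, n1, n2⟩ := exists_nonsingular (h.nd.nondegOn_perp hP) (ne_bot_of_finrank_pos (by omega))
  obtain ⟨n3, n4⟩ := (𝓓).mem_perp_pair.1 n1
  refine ⟨n, hz, hf, e, n3, n4, n2, fun x => ?_⟩
  have a3 := finrank_span_pair_of_not_mem (F := E) (u := z) (w := f) (by rintro rfl; simp at e) fun c => by
    obtain ⟨c, rfl⟩ := Submodule.mem_span_singleton.1 c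
    simp [polar_self', hz] at e
  obtain ⟨b, hb⟩ := Submodule.mem_span_singleton.1 ((Submodule.eq_of_le_of_finrank_eq
    ((Submodule.span_singleton_le_iff_mem _ _).2 n1) (by
      rw [finrank_span_singleton (by rintro rfl; simp at n2)]; omega)).ge
    (show x - polar R f x • z - polar R z x • f ∈ _ from (𝓓).mem_perp_pair.2 (by
      simp [polar_self', hz, hf, e, polar_comm R f z])))
  exact ⟨polar R f x, b, polar R z x, by rw [hb]; abel⟩

theorem exists_fr (hz : R z = 0) (z0 : z ≠ 0) : ∃ n f, Fr R z n f :=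
  have := h.fd
  let ⟨f, a, b⟩ := exists_hyp_partner h.nd z0 hz
  let ⟨n, c⟩ := h.fr_of hz a b
  ⟨n, f, c⟩

theorem line (hz : R z = 0) (z0 : z ≠ 0) (hx : R x = 0) (x0 : x ≠ 0) :
    ∃ k : V ≃ₗ[E] V, H13.KL.res F E V k ∈ X ∧ k z ∈ eL F E x := by
  by_cases e : polar R z x = 0
  · obtain ⟨n, f, fr⟩ := h.exists_fr hz z0
    exact ⟨1, one_mem _, eL_eq (fr.mem (F := F) e hx) x0 ▸ self_mem_eL (F := F) (E := E) z⟩
  obtain ⟨n, fr⟩ := h.fr_of hz (f := (polar R z x)⁻¹ • x) (by simp [Q_smul, hx]) (by simp [e])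
  have a1 := Q_hyp' fr.z0 fr.f0 fr.zf (R n)
  refine ⟨_, h.rr fr.n0 (a1 ▸ fr.n0) ⟨R n, by rw [a1]⟩, ?_⟩
  have a2 := smul_mem_eL (F := F) (polar R z x)⁻¹ x
  generalize (polar R z x)⁻¹ • x = f at *
  rw [orth_mul_apply, refl_apply, refl_apply, a1]
  simp [fr.s, fr.n0, eL_smul, a2]

variable [Finite E]

theorem trans {u v : V} (hu : R u ≠ 0) (e : R v = R u) :
    ∃ k ∈ X, (∀ s : E, k (s • u) = s • v) ∧ ∀ x y, polar R (k x) (k y) = polar R x y := by
  have := h.fd
  obtain ⟨g, g1, g2⟩ := h.nd.witt_one (u := u) (v := v) (by rintro rfl; simp at hu)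
    (by rintro rfl; simp [← e] at hu) e
  obtain ⟨s, -, s1, s2⟩ := (spec_quad h.nd h.ne').plane _ (h.nd.nondegOn_perp (nondegOn_singleton h.twoE hu))
    (by
      have := h.nd.finrank_add_finrank_perp (Submodule.span E {u})
      have := finrank_span_singleton_le (F := E) u
      have := h.dim
      omega) g g1
  exact ⟨_, h.res _ s2, fun c => by
    simp [s1 u (by rw [h.nd.perp_perp]; exact Submodule.mem_span_singleton_self u), g2],
    orth_polar ⟨_, OmegaV_le s2⟩⟩

variable [Finite F]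

theorem ne : tr ≠ 0 := have := h.fdE; Algebra.trace_ne_zero F E

theorem perp_iff : polar R x y = 0 ↔ ∀ k : E, polar Q (k • x) y = 0 :=
  ⟨fun e k => by simp [h.pol, e], fun e => eq_zero_of_dual h.ne fun k => by
    simpa [h.pol] using e k⟩

theorem ndQ : QNondeg Q := fun x hx => h.nd x fun y => by
  rw [CForm.ofQuad_B, polar_comm, h.perp_iff]
  exact fun k => by rw [polar_comm]; exact hx _

theorem card : 26 < Nat.card E := by
  have := h.fdE
  have a : 2 < Nat.card F := by
    have := Fintype.ofFinite F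
    obtain ⟨k, hk⟩ := odd_card_iff.2 h.two
    have := Fintype.one_lt_card (α := F)
    rw [Nat.card_eq_fintype_card]; omega
  rw [Module.natCard_eq_pow_finrank (K := F)]
  exact lt_of_lt_of_le (by norm_num : 26 < 3 ^ 3) ((Nat.pow_le_pow_left a 3).trans
    (Nat.pow_le_pow_right (by omega) h.three))

theorem skew (hz : R z = 0) (hβ : β ∈ X) (hS : ∀ x, β x - x ∈ eL F E z) (x y : V) :
    polar Q (β x - x) y = -polar Q x (β y - y) := by
  have a1 := h.pol_map hβ x y
  have a2 := h.ts hz (hS x) (hS y)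
  simp only [polar_sub_left, polar_sub_right] at a2 ⊢
  linear_combination a1 - a2

theorem zfix (hz : R z = 0) (hβ : β ∈ X) (hS : ∀ x, β x - x ∈ eL F E z) (hx : polar R z x = 0) :
    β x = x := sub_eq_zero.1 (h.ndQ _ fun y => by
  obtain ⟨a, ha⟩ := mem_eL.1 (hS y)
  rw [CForm.ofQuad_B, h.skew hz hβ hS, ← ha, h.pol]; simp [polar_comm R x, hx])

omit [Finite E] in
theorem half {M : Type*} [AddCommGroup M] [Module F M] (G : AddSubgroup M) (a : M) (e : a + a ∈ G) :
    a ∈ G := by
  obtain ⟨p, hp⟩ := CharP.exists F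
  have := CharP.char_is_prime F p
  obtain ⟨k, rfl⟩ := this.odd_of_ne_two (by rintro rfl; exact h.two (CharP.cast_eq_zero F 2))
  convert nsmul_mem e (k + 1) using 1
  have := CharP.cast_eq_zero F (2 * k + 1)
  rw [← Nat.cast_smul_eq_nsmul F]
  push_cast at this ⊢
  linear_combination (norm := module) -this • a

theorem zfull (hz : R z = 0) (hβ : β ∈ X) (hS : ∀ x, β x - x ∈ eL F E z) (h1 : β ≠ 1)
    (hx : polar R z x ≠ 0) {w : V} (hw : w ∈ eL F E z) (e : polar Q x w = 0) :
    ∃ γ ∈ X, (∀ x, γ x - x ∈ eL F E z) ∧ γ x - x = w := by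
  have := h.fdE
  obtain ⟨n, f, fr⟩ := h.exists_fr hz (by rintro rfl; simp at hx)
  have fx := fun {γ} a b {x} (c : x ∈ eL F E z) => h.zfix (β := γ) (x := x) hz a b (by
    rw [fr.of_mem c]; simp [fr.s])
  let G : AddSubgroup E :=
    { carrier := {c | ∃ γ ∈ X, (∀ x, γ x - x ∈ eL F E z) ∧ γ x - x = c • z}
      zero_mem' := ⟨1, one_mem _, by simp, by simp⟩
      add_mem' := by
        rintro a b ⟨γ, a1, a2, a3⟩ ⟨δ, b1, b2, b3⟩
        have c : ∀ y, (γ * δ) y - y = (γ y - y) + (δ y - y) := fun y => by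
          rw [← fx a1 a2 (b2 y), map_sub]; simp
        exact ⟨γ * δ, mul_mem a1 b1, fun y => c y ▸ add_mem (a2 y) (b2 y), by rw [c, a3, b3, add_smul]⟩
      neg_mem' := by
        rintro a ⟨γ, a1, a2, a3⟩
        have c : ∀ y, γ⁻¹ y - y = -(γ y - y) := fun y => γ.injective (by
          rw [map_neg, fx a1 a2 (a2 y), map_sub, apply_inv_apply, neg_sub])
        exact ⟨γ⁻¹, inv_mem a1, fun y => c y ▸ neg_mem (a2 y), by rw [c, a3, neg_smul]⟩ }
  obtain ⟨b, hb⟩ : ∃ b : E →ₗ[F] E, ∀ e, β (e • x) - e • x = b e • z :=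
    ⟨(polarBilin R f).restrictScalars F ∘ₗ (β.toLinearMap - 1) ∘ₗ
      (LinearMap.toSpanSingleton E V x).restrictScalars F, fun e => fr.of_mem (hS _)⟩
  have a1 : ∀ e e', e * b e' + e' * b e ∈ G := fun e e' => by
    refine mem_of_sq (by have := h.card; omega) h.twoE (AddMonoidHom.mul.compl₂ b.toAddMonoidHom +
      (AddMonoidHom.mul.compl₂ b.toAddMonoidHom).flip) (fun _ _ => add_comm _ _) G (h.half G)
      (fun a => ?_) e e'
    suffices a * a * b (a * a) ∈ G from add_mem this this
    by_cases ha : a = 0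
    · simp [ha]
    obtain ⟨t, t1, t2⟩ := h.tt fr ha
    have t3 : ∀ y ∈ eL F E z, t y = (a * a) • y := fun y hy => by
      rw [fr.of_mem hy, t2]; simp [fr.s]; module
    have t4 : ∀ y, (t * β * t⁻¹) y - y = (a * a) • (β (t⁻¹ y) - t⁻¹ y) := fun y => by
      rw [← t3 _ (hS _), map_sub, apply_inv_apply]; rfl
    refine ⟨_, mul_mem (mul_mem t1 hβ) (inv_mem t1), fun y => t4 y ▸ eL_smul _ (hS _), ?_⟩
    have := h.zfix hz hβ hS (x := t⁻¹ x - (a * a) • x) (by
      obtain ⟨y, rfl⟩ := t.surjective x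
      rw [inv_apply_apply, t2]; simp [fr.s]; field_simp; ring)
    rw [t4, mul_smul (a * a), ← hb, map_sub] at *
    congr 1
    linear_combination (norm := abel) this
  obtain ⟨c, rfl⟩ := mem_eL.1 hw
  by_contra hc
  obtain ⟨ψ, p1, p2⟩ := exists_dual_eq_one (F := F) (u := c)
    (H := Submodule.span F {y | ∃ e e', e * b e' + e' * b e = y}) fun hc' => hc (show c ∈ G by
      have : ∀ d : F, d • c ∈ G := by
        clear hc e hw
        induction hc' using Submodule.span_induction with
        | mem y hy => obtain ⟨e, e', rfl⟩ := hy; intro d; simpa using a1 (d • e) e'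
        | zero => simp
        | add _ _ _ _ a b => intro d; rw [smul_add]; exact add_mem (a d) (b d)
        | smul a _ _ b => intro d; rw [smul_smul]; exact b _
      simpa using this 1)
  obtain ⟨φ, hφ⟩ := exists_comp_eq h.ne ψ
  obtain ⟨s, hs⟩ : ∃ s, ∀ y, ψ y = tr (s * polar R z x * y) := ⟨φ 1 / polar R z x, fun y => by
    rw [hφ, div_mul_cancel₀ _ hx, mul_comm, ← smul_eq_mul, ← map_smul]; simp⟩
  have sk : ∀ e e', tr (polar R z x * (e * b e')) = -tr (polar R z x * (e' * b e)) := fun e e' => by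
    have := h.skew hz hβ hS (e' • x) (e • x)
    simp only [hb, h.pol, polar_smul_left, polar_smul_right, smul_eq_mul, polar_comm R x] at this
    convert this using 2 <;> ring_nf
  let S : Subalgebra F E :=
    { carrier := {s | ∀ e, b (s * e) = s * b e}
      mul_mem' := fun a b e => by rw [mul_assoc, a, b, mul_assoc]
      add_mem' := fun a b e => by rw [add_mul, map_add, a, b, add_mul]
      algebraMap_mem' := fun a e => by simp [← Algebra.smul_def] }
  have a2 : s ∈ S := fun e => mul_left_cancel₀ hx (eq_of_dual h.ne fun e' => by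
    have b1 := p1 _ (Submodule.subset_span ⟨e, e', rfl⟩)
    have b2 := sk (s * e) e'
    rw [hs, mul_add, map_add] at b1
    ring_nf at b1 b2 ⊢
    linear_combination b2 - b1)
  rcases mem_bot_or h.pr S with a3 | a3
  · obtain ⟨d, rfl⟩ := a3 s a2
    rw [h.pol, polar_smul_right, polar_comm, smul_eq_mul, mul_comm] at e
    simp [hs, mul_assoc, ← Algebra.smul_def, e] at p2
  have a4 : ∀ e, b e = e * b 1 := fun e => by simpa using a3 e 1
  have a5 : b 1 = 0 := mul_left_cancel₀ (mul_ne_zero h.twoE hx) (eq_of_dual h.ne fun e => by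
    have := sk e 1
    rw [a4 e, eq_neg_iff_add_eq_zero, ← map_add] at this
    convert this using 2 <;> ring_nf
    simp)
  refine h1 (LinearEquiv.ext fun y => ?_)
  have := h.zfix hz hβ hS (x := y - (polar R z y / polar R z x) • x) (by simp [hx])
  rw [map_sub, eq_add_of_sub_eq' (hb _), a4, a5] at this
  simpa using this

end E3

end H12.X3
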