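import Cfsg.Agent.H12.X3b

/-!
# Overgroups of the three-dimensional orthogonal group over an extension field: recognition of `Ω`
-/

set_option autoImplicit false
set_option maxHeartbeats 400000

namespace H12.X3

open Module H11 H13.KL QuadraticMap

variable {F E V : Type*} [Field F] [Field E] [Algebra F E] [AddCommGroup V] [Module F V]
  [Module E V] [IsScalarTower F E V] {Q : QuadraticForm F V} {R : QuadraticForm E V}
  {X : Subgroup (V ≃ₗ[F] V)} {g β : V ≃ₗ[F] V} {z n f x y u v w : V}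

local notation "𝓒" => CForm.ofQuad Q
local notation "𝓓" => CForm.ofQuad R
local notation "tr" => Algebra.trace F E

namespace E3

variable (h : E3 Q R X)
include h

theorem sq_mem {a : E} {c : F} (e : algebraMap F E c = a * a) : ∃ d : F, algebraMap F E d = a := by
  let S : Subalgebra F E := (Submodule.span F {1, a}).toSubalgebra (Submodule.subset_span (by simp)) fun x y hx hy => by
    obtain ⟨p, q, rfl⟩ := Submodule.mem_span_pair.1 hx
    obtain ⟨r, s, rfl⟩ := Submodule.mem_span_pair.1 hy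
    exact Submodule.mem_span_pair.2 ⟨p * r + q * s * c, p * s + q * r, by
      simp only [Algebra.smul_def, map_add, map_mul, e]; ring⟩
  refine (mem_bot_or h.pr S).elim (fun b => b a (Submodule.subset_span (by simp))) fun b => ?_
  have := finrank_span_pair_le (F := F) 1 a
  rw [show Submodule.span F {1, a} = ⊤ from eq_top_iff.2 fun x _ => b x, finrank_top] at this
  have := h.three
  omega

theorem ex_lam {c : E} (hc : c ≠ 0) : ∃ a : E, ∀ d : F, algebraMap F E d ≠ a * a * c := by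
  by_contra! H
  obtain ⟨κ, hκ⟩ := exists_not_mem_range h.pr.two_le
  obtain ⟨a, ha⟩ := H 1
  obtain ⟨b, hb⟩ := H κ
  obtain ⟨d, hd⟩ := h.sq_mem (a := κ) (c := b / a) (by rw [map_div₀, ha, hb]; field_simp)
  exact hκ d hd

theorem orth3 (hu : R u ≠ 0) (hv : R v ≠ 0) (e : polar R u v = 0) : ∃ n, R n ≠ 0 ∧ polar R u n = 0 ∧
    polar R v n = 0 ∧ ∀ x, polar R u x = 0 → ∃ a b : E, x = a • v + b • n := by
  have := h.fd
  have h2 := h.twoE
  obtain ⟨hP, a3⟩ := nondegOn_pair_of_det (Q := R) (u := u) (w := v) (by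
    simp [e, hu, hv, show (4 : E) = 2 * 2 by norm_num, h2])
  have a1 := h.nd.finrank_add_finrank_perp (Submodule.span E {u, v})
  have := h.dim
  obtain ⟨n, n1, n2⟩ := exists_nonsingular (h.nd.nondegOn_perp hP) (ne_bot_of_finrank_pos (by omega))
  obtain ⟨n3, n4⟩ := (𝓓).mem_perp_pair.1 n1
  refine ⟨n, n2, n3, n4, fun x hx => ?_⟩
  obtain ⟨b, hb⟩ := Submodule.mem_span_singleton.1 ((Submodule.eq_of_le_of_finrank_eq
    ((Submodule.span_singleton_le_iff_mem _ _).2 n1) (by
      rw [finrank_span_singleton (by rintro rfl; simp at n2)]; omega)).ge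
    (show x - (polar R v x / (2 * R v)) • v ∈ _ from (𝓓).mem_perp_pair.2 (by
      simp [polar_self', e, hx, hv, h2])))
  exact ⟨_, b, by rw [hb]; abel⟩

theorem mem_of_inv (hu : R u ≠ 0) (hy : R y ≠ 0) (e : polar R u y = 0) {W : Submodule F V}
    (hW : ∀ t ∈ X, t u = u → ∀ r ∈ W, t r ∈ W) (h1 : y ∈ W) (hx : polar R u x = 0) : x ∈ W := by
  have h2 := h.twoE
  obtain ⟨n, n0, n1, n2, n3⟩ := h.orth3 hu hy e
  obtain ⟨l, hl⟩ := h.ex_lam (div_ne_zero n0 hy)
  have l0 : R y + l * l * R n ≠ 0 := fun c => hl (-1) (by simp; field_simp; linear_combination -c)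
  obtain ⟨α, γ, a1, a2⟩ : ∃ α γ : E, (∀ c : F, algebraMap F E c ≠ α * α) ∧ R (α • y + γ • n) = R y :=
    ⟨(R y - l * l * R n) / (R y + l * l * R n), 2 * R y * l / (R y + l * l * R n), fun c e => by
      obtain ⟨d, hd⟩ := h.sq_mem e
      rw [eq_div_iff l0] at hd
      refine hl ((1 - d) / (1 + d)) ?_
      have : 1 + algebraMap F E d ≠ 0 := fun c => mul_ne_zero h2 hy (by
        linear_combination (R y + l * l * R n) * c - hd)
      simp only [map_div₀, map_sub, map_add, map_one]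
      field_simp
      linear_combination -hd, by
      simp only [Q_add, Q_smul, n2, polar_smul_left, polar_smul_right, smul_zero]
      obtain ⟨D, hD⟩ : ∃ D, D = R y + l * l * R n := ⟨_, rfl⟩
      rw [← hD] at l0 ⊢
      field_simp; rw [hD]; ring⟩
  have α0 : α ≠ 0 := by rintro rfl; exact a1 0 (by simp)
  have γ0 : γ ≠ 0 := by
    rintro rfl
    refine a1 1 (mul_right_cancel₀ hy ?_)
    simpa [Q_smul] using a2.symm
  have b0 := a2 ▸ hy
  have b1 : polar R (α • y + γ • n) u = 0 := by simp [polar_comm R _ u, e, n1]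
  have b2 := (polar_comm R y u).trans e
  have t1 := hW _ (h.rr hy b0 ⟨R y, by rw [a2]⟩) (by
    rw [res_apply, orth_mul_apply, refl_apply_of_orth b1, refl_apply_of_orth b2])
  have t2 := hW _ (h.rr b0 hy ⟨R y, by rw [a2]⟩) (by
    rw [res_apply, orth_mul_apply, refl_apply_of_orth b2, refl_apply_of_orth b1])
  simp only [res_apply, orth_mul_apply, refl_apply, a2] at t1 t2
  have c1 : eL F E y ≤ W := by_contra fun c => by
    obtain ⟨d, hd⟩ := eL_le_of_mul h.pr (by rintro rfl; simp at hy) (self_mem_eL y) h1 c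
      (s := 4 * (α * α) - 2) fun k hk => by
        convert add_mem (t1 _ hk) (t2 _ hk) using 1
        simp [polar_self', n2, polar_comm R n y]
        match_scalars <;> field_simp <;> ring
    exact a1 ((d + 2) / 4) (by
      have : (4 : E) ≠ 0 := by simpa [show (4 : E) = 2 * 2 by norm_num]
      simp only [map_div₀, map_add, hd, map_ofNat]; field_simp; ring)
  obtain ⟨a, b, rfl⟩ := n3 x hx
  refine add_mem (c1 (smul_mem_eL _ _)) ?_
  convert add_mem (t2 _ (c1 (smul_mem_eL (b / (2 * α * γ)) y)))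
    (c1 (smul_mem_eL (b / (2 * α * γ) * (1 - 2 * α * α)) y)) using 1
  simp [polar_self', n2, polar_comm R n y]
  match_scalars <;> field_simp <;> ring

variable [Finite E] [Finite F]

theorem ei_all (hw : w ≠ 0) (hw0 : R w = 0) {s : E} (h1 : Ei Q X w (s • w)) (a : E) :
    Ei Q X (a • w) (a • s • w) := by
  obtain ⟨n, f, fr⟩ := h.exists_fr hw0 hw
  let G : AddSubgroup (End F V) :=
    { carrier := {S | ∃ γ ∈ X, ∀ x, γ x = x + S x ∧ S x ∈ eL F E w}
      zero_mem' := ⟨1, one_mem _, by simp⟩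
      add_mem' := by
        rintro S S' ⟨γ, a1, a2⟩ ⟨δ, b1, b2⟩
        refine ⟨γ * δ, mul_mem a1 b1, fun x => ⟨?_, add_mem (a2 x).2 (b2 x).2⟩⟩
        rw [LinearEquiv.mul_apply, (b2 x).1, map_add, h.zfix hw0 a1 (fun x => by simp [a2])
          (x := S' x) (by rw [fr.of_mem (b2 x).2]; simp [fr.s]), (a2 x).1, add_assoc]; rfl
      neg_mem' := by
        rintro S ⟨γ, a1, a2⟩
        refine ⟨γ⁻¹, inv_mem a1, fun x => ⟨γ.injective ?_, neg_mem (a2 x).2⟩⟩
        rw [apply_inv_apply, map_add, LinearMap.neg_apply, map_neg, h.zfix hw0 a1 (fun x => by simp [a2])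
          (x := S x) (by rw [fr.of_mem (a2 x).2]; simp [fr.s]), (a2 x).1, add_neg_cancel_right] }
  let N : E →+ E →+ End F V := AddMonoidHom.mk' (fun a => AddMonoidHom.mk' (fun b =>
    (polarBilin Q (b • s • w)).smulRight (a • w) - (polarBilin Q (a • w)).smulRight (b • s • w))
      fun _ _ => LinearMap.ext fun x => by simp [add_smul]; abel)
    fun _ _ => AddMonoidHom.ext fun _ => LinearMap.ext fun x => by simp [add_smul]; abel
  have m := fun a : E => smul_mem_eL (F := F) a w
  have q0 : ∀ a : E, Q (a • w) = 0 := fun a => by simp [h.eq, Q_smul, hw0]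
  have N1 : ∀ a, Ei Q X (a • w) (a • s • w) → N a a ∈ G := fun a e => ⟨_, e.2.2, fun x => ⟨by
    rw [eich_apply e.1 e.2.1]; simp [N, smul_smul, q0, add_sub_assoc], sub_mem (Submodule.smul_mem _ _ (m _))
      (Submodule.smul_mem _ _ (eL_smul _ (m _)))⟩⟩
  obtain ⟨γ, c1, c2⟩ := h.half G _ (mem_of_sq (by have := h.card; omega) h.twoE (N + N.flip)
    (fun _ _ => add_comm _ _) G (h.half G) (fun e => by
      suffices N (e * e) (e * e) ∈ G from add_mem this this
      by_cases he : e = 0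
      · simp [he]
      obtain ⟨t, t1, t2⟩ := h.tt fr he
      refine N1 _ ?_
      convert h1.conj t1 (h.le t1) using 1 <;> simp [t2, fr.s] <;> module) a a)
  exact ei_of_eq (q0 a) (h.ts hw0 (m _) (eL_smul _ (m _))) c1 fun x => by
    simp [(c2 x).1, N, smul_smul, q0, add_sub_assoc]

variable [FiniteDimensional F V]

theorem omega_le {s : E} (hw : w ≠ 0) (hw0 : R w = 0) (hs : ∀ c, algebraMap F E c ≠ s)
    (h1 : Ei Q X w (s • w)) : OmegaV Q ≤ X := by
  have := h.fd
  have hd := h.dim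
  have h2 := h.twoE
  have := Fintype.ofFinite E
  have a1 : ∀ u, u ≠ 0 → R u = 0 → s • u ∈ RS Q X u := fun u hu hu0 e c => by
    have key : ∀ a : F, Ei Q X u ((a * a) • s • u) := fun a => by
      obtain ⟨k, k1, k2⟩ := h.line hw0 hw hu0 hu
      obtain ⟨b, hb⟩ := mem_eL.1 k2
      have b0 : b ≠ 0 := by rintro rfl; simp [hw, eq_comm (a := (0 : V))] at hb
      have := (h.ei_all hw hw0 h1 (a • b⁻¹)).conj k1 (h.le k1)
      simp only [res_apply, map_smul, ← hb, smul_assoc, inv_smul_smul₀ b0, smul_comm s b] at this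
      rw [mul_smul]
      exact this.smul_right e (by simp [h.ts hu0 (self_mem_eL u) (smul_mem_eL s u)])
    obtain ⟨x, y, e⟩ := exists_sq_add_sq h.two one_ne_zero one_ne_zero c
    rw [← e, mul_one, mul_one, add_smul]
    exact (key x).add (key y)
  obtain ⟨d, d1, d2⟩ := exists_dual_pair h.ne hs
  have d0 : d ≠ 0 := by rintro rfl; simp at d2
  obtain ⟨f, f1, f2⟩ := exists_hyp_partner h.nd hw hw0
  obtain ⟨p, p1, p2⟩ : ∃ p, R p = 0 ∧ polar R p w = d :=
    ⟨d • f, by rw [Q_smul, f1, mul_zero], by simp [polar_comm R f, f2]⟩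
  have p0 : p ≠ 0 := by rintro rfl; simp [d0.symm] at p2
  obtain ⟨g1, g2, g3⟩ := RS.ei (a1 p p0 p1) (by simp [h.eq, p1])
  have a2 := RS.conj (a1 w hw hw0) g3 (h.le g3)
  have e0 : Q (s • p) = 0 := by simp [h.eq, Q_smul, p1]
  rw [eich_apply g1 g2, eich_apply g1 g2] at a2
  simp only [h.pol, polar_smul_left, polar_smul_right, p2, smul_eq_mul, d1, d2, e0, zero_mul,
    zero_smul, one_smul, sub_zero] at a2
  have u1 : R (w + p) = d := by rw [Q_add, hw0, p1, polar_comm, p2]; ring
  have u2 : Q (w + p) = 0 := by rw [h.eq, u1, d1]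
  have u3 : ∀ c : F, c • (w + p) ∈ RS Q X (w + p) := fun c _ a => by
    rw [smul_smul]; exact ei_smul_self u2 _
  have a3 : ∀ x, polar R (w + p) x = 0 → x ∈ RS Q X (w + p) := fun x hx => by
    generalize tr (s * (s * d)) = m at a2
    refine h.mem_of_inv (u1 ▸ d0) (y := (s - algebraMap F E (m / 2)) • (w - p)) ?_ (by
      simp [polar_self', hw0, p1, p2, polar_comm R w p]) (fun t t1 t2 r hr => by
        simpa only [t2] using RS.conj hr t1 (h.le t1)) ?_ hx
    · simp [Q_smul, Q_sub, hw0, p1, polar_comm R w p, p2, d0, sub_ne_zero, (hs _).symm, -map_div₀]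
    convert sub_mem a2 (u3 (m / 2)) using 1
    simp only [← algebraMap_smul E (_ : F), map_div₀, map_ofNat]
    match_scalars <;> field_simp <;> ring
  generalize w + p = u at u1 u2 u3 a3
  obtain ⟨c₀, hc₀⟩ : ∃ c, tr c = 1 := LinearMap.surjective h.ne 1
  have ex : ∀ e : E, ∃ n, polar R u n = 0 ∧ R n = d - e * e * d ∧ R (e • u + n) = R u := fun e =>
    let ⟨n, _, n1, n2⟩ := exists_Q_eq_perp_ns h.nd h2 ((𝓓).nondegOn_top.2 h.nd) (by simp [hd])
      (s := u) trivial (u1 ▸ d0) (d - e * e * d)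
    ⟨n, n1, n2, by simp [Q_add, Q_smul, n1, n2, u1]⟩
  have a4 : Fu Q X ⊤ u := fun x _ hx => by
    obtain ⟨e, he⟩ : ∃ e : E, polar R u (x - e • u) = 0 :=
      ⟨polar R u x / (2 * d), by simp [polar_self', u1, h.twoE, d0]⟩
    suffices e • u ∈ RS Q X u from RS.ei (by simpa using add_mem this (a3 _ he)) u2
    by_cases e1 : e * e = 1
    · rcases mul_self_eq_one_iff.1 e1 with rfl | rfl
      exacts [by simpa using u3 1, by simpa using u3 (-1)]
    obtain ⟨n, n1, n2, q1⟩ := ex e
    obtain ⟨k, k1, k2, k3⟩ := h.trans (u1 ▸ d0) q1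
    replace k2 : k u = e • u + n := by simpa using k2 1
    obtain ⟨y, y0, y1, y2, -⟩ := h.orth3 (u1 ▸ d0) (v := n) (fun c => e1 (mul_right_cancel₀ d0 (by
      linear_combination n2 - c))) n1
    have b1 : y ∈ RS Q X (e • u + n) := by
      have := RS.conj (a3 (k⁻¹ y) (by rw [← k3, k2, apply_inv_apply]; simp [y1, y2])) k1 (h.le k1)
      rwa [k2, apply_inv_apply] at this
    have b2 : polar Q (e • u + n) u = 0 := by
      rw [polar_comm, h.pol, ← hx, h.pol]
      simp only [polar_sub_right, polar_add_right, n1] at he ⊢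
      rw [add_zero, sub_eq_zero.1 he]
    have b3 : e • u + n ∈ RS Q X u := fun _ c => by
      have := (RS.ei b1 (by rw [h.eq, q1, ← h.eq, u2])).conj_ei
        (a3 ((c₀ / (2 * R y)) • y) (by simp [y1]) u2 c) b2 (by rw [h.pol, polar_comm, y1, map_zero])
      simpa [h.pol, y1, y2, polar_self', h2, y0, hc₀] using this
    simpa using sub_mem b3 (a3 n n1)
  obtain ⟨n, n1, -, q1⟩ := ex (c₀ / (2 * d))
  obtain ⟨k, k1, k2, -⟩ := h.trans (u1 ▸ d0) q1
  refine a4.omega_le h.ndQ (notExc_of_two_ne_zero h.two) ?_ u2 k1 (h.le k1) ?_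
  · have := finrank_mul_finrank F E V
    have := h.three
    nlinarith
  · rw [← one_smul E u, k2, h.pol]
    simp [polar_self', n1, u1, h.twoE, d0, hc₀]

end E3

end H12.X3
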