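import Cfsg.Agent.H12.X3c

/-!
# Overgroups of the three-dimensional orthogonal group over an extension field: quadratic elements
-/

set_option autoImplicit false
set_option maxHeartbeats 400000

namespace H12.X3

open Module H11 H13.KL QuadraticMap

variable {F E V : Type*} [Field F] [Field E] [Algebra F E] [AddCommGroup V] [Module F V]
  [Module E V] [IsScalarTower F E V] {Q : QuadraticForm F V} {R : QuadraticForm E V}
  {X : Subgroup (V ≃ₗ[F] V)} {g β t : V ≃ₗ[F] V} {z n f x x' y u v w : V}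

local notation "𝓒" => CForm.ofQuad Q
local notation "𝓓" => CForm.ofQuad R
local notation "tr" => Algebra.trace F E

theorem finrank_eL (hv : v ≠ 0) : finrank F (eL F E v) = finrank F E :=
  ((LinearEquiv.toSpanNonzeroSingleton E V v hv).restrictScalars F).finrank_eq.symm

theorem mp_stab [FiniteDimensional F V] {L : Submodule F V} (hg : MaxPair X L g) (ht : t ∈ X)
    (hL : ∀ v ∈ L, t v = v) (hx : x ∉ L) (h1 : g⁻¹ x ∈ L) (h2 : g⁻¹ (t x - x) ∈ L) (h3 : g⁻¹ x' ∈ L) :
    g⁻¹ (t x' - x') ∈ L := by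
  have := (hg.stab ht (fun v hv hv' => by rwa [hL v hv]) hx h1
    (by simpa only [← map_add, sub_add_cancel] using add_mem h2 h1) _).1 h3
  rw [LinearEquiv.mul_apply, LinearEquiv.mul_apply, apply_inv_apply] at this
  rw [map_sub]
  exact sub_mem this h3

namespace E3

variable (h : E3 Q R X) [Finite E] [Finite F] [FiniteDimensional F V] (fr : Fr R z n f)
  (hβ : β ∈ X) (hS : ∀ x, β x - x ∈ eL F E z) (h1 : β ≠ 1)
include h fr hβ hS h1

theorem le_of_perp (hg : MaxPair X (eL F E z) g) (hw : w ≠ 0) (hw1 : w ∈ eL F E z)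
    (hw2 : g⁻¹ w ∈ eL F E z) (hx : x ∉ eL F E z) (x1 : g⁻¹ x ∈ eL F E z) (x2 : polar R z x = 0) :
    OmegaV Q ≤ X := by
  let Y := (eL F E z).map (g : V →ₗ[F] V)
  have hY : ¬ eL F E z ≤ Y := fun e => by
    obtain ⟨y, a1, a2⟩ := hg.inv.exists_not_mem
    exact a2 (by simpa [inv_apply_apply] using mem_map_iff.1 (e a1))
  have d1 := finrank_eL (F := F) (E := E) fr.ne
  have d2 : ∀ y, finrank F E ≤ finrank F ↥(eL F E z ⊓ (𝓒).perp (Submodule.span F {y})) + 1 := fun y => by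
    have := h.ndQ.finrank_inf_perp (eL F E z) (Submodule.span F {y})
    have := finrank_span_singleton_le (F := F) y
    omega
  have pp : ∀ x' ∈ Y, polar R z x' = 0 := fun x' a => by_contra fun c => by
    have b1 : eL F E z ⊓ (𝓒).perp (Submodule.span F {x'}) ≤ Y := fun w' hw' => by
      obtain ⟨γ, c1, c2, c3⟩ := h.zfull fr.z0 hβ hS h1 c hw'.1 ((𝓒).mem_perp_singleton.1 hw'.2)
      exact mem_map_iff.2 (c3 ▸ mp_stab hg c1 (fun v hv => h.zfix fr.z0 c1 c2 (by
        rw [fr.of_mem hv]; simp [fr.s])) hx x1 (by simp [h.zfix fr.z0 c1 c2 x2]) (mem_map_iff.1 a))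
    have b2 := Submodule.finrank_lt_finrank_of_lt (SetLike.lt_iff_le_and_exists.2 ⟨le_sup_left, x,
      Submodule.mem_sup_right (Submodule.mem_span_singleton_self x), fun e => hx e.1⟩ :
        eL F E z ⊓ (𝓒).perp (Submodule.span F {x'}) < _ ⊔ Submodule.span F {x})
    have b3 := Submodule.eq_of_le_of_finrank_le (sup_le b1 ((Submodule.span_singleton_le_iff_mem _ _).2
      (mem_map_iff.2 x1))) (by rw [LinearEquiv.finrank_map_eq]; have := d2 x'; omega)
    obtain ⟨p, p1, q, q1, rfl⟩ := Submodule.mem_sup.1 (b3.ge a)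
    obtain ⟨e, rfl⟩ := Submodule.mem_span_singleton.1 q1
    exact c (by rw [fr.of_mem p1.1, ← algebraMap_smul E]; simp [fr.s, x2])
  have n0 : polar R n x ≠ 0 := fun e => by
    obtain ⟨a, b, rfl⟩ := fr.perp x2
    simp [fr.s, h.twoE, fr.n0] at e
    exact hx (by simp [e, smul_mem_eL])
  have co : ∀ x' ∈ Y, ∃ c : F, x' - c • x ∈ eL F E z := fun x' a => by
    obtain ⟨c, hc⟩ := eL_le_of_mul h.pr hw hw1 (mem_map_iff.2 hw2) hY (s := polar R n x' / polar R n x)
      fun k hk => by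
        have := mp_stab hg (h.u_mem fr (.ofAdd (k / polar R n x))) (fun v => fr.u_fix _) hx x1
          (by simpa [fr.u_apply, x2, n0] using mem_map_iff.1 hk) (mem_map_iff.1 a)
        refine mem_map_iff.2 ?_
        convert this using 2
        simp [fr.u_apply, pp x' a]; congr 1; ring
    obtain ⟨p, q, e⟩ := fr.perp (x := x' - c • x) (by rw [← algebraMap_smul E]; simp [x2, pp x' a])
    have := congrArg (polar R n) e
    rw [← algebraMap_smul E] at this
    simp [hc, n0, fr.s, h.twoE, fr.n0] at this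
    exact ⟨c, by simp [e, this, smul_mem_eL]⟩
  obtain ⟨φ, a1, a2⟩ := h.ndQ.exists_perp_eq hx 1
  rw [CForm.ofQuad_B, polar_comm] at a2
  replace a1 : ∀ v ∈ eL F E z, polar Q φ v = 0 := (𝓒).mem_perp'.1 a1
  have a3 : ∀ v, polar Q (g⁻¹ φ) v = polar Q φ (g v) := fun v => by
    rw [← h.pol_map hg.mem, apply_inv_apply]
  have a4 : ∀ v ∈ eL F E z, g v - polar Q φ (g v) • x ∈ eL F E z := fun v hv => by
    obtain ⟨c, hc⟩ := co (g v) (Submodule.mem_map_of_mem hv)
    have := a1 _ hc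
    rw [polar_sub_right, polar_smul_right, a2, smul_eq_mul, mul_one, sub_eq_zero] at this
    rwa [this]
  obtain ⟨k, rfl⟩ := mem_eL.1 hw1
  have t0 := h.u_mem fr (.ofAdd (k / polar R n x))
  have t1 : ∀ v ∈ eL F E z, (g⁻¹ * fr.u F (.ofAdd (k / polar R n x)) * g) v =
      v + (𝓒).B (g⁻¹ φ) v • g⁻¹ (k • z) := fun v hv => g.injective (by
    have := fr.u_fix (.ofAdd (k / polar R n x)) (a4 v hv)
    rw [map_sub, map_smul, fr.u_apply _ x, sub_eq_iff_eq_add] at this
    rw [LinearEquiv.mul_apply, LinearEquiv.mul_apply, apply_inv_apply, this, map_add, map_smul,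
      apply_inv_apply, CForm.ofQuad_B, a3]
    simp [x2, n0, ← add_assoc])
  obtain ⟨u, u1, u2⟩ := exists_mem_not_mem (H := Submodule.span F {g⁻¹ (k • z)})
    (W := eL F E z ⊓ (𝓒).perp (Submodule.span F {g⁻¹ φ})) (by
      have := d2 (g⁻¹ φ)
      have := finrank_span_singleton_le (F := F) (g⁻¹ (k • z))
      have := h.three
      omega)
  have u3 : polar Q (g⁻¹ φ) u = 0 := (𝓒).mem_perp_singleton.1 u1.2
  obtain ⟨γ, c1, c2, c3⟩ := h.zfull fr.z0 hβ hS h1 (x := g⁻¹ φ) (fun e => by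
    rw [← h.pol_map (inv_mem hg.mem), fr.of_mem x1, h.pol, polar_smul_right, polar_comm R _ z, e] at a2
    simp at a2) u1.1 u3
  obtain ⟨κ, k1, k2⟩ := rq_of_comm (C := 𝓒) h.ndQ h.le (M := eL F E z) (fun x a y b => h.ts fr.z0 a b)
    (mul_mem (mul_mem (inv_mem hg.mem) t0) hg.mem) c1 hw2 t1 c2
  have w0 : g⁻¹ (k • z) ≠ 0 := by simpa using hw
  generalize g⁻¹ (k • z) = w at *
  obtain ⟨s, rfl⟩ := mem_eL.1 (eL_eq hw2 w0 ▸ u1.1)
  have q0 : R w = 0 := by rw [fr.of_mem hw2]; simp [Q_smul, fr.s]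
  refine h.omega_le w0 q0 (s := -s) (fun c e => u2 (Submodule.mem_span_singleton.2
    ⟨-c, by rw [← algebraMap_smul E, map_neg, e, neg_neg]⟩)) (ei_of_eq (by simp [h.eq, q0])
      (h.ts fr.z0 hw2 (eL_smul _ hw2)) k1 fun x => ?_)
  rw [k2, c3, CForm.ofQuad_B, CForm.ofQuad_B, CForm.ofQuad_B, u3]
  simp [quadType, polar_comm Q x, h.eq, Q_smul, q0]
  abel

theorem le_of_z : OmegaV Q ≤ X := by
  have := h.fdE
  obtain ⟨g, hg, w, hw, w1, w2⟩ : ∃ g, MaxPair X (eL F E z) g ∧ ∃ y, y ≠ 0 ∧ y ∈ eL F E z ∧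
      g⁻¹ y ∈ eL F E z := by
    obtain ⟨k, k1, k2⟩ := h.line fr.z0 fr.ne fr.f0 fr.symm.ne
    obtain ⟨γ, c1, c2, c3⟩ : ∃ γ ∈ X, (∀ x, γ x - x ∈ eL F E f) ∧ γ ≠ 1 :=
      ⟨_ * β * _⁻¹, mul_mem (mul_mem k1 hβ) (inv_mem k1), fun x => by
        obtain ⟨x, rfl⟩ := (H13.KL.res F E V k).surjective x
        obtain ⟨a, ha⟩ := mem_eL.1 (hS x)
        rw [LinearEquiv.mul_apply, LinearEquiv.mul_apply, inv_apply_apply, ← map_sub, ← ha]
        simpa using eL_smul a k2,
        by simpa [mul_inv_eq_one]⟩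
    let ι := (LinearMap.toSpanSingleton E V z).restrictScalars F
    obtain ⟨e, e1, e0⟩ : ∃ e : E, (∀ e' : E, polar Q (e' • z) (γ (e • z) - e • z) = 0) ∧ e ≠ 0 := by
      by_contra! hc
      obtain ⟨m, hm⟩ := H12.alt_even (C := CForm.ofAlt (((polarBilin Q).compl₁₂
        ((γ.toLinearMap - 1) ∘ₗ ι) ι)) fun e => mul_left_cancel₀ h.two (by
          have := h.skew fr.f0 c1 c2 (e • z) (e • z)
          rw [polar_comm] at this
          change 2 * polar Q (γ (e • z) - e • z) (e • z) = _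
          rw [polar_comm]
          linear_combination this)) fun e he => hc e fun e' => (polar_comm _ _ _).trans (by
            have := he e'
            simp only [CForm.ofAlt] at this
            exact this)
      have := h.three
      exact (h.pr.even_iff.not.2 (by omega)) ⟨m, by omega⟩
    have e2 : γ (e • z) = e • z := by
      rw [← sub_eq_zero, fr.symm.of_mem (c2 _), h.perp_iff.2 e1, zero_smul]
    refine exists_maxPair c1 (fun c => c3 (LinearEquiv.ext fun x => ?_)) (smul_ne_zero e0 fr.ne)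
      (smul_mem_eL e z) (by rw [← e2, inv_apply_apply]; exact smul_mem_eL e z)
    obtain ⟨a, b, d, rfl⟩ := fr.sp x
    have b1 := fr.of_mem (sub_mem ((c _).1 (smul_mem_eL a z)) (smul_mem_eL a z))
    rw [show polar R f _ = 0 by rw [fr.symm.of_mem (c2 _)]; simp [fr.s], zero_smul, sub_eq_zero] at b1
    rw [add_assoc, map_add, b1, h.zfix fr.f0 c1 c2 (by simp [fr.s])]; rfl
  obtain ⟨x, x1, x2⟩ := hg.exists_not_mem
  by_contra hn
  have hd : ∀ x, g⁻¹ x ∈ eL F E z → polar R z x = 0 → x ∈ eL F E z := fun x a b => by_contra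
    fun e => hn (h.le_of_perp fr hβ hS h1 hg hw w1 w2 e a b)
  have d0 : polar R z x ≠ 0 := fun e => x2 (hd x x1 e)
  have gt : ∀ {a b}, g⁻¹ a ∈ eL F E z → g⁻¹ b ∈ eL F E z → polar Q a b = 0 := fun a b => by
    rw [← h.pol_map (inv_mem hg.mem), h.ts fr.z0 a b]
  obtain ⟨k, k0, k1⟩ := exists_singular (Q.comp ((LinearMap.toSpanSingleton E V n).restrictScalars F))
    h.three
  have t0 := h.u_mem fr (.ofAdd (k / polar R z x))
  obtain ⟨y, hy⟩ : ∃ y, y = fr.u F (.ofAdd (k / polar R z x)) x := ⟨_, rfl⟩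
  have y0 : polar R z y = polar R z x := by simp [hy, fr.u_apply, fr.s]
  have y1 : polar Q y x = 0 := by
    have := gt x1 x1
    rw [h.pol] at this
    simp [h.eq, Q_smul] at k1
    rw [h.pol, show polar R y x = polar R x x - k * k * R n by
      simp [hy, fr.u_apply]; field_simp; ring, map_sub, this, k1, sub_zero]
  obtain ⟨p, p1, q, q1, y2⟩ := Submodule.mem_sup.1 (show y ∈ eL F E z ⊔
      (𝓒).perp ((eL F E z).map (g : V →ₗ[F] V)) by
    rw [← h.ndQ.perp_perp (eL F E z), ← h.ndQ.perp_inf, h.ndQ.perp_perp]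
    intro v hv
    have v1 := hd v (mem_map_iff.1 hv.2) (h.perp_iff.2 fun c => hv.1 _ (smul_mem_eL c z))
    rw [CForm.ofQuad_B, hy, ← fr.u_fix _ v1, h.pol_map t0, gt (mem_map_iff.1 hv.2) x1])
  have q2 : ∀ v, g⁻¹ v ∈ eL F E z → polar Q v q = 0 := fun v hv => q1 v (mem_map_iff.2 hv)
  obtain ⟨γ, c1, c2, c3⟩ := h.zfull fr.z0 hβ hS h1 (x := y) (y0 ▸ d0) (neg_mem p1) (by
    have := q2 x x1
    rw [polar_comm, ← y2, polar_add_right, this, add_zero] at y1
    rw [polar_neg_right, hy, ← fr.u_fix _ p1, h.pol_map t0, y1, neg_zero])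
  have t1 : ∀ v ∈ eL F E z, (γ * fr.u F (.ofAdd (k / polar R z x))) v = v := fun v hv => by
    rw [LinearEquiv.mul_apply, fr.u_fix _ hv, h.zfix fr.z0 c1 c2 (by rw [fr.of_mem hv]; simp [fr.s])]
  have t4 : (γ * fr.u F (.ofAdd (k / polar R z x))) x = q := by
    rw [LinearEquiv.mul_apply, ← hy, eq_add_of_sub_eq c3, ← y2]; abel
  have t2 := mul_mem c1 t0
  have t5 : g⁻¹ q ∉ eL F E z := fun e => by
    have b1 := add_mem p1 (hd (q - x) (by rw [map_sub]; exact sub_mem e x1) (by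
      rw [← y2, fr.of_mem p1] at y0; simpa [fr.s, sub_eq_zero] using y0))
    rw [← add_sub_assoc, y2] at b1
    have := congrArg (polar R n) (fr.of_mem b1)
    simp [hy, fr.u_apply, fr.s, h.twoE, fr.n0, d0, k0] at this
  generalize γ * fr.u F (.ofAdd (k / polar R z x)) = t at *
  have e : (g⁻¹ * t * g) (g⁻¹ x) = g⁻¹ q := by
    rw [LinearEquiv.mul_apply, LinearEquiv.mul_apply, apply_inv_apply, t4]
  refine hn (h.le_of_perp fr hβ hS h1 (maxPair_conj hg t2 (fun v a b => by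
    rwa [← t1 v a, inv_apply_apply]) fun e' => t5 (e ▸ (e' _).1 x1)) (w := g⁻¹ w)
    (by simpa using hw) w2 ?_ t5 (by rwa [← e, inv_apply_apply]) (h.perp_iff.2 fun c => ?_))
  · have : (g⁻¹ * t * g) (g⁻¹ w) = g⁻¹ w := by
      rw [LinearEquiv.mul_apply, LinearEquiv.mul_apply, apply_inv_apply, t1 w w1]
    rwa [← this, inv_apply_apply]
  rw [← h.pol_map hg.mem, apply_inv_apply, q2 _ (by rw [inv_apply_apply]; exact smul_mem_eL c z)]

end E3

end H12.X3
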