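import Cfsg.Agent.H12.X3d

/-!
# Overgroups of the three-dimensional orthogonal group over an extension field: line stabilisers
-/

set_option autoImplicit false
set_option maxHeartbeats 400000

namespace H12.X3

open Module H11 H13.KL QuadraticMap Multiplicative

variable {F E V : Type*} [Field F] [Field E] [Algebra F E] [AddCommGroup V] [Module F V]
  [Module E V] [IsScalarTower F E V] {Q : QuadraticForm F V} {R : QuadraticForm E V}
  {X : Subgroup (V ≃ₗ[F] V)} {g β t : V ≃ₗ[F] V} {z n f x y : V}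

local notation "tr" => Algebra.trace F E

theorem ex_s [Finite E] (h : 9 < Nat.card E) :
    ∃ s : E, s * (s + 1) * (s - 1) * (s ^ 2 + 1) * (s ^ 4 - 3 * s ^ 2 + 1) ≠ 0 := by
  open Polynomial in
  have a : (X * (X + 1) * (X - 1) * (X ^ 2 + 1) * (X ^ 4 - 3 * X ^ 2 + 1) : E[X]).IsMonicOfDegree 9 :=
    ⟨by compute_degree!, by monicity!⟩
  obtain ⟨s, hs⟩ := Polynomial.exists_eval_ne_zero_of_natDegree_lt_card _ a.monic.ne_zero (by
    rw [a.natDegree_eq, ← Nat.cast_card]; exact_mod_cast h)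
  exact ⟨s, by simpa using hs⟩

namespace Fr

variable (fr : Fr R z n f) (h2 : (2 : E) ≠ 0)
include fr

theorem z_u (k : Multiplicative E) (x : V) : polar R z (fr.u F k x - x) = 0 := by
  simp [u_apply, fr.s]

theorem u_perp (k : Multiplicative E) (hx : polar R z x = 0) :
    fr.u F k x = x + (k.toAdd * polar R n x) • z := by
  simp [u_apply, hx]

include h2

theorem mem' (hx : polar R z x = 0) (h0 : polar R n x = 0) : x ∈ eL F E z := by
  obtain ⟨a, b, rfl⟩ := fr.perp hx
  simp [fr.s, fr.n0, h2] at h0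
  simp [h0, smul_mem_eL]

theorem fix {k : Multiplicative E} (hk : k ≠ 1) (e : fr.u F k x = x) : x ∈ eL F E z := by
  replace hk : k.toAdd ≠ 0 := hk
  have a := congrArg (polar R n) e
  simp [u_apply, fr.s, fr.n0, h2, hk] at a
  exact fr.mem' h2 a (by simpa [fr.u_perp k a, hk, fr.ne] using e)

theorem cent [Finite E] (h9 : 9 < Nat.card E) (φ : V →+ V) (hu : ∀ k x, φ (fr.u F k x) = fr.u F k (φ x))
    (ht : ∀ a : E, a ≠ 0 → ∃ t : V ≃ₗ[F] V, (∀ x, t x = x + ((a * a - 1) * polar R f x) • z +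
      (((a * a)⁻¹ - 1) * polar R z x) • f) ∧ ∀ x, φ (t x) = t (φ x)) : ∃ l : E, ∀ x, φ x = l • x := by
  obtain ⟨s, hs⟩ := ex_s h9
  simp only [mul_ne_zero_iff] at hs
  obtain ⟨⟨⟨⟨s0, s1⟩, s2⟩, s3⟩, s4⟩ := hs
  have s5 : s * s - 1 ≠ 0 := by rw [show s * s - 1 = (s + 1) * (s - 1) by ring]; exact mul_ne_zero s1 s2
  have n0 := mul_ne_zero h2 fr.n0
  have a1 : ∀ b : E, ∃ c : E, φ (b • n) = c • n := fun b => by
    obtain ⟨t, t1, t2⟩ := ht s s0
    obtain ⟨p, q, r, e⟩ := fr.sp (φ (b • n))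
    have b1 := t2 (b • n)
    rw [show t (b • n) = b • n by simp [t1, fr.s], t1, e] at b1
    have b2 := congrArg (polar R f) b1
    have b3 := congrArg (polar R z) b1
    simp [fr.s, s5, sub_eq_zero, sub_ne_zero.1 s5, -mul_inv_rev] at b2 b3
    exact ⟨q, by simp [e, b2, b3]⟩
  choose γ hγ using a1
  have a2 : ∀ k b : E, φ ((k * (b * (2 * R n))) • z) = (k * (γ b * (2 * R n))) • z := fun k b => by
    have := hu (ofAdd k) (b • n)
    rw [hγ, fr.u_perp _ (by simp [fr.s]), fr.u_perp _ (by simp [fr.s]), map_add, hγ] at this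
    simpa [fr.s] using this
  have a3 : ∀ c : E, φ (c • z) = γ 1 • c • z := fun c => by
    obtain ⟨c, rfl⟩ := mul_right_surjective₀ n0 c
    have := a2 c 1
    rw [one_mul] at this
    rw [this]; module
  have a4 : ∀ x, polar R z x = 0 → φ x = γ 1 • x := fun x hx => by
    obtain ⟨a, b, rfl⟩ := fr.perp hx
    have := smul_left_injective E fr.ne ((a2 1 b).symm.trans ((a3 _).trans (smul_smul _ _ _)))
    rw [map_add, a3, hγ, show γ b = γ 1 * b from mul_right_cancel₀ n0 (by linear_combination this)]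
    module
  have a5 : ∀ b : E, ∃ c : E, φ (b • f) = γ 1 • b • f + c • z := fun b => by
    obtain ⟨c, hc⟩ := mem_eL.1 (fr.fix (F := F) h2 (k := ofAdd 1) (x := φ (b • f) - γ 1 • b • f)
      (by simp) (by
        rw [map_sub, ← hu, u_smul _ _ (γ 1), sub_eq_sub_iff_sub_eq_sub, ← map_sub, a4 _ (fr.z_u _ _), smul_sub]))
    exact ⟨c, by rw [hc]; abel⟩
  choose c hc using a5
  have a6 : ∀ b b', c (b + b') = c b + c b' := fun b b' => smul_left_injective E fr.ne (by
    have := hc (b + b')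
    rw [add_smul, map_add, hc, hc] at this
    linear_combination (norm := module) -this)
  have a7 : ∀ a b, a ≠ 0 → c b = a * a * c (a * a * b) := fun a b ha => smul_left_injective E fr.ne (by
    obtain ⟨t, t1, t2⟩ := ht a ha
    have b1 := t2 ((a * a * b) • f)
    rw [show t ((a * a * b) • f) = b • f by
      simp only [t1]; simp [fr.s]; match_scalars; field_simp; ring, hc, hc, t1] at b1
    simp [fr.s] at b1
    linear_combination (norm := skip) b1
    match_scalars <;> field_simp <;> ring)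
  refine ⟨γ 1, fun x => ?_⟩
  obtain ⟨p, q, b, rfl⟩ := fr.sp x
  have b1 := a7 s b s0
  have b2 := a7 _ b s1
  have b3 := a7 _ b s2
  have b4 := (a6 ((s + 1) * (s + 1) * b) ((s - 1) * (s - 1) * b)).symm.trans
    ((congrArg c (by ring)).trans (a6 (s * s * b + b) (s * s * b + b)))
  rw [a6] at b4
  have : c b = 0 := mul_left_cancel₀ (mul_ne_zero (mul_ne_zero h2 s3) s4) (by
    linear_combination (exp := 1) -(s * s * ((s + 1) * (s + 1)) * ((s - 1) * (s - 1))) * b4 -
      s * s * ((s - 1) * (s - 1)) * b2 - s * s * ((s + 1) * (s + 1)) * b3 +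
      2 * ((s + 1) * (s + 1)) * ((s - 1) * (s - 1)) * b1)
  rw [map_add, a4 _ (by simp [fr.s]), hc, this]
  module

end Fr

namespace E3

variable (h : E3 Q R X) [Finite E] [Finite F]
include h

theorem fixperp (hg : g ∈ X) (e : ∀ c : E, g (c • y) = c • y) (x : V) : polar R y (g x - x) = 0 :=
  h.perp_iff.2 fun c => by rw [polar_sub_right, ← h.pol_map hg _ x, e, sub_self]

variable (fr : Fr R z n f) (hZ : ∀ β ∈ X, (∀ x, β x - x ∈ eL F E z) → β = 1)
include fr hZ

theorem ru (hg : g ∈ X) (h1 : ∀ v ∈ eL F E z, g v = v)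
    (h2 : ∀ x, polar R z x = 0 → g x - x ∈ eL F E z) : ∃ k, g = fr.u F k := by
  have p := h.fixperp hg fun c => h1 _ (smul_mem_eL c z)
  have a1 : ∀ k x, g (fr.u F k x) = fr.u F k (g x) := fun k x => by
    have := hZ _ (mul_mem (mul_mem hg (h.u_mem fr k)) (inv_mem (mul_mem (h.u_mem fr k) hg))) fun y => by
      obtain ⟨x, rfl⟩ := (fr.u F k * g).surjective y
      rw [LinearEquiv.mul_apply, inv_apply_apply]
      convert sub_mem (h2 _ (fr.z_u (F := F) k x)) (smul_mem_eL (k.toAdd * polar R n (g x - x)) z) using 1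
      rw [← sub_eq_of_eq_add' (fr.u_perp (F := F) k (p x))]
      simp; abel
    exact LinearEquiv.congr_fun (mul_inv_eq_one.1 this) x
  obtain ⟨c, ρ, e⟩ := fr.perp (p f)
  have a2 : ∀ k : E, g (k • n) = k • n - (k * (ρ * (2 * R n))) • z := fun k => by
    have := a1 (ofAdd k) f
    rw [eq_add_of_sub_eq e] at this
    simp [fr.u_apply, fr.s, h1 _ (smul_mem_eL _ z), eq_add_of_sub_eq e] at this
    linear_combination (norm := module) -this
  have b := mul_mem hg (h.u_mem fr (ofAdd ρ))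
  refine ⟨(ofAdd ρ)⁻¹, (eq_inv_of_mul_eq_one_left (hZ _ b fun x => fr.mem' h.twoE
    (h.fixperp b (fun c => ?_) x) (h.fixperp b (fun c => ?_) x))).trans (map_inv _ _).symm⟩
  · rw [LinearEquiv.mul_apply, fr.u_fix _ (smul_mem_eL c z), h1 _ (smul_mem_eL c z)]
  · rw [LinearEquiv.mul_apply, fr.u_perp _ (by simp [fr.s]), map_add, h1 _ (smul_mem_eL _ z), a2]
    simp [fr.s]; module

theorem stab [FiniteDimensional F V] (hg : g ∈ X) (hL : ∀ v ∈ eL F E z, g v ∈ eL F E z) :
    g ∈ semiStab F E V := by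
  have : Nontrivial V := ⟨⟨z, 0, fr.ne⟩⟩
  have hL' : ∀ v ∈ eL F E z, g⁻¹ v ∈ eL F E z := fun v hv => mem_map_iff.1
    ((Submodule.eq_of_le_of_finrank_eq (Submodule.map_le_iff_le_comap.2 hL)
      (LinearEquiv.finrank_map_eq g _)).ge hv)
  have hp : ∀ x, polar R z x = 0 → polar R z (g⁻¹ x) = 0 := fun x hx => h.perp_iff.2 fun c => by
    rw [← h.pol_map hg, apply_inv_apply, fr.of_mem (hL _ (smul_mem_eL c z))]
    exact h.perp_iff.1 hx _
  have cj : ∀ {t : V ≃ₗ[F] V}, (∀ x, polar R z x = 0 → t x - x ∈ eL F E z) →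
      ∀ x, polar R z x = 0 → (g * t * g⁻¹) x - x ∈ eL F E z := fun ht x hx => by
    simpa [apply_inv_apply] using hL _ (ht _ (hp x hx))
  choose κ hκ using fun k : E => h.ru fr hZ (mul_mem (mul_mem hg (h.u_mem fr (ofAdd k))) (inv_mem hg))
    (fun v hv => by
      rw [LinearEquiv.mul_apply, LinearEquiv.mul_apply, fr.u_fix _ (hL' v hv), apply_inv_apply])
    (cj fun x hx => by simp [fr.u_perp _ hx, smul_mem_eL])
  have k0 : ∀ k, k ≠ 0 → (κ k).toAdd ≠ 0 := fun k hk e => by
    have := hκ k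
    rw [show κ k = 1 from e, map_one, mul_inv_eq_one, mul_eq_left] at this
    simpa [fr.u_apply, fr.s, fr.ne, fr.n0, hk, h.twoE] using LinearEquiv.congr_fun this n
  have gu : ∀ k x, g (fr.u F (ofAdd k) (g⁻¹ x)) = fr.u F (κ k) x := fun k => LinearEquiv.congr_fun (hκ k)
  have nn : ∀ k k' x, fr.u F k (fr.u F k' x - x) - (fr.u F k' x - x) =
      -(k.toAdd * k'.toAdd * (polar R z x * (2 * R n))) • z := fun k k' x => by
    rw [fr.u_perp _ (fr.z_u _ _)]; simp [fr.u_apply, fr.s]; congr 1; ring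
  have a1 : ∀ k k', g ((k * k' * (polar R z (g⁻¹ f) * (2 * R n))) • z) =
      ((κ k).toAdd * (κ k').toAdd * (2 * R n)) • z := fun k k' => by
    have b1 := congrArg g (nn (ofAdd k) (ofAdd k') (g⁻¹ f))
    have b2 := nn (κ k) (κ k') f
    rw [← gu k, ← gu k', map_sub, inv_apply_apply] at b2
    simp only [map_sub, apply_inv_apply, neg_smul, map_neg, toAdd_ofAdd, fr.zf, one_mul] at b1 b2
    exact neg_injective (b1.symm.trans b2)
  have n0 := mul_ne_zero h.twoE fr.n0
  have k1 := k0 1 one_ne_zero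
  have d0 : polar R z (g⁻¹ f) * (2 * R n) ≠ 0 := fun e => by
    have := a1 1 1
    rw [e] at this
    simpa [k1, fr.ne, n0] using this.symm
  have a2 : ∀ a k, (κ (a * k)).toAdd * (κ 1).toAdd = (κ a).toAdd * (κ k).toAdd := fun a k =>
    mul_right_cancel₀ n0 (smul_left_injective E fr.ne (by beta_reduce; rw [← a1, ← a1, mul_one]))
  refine inv_mem_iff.1 (mem_semiStab fun c => ?_)
  obtain ⟨l, hl⟩ := fr.cent h.twoE (by have := h.card; omega) (g⁻¹.toLinearMap.toAddMonoidHom.comp
    ((DistribSMul.toAddMonoidHom V c).comp g.toLinearMap.toAddMonoidHom)) (fun k x => g.injective (by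
      obtain ⟨x, rfl⟩ := g⁻¹.surjective x
      change g (g⁻¹ (c • g (fr.u F (ofAdd k.toAdd) _))) = g (fr.u F (ofAdd k.toAdd) (g⁻¹ (c • g _)))
      rw [gu, gu, apply_inv_apply, apply_inv_apply, fr.u_smul])) fun a ha => by
    obtain ⟨t, t1, t2⟩ := h.tt fr ha
    have b0 := div_ne_zero (k0 a ha) k1
    obtain ⟨t', t3, t4⟩ := h.tt fr b0
    have t5 : ∀ v ∈ eL F E z, (g * t * g⁻¹) v = t' v := fun v hv => by
      obtain ⟨k, hk⟩ := mem_eL.1 (hL' v hv)
      obtain ⟨k, rfl⟩ := mul_right_surjective₀ d0 k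
      have b1 := a1 k 1
      have b2 := a1 (a * k) a
      rw [mul_one, hk, apply_inv_apply] at b1
      rw [LinearEquiv.mul_apply, LinearEquiv.mul_apply, ← hk, t2, t4, b1]
      simp only [fr.s, polar_smul_right, smul_eq_mul, mul_zero, zero_smul, add_zero, mul_one, ← add_smul]
      convert b2 using 2
      · congr 1; ring
      · rw [eq_div_of_mul_eq k1 (a2 a k)]; field_simp; ring
    obtain ⟨m, hm⟩ := h.ru fr hZ (mul_mem (inv_mem t3) (mul_mem (mul_mem hg t1) (inv_mem hg)))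
      (fun v hv => by rw [LinearEquiv.mul_apply, t5 v hv, inv_apply_apply]) fun x hx => by
        obtain ⟨p, hp⟩ := mem_eL.1 (sub_mem (cj (t := t) (fun x hx => by simp [t2, hx, smul_mem_eL]) x hx)
          (show t' x - x ∈ _ by simp [t4, hx, smul_mem_eL]))
        rw [sub_sub_sub_cancel_right, eq_sub_iff_add_eq] at hp
        rw [LinearEquiv.mul_apply, ← hp, map_add, inv_apply_apply, add_sub_cancel_right]
        generalize (κ a).toAdd / (κ 1).toAdd = b at *
        rw [show p • z = t' ((p / (b * b)) • z) by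
          simp only [t4]; simp [fr.s, ← add_smul]; congr 1; field_simp; ring, inv_apply_apply]
        exact smul_mem_eL _ _
    refine ⟨t, t2, fun x => g.injective ?_⟩
    obtain ⟨x, rfl⟩ := g⁻¹.surjective x
    change g (g⁻¹ (c • (g * t * g⁻¹) x)) = (g * t * g⁻¹) (c • g (g⁻¹ x))
    rw [eq_mul_of_inv_mul_eq hm]
    simp only [apply_inv_apply, LinearEquiv.mul_apply, fr.u_smul, t4]
    simp only [polar_smul_right, smul_eq_mul]
    module
  exact ⟨l, fun v => by simpa [apply_inv_apply] using hl (g⁻¹ v)⟩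

end E3

end H12.X3
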