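import Cfsg.Agent.H12.X3e

/-!
# Maximality of the three-dimensional orthogonal group over an extension field
-/

set_option autoImplicit false
set_option maxHeartbeats 400000

namespace H12.X3

open Module H11 H13.KL QuadraticMap Multiplicative Finset

variable {F E V : Type*} [Field F] [Field E] [Algebra F E] [AddCommGroup V] [Module F V]
  [Module E V] [IsScalarTower F E V] {Q : QuadraticForm F V} {R : QuadraticForm E V}
  {X : Subgroup (V ≃ₗ[F] V)} {g β t : V ≃ₗ[F] V} {z n f x y : V}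

local notation "tr" => Algebra.trace F E

variable (F E V) in
/-- The maps which are linear over the extension field. -/
def linG : Subgroup (V ≃ₗ[F] V) where
  carrier := {g | ∀ (a : E) v, g (a • v) = a • g v}
  one_mem' _ _ := rfl
  mul_mem' {g h} a b c v := by rw [LinearEquiv.mul_apply, b, a]; rfl
  inv_mem' {g} a c v := g.injective (by rw [a, apply_inv_apply, apply_inv_apply])

theorem exists_aut [FiniteDimensional F E] [Nontrivial V] (hg : g ∈ semiStab F E V) :
    ∃ σ : E ≃ₐ[F] E, ∀ a v, g (a • v) = σ a • g v := by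
  obtain ⟨x, hx⟩ := exists_ne (0 : V)
  choose s hs using hg.1
  have u := fun {a b : E} (e : a • g x = b • g x) => smul_left_injective E (g.map_ne_zero_iff.2 hx) e
  have c : ∀ c, s (algebraMap F E c) = algebraMap F E c := fun c => u (by simp [← hs])
  let σ : E →ₐ[F] E :=
    { toFun := s, map_one' := by simpa using c 1, map_zero' := by simpa using c 0, commutes' := c
      map_mul' := fun a b => u (by rw [← hs, mul_smul, hs, hs, mul_smul])
      map_add' := fun a b => u (by rw [← hs, add_smul, map_add, hs, hs, add_smul]) }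
  exact ⟨.ofBijective σ σ.bijective, hs⟩

theorem out_mem {G : Type*} [Group G] {H Y : Subgroup G} (e : H ≤ Y) (g : G) :
    (g : G ⧸ H).out ∈ Y ↔ g ∈ Y := by
  obtain ⟨k, hk⟩ := QuotientGroup.mk_out_eq_mul H g
  rw [hk, mul_mem_cancel_right (e k.2)]

theorem smul_out_mem {G : Type*} [Group G] {H Y : Subgroup G} (e : H ≤ Y) {g : G} (hg : g ∈ Y)
    (s : G ⧸ H) : (g • s).out ∈ Y ↔ s.out ∈ Y := by
  rw [← MulAction.Quotient.mk_smul_out, out_mem e, smul_eq_mul, mul_mem_cancel_left hg]

namespace Fr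

variable [FiniteDimensional F E] (fr : Fr R z n f)
include fr

theorem vp0 (hx : x ∈ eL F E z) : VP F 0 fun k : E => fr.u F (ofAdd k) x := by
  simpa only [fr.u_fix _ hx] using vp_const x

theorem vp1 (hx : polar R z x = 0) : VP F 1 fun k : E => fr.u F (ofAdd k) x := by
  convert ((vp_const x).mono zero_le_one).add (vp_lin ((LinearMap.toSpanSingleton E V
    (polar R n x • z)).restrictScalars F)) using 2
  simp [fr.u_perp _ hx, smul_smul]

theorem vp2 (x : V) : VP F 2 fun k : E => fr.u F (ofAdd k) x := by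
  convert (((vp_const x).mono zero_le_one).add (vp_lin ((LinearMap.toSpanSingleton E V
    (polar R n x • z - polar R z x • n)).restrictScalars F))).mono one_le_two |>.add
    ((vp_lin .id).bil (vp_lin ((LinearMap.toSpanSingleton E V (-(R n * polar R z x) • z)).restrictScalars F))
      (Algebra.lsmul F F V : E →ₐ[F] _).toLinearMap) using 2
  simp [fr.u_apply]; module

end Fr

namespace E3

variable (h : E3 Q R X) [Finite E] [Finite F]
include h

theorem aut (hg : g ∈ X) {σ : E ≃ₐ[F] E} (e : ∀ a v, g (a • v) = σ a • g v) (x y : V) :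
    polar R (g x) (g y) = σ (polar R x y) := eq_of_dual h.ne fun k => by
  obtain ⟨k, rfl⟩ := σ.surjective k
  have := h.pol_map hg (k • x) y
  rw [e, h.pol, h.pol] at this
  rw [← map_mul, Algebra.trace_eq_of_algEquiv]
  simpa using this

variable [FiniteDimensional F V]

theorem free (fr : Fr R z n f) (hZ : ∀ β ∈ X, (∀ x, β x - x ∈ eL F E z) → β = 1) (hg : g ∈ X)
    {k : Multiplicative E} (hk : k ≠ 1) (e : g⁻¹ * fr.u F k * g ∈ linG F E V) : g ∈ semiStab F E V := by
  have a1 : ∀ v ∈ eL F E (g⁻¹ z), g v ∈ eL F E z := fun v hv => by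
    obtain ⟨a, rfl⟩ := mem_eL.1 hv
    refine fr.fix h.twoE hk (g⁻¹.injective ?_)
    rw [inv_apply_apply]
    refine (e a _).trans ?_
    rw [LinearEquiv.mul_apply, LinearEquiv.mul_apply, apply_inv_apply, fr.u_fix _ (self_mem_eL z)]
  obtain ⟨m, m1, m2⟩ := h.line fr.z0 fr.ne (x := g⁻¹ z) (mul_left_cancel₀ h.twoE (by
    rw [← polar_self', mul_zero, h.perp_iff]
    exact fun c => by
      rw [← h.pol_map hg, h.ts fr.z0 (a1 _ (smul_mem_eL _ _)) (a1 _ (self_mem_eL _))]))
    (by simpa using fr.ne)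
  exact (mul_mem_cancel_right (res_mem_semiStab m)).1 (h.stab fr hZ (mul_mem hg m1) fun v hv => by
    obtain ⟨a, rfl⟩ := mem_eL.1 hv
    exact a1 _ (by simpa using eL_smul a m2))

theorem le_semi (hZ : ∀ z n f, Fr R z n f → ∀ β ∈ X, (∀ x, β x - x ∈ eL F E z) → β = 1) (hg : g ∈ X) :
    g ∈ semiStab F E V := by
  classical
  have := h.fd
  have := h.fdE
  have hd := h.dim
  have : Finite V := Module.finite_of_finite F
  have : Finite (V ≃ₗ[F] V) := DFunLike.finite _
  have := Fintype.ofFinite E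
  have := Fintype.ofFinite F
  obtain ⟨z, z0, z1⟩ := (iso3_quad R).exists_iso (by omega)
  obtain ⟨n, f, fr⟩ := h.exists_fr z1 z0
  have : Nontrivial V := ⟨⟨z, 0, z0⟩⟩
  let H := linG F E V ⊓ X
  have := Fintype.ofFinite ((V ≃ₗ[F] V) ⧸ H)
  have l1 : linG F E V ≤ semiStab F E V := fun _ => mem_semiStab_of_linear
  have l2 : H ≤ semiStab F E V := inf_le_left.trans l1
  obtain ⟨W, hW⟩ : ∃ W : E → (V ≃ₗ[F] V) ⧸ H → V → V → V → V → F, ∀ c s x y v w, W c s x y v w =
    tr (c * (polar R (s.out⁻¹ x) (s.out⁻¹ y) * polar R (s.out⁻¹ v) (s.out⁻¹ w))) := ⟨_, fun _ _ _ _ _ _ => rfl⟩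
  have w1 : ∀ (g : V ≃ₗ[F] V) c s x y v w, W c (g • s) x y v w = W c s (g⁻¹ x) (g⁻¹ y) (g⁻¹ v) (g⁻¹ w) :=
    fun g c s x y v w => by
    obtain ⟨k, hk⟩ := QuotientGroup.mk_out_eq_mul H (g * s.out)
    have := h.aut (inv_mem k.2).2 (σ := 1) (inv_mem k.2).1
    rw [← MulAction.Quotient.mk_smul_out, smul_eq_mul, hW, hW, hk]
    simp only [mul_inv_rev, LinearEquiv.mul_apply, this, AlgEquiv.one_apply]
  let T₁ := univ.filter fun s : (V ≃ₗ[F] V) ⧸ H => s.out ∈ X
  let T := T₁.filter fun s => s.out ∉ semiStab F E V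
  have key : ∀ {z n f} (fr : Fr R z n f) c {x y v w d₁ d₂ d₃ d₄}, VP F d₁ (fun k : E => fr.u F (ofAdd k) x) →
      VP F d₂ (fun k : E => fr.u F (ofAdd k) y) → VP F d₃ (fun k : E => fr.u F (ofAdd k) v) →
      VP F d₄ (fun k : E => fr.u F (ofAdd k) w) → d₁ + d₂ + (d₃ + d₄) ≤ 5 → ∑ s ∈ T, W c s x y v w = 0 :=
    fun {z n f} fr c x y v w d₁ d₂ d₃ d₄ a1 a2 a3 a4 a5 => by
    let _ := MulAction.compHom ((V ≃ₗ[F] V) ⧸ H) (fr.u F)
    refine sum_free (A := Multiplicative E) T (fun a s hs => ?_) (fun a s hs e => by_contra fun c => ?_) _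
      fun s => ?_
    · simp only [T, T₁, mem_filter, mem_univ, true_and, MulAction.compHom_smul_def] at hs ⊢
      rwa [smul_out_mem inf_le_right (h.u_mem fr a), smul_out_mem l2 (l1 (fr.u_smul a))]
    · obtain ⟨b1, b2⟩ := mem_filter.1 hs
      exact b2 (h.free fr (hZ _ _ _ fr) (mem_filter.1 b1).2 c (mul_assoc _ _ s.out ▸ (QuotientGroup.eq.1
        (s.out_eq'.trans (e.symm.trans (MulAction.Quotient.mk_smul_out ..).symm))).1))
    let P := ((polarBilin R).restrictScalars₁₂ F F).compl₁₂ s.out⁻¹.toLinearMap s.out⁻¹.toLinearMap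
    have := ((a1.bil a2 P).bil (a3.bil a4 P) ((LinearMap.mul F E).compr₂ (tr ∘ₗ LinearMap.mulLeft F c))).sum
      (a5.trans_lt (by
        obtain ⟨k, hk⟩ := odd_card_iff.2 h.two
        have := Fintype.one_lt_card (α := F)
        have := h.three
        have : 2 ≤ Fintype.card F - 1 := by omega
        nlinarith))
    rw [← this]
    exact Fintype.sum_equiv ((Equiv.inv _).trans toAdd) _ _ fun a => by
      rw [MulAction.compHom_smul_def, w1, ← map_inv, hW]; rfl
  have D0 : ∀ c x y v w, ∑ s ∈ T, W c s x y v w = 0 := fun c x y v w => by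
    refine (iso3_quad R).mem_of_iso h.nd (by omega)
      { carrier := {x | ∑ s ∈ T, W c s x y v w = 0}
        add_mem' := fun a b => by simp_all [add_mul, mul_add, sum_add_distrib]
        zero_mem' := by simp [hW]
        neg_mem' := fun a => by simp_all } (fun z hz => ?_) x
    by_cases z0 : z = 0
    · simp [z0, hW]
    obtain ⟨n, f, fr⟩ := h.exists_fr hz z0
    have dc : ∀ x, ∃ p, ∃ q ∈ eL F E f, polar R z p = 0 ∧ x = p + q := fun x =>
      ⟨x - polar R z x • f, _, smul_mem_eL (polar R z x) f, by simp [fr.s], by simp⟩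
    obtain ⟨y, y', y1, y2, rfl⟩ := dc y
    obtain ⟨v, v', v1, v2, rfl⟩ := dc v
    obtain ⟨w, w', w1, w2, rfl⟩ := dc w
    have b0 := fr.vp0 (F := F) (self_mem_eL z)
    have b1 := key fr c b0 (fr.vp1 y2) (fr.vp2 (v + v')) (fr.vp2 (w + w')) le_rfl
    have b2 := key fr c b0 (fr.vp2 y') (fr.vp1 v2) (fr.vp2 (w + w')) le_rfl
    have b3 := key fr c b0 (fr.vp2 y') (fr.vp2 v') (fr.vp1 w2) le_rfl
    have b4 := key fr.symm c (fr.symm.vp2 z) (fr.symm.vp0 y1) (fr.symm.vp0 v1) (fr.symm.vp2 w') (by omega)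
    change ∑ s ∈ T, _ = 0
    simp only [sum_add_distrib, hW, map_add, polar_add_left, polar_add_right, mul_add, add_mul] at b1 b2 b3 b4 ⊢
    linear_combination b1 + b2 + b3 + b4
  let T₀ := T₁.filter fun s => s.out ∈ semiStab F E V
  choose σ s1 using fun s : T₀ => exists_aut (mem_filter.1 s.2).2
  have sx := fun s : T₀ => (mem_filter.1 (mem_filter.1 s.2).1).2
  obtain ⟨c, hc⟩ : ∃ c, ∑ s : T₀, σ s c ≠ 0 := by
    by_contra! H'
    exact one_ne_zero (Fintype.linearIndependent_iff.1 ((linearIndependent_algHom_toLinearMap F E E).comp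
      (fun s : T₀ => (σ s).toAlgHom) fun s s' e => Subtype.ext (by
        rw [← s.1.out_eq', ← s'.1.out_eq', QuotientGroup.eq]
        refine ⟨fun a v => s.1.out.injective ?_, X.mul_mem (X.inv_mem (sx s)) (sx s')⟩
        simp only [LinearEquiv.mul_apply, apply_inv_apply, s1]
        exact congrArg (· • _) (DFunLike.congr_fun e a).symm)) 1 (LinearMap.ext (by simpa using H'))
      ⟨((1 : V ≃ₗ[F] V) : _ ⧸ H), by simp [T₀, T₁, out_mem l2, out_mem (inf_le_right : H ≤ X)]⟩)
  have M : ∀ x y v w, ∑ s ∈ T₁, W c s x y v w = tr ((∑ s : T₀, σ s c) * (polar R x y * polar R v w)) :=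
    fun x y v w => by
    rw [← sum_filter_add_sum_filter_not T₁ fun s => s.out ∈ semiStab F E V, D0, add_zero, ← sum_coe_sort,
      sum_mul, map_sum]
    refine sum_congr rfl fun s _ => ?_
    rw [hW, ← Algebra.trace_eq_of_algEquiv (σ s), map_mul (σ s), map_mul (σ s), ← h.aut (sx s) (s1 s),
      ← h.aut (sx s) (s1 s)]
    simp only [apply_inv_apply]
  generalize ∑ s : T₀, σ s c = d at M hc
  refine mem_semiStab fun a => ⟨d * polar R (g z) (g ((a / d) • f)), fun v => sub_eq_zero.1
    (h.ndQ _ fun w => ?_)⟩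
  obtain ⟨w, rfl⟩ := g.surjective w
  have := (M _ _ _ _).symm.trans ((sum_equiv (MulAction.toPerm g) (fun s => by
    simp [T₁, smul_out_mem (inf_le_right : H ≤ X) hg]) fun s _ => by
      rw [MulAction.toPerm_apply, w1]).trans
        (M (g z) (g ((a / d) • f)) (g v) (g w)))
  rw [CForm.ofQuad_B, polar_sub_left, h.pol_map hg, h.pol, h.pol, polar_smul_left, polar_smul_left,
    smul_eq_mul, smul_eq_mul, mul_assoc, ← this]
  simp [fr.s, ← mul_assoc, mul_div_cancel₀ _ hc]

theorem le_or (hg : g ∈ X) (hg' : g ∉ semiStab F E V) : OmegaV Q ≤ X := by_contra fun c =>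
  hg' (h.le_semi (fun _ _ _ fr _ a b => by_contra fun e => c (h.le_of_z fr a b e)) hg)

end E3

theorem isMaximalIn_ext [Finite F] [FiniteDimensional F V] (hQ : QNondeg Q)
    (h2 : (2 : F) ≠ 0) (hr : (finrank F E).Prime) (h3 : 3 ≤ finrank F E) (hd : 3 * finrank F E = finrank F V)
    (hsa : ∀ (k : E) x y, polar Q (k • x) y = polar Q x (k • y)) :
    Cfsg.Geo.IsMaximalIn (OmegaV Q) (semiStab F E V ⊓ OmegaV Q) := by
  have : FiniteDimensional F E := FiniteDimensional.of_finrank_pos hr.pos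
  have : Finite E := Module.finite_of_finite F
  have : Module.Finite E V := Module.Finite.of_restrictScalars_finite F E V
  have h2' : (2 : E) ≠ 0 := by rw [← map_ofNat (algebraMap F E) 2]; exact (map_ne_zero _).2 h2
  have hl0 : tr ≠ 0 := Algebra.trace_ne_zero F E
  obtain ⟨D, hD⟩ := exists_ext_bilin hl0 (polarBilin Q) hsa
  have hs : ∀ x y, D x y = D y x := fun x y => eq_of_dual hl0 fun k => by
    have := (hD (k • x) y).symm.trans ((polar_comm Q _ _).trans (hD y (k • x)))
    simpa using this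
  let R : QuadraticForm E V := (2 : E)⁻¹ • LinearMap.BilinMap.toQuadraticMap D
  have hR : ∀ x, Q x = tr (R x) := fun x => mul_left_cancel₀ h2 (by
    rw [← polar_self', ← smul_eq_mul, ← map_smul, ← algebraMap_smul E, map_ofNat]
    simpa [R, h2'] using hD x x)
  have hp : ∀ x y, polar R x y = D x y := fun x y => by
    simp [R, polar, hs y x]; field_simp; ring
  let f : orth R →* orth Q := ((res F E V).comp (orth R).subtype).codRestrict _ fun g =>
    mem_orth.2 fun x => by rw [hR, hR]; exact congrArg tr (orth_Q g x)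
  have key : ∀ X, semiStab F E V ⊓ OmegaV Q ≤ X → X ≤ orth Q → E3 Q R X := fun X a b =>
    ⟨hR, fun x hx => hQ x fun y => (hD x y).trans (by
      rw [← hp, show polar R x y = 0 from hx y, map_zero]), h2, b, by
        rintro _ ⟨g, hg, rfl⟩
        refine a ⟨res_mem_semiStab _, mem_OmegaV (g := f g) |>.2 ?_⟩
        have : (commutator (orth R)).map f ≤ commutator (orth Q) := by
          rw [commutator_def, Subgroup.map_commutator]
          exact Subgroup.commutator_mono le_top le_top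
        exact this ⟨g, hg, rfl⟩, by
      rw [← finrank_mul_finrank F E V, mul_comm] at hd
      exact (mul_left_cancel₀ hr.ne_zero hd).symm, hr, h3⟩
  refine isMaximalIn_of _ _ inf_le_right (fun e => ?_) fun M a1 a2 g a3 a4 =>
    (key M a1 (a2.trans OmegaV_le)).le_or a3 fun e => a4 ⟨e, a2 a3⟩
  have h := key _ inf_le_right OmegaV_le
  obtain ⟨s, hs⟩ := exists_not_mem_range hr.two_le
  obtain ⟨u, u0, u1⟩ := (iso3_quad R).exists_iso (by have := h.dim; omega)
  replace u1 : R u = 0 := u1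
  have u2 : Q u = 0 := by rw [hR, u1, map_zero]
  have u3 := fun a b => h.ts u1 (smul_mem_eL a u) (smul_mem_eL b u)
  have u4 : polar Q u (s • u) = 0 := by simpa using u3 1 s
  obtain ⟨b, hb⟩ := (e (eich_mem_OmegaV hQ (notExc_of_two_ne_zero h2) u2 u4)).1.1 s
  have b1 := hb u
  rw [eich_apply_of_orth u2 u4 u4 (u3 s s), eich_apply_of_orth u2 u4 (by simpa using u3 1 1)
    (by simpa using u3 s 1)] at b1
  obtain rfl := smul_left_injective E u0 b1
  obtain ⟨d, d1, d2⟩ := exists_dual_pair hl0 hs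
  obtain ⟨x, hx⟩ := h.nd.exists_eq u0 d
  have b2 := hb x
  rw [eich_apply u2 u4, eich_apply u2 u4, hR, Q_smul, u1] at b2
  simp only [h.pol, polar_smul_left, polar_smul_right, show polar R u x = d from hx, smul_eq_mul, d1,
    d2, map_zero, zero_mul, mul_zero, zero_smul, sub_zero, one_smul, smul_add] at b2
  rw [add_sub_assoc, add_right_inj, sub_eq_iff_eq_add, ← two_smul E, smul_smul,
    ← algebraMap_smul E] at b2
  exact hs (_ / 2) (by
    rw [map_div₀, smul_left_injective E u0 b2, map_ofNat, mul_div_cancel_left₀ _ h.twoE])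

open Matrix Cfsg.Geo in
theorem isMaximalIn_field {ι : Type} [Fintype ι] [DecidableEq ι] [Nonempty ι] {F : Type*}
    [Field F] [Fintype F] {r : ℕ} {K : Subalgebra F (Matrix ι ι F)} {Q : QuadraticForm F (ι → F)}
    (hQ : QNondeg Q) (h2 : Odd (Fintype.card F)) (hr : r.Prime) (hK : IsFieldSubalgebra r K)
    (ho : Odd (Fintype.card ι)) (hd : Fintype.card ι ≠ r) (hsa : IsSelfAdjointFor (polar Q) K) :
    IsMaximalIn (omegaGL Q) (subalgebraNormalizer K ⊓ omegaGL Q) := by
  letI := fieldOf hK; letI := modOf K; letI := towerOf K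
  have e := finrank_mul_finrank F K (ι → F)
  rw [hK.finrank_eq, finrank_fintype_fun_eq_card] at e
  obtain ⟨⟨a, ha⟩, b, hb⟩ := Nat.odd_mul.1 (e ▸ ho)
  have := hr.two_le
  by_cases h3 : b = 1
  · rw [omegaGL_eq, subalgebraNormalizer_eq hK, ← Subgroup.comap_inf]
    exact isMaximalIn_comap _ (isMaximalIn_ext hQ (odd_card_iff.1 h2) (hK.finrank_eq ▸ hr)
      (by rw [hK.finrank_eq]; omega) (by rw [hK.finrank_eq, finrank_fintype_fun_eq_card, ← e, hb, h3]; omega)
      fun k x y => hsa k k.2 x y)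
  refine isMaximalIn_field_quad hQ h2 hr hK ?_ hsa
  have : b ≠ 0 := by rintro rfl; simp [hb] at e; exact hd e.symm
  rw [← e, hb, mul_comm]
  exact Nat.mul_lt_mul_of_pos_left (by omega) (by omega)

end H12.X3
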